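import Cfsg.Agent.Classical.Semisimple.QuadExists

/-!
Criteria for every isometry of odd prime order `r`, prime to the characteristic, to fix a
non-degenerate subspace of a given type, or a totally singular subspace of a given dimension.
-/

set_option autoImplicit false

namespace CfsgLib.Classical.Semisimple.QuadIsometry

open Module Polynomial QuadType

/-- The largest feasible number of pieces. -/
noncomputable def maxPieces (F : Type*) [Fintype F] (r N : ℕ) (p : Prop) : ℕ :=
  haveI : Decidable (N % pieceDim F r = 0 ∧ ¬ (p ↔ PieceSign F r (N / pieceDim F r))) := Classical.propDecidable _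
  if N % pieceDim F r = 0 ∧ ¬ (p ↔ PieceSign F r (N / pieceDim F r)) then N / pieceDim F r - 1
  else N / pieceDim F r

/-- The type of one piece is minus exactly when the order is even. -/
theorem pieceSign_one (F : Type*) [Fintype F] (r : ℕ) : PieceSign F r 1 ↔ Odd (ordq F r) := by
  simp [PieceSign]

theorem feasible_iff {F : Type*} [Fintype F] {r N a : ℕ} {p : Prop} (hc : 0 < pieceDim F r) (h0 : N = 0 → p) :
    Feasible F r a N p ↔ a ≤ maxPieces F r N p := by
  have hdm := Nat.mod_add_div N (pieceDim F r)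
  have hlt := Nat.mod_lt N hc
  have hsame : a * pieceDim F r = N → a = N / pieceDim F r := fun h => by
    rw [← h, Nat.mul_div_cancel _ hc]
  unfold Feasible maxPieces
  constructor
  · intro h
    split_ifs with hm
    · rcases h with h | ⟨h, hp⟩
      · have : a < N / pieceDim F r := Nat.lt_of_not_le fun hle => by
          have := Nat.mul_le_mul_left (pieceDim F r) hle
          rw [Nat.mul_comm a] at h
          omega
        omega
      · exact absurd ((hsame h) ▸ hp) hm.2
    · rcases h with h | ⟨h, -⟩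
      · exact (Nat.le_div_iff_mul_le hc).2 h.le
      · exact (hsame h).le
  · intro h
    split_ifs at h with hm
    · rcases Nat.eq_zero_or_pos (N / pieceDim F r) with hz | hz
      · have hN : N = 0 := by rw [hz, mul_zero] at hdm; omega
        exact absurd (by rw [hz]; exact iff_of_true (h0 hN) (pieceSign_zero F r)) hm.2
      · left
        have h1 := Nat.mul_le_mul_right (pieceDim F r) (show a + 1 ≤ N / pieceDim F r by omega)
        rw [Nat.succ_mul, Nat.mul_comm (N / pieceDim F r)] at h1
        omega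
    · rcases lt_or_eq_of_le h with hlt' | heq
      · left
        have h1 := Nat.mul_le_mul_right (pieceDim F r) (show a + 1 ≤ N / pieceDim F r by omega)
        rw [Nat.succ_mul, Nat.mul_comm (N / pieceDim F r)] at h1
        omega
      · rw [heq, Nat.mul_comm]
        rcases Nat.eq_zero_or_pos (N % pieceDim F r) with hz | hz
        · exact Or.inr ⟨by omega, by_contra fun hp => hm ⟨hz, hp⟩⟩
        · left; omega

/-- The defect left by the largest number of pieces. -/
theorem maxPieces_spec {F : Type*} [Fintype F] {r N : ℕ} {p : Prop} (hc : 0 < pieceDim F r) (h0 : N = 0 → p) :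
    maxPieces F r N p * pieceDim F r ≤ N ∧ N ≤ maxPieces F r N p * pieceDim F r + pieceDim F r ∧
      (N = maxPieces F r N p * pieceDim F r → (p ↔ PieceSign F r (maxPieces F r N p))) ∧
      (N = maxPieces F r N p * pieceDim F r + pieceDim F r → ¬ (p ↔ PieceSign F r (maxPieces F r N p + 1))) := by
  have h1 := (feasible_iff hc h0 (a := maxPieces F r N p)).2 le_rfl
  have h2 : ¬ Feasible F r (maxPieces F r N p + 1) N p := fun h => by
    have := (feasible_iff hc h0).1 h; omega
  unfold Feasible at h1 h2
  rw [Nat.succ_mul] at h2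
  push Not at h2
  refine ⟨by omega, h2.1, fun h => ?_, fun h hp => ?_⟩
  · rcases h1 with h1 | ⟨-, hp⟩
    · omega
    · exact hp
  · exact absurd hp (fun hp => by
      have := h2.2 h.symm
      tauto)

variable {F : Type*} [Field F] {V : Type*} [AddCommGroup V] [Module F V] [FiniteDimensional F V]
  {Q : QuadraticForm F V}

/-- A restricted form sees the subspaces of its space. -/
theorem areIso_map_subtype (K : Submodule F V) (U : Submodule F K) :
    AreIso (Q.comp K.subtype) U Q (U.map K.subtype) :=
  ⟨Submodule.equivMapOfInjective _ K.injective_subtype U, fun u => by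
    rw [Submodule.coe_equivMapOfInjective_apply]; rfl⟩

theorem nondegIn_comp {K : Submodule F V} (hK : NondegIn Q K) : NondegIn (Q.comp K.subtype) ⊤ :=
  fun x _ h => Subtype.ext (hK x x.2 fun y hy => h ⟨y, hy⟩ trivial)

theorem areIso_of_singular {X Y : Submodule F V} (hX : Singular Q X) (hY : Singular Q Y)
    (hd : finrank F X = finrank F Y) : AreIso Q X Q Y :=
  ⟨LinearEquiv.ofFinrankEq X Y hd, fun u => by rw [hX _ u.2, hY _ (LinearEquiv.ofFinrankEq X Y hd u).2]⟩

variable [Fintype F]

/-- Non-degenerate subspaces of both types exist in every smaller even dimension. -/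
theorem exists_sub_type : ∀ (h : ℕ) {U : Submodule F V}, NondegIn Q U → 2 * h < finrank F U →
    ∀ b : Prop, (h = 0 → b) → ∃ X ≤ U, NondegIn Q X ∧ finrank F X = 2 * h ∧ (Plus Q X ↔ b) := by
  intro h
  induction h with
  | zero => exact fun _ _ b hb => ⟨⊥, bot_le, nondegIn_bot, by simp,
      iff_of_true (plus_of_finrank_zero (finrank_bot F V)) (hb rfl)⟩
  | succ h ih =>
    intro U hU hd b _
    by_cases hone : h = 0 ∧ ¬ b
    · obtain ⟨rfl, hb⟩ := hone
      obtain ⟨μ, hμ⟩ := exists_no_root (F := F)
      let Q0 : QuadraticForm F (Fin 2 → F) :=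
        QuadraticMap.proj 0 0 + QuadraticMap.proj 0 1 + μ • QuadraticMap.proj 1 1
      have hQ0 : ∀ v, Q0 v = v 0 * v 0 + v 0 * v 1 + μ * (v 1 * v 1) := fun v => by simp [Q0]
      have han : ∀ v ∈ (⊤ : Submodule F (Fin 2 → F)), Q0 v = 0 → v = 0 := fun v _ hv => by
        rw [hQ0] at hv
        by_cases h1 : v 1 = 0
        · rw [h1] at hv
          exact funext (Fin.forall_fin_two.2 ⟨mul_self_eq_zero.1 (by linear_combination hv), h1⟩)
        · refine absurd ?_ (hμ (v 0 / v 1))
          field_simp
          linear_combination hv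
      have hnd : NondegIn Q0 (⊤ : Submodule F (Fin 2 → F)) := by
        intro v _ hv
        have hA := hv (Pi.single 0 1) trivial
        have hB := hv (Pi.single 1 1) trivial
        simp only [QuadraticMap.polar, hQ0, Pi.add_apply, Pi.single_eq_same, ne_eq, one_ne_zero,
          not_false_eq_true, Pi.single_eq_of_ne, zero_ne_one, add_zero] at hA hB
        refine han v trivial ?_
        rw [hQ0]
        by_cases h2F : (2 : F) = 0
        · have h1 : v 1 = 0 := by linear_combination hA - v 0 * h2F
          have h0 : v 0 = 0 := by linear_combination hB - μ * v 1 * h2F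
          rw [h0, h1]; ring
        · refine (mul_eq_zero.1 ?_).resolve_left h2F
          linear_combination v 0 * hA + v 1 * hB
      have hd2 : finrank F (⊤ : Submodule F (Fin 2 → F)) = 2 := by simp
      obtain ⟨X, hXU, hiso⟩ := exists_iso_sub 2 hnd hU hd2 (Or.inl (by omega))
      exact ⟨X, hXU, hiso.nondeg hnd, hiso.finrank_eq.symm.trans hd2,
        iff_of_false (fun hp => not_plus_of_aniso (by omega) han (hiso.plus_iff.2 hp)) hb⟩
    · obtain ⟨x, hx, hx0, hQx⟩ := exists_singular_vector (Q := Q) (show 3 ≤ finrank F U by omega)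
      obtain ⟨y, hy, hQy, hxy⟩ := exists_pair hU hx hx0 hQx
      obtain ⟨hR, hRd, -, -⟩ := peel hU hx hy hQx hQy hxy _ rfl
      obtain ⟨X, hXR, hX, hXd, hXb⟩ := ih hR (by omega) b fun h0 => by
        by_contra hb; exact hone ⟨h0, hb⟩
      obtain ⟨hH, hHd, hHp⟩ := plane_spec hQx hQy hxy
      have ho : X ≤ orth Q (Submodule.span F {x, y}) := hXR.trans inf_le_right
      obtain ⟨hS, hSd⟩ := nondegIn_sup hH hX ho
      refine ⟨Submodule.span F {x, y} ⊔ X, sup_le
        (Submodule.span_le.2 (by rintro z (rfl | rfl) <;> assumption)) (hXR.trans inf_le_left), hS, ?_, ?_⟩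
      · rw [finrank_sup_disjoint hSd, hHd, hXd]; omega
      · rw [plus_sup _ hH hX ho (hHd ▸ even_two) (hXd ▸ even_two_mul h) rfl, iff_true_left hHp, hXb]

variable {f : Module.End F V} {r : ℕ} [hr : Fact r.Prime]

/-- The shape of an isometry of order `r`. -/
theorem Setting.moved_feasible (hs : Setting Q f r) :
    ∃ a, finrank F (moved f) = a * pieceDim F r ∧ a ≤ maxPieces F r (finrank F V) (Plus Q ⊤) ∧
      finrank F (fixed f) = finrank F V - a * pieceDim F r ∧ a * pieceDim F r ≤ finrank F V ∧
      (Plus Q (moved f) ↔ PieceSign F r a) ∧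
      (Even (finrank F (fixed f)) → (Plus Q (fixed f) ↔ (Plus Q ⊤ ↔ PieceSign F r a))) := by
  obtain ⟨a, ha, hap⟩ := hs.moved_type _ hs.nondeg_moved moved_map_le le_rfl rfl
  rw [mul_comm] at ha
  have hsum := Submodule.finrank_add_eq_of_isCompl hs.isCompl
  have htop : ∀ (hev : Even (finrank F (fixed f))), Plus Q ⊤ ↔ (Plus Q (fixed f) ↔ PieceSign F r a) := by
    intro hev
    have h := plus_sup _ hs.nondeg_fixed hs.nondeg_moved
      (fun v hv => mem_orth.2 fun k hk => hs.fixed_moved hk hv) hev (ha ▸ (even_pieceDim F r).mul_left a) rfl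
    rw [hs.isCompl.sup_eq_top, hap] at h
    exact h
  refine ⟨a, ha, (feasible_iff hs.pieceDim_pos fun h => plus_of_finrank_zero (by rw [finrank_top, h])).1 ?_,
    by omega, by omega, hap, fun hev => by
      have := htop hev
      by_cases h1 : Plus Q (fixed f) <;> by_cases h2 : PieceSign F r a <;> simp_all⟩
  rcases lt_or_eq_of_le (show a * pieceDim F r ≤ finrank F V by omega) with h | h
  · exact Or.inl h
  · have h0 : finrank F (fixed f) = 0 := by omega
    have hb := htop (h0 ▸ Even.zero)
    exact Or.inr ⟨h, by rwa [iff_true_left (plus_of_finrank_zero h0)] at hb⟩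

theorem exists_max_elem (hV : NondegIn Q ⊤) (hr2 : r ≠ 2) (hrF : (r : F) ≠ 0) :
    ∃ f : Module.End F V, Setting Q f r ∧
      finrank F (moved f) = maxPieces F r (finrank F V) (Plus Q ⊤) * pieceDim F r := by
  have hc : 0 < pieceDim F r := by
    have : 0 < ordq F r := orderOf_card_pos hrF
    unfold pieceDim; split_ifs <;> omega
  obtain ⟨f, hs, hf⟩ := exists_elem hV hr2 hrF
    ((feasible_iff hc fun h => plus_of_finrank_zero (by rw [finrank_top, h])).2 le_rfl)
  exact ⟨f, hs, hf.trans (mul_comm _ _)⟩

omit [FiniteDimensional F V] [Fintype F] hr in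
theorem pow_apply_eq {g : V ≃ₗ[F] V} (j : ℕ) (x : V) :
    (g ^ j) x = ((g : Module.End F V) ^ j) x := by
  induction j with
  | zero => rfl
  | succ j ih =>
    rw [pow_succ', pow_succ', LinearEquiv.mul_apply, Module.End.mul_apply, ih]
    rfl

/-- The members of an orbit of the isometry group that an element of maximal moved space fixes lie in
no set of size divisible by `r`, if all of them lie in the fixed space. -/
theorem Setting.not_dvd_card (hs : Setting Q f r)
    (hA : finrank F (moved f) = maxPieces F r (finrank F V) (Plus Q ⊤) * pieceDim F r)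
    (P : Submodule F V → Prop) (hiso : ∀ W W', AreIso Q W Q W' → P W → P W')
    (hone : ∀ W W', P W → P W' → AreIso Q W Q W') (hne : ∃ W, P W ∧ W ≤ fixed f)
    (hall : ∀ W, P W → W.map f ≤ W → W ≤ fixed f) : ¬ r ∣ Nat.card {W : Submodule F V // P W} := by
  classical
  intro hdvd
  haveI : Finite V := Module.finite_of_finite F
  set S := {W : Submodule F V // P W}
  haveI : Fintype S := Fintype.ofFinite _
  have hmap : ∀ W, AreIso Q W Q (W.map f) := fun W =>
    ⟨Submodule.equivMapOfInjective f hs.injective W, fun u => by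
      rw [Submodule.coe_equivMapOfInjective_apply]; exact hs.isoQ _⟩
  let φ : Function.End S := fun W => ⟨W.1.map f, hiso _ _ (hmap _) W.2⟩
  have hkey : ∀ j W, ((φ ^ j) W).1 = W.1.map (f ^ j) := by
    intro j
    induction j with
    | zero => intro W; exact (Submodule.map_id _).symm
    | succ j ih =>
      intro W
      rw [pow_succ', pow_succ' f, Module.End.mul_eq_comp, Submodule.map_comp, ← ih]
      rfl
  have hφ : φ ^ r ^ 1 = 1 := funext fun W => Subtype.ext (by
    rw [pow_one, hkey, hs.pow]; exact Submodule.map_id _)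
  have h1 := Equiv.Perm.card_fixedPoints_modEq hφ
  let X := {W : Submodule F V // P W ∧ W ≤ fixed f}
  let e : φ.fixedPoints ≃ X :=
    { toFun := fun W => ⟨W.1.1, W.1.2, hall _ W.1.2 (congrArg Subtype.val W.2).le⟩
      invFun := fun W => ⟨⟨W.1, W.2.1⟩, Subtype.ext (Submodule.eq_of_le_of_finrank_eq (fixed_map_le W.2.2)
        (hmap _).finrank_eq.symm)⟩
      left_inv := fun _ => rfl
      right_inv := fun _ => rfl }
  have h2 : r ∣ Nat.card X := by
    rw [← Nat.card_congr e, Nat.card_eq_fintype_card, Nat.dvd_iff_mod_eq_zero]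
    rw [Nat.card_eq_fintype_card] at hdvd
    exact (show _ % r = _ % r from h1.symm).trans (Nat.dvd_iff_mod_eq_zero.1 hdvd)
  -- the isometry group of the fixed space
  let QK : QuadraticForm F (fixed f) := Q.comp (fixed f).subtype
  let G : Subgroup (fixed f ≃ₗ[F] fixed f) :=
    { carrier := {g | ∀ x, QK (g x) = QK x}
      one_mem' := fun _ => rfl
      mul_mem' := fun {a b} ha hb x => by rw [LinearEquiv.mul_apply, ha, hb]
      inv_mem' := fun {a} ha x => by
        conv_rhs => rw [← LinearEquiv.apply_symm_apply a x, ha]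
        rfl }
  haveI : Finite (fixed f ≃ₗ[F] fixed f) := Finite.of_injective (fun g => (g : fixed f → fixed f))
    DFunLike.coe_injective
  letI : MulAction G (Submodule F (fixed f)) :=
    { smul := fun g W => W.map ((g : fixed f ≃ₗ[F] fixed f) : fixed f →ₗ[F] fixed f)
      one_smul := fun W => Submodule.map_id W
      mul_smul := fun g h W => Submodule.map_comp _ _ W }
  obtain ⟨W0, hW0, hW0K⟩ := hne
  set U0 : Submodule F (fixed f) := W0.comap (fixed f).subtype
  have hback : ∀ W ≤ fixed f, (W.comap (fixed f).subtype).map (fixed f).subtype = W := fun W hW => by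
    rw [Submodule.map_comap_subtype, inf_eq_right.2 hW]
  let toX : MulAction.orbit G U0 → X := fun U => ⟨U.1.map (fixed f).subtype, by
    obtain ⟨g, hg⟩ := U.2
    refine ⟨hiso W0 _ ?_ hW0, Submodule.map_subtype_le _ _⟩
    rw [← hg]
    have h3 : AreIso QK U0 QK (U0.map ((g : fixed f ≃ₗ[F] fixed f) : fixed f →ₗ[F] fixed f)) :=
      ⟨(g : fixed f ≃ₗ[F] fixed f).submoduleMap U0, fun u => g.2 _⟩
    have h4 := ((areIso_map_subtype (fixed f) U0).symm.trans h3).trans (areIso_map_subtype (fixed f) _)
    rwa [hback W0 hW0K] at h4⟩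
  have hbij : Function.Bijective toX := by
    refine ⟨fun U U' h => Subtype.ext (Submodule.map_injective_of_injective (fixed f).injective_subtype
      (congrArg Subtype.val h)), fun W => ?_⟩
    have h3 := areIso_map_subtype (Q := Q) (fixed f) U0
    have h4 := areIso_map_subtype (Q := Q) (fixed f) (W.1.comap (fixed f).subtype)
    rw [hback W0 hW0K] at h3
    rw [hback W.1 W.2.2] at h4
    obtain ⟨g, hg, hgW⟩ := exists_isometry_map (nondegIn_comp hs.nondeg_fixed)
      ((h3.trans (hone _ _ hW0 W.2.1)).trans h4.symm)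
    exact ⟨⟨_, ⟨g, hg⟩, rfl⟩, Subtype.ext (by
      show (U0.map (g : fixed f →ₗ[F] fixed f)).map (fixed f).subtype = W.1
      rw [hgW, hback W.1 W.2.2])⟩
  rw [← Nat.card_congr (Equiv.ofBijective toX hbij),
    Nat.card_congr (MulAction.orbitEquivQuotientStabilizer G U0)] at h2
  obtain ⟨g, hg⟩ := exists_prime_orderOf_dvd_card' r (h2.trans (Subgroup.card_quotient_dvd_card _))
  have hsK : Setting QK ((g : fixed f ≃ₗ[F] fixed f) : Module.End F (fixed f)) r :=
    { nondeg_top := nondegIn_comp hs.nondeg_fixed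
      isoQ := g.2
      pow := LinearMap.ext fun x => by
        rw [← pow_apply_eq]
        have h3 : (g : fixed f ≃ₗ[F] fixed f) ^ r = 1 := by
          rw [← SubgroupClass.coe_pow, ← hg, pow_orderOf_eq_one]; rfl
        rw [h3]; rfl
      odd := hs.odd
      ne := hs.ne }
  obtain ⟨b, hbd, -, hbf, hbn, hbp, -⟩ := hsK.moved_feasible
  obtain ⟨a, had, haA, haf, han, -, hap⟩ := hs.moved_feasible
  have hpos := hs.pieceDim_pos
  have hb : 0 < b := Nat.pos_of_ne_zero fun h => by
    rw [h, zero_mul] at hbd
    have h3 := hsK.isCompl.sup_eq_top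
    rw [Submodule.finrank_eq_zero.1 hbd, sup_bot_eq] at h3
    refine hr.out.one_lt.ne' (hg.symm.trans (orderOf_eq_one_iff.2 (Subtype.ext (LinearEquiv.ext fun x => ?_))))
    exact mem_fixed.1 (h3 ▸ Submodule.mem_top : x ∈ fixed _)
  obtain rfl : a = maxPieces F r (finrank F V) (Plus Q ⊤) := Nat.eq_of_mul_eq_mul_right hpos (had.symm.trans hA)
  obtain ⟨hs1, hs2, -, hs4⟩ := maxPieces_spec (F := F) (r := r) (N := finrank F V) (p := Plus Q ⊤) hpos
    fun h => plus_of_finrank_zero (by rw [finrank_top, h])
  have hb1 : b = 1 := by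
    by_contra h
    have h3 := Nat.mul_le_mul_right (pieceDim F r) (show 2 ≤ b by omega)
    omega
  subst hb1
  rw [one_mul] at hbd hbn
  have hfull : finrank F (fixed f) = pieceDim F r := by omega
  have hmove : moved ((g : fixed f ≃ₗ[F] fixed f) : Module.End F (fixed f)) = ⊤ :=
    Submodule.eq_top_of_finrank_eq (hbd.trans hfull.symm)
  rw [hmove] at hbp
  have h5 : Plus QK ⊤ ↔ Plus Q (fixed f) := by
    have h6 := (areIso_map_subtype (Q := Q) (fixed f) ⊤).plus_iff
    rwa [Submodule.map_subtype_top] at h6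
  refine hs4 (by omega) ?_
  rw [pieceSign_add, ← hbp, h5, hap (hfull ▸ even_pieceDim F r)]
  by_cases hx : Plus Q (⊤ : Submodule F V) <;>
    by_cases hy : PieceSign F r (maxPieces F r (finrank F V) (Plus Q ⊤)) <;> simp [hx, hy]

theorem Setting.even_fixed_sub (hs : Setting Q f r) {N a : ℕ} (h : finrank F (fixed f) = N - a * pieceDim F r)
    (hle : a * pieceDim F r ≤ N) : Even (finrank F (fixed f)) ↔ Even N := by
  have := (even_pieceDim F r).mul_left a
  rw [h, Nat.even_sub hle]
  tauto

/-- Invariant sums of pieces, with their singular halves when the order is odd. -/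
theorem Setting.exists_inv_sub (hs : Setting Q f r) : ∀ (l : ℕ) {a : ℕ} {U : Submodule F V}, NondegIn Q U →
    U.map f ≤ U → U ≤ moved f → finrank F U = a * pieceDim F r → l ≤ a →
    ∃ X ≤ U, NondegIn Q X ∧ X.map f ≤ X ∧ finrank F X = l * pieceDim F r ∧
      (Odd (ordq F r) → ∃ Y ≤ X, Singular Q Y ∧ Y.map f ≤ Y ∧ finrank F Y = ordq F r * l) := by
  intro l
  induction l with
  | zero =>
    intro a U _ _ _ _ _
    exact ⟨⊥, bot_le, nondegIn_bot, by simp, by simp, fun _ => ⟨⊥, le_rfl, singular_bot, by simp, by simp⟩⟩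
  | succ l ih =>
    intro a U hU hinv hle hd hla
    have hpos := hs.pieceDim_pos
    have hne : U ≠ ⊥ := fun h => by
      rw [h, finrank_bot] at hd
      have := Nat.mul_pos (show 0 < a by omega) hpos
      omega
    obtain ⟨W, hWU, hW, hWf, hWd, hWY⟩ := hs.exists_piece hU hinv hle hne (c := pieceDim F r) rfl
    obtain ⟨-, hR, hdim⟩ := QuadType.split hU hW hWU
    obtain ⟨X, hXR, hX, hXf, hXd, hXY⟩ := ih (a := a - 1) hR (inf_map_le hinv (hs.orth_map_le hWf))
      (inf_le_left.trans hle) (by rw [Nat.sub_mul, one_mul]; omega) (by omega)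
    have ho : X ≤ orth Q W := hXR.trans inf_le_right
    obtain ⟨hS, hSd⟩ := nondegIn_sup hW hX ho
    refine ⟨W ⊔ X, sup_le hWU (hXR.trans inf_le_left), hS, sup_map_le hWf hXf, ?_, fun ho' => ?_⟩
    · rw [finrank_sup_disjoint hSd, hWd, hXd, Nat.succ_mul, add_comm]
    · obtain ⟨Y, hYW, hY, hYf, hYd⟩ := hWY ho'
      obtain ⟨Y', hY'X, hY', hY'f, hY'd⟩ := hXY ho'
      refine ⟨Y ⊔ Y', sup_le_sup hYW hY'X, singular_sup (hs.singular_of_isotropic hY hYf (hYW.trans (hWU.trans hle)))
        hY' (fun v hv => mem_orth.2 fun u hu => mem_orth.1 (ho (hY'X hv)) u (hYW hu)), sup_map_le hYf hY'f, ?_⟩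
      rw [finrank_sup_disjoint (hSd.mono hYW hY'X), hYd, hY'd, Nat.mul_succ, add_comm]

set_option quotPrecheck false in
local notation "nV" => finrank F V
set_option quotPrecheck false in
local notation "pV" => Plus Q (⊤ : Submodule F V)
set_option quotPrecheck false in
local notation "cF" => pieceDim F r
set_option quotPrecheck false in
local notation "iF" => ordq F r
set_option quotPrecheck false in
local notation "AV" => maxPieces F r (finrank F V) (Plus Q (⊤ : Submodule F V))

theorem iff_cancel_sum {a b c d : Prop} (h : a ↔ (b ↔ c)) (h' : a ↔ (d ↔ b)) : c ↔ d := by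
  by_cases a <;> by_cases b <;> by_cases c <;> by_cases d <;> simp_all

theorem iff_mismatch_sum {p N A o M M1 R : Prop} (hp : ¬ (p ↔ N)) (hN : N ↔ (A ↔ o)) (hM : M ↔ (M1 ↔ o))
    (hR : ¬ (R ↔ M)) : R ↔ ((p ↔ A) ↔ M1) := by
  subst_vars
  by_cases p <;> by_cases A <;> by_cases o <;> by_cases M1 <;> by_cases R <;> simp_all

theorem iff_of_mismatch {p N A o : Prop} (hp : ¬ (p ↔ N)) (hN : N ↔ (A ↔ o)) (ho : ¬ o) : p ↔ A := by
  by_cases p <;> by_cases A <;> simp_all

/-- Every isometry of order `r` fixes a copy of `R`, in terms of the largest number of pieces. -/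
theorem nondeg_iff_pieces (hV : NondegIn Q ⊤) (hr2 : r ≠ 2) (hrF : (r : F) ≠ 0) {R : Submodule F V}
    (hR : NondegIn Q R) {m : ℕ} (hm : finrank F R = m) (hmn : m < finrank F V)
    (hev : Even (finrank F V) ∨ Even m) (hdvd : r ∣ Nat.card {W : Submodule F V // AreIso Q R Q W}) :
    (∀ f : Module.End F V, Setting Q f r → ∃ W, AreIso Q R Q W ∧ W.map f ≤ W) ↔
      pieceDim F r ≤ m ∧ ∃ l ≤ maxPieces F r (finrank F V) (Plus Q ⊤), l * pieceDim F r ≤ m ∧
        ((0 < m - l * pieceDim F r ∧ m - l * pieceDim F r <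
            finrank F V - maxPieces F r (finrank F V) (Plus Q ⊤) * pieceDim F r) ∨
         (m = l * pieceDim F r ∧ (Plus Q R ↔ PieceSign F r l)) ∨
         (m - l * pieceDim F r = finrank F V - maxPieces F r (finrank F V) (Plus Q ⊤) * pieceDim F r ∧
            Even (finrank F V) ∧ (Plus Q R ↔ ((Plus Q ⊤ ↔
              PieceSign F r (maxPieces F r (finrank F V) (Plus Q ⊤))) ↔ PieceSign F r l)))) := by
  classical
  have hpos : 0 < cF := by
    have : 0 < ordq F r := orderOf_card_pos hrF
    unfold pieceDim; split_ifs <;> omega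
  obtain ⟨hs1, hs2, hs3, hs4⟩ := maxPieces_spec (F := F) (r := r) (N := nV) (p := pV) hpos
    fun h => plus_of_finrank_zero (by rw [finrank_top, h])
  constructor
  · intro hall
    obtain ⟨f, hs, hf⟩ := exists_max_elem hV hr2 hrF
    obtain ⟨a, had, -, haf, han, hap, haK⟩ := hs.moved_feasible
    obtain rfl : a = AV := Nat.eq_of_mul_eq_mul_right hpos (had.symm.trans hf)
    obtain ⟨W, hRW, hWf⟩ := hall f hs
    obtain ⟨l, W0, W1, hW0W, hW1W, hW0, hW1, hW0n, hW1n, ho, hsup, hW1d, hdim, hW1p⟩ :=
      hs.nondeg_profile (hRW.nondeg hR) hWf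
    have hWd : finrank F W = m := hRW.finrank_eq.symm.trans hm
    refine ⟨?_, ?_⟩
    · by_contra hcm
      refine hs.not_dvd_card hf (fun W => AreIso Q R Q W) (fun W W' h h' => h'.trans h)
        (fun W W' h h' => h.symm.trans h') ?_ ?_ hdvd
      all_goals
        have key : ∀ W, AreIso Q R Q W → W.map f ≤ W → W ≤ fixed f := by
          intro W hRW hWf
          obtain ⟨l, W0, W1, -, -, hW0, -, -, -, -, hsup, hW1d, hdim, -⟩ := hs.nondeg_profile (hRW.nondeg hR) hWf
          have hl : l = 0 := Nat.eq_zero_of_not_pos fun hl => by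
            have := Nat.le_mul_of_pos_right cF hl
            rw [← hRW.finrank_eq, hm] at hdim
            omega
          rw [hl, mul_zero] at hW1d
          rw [← hsup, Submodule.finrank_eq_zero.1 hW1d, sup_bot_eq]
          exact hW0
      · exact ⟨W, hRW, key W hRW hWf⟩
      · exact key
    rw [mul_comm] at hW1d
    have h0 := Submodule.finrank_mono hW0
    have h1 := Submodule.finrank_mono hW1
    rw [hW1d, had] at h1
    have hlA : l ≤ AV := Nat.le_of_mul_le_mul_right h1 hpos
    rw [hWd, hW1d] at hdim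
    rw [haf] at h0
    refine ⟨l, hlA, by omega, ?_⟩
    rcases Nat.eq_zero_or_pos (finrank F W0) with hz | hz
    · refine Or.inr (Or.inl ⟨by omega, ?_⟩)
      rw [hRW.plus_iff, ← hsup, Submodule.finrank_eq_zero.1 hz, bot_sup_eq, hW1p]
    rcases lt_or_eq_of_le h0 with hlt | heq
    · exact Or.inl ⟨by omega, by omega⟩
    have hevn : Even nV := by
      rcases hev with h | h
      · exact h
      · have e1 := (even_pieceDim F r).mul_left l
        have e2 := (even_pieceDim F r).mul_left AV
        rw [Nat.even_iff] at h e1 e2 ⊢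
        omega
    refine Or.inr (Or.inr ⟨by omega, hevn, ?_⟩)
    have hW0eq : W0 = fixed f := Submodule.eq_of_le_of_finrank_eq hW0 (heq.trans haf.symm)
    have hevK : Even (finrank F (fixed f)) := (hs.even_fixed_sub haf hs1).2 hevn
    have h := plus_sup _ hW0n hW1n ho (hW0eq ▸ hevK) (hW1d ▸ (even_pieceDim F r).mul_left l) rfl
    rw [hsup] at h
    rw [hRW.plus_iff, h, hW1p, hW0eq, haK hevK]
  · rintro ⟨-, l, hlA, hlm, hcond⟩ f hs
    obtain ⟨a, had, haA, haf, han, hap, haK⟩ := hs.moved_feasible
    have hl'a : min l a ≤ a := min_le_right _ _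
    obtain ⟨X, hXM, hX, hXf, hXd, -⟩ := hs.exists_inv_sub (min l a) hs.nondeg_moved moved_map_le le_rfl had hl'a
    obtain ⟨l2, hl2, hXp⟩ := hs.moved_type _ hX hXf hXM hXd
    obtain rfl : min l a = l2 := Nat.eq_of_mul_eq_mul_left hpos (by rw [← hl2, mul_comm])
    have haAc := Nat.mul_le_mul_right cF haA
    have hlAc := Nat.mul_le_mul_right cF hlA
    have hl'c := Nat.mul_le_mul_right cF (min_le_left l a)
    have hPS0 : PieceSign F r 0 := pieceSign_zero F r
    obtain ⟨X', hX'R, hX'iso⟩ := exists_iso_sub (finrank F X) hX hR rfl (by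
      rw [hm, hXd]
      rcases lt_or_eq_of_le (hl'c.trans hlm) with h | h
      · exact Or.inl h
      refine Or.inr ⟨h, h ▸ (even_pieceDim F r).mul_left _, ?_⟩
      have hll : min l a = l := Nat.eq_of_mul_eq_mul_right hpos (by omega)
      rw [hll] at hXp h
      rw [hXp]
      rcases hcond with hc1 | ⟨-, hc2⟩ | ⟨hc3, -, hc4⟩
      · omega
      · exact hc2.symm
      · exact (hc4.trans (iff_true_left (hs3 (by omega)))).symm)
    have hX' := hX'iso.nondeg hX
    have hX'd : finrank F X' = min l a * cF := hX'iso.finrank_eq.symm.trans hXd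
    obtain ⟨hsupR, hT, hdimR⟩ := QuadType.split hR hX' hX'R
    have hTd : finrank F ↥(R ⊓ orth Q X') = m - min l a * cF := by omega
    obtain ⟨Y, hYK, hYiso⟩ := exists_iso_sub (finrank F ↥(R ⊓ orth Q X')) hT hs.nondeg_fixed rfl (by
      rw [hTd, haf]
      by_cases hla : l ≤ a
      · rw [min_eq_left hla] at hTd hX'd hXp ⊢
        rcases lt_or_eq_of_le (show m - l * cF ≤ nV - a * cF by
          rcases hcond with hc1 | hc2 | hc3 <;> omega) with h | h
        · exact Or.inl h
        have haA' : m - l * cF ≠ 0 → a = AV := fun h0 => Nat.eq_of_mul_eq_mul_right hpos (by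
          rcases hcond with hc1 | hc2 | hc3 <;> omega)
        rcases Nat.eq_zero_or_pos (m - l * cF) with h0 | h0
        · exact Or.inr ⟨h, h0 ▸ Even.zero, iff_of_true (plus_of_finrank_zero (hTd.trans h0))
            (plus_of_finrank_zero (by omega))⟩
        obtain rfl := haA' h0.ne'
        rcases hcond with hc1 | ⟨hc2, -⟩ | ⟨hc3, hevn, hc4⟩
        · omega
        · omega
        have hevK : Even (finrank F (fixed f)) := (hs.even_fixed_sub haf hs1).2 hevn
        have hevT : Even (finrank F ↥(R ⊓ orth Q X')) := by rwa [hTd, h, ← haf]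
        refine Or.inr ⟨h, hTd ▸ hevT, ?_⟩
        have h5 := plus_sup _ hX' hT inf_le_right (hX'd ▸ (even_pieceDim F r).mul_left l) hevT rfl
        rw [hsupR, hX'iso.symm.plus_iff, hXp] at h5
        rw [haK hevK]
        exact iff_cancel_sum h5 hc4
      · left
        have h1 := Nat.mul_le_mul_right cF (show a + 1 ≤ l by omega)
        rw [Nat.succ_mul] at h1
        rw [min_eq_right (by omega : a ≤ l)]
        omega)
    have hoXY : Y ≤ orth Q X := fun v hv => mem_orth.2 fun u hu => mem_orth.1 (hs.fixed_le_orth (hYK hv)) u (hXM hu)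
    refine ⟨X ⊔ Y, ?_, sup_map_le hXf (fixed_map_le hYK)⟩
    have hiso := hX'iso.symm.sup hYiso inf_le_right hoXY
      ((QuadType.isCompl_orth hX').disjoint.mono_right inf_le_right) (hs.isCompl.disjoint.symm.mono hXM hYK)
    rwa [hsupR] at hiso

/-- The closed form of the criterion for non-degenerate subspaces. -/
theorem nondeg_iff (hV : NondegIn Q ⊤) (hr2 : r ≠ 2) (hrF : (r : F) ≠ 0) {R : Submodule F V}
    (hR : NondegIn Q R) {m : ℕ} (hm : finrank F R = m) (hmn : m < finrank F V)
    (hev : Even (finrank F V) ∨ Even m) (hdvd : r ∣ Nat.card {W : Submodule F V // AreIso Q R Q W}) :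
    (∀ f : Module.End F V, Setting Q f r → ∃ W, AreIso Q R Q W ∧ W.map f ≤ W) ↔
      pieceDim F r ≤ m ∧
        ((finrank F V % pieceDim F r = 0 ∧ (¬ (Plus Q ⊤ ↔ PieceSign F r (finrank F V / pieceDim F r)) ∨
            (m % pieceDim F r = 0 ∧ (Plus Q R ↔ PieceSign F r (m / pieceDim F r))))) ∨
         (0 < finrank F V % pieceDim F r ∧
           ((0 < m % pieceDim F r ∧ m % pieceDim F r < finrank F V % pieceDim F r) ∨
            (m % pieceDim F r = 0 ∧ (Plus Q R ↔ PieceSign F r (m / pieceDim F r))) ∨
            (m % pieceDim F r = finrank F V % pieceDim F r ∧ Even (finrank F V) ∧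
              (Plus Q R ↔ ((Plus Q ⊤ ↔ PieceSign F r (finrank F V / pieceDim F r)) ↔
                PieceSign F r (m / pieceDim F r))))))) := by
  rw [nondeg_iff_pieces hV hr2 hrF hR hm hmn hev hdvd]
  refine and_congr_right fun hcm => ?_
  classical
  have hpos : 0 < cF := by
    have : 0 < ordq F r := orderOf_card_pos hrF
    unfold pieceDim; split_ifs <;> omega
  have hn1 := Nat.mod_add_div nV cF
  have hm1 := Nat.mod_add_div m cF
  have hn2 := Nat.mod_lt nV hpos
  have hm2 := Nat.mod_lt m hpos
  have hdle : m / cF ≤ nV / cF := Nat.div_le_div_right hmn.le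
  rw [mul_comm cF] at hn1 hm1
  have huniq : ∀ l, l * cF ≤ m → m - l * cF < cF → l = m / cF := fun l h1 h2 =>
    (Nat.div_eq_of_lt_le h1 (by rw [Nat.succ_mul]; omega)).symm
  by_cases hk : nV % cF = 0
  · simp only [hk, true_and, lt_irrefl, false_and, or_false]
    by_cases hp : pV ↔ PieceSign F r (nV / cF)
    · have hA : maxPieces F r nV pV = nV / cF := by
        unfold maxPieces; rw [if_neg fun h => h.2 hp]
      rw [hA]
      simp only [hp, not_true, false_or]
      constructor
      · rintro ⟨l, -, hlm, hcase⟩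
        obtain rfl := huniq l hlm (by rcases hcase with h | h | h <;> omega)
        refine ⟨by rcases hcase with h | h | h <;> omega, ?_⟩
        rcases hcase with h | h | h
        · omega
        · exact h.2
        · simpa using h.2.2
      · rintro ⟨h0, hPR⟩
        exact ⟨m / cF, hdle, by omega, Or.inr (Or.inl ⟨by omega, hPR⟩)⟩
    · have hA : maxPieces F r nV pV = nV / cF - 1 := by
        unfold maxPieces; rw [if_pos ⟨hk, hp⟩]
      rw [hA]
      simp only [hp, not_false_iff, true_or, iff_true]
      have hlt : m / cF < nV / cF := by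
        by_contra hge
        have := Nat.mul_le_mul_right cF (not_lt.1 hge)
        omega
      have he : nV - (nV / cF - 1) * cF = cF := by
        rw [Nat.sub_mul, one_mul]
        have := Nat.mul_le_mul_right cF (show 1 ≤ nV / cF from Nat.pos_of_ne_zero fun h => by simp [h] at hlt)
        omega
      rw [he]
      rcases Nat.eq_zero_or_pos (m % cF) with h0 | h0
      · by_cases hPR : (Plus Q R) ↔ PieceSign F r (m / cF)
        · exact ⟨m / cF, by omega, by omega, Or.inr (Or.inl ⟨by omega, hPR⟩)⟩
        · have h1 : 1 ≤ m / cF := Nat.div_pos hcm hpos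
          refine ⟨m / cF - 1, by omega, ?_, Or.inr (Or.inr ⟨?_, ?_, ?_⟩)⟩
          · rw [Nat.sub_mul, one_mul]; omega
          · rw [Nat.sub_mul, one_mul]
            have := Nat.mul_le_mul_right cF h1
            omega
          · rw [show nV = nV / cF * cF by omega]; exact (even_pieceDim F r).mul_left _
          · have e1 := pieceSign_add F r (m / cF - 1) 1
            have e2 := pieceSign_add F r (nV / cF - 1) 1
            rw [Nat.sub_add_cancel h1] at e1
            rw [Nat.sub_add_cancel (show 1 ≤ nV / cF by omega)] at e2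
            exact iff_mismatch_sum hp e2 e1 hPR
      · exact ⟨m / cF, by omega, by omega, Or.inl ⟨by omega, by omega⟩⟩
  · have hA : maxPieces F r nV pV = nV / cF := by
      unfold maxPieces; rw [if_neg fun h => hk h.1]
    rw [hA]
    simp only [hk, false_and, false_or, Nat.pos_of_ne_zero hk, true_and]
    have he : nV - nV / cF * cF = nV % cF := by omega
    rw [he]
    constructor
    · rintro ⟨l, -, hlm, hcase⟩
      obtain rfl := huniq l hlm (by rcases hcase with h | h | h <;> omega)
      rcases hcase with h | h | h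
      · exact Or.inl ⟨by omega, by omega⟩
      · exact Or.inr (Or.inl ⟨by omega, h.2⟩)
      · exact Or.inr (Or.inr ⟨by omega, h.2⟩)
    · rintro (h | h | h)
      · exact ⟨m / cF, hdle, by omega, Or.inl ⟨by omega, by omega⟩⟩
      · exact ⟨m / cF, hdle, by omega, Or.inr (Or.inl ⟨by omega, h.2⟩)⟩
      · exact ⟨m / cF, hdle, by omega, Or.inr (Or.inr ⟨by omega, h.2⟩)⟩

/-- Every isometry of order `r` fixes a totally singular `m`-space, in terms of the largest number of pieces. -/
theorem singular_iff_pieces (hV : NondegIn Q ⊤) (hr2 : r ≠ 2) (hrF : (r : F) ≠ 0) {m t : ℕ}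
    (ht : t * ordq F r = r - 1) (hmn : 2 * m ≤ finrank F V) (hmp : 2 * m = finrank F V → Plus Q ⊤)
    (hdvd : r ∣ Nat.card {W : Submodule F V // Singular Q W ∧ finrank F W = m}) :
    (∀ f : Module.End F V, Setting Q f r → ∃ W, (Singular Q W ∧ finrank F W = m) ∧ W.map f ≤ W) ↔
      ordq F r ≤ m ∧
        (2 * (m % ordq F r) ≤ finrank F V - maxPieces F r (finrank F V) (Plus Q ⊤) * pieceDim F r ∧
          (2 * (m % ordq F r) = finrank F V - maxPieces F r (finrank F V) (Plus Q ⊤) * pieceDim F r →
            (Plus Q ⊤ ↔ PieceSign F r (maxPieces F r (finrank F V) (Plus Q ⊤))))) ∧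
        (Odd (ordq F r) ∨ t + 2 * (m / ordq F r) ≤ maxPieces F r (finrank F V) (Plus Q ⊤)) := by
  classical
  have hipos : 0 < iF := orderOf_card_pos hrF
  have hc2 : (Odd iF → cF = 2 * iF) ∧ (Even iF → cF = iF) := by
    unfold pieceDim
    exact ⟨fun h => if_neg (Nat.not_even_iff_odd.2 h), fun h => if_pos h⟩
  have hpos : 0 < cF := by
    rcases Nat.even_or_odd iF with h | h
    · rw [hc2.2 h]; exact hipos
    · rw [hc2.1 h]; omega
  have h0p : nV = 0 → pV := fun h => plus_of_finrank_zero (by rw [finrank_top, h])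
  obtain ⟨hs1, hs2, hs3, hs4⟩ := maxPieces_spec (F := F) (r := r) (N := nV) (p := pV) hpos h0p
  have hm1 := Nat.mod_add_div m iF
  have hm2 := Nat.mod_lt m hipos
  constructor
  · intro hall
    -- the data of an invariant space
    have hdata : ∀ (f : Module.End F V), Setting Q f r → ∀ a, finrank F (moved f) = a * cF →
        ∀ W, Singular Q W ∧ finrank F W = m → W.map f ≤ W →
        ∃ j l, finrank F ↥(W ⊓ moved f) = iF * l ∧ l ≤ m / iF ∧ j = m % iF + iF * (m / iF - l) ∧
          finrank F ↥(W ⊓ fixed f) = j ∧ 2 * j ≤ nV - a * cF ∧ (2 * j = nV - a * cF → (pV ↔ PieceSign F r a)) := by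
      intro f hs a had W hW hWf
      obtain ⟨b, hbd, -, hbf, hbn, -, hbK⟩ := hs.moved_feasible
      obtain rfl : b = a := Nat.eq_of_mul_eq_mul_right hpos (hbd.symm.trans had)
      obtain ⟨l, hl, hsum, -⟩ := hs.singular_profile hW.1 hWf
      obtain ⟨hj1, hj2⟩ := (QuadType.exists_singular_iff _ hs.nondeg_fixed hbf
        (finrank F ↥(W ⊓ fixed f))).1 ⟨_, inf_le_right, fun x hx => hW.1 x hx.1, rfl⟩
      rw [hW.2, hl] at hsum
      have hlm : l ≤ m / iF := (Nat.le_div_iff_mul_le hipos).2 (by rw [mul_comm]; omega)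
      refine ⟨_, l, hl, hlm, ?_, rfl, hj1, fun h => ?_⟩
      · have := Nat.mul_le_mul_left iF hlm
        rw [Nat.mul_sub]; omega
      · exact (hbK (by rw [hbf, ← h]; exact even_two_mul _)).1 (hj2 h)
    obtain ⟨f, hs, hf⟩ := exists_max_elem hV hr2 hrF
    obtain ⟨W, hW, hWf⟩ := hall f hs
    have him : iF ≤ m := by
      by_contra him
      have key : ∀ W, Singular Q W ∧ finrank F W = m → W.map f ≤ W → W ≤ fixed f := by
        intro W hW hWf
        obtain ⟨j, l, hl, hlm, hj, hjd, -, -⟩ := hdata f hs AV hf W hW hWf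
        rw [Nat.div_eq_of_lt (by omega : m < iF)] at hlm hj
        rw [Nat.mod_eq_of_lt (by omega : m < iF), Nat.zero_sub, mul_zero, add_zero] at hj
        have heq : W ⊓ fixed f = W := Submodule.eq_of_le_of_finrank_eq inf_le_left (by rw [hjd, hW.2, hj])
        exact inf_eq_left.1 heq
      exact hs.not_dvd_card hf (fun W => Singular Q W ∧ finrank F W = m)
        (fun W W' h hW => ⟨fun x hx => by
            obtain ⟨e, he⟩ := h
            have h1 := he (e.symm ⟨x, hx⟩)
            rw [LinearEquiv.apply_symm_apply] at h1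
            exact h1.trans (hW.1 _ (e.symm ⟨x, hx⟩).2), h.finrank_eq.symm.trans hW.2⟩)
        (fun W W' h h' => areIso_of_singular h.1 h'.1 (h.2.trans h'.2.symm))
        ⟨W, hW, key W hW hWf⟩ key hdvd
    obtain ⟨j, l, -, -, hj, -, hj1, hj2⟩ := hdata f hs AV hf W hW hWf
    refine ⟨him, ⟨by omega, fun h => hj2 (by omega)⟩, ?_⟩
    rcases Nat.even_or_odd iF with hev | hod
    swap
    · exact Or.inl hod
    right
    by_contra hlt
    have hci := hc2.2 hev
    have hmi : 1 ≤ m / iF := Nat.div_pos him hipos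
    rcases le_or_gt AV t with hAt | hAt
    · obtain ⟨g, hg, hgd, hgY⟩ := exists_elem_orbits hV hr2 hrF hev ht ((feasible_iff hpos h0p).2 (le_refl AV))
      rw [mul_comm] at hgd
      obtain ⟨U, hU, hUf⟩ := hall g hg
      obtain ⟨j', l', hl', -, hj', -, hj1', -⟩ := hdata g hg AV hgd U hU hUf
      have h3 := (hgY U hU.1 hUf).2 hAt
      rw [h3, finrank_bot, eq_comm, Nat.mul_eq_zero] at hl'
      obtain rfl : l' = 0 := hl'.resolve_left hipos.ne'
      rw [Nat.sub_zero] at hj'
      omega
    · obtain ⟨a, haA, hAa, hat, hpar⟩ : ∃ a, a ≤ AV ∧ AV ≤ a + 1 ∧ t ≤ a ∧ a % 2 = t % 2 := by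
        by_cases h : AV % 2 = t % 2
        · exact ⟨AV, le_rfl, by omega, by omega, h⟩
        · exact ⟨AV - 1, by omega, by omega, by omega, by omega⟩
      obtain ⟨g, hg, hgd, hgY⟩ := exists_elem_orbits hV hr2 hrF hev ht ((feasible_iff hpos h0p).2 haA)
      rw [mul_comm] at hgd
      obtain ⟨U, hU, hUf⟩ := hall g hg
      obtain ⟨j', l', hl', -, hj', -, hj1', hj2'⟩ := hdata g hg a hgd U hU hUf
      have h3 := (hgY U hU.1 hUf).1
      rw [hl', mul_left_comm] at h3
      have h4 := Nat.le_of_mul_le_mul_left h3 hipos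
      have h5 := Nat.mul_le_mul_left iF (show 1 ≤ m / iF - l' by omega)
      rw [mul_one] at h5
      have h6 : (AV - a) * cF ≤ iF := by
        rw [hci]; exact (Nat.mul_le_mul_right iF (show AV - a ≤ 1 by omega)).trans (one_mul iF).le
      rw [Nat.sub_mul] at h6
      have h7 := Nat.mul_le_mul_right cF haA
      have hAa' : AV = a + 1 := by
        by_contra hne
        obtain rfl : a = AV := by omega
        omega
      refine hs4 (by omega) ?_
      rw [show AV + 1 = a + 2 by omega, pieceSign_add]
      have h8 := hj2' (by omega)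
      exact h8.trans (iff_true_right (Or.inr even_two : PieceSign F r 2)).symm
  · rintro ⟨him, ⟨hFl, hFp⟩, hcase⟩ f hs
    obtain ⟨a, had, haA, haf, han, -, haK⟩ := hs.moved_feasible
    have haAc := Nat.mul_le_mul_right cF haA
    -- the moved part and the bound left for the fixed part
    obtain ⟨l, Y1, hY1M, hY1, hY1f, hY1d, hlm, hkey⟩ : ∃ (l : ℕ) (Y1 : Submodule F V), Y1 ≤ moved f ∧
        Singular Q Y1 ∧ Y1.map f ≤ Y1 ∧ finrank F Y1 = iF * l ∧ l ≤ m / iF ∧
        (2 * (m % iF + iF * (m / iF - l)) ≤ nV - a * cF ∧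
          (2 * (m % iF + iF * (m / iF - l)) = nV - a * cF → (pV ↔ PieceSign F r a))) := by
      rcases Nat.even_or_odd iF with hev | hod
      · have hci := hc2.2 hev
        have ht2 : t + 2 * (m / iF) ≤ AV := hcase.resolve_left (Nat.not_odd_iff_even.2 hev)
        set l := min (m / iF) ((a + 1 - t) / 2) with hl
        obtain ⟨Y, hYM, hY, hYf, hYd⟩ := hs.exists_isotropic_sub hev ht l a hs.nondeg_moved moved_map_le le_rfl
          (by rw [had, hci, mul_comm]) (by omega)
        refine ⟨l, Y, hYM, hs.singular_of_isotropic hY hYf hYM, hYf, hYd, min_le_left _ _, ?_⟩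
        by_cases hlm : l = m / iF
        · rw [hlm, Nat.sub_self, mul_zero, add_zero]
          refine ⟨by omega, fun h => ?_⟩
          have haA' : a = AV := Nat.eq_of_mul_eq_mul_right hpos (by omega)
          subst haA'
          exact hFp h
        have h1 : 2 * (m / iF - l) + a ≤ AV := by omega
        have h2 := Nat.mul_le_mul_left iF h1
        rw [Nat.mul_add, Nat.mul_left_comm iF 2] at h2
        have e1 : AV * cF = iF * AV := by rw [hci, mul_comm]
        have e2 : a * cF = iF * a := by rw [hci, mul_comm]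
        refine ⟨by omega, fun h => ?_⟩
        have h3 := hFp (by omega)
        have h4 : 2 * (m / iF - l) + a = AV := Nat.eq_of_mul_eq_mul_left hipos (by
          rw [Nat.mul_add, Nat.mul_left_comm iF 2]; omega)
        rw [h3]
        unfold PieceSign
        rw [← h4, Nat.even_add]
        simp
      · have hci := hc2.1 hod
        obtain ⟨X, hXM, -, -, -, hXY⟩ := hs.exists_inv_sub (min (m / iF) a) hs.nondeg_moved moved_map_le le_rfl had
          (min_le_right _ _)
        obtain ⟨Y, hYX, hY, hYf, hYd⟩ := hXY hod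
        refine ⟨_, Y, hYX.trans hXM, hY, hYf, hYd, min_le_left _ _, ?_⟩
        rcases le_total (m / iF) a with h | h
        · rw [min_eq_left h, Nat.sub_self, mul_zero, add_zero]
          refine ⟨by omega, fun h' => ?_⟩
          have haA' : a = AV := Nat.eq_of_mul_eq_mul_right hpos (by omega)
          subst haA'
          exact hFp h'
        · rw [min_eq_right h, Nat.mul_sub]
          have := Nat.mul_le_mul_left iF h
          rw [hci, mul_left_comm a, mul_comm a]
          refine ⟨by omega, fun h' => iff_of_true (hmp ?_) (Or.inl hod)⟩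
          rw [hci, mul_left_comm a, mul_comm a] at han
          omega
    obtain ⟨Y2, hY2K, hY2, hY2d⟩ := (QuadType.exists_singular_iff _ hs.nondeg_fixed haf
      (m % iF + iF * (m / iF - l))).2 ⟨hkey.1, fun h => (haK (by rw [haf, ← h]; exact even_two_mul _)).2 (hkey.2 h)⟩
    refine ⟨Y1 ⊔ Y2, ⟨singular_sup hY1 hY2 fun v hv => mem_orth.2 fun u hu =>
      mem_orth.1 (hs.fixed_le_orth (hY2K hv)) u (hY1M hu), ?_⟩, sup_map_le hY1f (fixed_map_le hY2K)⟩
    rw [finrank_sup_disjoint (hs.isCompl.disjoint.symm.mono hY1M hY2K), hY1d, hY2d]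
    have := Nat.mul_le_mul_left iF hlm
    rw [Nat.mul_sub]
    omega

/-- The closed form of the criterion for totally singular subspaces. -/
theorem singular_iff (hV : NondegIn Q ⊤) (hr2 : r ≠ 2) (hrF : (r : F) ≠ 0) {m t : ℕ}
    (ht : t * ordq F r = r - 1) (hmn : 2 * m ≤ finrank F V) (hmp : 2 * m = finrank F V → Plus Q ⊤)
    (hdvd : r ∣ Nat.card {W : Submodule F V // Singular Q W ∧ finrank F W = m}) :
    (∀ f : Module.End F V, Setting Q f r → ∃ W, (Singular Q W ∧ finrank F W = m) ∧ W.map f ≤ W) ↔
      ordq F r ≤ m ∧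
        ((finrank F V % pieceDim F r = 0 ∧
            (((Plus Q ⊤ ↔ PieceSign F r (finrank F V / pieceDim F r)) ∧ m % ordq F r = 0) ∨
              (¬ (Plus Q ⊤ ↔ PieceSign F r (finrank F V / pieceDim F r)) ∧
                2 * (m % ordq F r) ≤ pieceDim F r))) ∨
         (0 < finrank F V % pieceDim F r ∧ 2 * (m % ordq F r) ≤ finrank F V % pieceDim F r ∧
            (2 * (m % ordq F r) = finrank F V % pieceDim F r →
              (Plus Q ⊤ ↔ PieceSign F r (finrank F V / pieceDim F r))))) ∧
        (Odd (ordq F r) ∨ t + 2 * (m / ordq F r) ≤ maxPieces F r (finrank F V) (Plus Q ⊤)) := by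
  rw [singular_iff_pieces hV hr2 hrF ht hmn hmp hdvd]
  refine and_congr_right fun him => and_congr_left fun _ => ?_
  classical
  have hipos : 0 < iF := orderOf_card_pos hrF
  have hpos : 0 < cF := by
    unfold pieceDim; split_ifs <;> omega
  have hn1 := Nat.mod_add_div nV cF
  rw [mul_comm cF] at hn1
  have hmi := Nat.mod_lt m hipos
  by_cases hk : nV % cF = 0
  · simp only [hk, true_and, lt_irrefl, false_and, or_false]
    by_cases hp : pV ↔ PieceSign F r (nV / cF)
    · have hA : maxPieces F r nV pV = nV / cF := by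
        unfold maxPieces; rw [if_neg fun h => h.2 hp]
      rw [hA, show nV - nV / cF * cF = 0 by omega]
      simp only [hp, not_true, false_and, or_false, true_and, implies_true, and_true]
      omega
    · have hA : maxPieces F r nV pV = nV / cF - 1 := by
        unfold maxPieces; rw [if_pos ⟨hk, hp⟩]
      have h1 : 1 ≤ nV / cF := Nat.pos_of_ne_zero fun h0 => by
        refine hp ?_
        rw [h0]
        exact iff_of_true (plus_of_finrank_zero (by rw [finrank_top, ← hn1, hk, h0, zero_mul, add_zero])) (pieceSign_zero F r)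
      have he : nV - (nV / cF - 1) * cF = cF := by
        rw [Nat.sub_mul, one_mul]
        have := Nat.mul_le_mul_right cF h1
        omega
      rw [hA, he]
      simp only [hp, false_and, false_or, not_false_iff, true_and]
      refine ⟨fun h => h.1, fun h => ⟨h, fun heq => ?_⟩⟩
      have e2 := pieceSign_add F r (nV / cF - 1) 1
      rw [Nat.sub_add_cancel h1, pieceSign_one] at e2
      have hnodd : ¬ Odd iF := fun hod => by
        have : cF = 2 * iF := if_neg (Nat.not_even_iff_odd.2 hod)
        omega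
      exact iff_of_mismatch hp e2 hnodd
  · have hA : maxPieces F r nV pV = nV / cF := by
      unfold maxPieces; rw [if_neg fun h => hk h.1]
    rw [hA, show nV - nV / cF * cF = nV % cF by omega]
    simp only [hk, false_and, false_or, Nat.pos_of_ne_zero hk, true_and]


end CfsgLib.Classical.Semisimple.QuadIsometry
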