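import Cfsg.Prelude.Def_ClassicalGeometry
import Cfsg.Agent.Eq.Def_ClassicalGeometry
import Cfsg.Agent.Classical.Semisimple.AltIsometry
import Cfsg.Agent.Classical.Semisimple.Bridge
import Cfsg.Agent.Classical.Symp.Card

/-!
Elements of odd prime order of symplectic groups with prescribed eigenvalue orbits.
-/

set_option autoImplicit false

namespace CfsgLib.Classical.Semisimple.SympModel

open Module Matrix Polynomial CfsgLib.Classical.Symp AltIsometry

variable {F : Type*} [Field F] {d : ℕ}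

local notation "V" => (Fin d ⊕ Fin d → F)
local notation "Sp" => Matrix.symplecticGroup (Fin d) F
local notation "Mat" => Matrix (Fin d ⊕ Fin d) (Fin d ⊕ Fin d) F

/-- The standard form as a bilinear form. -/
noncomputable def formB (d : ℕ) (F : Type*) [Field F] : LinearMap.BilinForm F (Fin d ⊕ Fin d → F) :=
  LinearMap.mk₂ F (fun u v => Cfsg.sympForm d F u v) (fun u u' v => form_add_left u u' v)
    (fun c u v => form_smul_left c u v) (fun u v v' => form_add_right u v v')
    (fun c u v => form_smul_right c u v)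

theorem formB_apply (u v : V) : formB d F u v = Cfsg.sympForm d F u v := rfl

theorem setting {r : ℕ} (hr2 : r ≠ 2) (hrF : (r : F) ≠ 0) {x : Sp} (hx : x ^ r = 1) :
    Setting (formB d F) (Matrix.toLin' (x : Mat)) r where
  alt u := form_self u
  nondeg u h := eq_zero_of_form_eq_zero h
  iso u v := by simp only [Matrix.toLin'_apply, formB_apply, form_mulVec]
  pow := by
    rw [toLin'_pow, ← SubmonoidClass.coe_pow, hx, OneMemClass.coe_one, Matrix.toLin'_one]; rfl
  odd := hr2
  ne := hrF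

theorem nondegIn_iff {U : Submodule F V} :
    NondegIn (formB d F) U ↔ ∀ u ∈ U, u ≠ 0 → ∃ v ∈ U, Cfsg.sympForm d F u v ≠ 0 := by
  constructor
  · intro h u hu hu0
    by_contra hc
    push Not at hc
    exact hu0 (h u hu hc)
  · intro h u hu hc
    by_contra hu0
    obtain ⟨v, hv, hv0⟩ := h u hu hu0
    exact hv0 (hc v hv)

theorem finrank_space : finrank F V = 2 * d := by
  rw [finrank_fintype_fun_eq_card, Fintype.card_sum, Fintype.card_fin, two_mul]

theorem finrank_fixed_add_moved [Fintype F] {r : ℕ} [Fact r.Prime] {x : Sp}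
    (hs : Setting (formB d F) (Matrix.toLin' (x : Mat)) r) :
    finrank F (fixed (Matrix.toLin' (x : Mat))) + finrank F (moved (Matrix.toLin' (x : Mat))) = 2 * d := by
  rw [Submodule.finrank_add_eq_of_isCompl hs.isCompl, finrank_space]

/-- Removing the scalar from an element whose `r`-th power is scalar. -/
theorem exists_normalise [Nonempty (Fin d)] {r : ℕ} (hr : Odd r) (x : Sp) {z : F}
    (hz : ((x ^ r : Sp) : Mat) = z • (1 : Mat)) (hns : ∀ c : F, (x : Mat) ≠ c • (1 : Mat)) :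
    ∃ y : Sp, y ^ r = 1 ∧ y ≠ 1 ∧ ∀ W : Submodule F V,
      W.map (Matrix.toLin' (y : Mat)) = W.map (Matrix.toLin' (x : Mat)) := by
  obtain ⟨j⟩ := ‹Nonempty (Fin d)›
  have hz2 : z * z = 1 := by
    have h := form_mulVec (x ^ r) (stdE j) (stdF j)
    rw [hz, Matrix.smul_mulVec, Matrix.smul_mulVec, Matrix.one_mulVec, Matrix.one_mulVec, form_smul_left,
      form_smul_right, form_stdE_stdF, if_pos rfl] at h
    linear_combination h
  have hmem : z • (x : Mat) ∈ Matrix.symplecticGroup (Fin d) F :=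
    (mem_symplecticGroup_iff_form _).2 fun u v => by
      rw [Matrix.smul_mulVec, Matrix.smul_mulVec, form_smul_left, form_smul_right, form_mulVec, ← mul_assoc,
        hz2, one_mul]
  have hz0 : z ≠ 0 := fun h => by simp [h] at hz2
  refine ⟨⟨_, hmem⟩, Subtype.ext ?_, fun h => ?_, fun W => ?_⟩
  · rw [SubmonoidClass.coe_pow, _root_.smul_pow, ← SubmonoidClass.coe_pow, hz, smul_smul, OneMemClass.coe_one]
    obtain ⟨k, rfl⟩ := hr
    rw [← pow_succ, show 2 * k + 1 + 1 = 2 * (k + 1) by ring, pow_mul, sq, hz2, one_pow, one_smul]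
  · refine hns z ?_
    have h1 : z • (x : Mat) = 1 := congrArg Subtype.val h
    rw [← h1, smul_smul, hz2, one_smul]
  · show W.map (Matrix.toLin' (z • (x : Mat))) = _
    rw [map_smul, Submodule.map_smul _ _ z hz0]

variable [Fintype F] {r : ℕ} [hr : Fact r.Prime]

/-- An element of order `r` with no fixed vector in the smallest possible symplectic group. -/
theorem exists_fpf {h : ℕ} (hr2 : r ≠ 2) (hrF : (r : F) ≠ 0)
    (hh : 2 * h = if Even (orderOf (Fintype.card F : ZMod r)) then orderOf (Fintype.card F : ZMod r)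
      else 2 * orderOf (Fintype.card F : ZMod r)) :
    ∃ y : Matrix.symplecticGroup (Fin h) F, y ^ r = 1 ∧ y ≠ 1 ∧
      ∀ a, (y : Matrix (Fin h ⊕ Fin h) (Fin h ⊕ Fin h) F) *ᵥ a = a → a = 0 := by
  have hpos : 0 < orderOf (Fintype.card F : ZMod r) := orderOf_card_pos hrF
  have hdvd : orderOf (Fintype.card F : ZMod r) ∣ 2 * h := by
    rw [hh]; split_ifs
    · exact dvd_rfl
    · exact dvd_mul_left _ 2
  have hh0 : 0 < h := by
    rcases Nat.eq_zero_or_pos h with rfl | h0
    · split_ifs at hh <;> omega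
    · exact h0
  have hcard : r ∣ Nat.card (Matrix.symplecticGroup (Fin h) F) := by
    rw [card_symplecticGroup]
    refine Dvd.dvd.mul_left (dvd_trans ?_ (Finset.dvd_prod_of_mem _
      (Finset.mem_range.2 (by omega : h - 1 < h)))) _
    rw [dvd_pow_sub_one_iff_orderOf_dvd, show h - 1 + 1 = h by omega]
    exact hdvd
  obtain ⟨y, hy⟩ := exists_prime_orderOf_dvd_card' r hcard
  have hy1 : y ≠ 1 := fun h1 => by
    rw [h1, orderOf_one] at hy
    exact hr.out.ne_one hy.symm
  have hyr : y ^ r = 1 := by rw [← hy]; exact pow_orderOf_eq_one y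
  have hs := setting hr2 hrF hyr
  have hmov : moved (Matrix.toLin' (y : Matrix (Fin h ⊕ Fin h) (Fin h ⊕ Fin h) F)) ≠ ⊥ := fun h0 => by
    refine hy1 (symp_ext fun a => ?_)
    have h1 := hs.isCompl.sup_eq_top
    rw [h0, sup_bot_eq] at h1
    have ha : a ∈ fixed (Matrix.toLin' (y : Matrix (Fin h ⊕ Fin h) (Fin h ⊕ Fin h) F)) := h1 ▸ trivial
    rw [mem_fixed, Matrix.toLin'_apply] at ha
    simp [ha]
  obtain ⟨W, hW, -, -, hWd, -⟩ := hs.exists_piece hs.nondeg_moved moved_map_le le_rfl hmov (c := 2 * h) hh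
  have htop : moved (Matrix.toLin' (y : Matrix (Fin h ⊕ Fin h) (Fin h ⊕ Fin h) F)) = ⊤ := by
    refine Submodule.eq_top_of_finrank_eq (le_antisymm (Submodule.finrank_le _) ?_)
    rw [finrank_space, ← hWd]
    exact Submodule.finrank_mono hW
  refine ⟨y, hyr, hy1, fun a ha => Submodule.disjoint_def.1 hs.isCompl.disjoint a ?_ (htop ▸ trivial)⟩
  rw [mem_fixed, Matrix.toLin'_apply]
  exact ha

theorem pow_fpf {h : ℕ} {y : Matrix.symplecticGroup (Fin h) F} (hy : y ^ r = 1)
    (hfix : ∀ a, (y : Matrix (Fin h ⊕ Fin h) (Fin h ⊕ Fin h) F) *ᵥ a = a → a = 0) {e : ℕ}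
    (he : ¬ r ∣ e) (a : Fin h ⊕ Fin h → F)
    (ha : ((y ^ e : Matrix.symplecticGroup (Fin h) F) : Matrix (Fin h ⊕ Fin h) (Fin h ⊕ Fin h) F) *ᵥ a = a) :
    a = 0 := by
  obtain ⟨u, hu⟩ := Nat.exists_mul_mod_eq_one_of_coprime
    ((Nat.Prime.coprime_iff_not_dvd hr.out).2 he).symm hr.out.one_lt
  have hy' : (y ^ e) ^ u = y := by
    rw [← pow_mul, pow_eq_pow_mod _ hy, hu.2, pow_one]
  refine hfix a ?_
  have key : ∀ m : ℕ, (((y ^ e) ^ m : Matrix.symplecticGroup (Fin h) F) :
      Matrix (Fin h ⊕ Fin h) (Fin h ⊕ Fin h) F) *ᵥ a = a := by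
    intro m
    induction m with
    | zero => simp
    | succ m ih => rw [pow_succ, mul_mulVec, ha, ih]
  rw [← hy']
  exact key u

/-- Powers of an irreducible element meet every orbit of eigenvalues. -/
theorem exists_orbit_exponents {h t : ℕ} (hr2 : r ≠ 2) (hrF : (r : F) ≠ 0)
    (hh : 2 * h = orderOf (Fintype.card F : ZMod r)) (ht : t * orderOf (Fintype.card F : ZMod r) = r - 1) :
    ∃ (y : Fin t → Matrix.symplecticGroup (Fin h) F) (P : Fin t → F[X]), Function.Injective P ∧
      ∀ s, y s ^ r = 1 ∧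
        (∀ a, (y s : Matrix (Fin h ⊕ Fin h) (Fin h ⊕ Fin h) F) *ᵥ a = a → a = 0) ∧
        Irreducible (P s) ∧ (P s).Monic ∧ (P s).natDegree = 2 * h ∧
        aeval (Matrix.toLin' (y s : Matrix (Fin h ⊕ Fin h) (Fin h ⊕ Fin h) F)) (P s) = 0 := by
  classical
  have hev : Even (orderOf (Fintype.card F : ZMod r)) := ⟨h, by omega⟩
  have hipos : 0 < orderOf (Fintype.card F : ZMod r) := orderOf_card_pos hrF
  obtain ⟨y, hy, hy1, hfix⟩ := exists_fpf (h := h) hr2 hrF (by rw [if_pos hev, hh])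
  let φ : Matrix.symplecticGroup (Fin h) F →* Module.End F (Fin h ⊕ Fin h → F) :=
    (Matrix.toLinAlgEquiv' (R := F) (n := Fin h ⊕ Fin h)).toAlgHom.toMonoidHom.comp
      (Submonoid.subtype _)
  have hφ : Function.Injective φ := fun a b hab =>
    Subtype.ext ((Matrix.toLinAlgEquiv' (R := F) (n := Fin h ⊕ Fin h)).injective hab)
  have hirr : ∀ e, ¬ r ∣ e → ∃ P : F[X], Irreducible P ∧ P.Monic ∧ P.natDegree = 2 * h ∧
      aeval (φ (y ^ e)) P = 0 := by
    intro e he
    obtain ⟨P, h1, h2, h3, h4⟩ := exists_irreducible_aeval_eq_zero_of_orderOf_eq (r := r) hrF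
      (f := φ (y ^ e)) (by rw [finrank_space, hh]) (by rw [← map_pow, ← pow_mul, mul_comm, pow_mul, hy, one_pow, map_one])
      (fun h1 => by
        have h2 : y ^ e = 1 := hφ (h1.trans (map_one φ).symm)
        have := pow_fpf hy hfix he (stdE ⟨0, by omega⟩) (by rw [h2]; simp)
        simpa [stdE] using congrFun this (Sum.inr ⟨0, by omega⟩))
    exact ⟨P, h1, h2, h3.trans finrank_space, h4⟩
  choose! P hP using hirr
  have hnd : ∀ e ∈ Finset.Ico 1 r, ¬ r ∣ e := fun e he hd => by
    rw [Finset.mem_Ico] at he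
    have := Nat.le_of_dvd (by omega) hd
    omega
  -- each polynomial occurs at most `2 * h` times
  obtain ⟨P1, hP1, -, hP1d, hP1y⟩ := show ∃ P : F[X], Irreducible P ∧ P.Monic ∧ P.natDegree = 2 * h ∧
      aeval (φ y) P = 0 from ⟨P 1, by simpa using hP 1 hr.out.not_dvd_one⟩
  have := Fact.mk hP1
  haveI : Nontrivial (Module.End F (Fin h ⊕ Fin h → F)) :=
    ⟨⟨φ y, φ 1, fun he => hy1 (hφ he)⟩⟩
  let ψ : AdjoinRoot P1 →ₐ[F] Module.End F (Fin h ⊕ Fin h → F) :=
    { Ideal.Quotient.lift _ (aeval (φ y)).toRingHom (by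
        intro a ha
        obtain ⟨b, rfl⟩ := Ideal.mem_span_singleton'.1 ha
        simp [hP1y]) with
      commutes' := fun a => by
        show (aeval (φ y)) (C a) = _
        rw [aeval_C] }
  have hψmk : ∀ Q, ψ (AdjoinRoot.mk P1 Q) = aeval (φ y) Q := fun Q => rfl
  have hψi : Function.Injective ψ := RingHom.injective ψ.toRingHom
  have hψ : ∀ e : ℕ, ψ (AdjoinRoot.root P1 ^ e) = φ (y ^ e) := fun e => by
    rw [map_pow, map_pow, ← AdjoinRoot.mk_X, hψmk, aeval_X]
  have hfib : ∀ Q ∈ (Finset.Ico 1 r).image P,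
      ((Finset.Ico 1 r).filter fun e => P e = Q).card ≤ 2 * h := by
    intro Q hQ
    obtain ⟨e0, he0, rfl⟩ := Finset.mem_image.1 hQ
    obtain ⟨hQi, -, hQd, -⟩ := hP e0 (hnd e0 he0)
    have hinj : Set.InjOn (fun e : ℕ => AdjoinRoot.root P1 ^ e)
        ((Finset.Ico 1 r).filter fun e => P e = P e0) := by
      intro a ha b hb hab
      rw [Finset.mem_coe, Finset.mem_filter, Finset.mem_Ico] at ha hb
      have h1 : y ^ a = y ^ b := hφ (by rw [← hψ, ← hψ]; exact congrArg ψ hab)
      have hord : orderOf y = r := orderOf_eq_prime hy hy1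
      have h2 := pow_eq_pow_iff_modEq.1 h1
      rw [hord, Nat.ModEq, Nat.mod_eq_of_lt ha.1.2, Nat.mod_eq_of_lt hb.1.2] at h2
      exact h2
    rw [← Finset.card_image_of_injOn hinj, ← hQd, ← natDegree_map (f := algebraMap F (AdjoinRoot P1)) (p := P e0)]
    refine (Finset.card_le_card (fun x hx => ?_)).trans ((Multiset.toFinset_card_le _).trans (card_roots' _))
    obtain ⟨e, he, rfl⟩ := Finset.mem_image.1 hx
    rw [Finset.mem_filter] at he
    rw [Multiset.mem_toFinset, mem_roots (Polynomial.map_ne_zero hQi.ne_zero), IsRoot, eval_map_algebraMap]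
    refine hψi ?_
    rw [← aeval_algHom_apply, hψ, map_zero, ← he.2]
    exact (hP e (hnd e he.1)).2.2.2
  have hcard := Finset.card_le_mul_card_image (Finset.Ico 1 r) (2 * h) hfib
  rw [Nat.card_Ico, ← ht, hh, mul_comm t] at hcard
  obtain ⟨S, hS, hScard⟩ := Finset.exists_subset_card_eq (Nat.le_of_mul_le_mul_left hcard hipos)
  let en : Fin t ≃ S := (Fintype.equivFinOfCardEq (by rw [Fintype.card_coe, hScard])).symm
  have hex : ∀ s, ∃ e ∈ Finset.Ico 1 r, P e = en s := fun s => Finset.mem_image.1 (hS (en s).2)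
  choose e he hPe using hex
  refine ⟨fun s => y ^ e s, fun s => P (e s), fun a b hab => en.injective (Subtype.ext ?_), fun s => ?_⟩
  · simpa [hPe] using hab
  · obtain ⟨h1, h2, h3, h4⟩ := hP (e s) (hnd _ (he s))
    exact ⟨by rw [← pow_mul, mul_comm, pow_mul, hy, one_pow], pow_fpf hy hfix (hnd _ (he s)), h1, h2, h3, h4⟩

section Blocks

variable {L h : ℕ} (σ : Fin L × Fin h → Fin d)

/-- Coordinates of the `s`-th block. -/
def emb (s : Fin L) : Fin h ⊕ Fin h → Fin d ⊕ Fin d :=
  Sum.map (fun j => σ (s, j)) (fun j => σ (s, j))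

/-- Restriction to the `s`-th block. -/
def proj (s : Fin L) : (Fin d ⊕ Fin d → F) →ₗ[F] (Fin h ⊕ Fin h → F) := LinearMap.funLeft F F (emb σ s)

/-- Extension by zero from the `s`-th block. -/
noncomputable def incl (s : Fin L) : (Fin h ⊕ Fin h → F) →ₗ[F] (Fin d ⊕ Fin d → F) :=
  Function.ExtendByZero.linearMap F (emb σ s)

variable {σ} (hσ : Function.Injective σ)
include hσ

omit [Fintype F] in
theorem emb_injective (s : Fin L) : Function.Injective (emb σ s) :=
  Function.Injective.sumMap (fun a b e => (Prod.ext_iff.1 (hσ e)).2) fun a b e => (Prod.ext_iff.1 (hσ e)).2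

omit [Fintype F] in
theorem proj_incl (s s' : Fin L) (a : Fin h ⊕ Fin h → F) :
    proj σ s (incl σ s' a) = if s = s' then a else 0 := by
  funext i
  show Function.extend (emb σ s') a 0 (emb σ s i) = _
  split_ifs with he
  · subst he; exact (emb_injective hσ s).extend_apply _ _ _
  · refine Function.extend_apply' _ _ _ ?_
    rintro ⟨k, hk⟩
    rcases i with i | i <;> rcases k with k | k <;> simp [emb] at hk <;>
      exact he (Prod.ext_iff.1 (hσ hk)).1.symm

omit [Fintype F] in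
theorem form_incl (s : Fin L) (a : Fin h ⊕ Fin h → F) (v : Fin d ⊕ Fin d → F) :
    Cfsg.sympForm d F (incl σ s a) v = Cfsg.sympForm h F a (proj σ s v) := by
  have hσs : Function.Injective fun j => σ (s, j) := fun a b e => (Prod.ext_iff.1 (hσ e)).2
  rw [form_apply, form_apply]
  refine (Fintype.sum_of_injective _ hσs _ _ (fun j hj => ?_) fun j => ?_).symm
  · have h1 : incl σ s a (Sum.inr j) = 0 := Function.extend_apply' _ _ _ (by
      rintro ⟨k | k, hk⟩ <;> simp [emb] at hk
      exact hj ⟨k, hk⟩)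
    have h2 : incl σ s a (Sum.inl j) = 0 := Function.extend_apply' _ _ _ (by
      rintro ⟨k | k, hk⟩ <;> simp [emb] at hk
      exact hj ⟨k, hk⟩)
    simp [h1, h2]
  · have h1 : ∀ i, incl σ s a (emb σ s i) = a i := fun i => (emb_injective hσ s).extend_apply _ _ _
    rw [show incl σ s a (Sum.inr (σ (s, j))) = a (Sum.inr j) from h1 (Sum.inr j),
      show incl σ s a (Sum.inl (σ (s, j))) = a (Sum.inl j) from h1 (Sum.inl j)]
    rfl

end Blocks

/-- Orthogonal sums of blocks, fixing the remaining coordinates. -/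
theorem exists_model {L h : ℕ} (hL : L * h ≤ d) (y : Fin L → Matrix.symplecticGroup (Fin h) F)
    (hy : ∀ s, y s ^ r = 1)
    (hfix : ∀ s a, (y s : Matrix (Fin h ⊕ Fin h) (Fin h ⊕ Fin h) F) *ᵥ a = a → a = 0) :
    ∃ (x : Sp) (ι : Fin L → (Fin h ⊕ Fin h → F) →ₗ[F] V) (π : Fin L → V →ₗ[F] (Fin h ⊕ Fin h → F)),
      x ^ r = 1 ∧
      (∀ s v, π s ((x : Mat) *ᵥ v) = (y s : Matrix (Fin h ⊕ Fin h) (Fin h ⊕ Fin h) F) *ᵥ π s v) ∧
      (∀ s a, (x : Mat) *ᵥ ι s a = ι s ((y s : Matrix (Fin h ⊕ Fin h) (Fin h ⊕ Fin h) F) *ᵥ a)) ∧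
      (∀ s s' a, π s (ι s' a) = if s = s' then a else 0) ∧
      (∀ s a v, Cfsg.sympForm d F (ι s a) v = Cfsg.sympForm h F a (π s v)) ∧
      (∀ v, v ∈ fixed (Matrix.toLin' (x : Mat)) ↔ ∀ s, π s v = 0) ∧
      finrank F (fixed (Matrix.toLin' (x : Mat))) + 2 * (L * h) = 2 * d := by
  classical
  let σ : Fin L × Fin h → Fin d := fun p => Fin.castLE hL (finProdFinEquiv p)
  have hσ : Function.Injective σ := fun a b e => finProdFinEquiv.injective (Fin.castLE_injective hL e)
  let ι := fun s => incl (F := F) σ s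
  let π := fun s => proj (F := F) σ s
  let M := fun s => Matrix.toLin' (y s : Matrix (Fin h ⊕ Fin h) (Fin h ⊕ Fin h) F)
  let T : Module.End F V := 1 + ∑ s, ι s ∘ₗ (M s ∘ₗ π s - π s)
  have hT : ∀ v, T v = v + ∑ s, ι s (M s (π s v) - π s v) := fun v => by
    simp [T, LinearMap.sum_apply]
  have hπι : ∀ s s' a, π s (ι s' a) = if s = s' then a else 0 := proj_incl hσ
  have hπT : ∀ s v, π s (T v) = M s (π s v) := fun s v => by
    rw [hT, map_add, map_sum, Finset.sum_eq_single s]
    · rw [hπι, if_pos rfl]; abel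
    · intro s' _ hne; rw [hπι, if_neg hne.symm]
    · exact fun hs' => absurd (Finset.mem_univ s) hs'
  have hform : ∀ s a v, formB d F (ι s a) v = formB h F a (π s v) := form_incl hσ
  have hformr : ∀ s a v, formB d F v (ι s a) = formB h F (π s v) a := fun s a v => by
    rw [formB_apply, form_swap, ← formB_apply, hform, formB_apply, ← form_swap]; rfl
  have hM : ∀ s a b, formB h F (M s a) (M s b) = formB h F a b := fun s a b => by
    simp only [M, Matrix.toLin'_apply, formB_apply, form_mulVec]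
  have hiso : ∀ u v, formB d F (T u) (T v) = formB d F u v := by
    intro u v
    conv_lhs => rw [hT u]
    rw [map_add, LinearMap.add_apply, map_sum, LinearMap.sum_apply]
    simp only [hform, hπT]
    conv_lhs => rw [hT v]
    rw [map_add, map_sum, add_assoc, add_eq_left, ← Finset.sum_add_distrib]
    refine Finset.sum_eq_zero fun s _ => ?_
    rw [hformr, map_sub, map_sub (formB h F), LinearMap.sub_apply, hM]
    abel
  let x : Sp := ⟨LinearMap.toMatrix' T, (mem_symplecticGroup_iff_form _).2 fun u v => by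
    rw [LinearMap.toMatrix'_mulVec, LinearMap.toMatrix'_mulVec, ← formB_apply, hiso]; rfl⟩
  have hx : ∀ v, (x : Mat) *ᵥ v = T v := fun v => LinearMap.toMatrix'_mulVec _ _
  have hMpow : ∀ s (j : ℕ) a, ((y s ^ j : Matrix.symplecticGroup (Fin h) F) :
      Matrix (Fin h ⊕ Fin h) (Fin h ⊕ Fin h) F) *ᵥ (M s a) =
      ((y s ^ (j + 1) : Matrix.symplecticGroup (Fin h) F) : Matrix (Fin h ⊕ Fin h) (Fin h ⊕ Fin h) F) *ᵥ a :=
    fun s j a => by rw [pow_succ, mul_mulVec]; rfl
  have hpow : ∀ (j : ℕ) v, ((x ^ j : Sp) : Mat) *ᵥ v = v + ∑ s, ι s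
      (((y s ^ j : Matrix.symplecticGroup (Fin h) F) : Matrix (Fin h ⊕ Fin h) (Fin h ⊕ Fin h) F) *ᵥ π s v - π s v) := by
    intro j
    induction j with
    | zero => intro v; simp
    | succ j ih =>
      intro v
      rw [pow_succ, mul_mulVec, hx, ih, hT, add_assoc, ← Finset.sum_add_distrib]
      congr 1
      refine Finset.sum_congr rfl fun s _ => ?_
      rw [← map_add, ← hT, hπT, hMpow]
      abel_nf
  have hfixed : ∀ v, v ∈ fixed (Matrix.toLin' (x : Mat)) ↔ ∀ s, π s v = 0 := by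
    intro v
    rw [mem_fixed, Matrix.toLin'_apply, hx]
    constructor
    · intro h s
      refine hfix s _ ?_
      have h1 := hπT s v
      rw [h] at h1
      exact h1.symm
    · intro h
      rw [hT, Finset.sum_eq_zero (fun s _ => by simp [h s]), add_zero]
  refine ⟨x, ι, π, symp_ext fun v => ?_, fun s v => by rw [hx, hπT]; rfl, fun s a => ?_, hπι, hform, hfixed, ?_⟩
  · rw [hpow]
    simp [hy]
  · rw [hx, hT, Finset.sum_eq_single s]
    · rw [hπι, if_pos rfl, map_sub]; simp [M]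
    · intro s' _ hne; rw [hπι, if_neg hne, map_zero, sub_zero, map_zero]
    · exact fun hs' => absurd (Finset.mem_univ s) hs'
  · let Φ : V →ₗ[F] (Fin L → (Fin h ⊕ Fin h → F)) := LinearMap.pi π
    have hker : LinearMap.ker Φ = fixed (Matrix.toLin' (x : Mat)) := by
      ext v; rw [hfixed, LinearMap.mem_ker, funext_iff]; rfl
    have hsurj : Function.Surjective Φ := fun a => ⟨∑ s, ι s (a s), funext fun s => by
      simp [Φ, map_sum, hπι]⟩
    have h1 := LinearMap.finrank_range_add_finrank_ker Φ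
    rw [LinearMap.range_eq_top.2 hsurj, finrank_top, hker, finrank_space, Module.finrank_pi_fintype] at h1
    simp only [finrank_space, Finset.sum_const, Finset.card_univ, Fintype.card_fin, smul_eq_mul] at h1
    rw [← h1]; ring

/-- An invariant isotropic subspace of a model avoids the blocks with an unrepeated polynomial. -/
theorem isotropic_avoids_single {L h : ℕ} (hh0 : 0 < h) (hr2 : r ≠ 2) (hrF : (r : F) ≠ 0)
    (hh : 2 * h = orderOf (Fintype.card F : ZMod r))
    {y : Fin L → Matrix.symplecticGroup (Fin h) F} (hy : ∀ s, y s ^ r = 1)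
    (hfix : ∀ s a, (y s : Matrix (Fin h ⊕ Fin h) (Fin h ⊕ Fin h) F) *ᵥ a = a → a = 0)
    {P : Fin L → F[X]}
    (hP : ∀ s, Irreducible (P s) ∧ (P s).Monic ∧ (P s).natDegree = 2 * h ∧
      aeval (Matrix.toLin' (y s : Matrix (Fin h ⊕ Fin h) (Fin h ⊕ Fin h) F)) (P s) = 0)
    {x : Sp} {ι : Fin L → (Fin h ⊕ Fin h → F) →ₗ[F] V} {π : Fin L → V →ₗ[F] (Fin h ⊕ Fin h → F)}
    (hxι : ∀ s a, (x : Mat) *ᵥ ι s a = ι s ((y s : Matrix (Fin h ⊕ Fin h) (Fin h ⊕ Fin h) F) *ᵥ a))
    (hxπ : ∀ s v, π s ((x : Mat) *ᵥ v) = (y s : Matrix (Fin h ⊕ Fin h) (Fin h ⊕ Fin h) F) *ᵥ π s v)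
    (hπι : ∀ s s' a, π s (ι s' a) = if s = s' then a else 0)
    (hform : ∀ s a v, Cfsg.sympForm d F (ι s a) v = Cfsg.sympForm h F a (π s v))
    (hfixed : ∀ v, v ∈ fixed (Matrix.toLin' (x : Mat)) ↔ ∀ s, π s v = 0)
    {s₀ : Fin L} (hs₀ : ∀ s, s ≠ s₀ → P s ≠ P s₀) {W : Submodule F V} (hW : Isotropic (formB d F) W)
    (hinv : W.map (Matrix.toLin' (x : Mat)) ≤ W) : ∀ v ∈ W, π s₀ v = 0 := by
  classical
  let f := Matrix.toLin' (x : Mat)
  let g := fun s => Matrix.toLin' (y s : Matrix (Fin h ⊕ Fin h) (Fin h ⊕ Fin h) F)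
  set Q : F[X] := (X - 1) * ∏ s ∈ Finset.univ.erase s₀, P s with hQ
  have hcop : IsCoprime Q (P s₀) := by
    refine IsCoprime.mul_left ?_ (IsCoprime.prod_left fun s hs => ?_)
    · refine ((hP s₀).1.coprime_iff_not_dvd.2 fun hd => ?_).symm
      have h1 := natDegree_le_of_dvd hd (by rw [← C_1]; exact X_sub_C_ne_zero 1)
      rw [← C_1, natDegree_X_sub_C, (hP s₀).2.2.1] at h1
      omega
    · refine (hP s).1.coprime_iff_not_dvd.2 fun hd => hs₀ s (Finset.ne_of_mem_erase hs) ?_
      exact eq_of_monic_of_dvd_of_natDegree_le (hP s).2.1 (hP s₀).2.1 hd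
        (by rw [(hP s).2.2.1, (hP s₀).2.2.1]) |>.symm
  have hι : ∀ (R : F[X]) s a, aeval f R (ι s a) = ι s (aeval (g s) R a) := by
    intro R s
    induction R using Polynomial.induction_on with
    | C c => intro a; simp [Module.algebraMap_end_apply]
    | add p q hp hq => intro a; simp [hp, hq]
    | monomial n c h =>
      intro a
      rw [pow_succ, ← mul_assoc, map_mul (aeval f), map_mul (aeval (g s)), aeval_X, aeval_X,
        Module.End.mul_apply, Module.End.mul_apply, ← h]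
      congr 1
      exact hxι s a
  have hQv : ∀ v, aeval f Q v = ι s₀ (aeval (g s₀) Q (π s₀ v)) := by
    intro v
    have hk : v - ∑ s, ι s (π s v) ∈ fixed f := (hfixed _).2 fun s => by
      rw [map_sub, map_sum, Finset.sum_eq_single s (fun b _ hb => by rw [hπι, if_neg hb.symm])
        (fun h => absurd (Finset.mem_univ s) h), hπι, if_pos rfl, sub_self]
    have hkill : ∀ u ∈ fixed f, aeval f Q u = 0 := fun u hu => by
      rw [hQ, mul_comm, map_mul, Module.End.mul_apply, map_sub, aeval_X, map_one, LinearMap.sub_apply,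
        mem_fixed.1 hu]
      simp
    have h1 := hkill _ hk
    rw [map_sub, sub_eq_zero, map_sum] at h1
    rw [h1]
    refine Finset.sum_eq_single s₀ (fun s _ hs => ?_) (fun h => absurd (Finset.mem_univ _) h) |>.trans (hι _ _ _)
    rw [hι, hQ, Finset.prod_eq_prod_diff_singleton_mul (Finset.mem_erase.2 ⟨hs, Finset.mem_univ s⟩),
      ← mul_assoc, map_mul, Module.End.mul_apply, (hP s).2.2.2, LinearMap.zero_apply, map_zero, map_zero]
  -- the image of `W` in the block
  let A : Submodule F (Fin h ⊕ Fin h → F) := W.map ((aeval (g s₀) Q) ∘ₗ π s₀)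
  have hιA : ∀ a ∈ A, ι s₀ a ∈ W := by
    rintro _ ⟨w, hw, rfl⟩
    rw [LinearMap.comp_apply, ← hQv]
    exact aeval_mem hinv Q hw
  have hAi : Isotropic (formB h F) A := fun a ha b hb => by
    have := hW _ (hιA a ha) _ (hιA b hb)
    rwa [formB_apply, hform, hπι, if_pos rfl] at this
  have hAinv : A.map (g s₀) ≤ A := by
    refine map_le_of_forall_mem ?_
    rintro _ ⟨w, hw, rfl⟩
    refine ⟨(x : Mat) *ᵥ w, hinv ⟨w, hw, Matrix.toLin'_apply _ _⟩, ?_⟩
    show aeval (g s₀) Q (π s₀ ((x : Mat) *ᵥ w)) = g s₀ (aeval (g s₀) Q (π s₀ w))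
    rw [hxπ, ← Module.End.mul_apply (g s₀), show g s₀ * aeval (g s₀) Q = aeval (g s₀) Q * g s₀ by
      have := congrArg (aeval (g s₀)) (mul_comm X Q)
      simpa using this]
    rfl
  have hsy : Setting (formB h F) (g s₀) r := setting hr2 hrF (hy s₀)
  obtain ⟨j, l, hd, hj, -, hl⟩ := hsy.isotropic_profile hAi hAinv
  have hfix0 : finrank F (fixed (g s₀)) = 0 := by
    rw [Submodule.finrank_eq_zero, Submodule.eq_bot_iff]
    intro a ha
    rw [mem_fixed, Matrix.toLin'_apply] at ha
    exact hfix s₀ a ha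
  have hl0 : l = 0 := by
    by_contra hl0
    have h1 := Submodule.finrank_le (moved (g s₀))
    rw [finrank_space] at h1
    have : orderOf (Fintype.card F : ZMod r) * 1 ≤ orderOf (Fintype.card F : ZMod r) * l :=
      Nat.mul_le_mul_left _ (by omega)
    omega
  have hA0 : A = ⊥ := by
    rw [← Submodule.finrank_eq_zero]
    subst hl0
    rw [hd]; omega
  intro v hv
  obtain ⟨a, b, hab⟩ := hcop
  have h1 : aeval (g s₀) Q (π s₀ v) = 0 :=
    (Submodule.eq_bot_iff _).1 hA0 _ ⟨v, hv, rfl⟩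
  have hPs : aeval (g s₀) (P s₀) = 0 := (hP s₀).2.2.2
  have h2 := congrArg (fun R => aeval (g s₀) R (π s₀ v)) hab
  simp only [map_add, map_mul, map_one, LinearMap.add_apply, Module.End.mul_apply, h1, map_zero,
    hPs, LinearMap.zero_apply, add_zero, Module.End.one_apply] at h2
  exact h2.symm

end CfsgLib.Classical.Semisimple.SympModel
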