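import Cfsg.Agent.Classical.Semisimple.Bridge

/-!
Common steps for deciding which elements of prime order of `PSL n q` fix subspaces of given
dimensions: twisting to `r`-th power one, and the two kinds of derangements.
-/

set_option autoImplicit false

namespace CfsgLib.Classical.Semisimple

open Module Matrix

variable {F : Type*} [Field F] [Fintype F] {r : ℕ} [hr : Fact r.Prime]

theorem pow_div_eq_one_iff {z : F} (hz : z ≠ 0) (hd : r ∣ Fintype.card F - 1) :
    z ^ ((Fintype.card F - 1) / r) = 1 ↔ ∃ b : F, b ^ r = z := by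
  constructor
  · intro h
    obtain ⟨g, hg⟩ := IsCyclic.exists_generator (α := Fˣ)
    obtain ⟨k, hk⟩ := (mem_powers_iff_mem_zpowers.mpr (hg (Units.mk0 z hz)))
    have hg' : orderOf g = Fintype.card F - 1 := by
      rw [orderOf_eq_card_of_forall_mem_zpowers hg, Nat.card_units, Nat.card_eq_fintype_card]
    have h1 : g ^ (k * ((Fintype.card F - 1) / r)) = 1 := by
      rw [pow_mul]
      exact Units.ext (by rw [Units.val_pow_eq_pow_val, show g ^ k = Units.mk0 z hz from hk]; simpa using h)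
    have h2 := orderOf_dvd_of_pow_eq_one h1
    rw [hg'] at h2
    obtain ⟨c, hc⟩ := hd
    have hc0 : 0 < c := by
      have := Fintype.one_lt_card (α := F)
      rcases Nat.eq_zero_or_pos c with rfl | h
      · omega
      · exact h
    rw [hc, Nat.mul_div_cancel_left _ hr.out.pos, Nat.mul_dvd_mul_iff_right hc0] at h2
    obtain ⟨j, rfl⟩ := h2
    refine ⟨((g ^ j : Fˣ) : F), ?_⟩
    have := congrArg (fun u : Fˣ => (u : F)) (show g ^ (r * j) = Units.mk0 z hz from hk)
    simp only [Units.val_pow_eq_pow_val, Units.val_mk0] at this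
    rw [Units.val_pow_eq_pow_val, ← pow_mul, mul_comm, this]
  · rintro ⟨b, rfl⟩
    rw [← pow_mul, Nat.mul_div_cancel' hd]
    exact FiniteField.pow_card_sub_one_eq_one b (by rintro rfl; simp [hr.out.ne_zero] at hz)

/-- A non-`r`-th power has order divisible by the whole `r`-part of `q - 1`. -/
theorem padicValNat_le_of_nonpower (hd : r ∣ Fintype.card F - 1) {z : F}
    (hz : ∀ b : F, b ^ r ≠ z) {s : ℕ} (hs : z ^ s = 1) (hs0 : s ≠ 0) :
    padicValNat r (Fintype.card F - 1) ≤ padicValNat r s := by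
  have hz0 : z ≠ 0 := fun h => hz 0 (by rw [h, zero_pow hr.out.ne_zero])
  set N := Fintype.card F - 1 with hN
  have hN0 : N ≠ 0 := by have := Fintype.one_lt_card (α := F); omega
  by_contra hlt
  rw [not_le] at hlt
  have h1 : orderOf z ∣ Nat.gcd s N :=
    Nat.dvd_gcd (orderOf_dvd_of_pow_eq_one hs)
      (orderOf_dvd_of_pow_eq_one (FiniteField.pow_card_sub_one_eq_one z hz0))
  have h2 : Nat.gcd s N ∣ N / r := by
    obtain ⟨e, he⟩ := Nat.gcd_dvd_right s N
    have hre : r ∣ e := by
      by_contra hre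
      have hg0 : Nat.gcd s N ≠ 0 := Nat.gcd_ne_zero_right hN0
      have he0 : e ≠ 0 := by rintro rfl; exact hN0 (by simpa using he)
      have h3 := congrArg (padicValNat r) he
      rw [padicValNat.mul hg0 he0, padicValNat.eq_zero_of_not_dvd hre, add_zero] at h3
      have h4 : r ^ padicValNat r N ∣ s := by
        rw [h3]; exact pow_padicValNat_dvd.trans (Nat.gcd_dvd_left s N)
      have h5 := (padicValNat_dvd_iff_le hs0).mp h4
      omega
    obtain ⟨e', rfl⟩ := hre
    refine ⟨e', ?_⟩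
    conv_lhs => rw [he, mul_left_comm]
    rw [Nat.mul_div_cancel_left _ hr.out.pos]
  obtain ⟨b, hb⟩ := (pow_div_eq_one_iff hz0 hd).mp
    (orderOf_dvd_iff_pow_eq_one.mp (h1.trans h2))
  exact hz b hb

theorem exists_nonpower_pow_eq_one (hd : r ∣ Fintype.card F - 1) {s : ℕ}
    (hs : padicValNat r (Fintype.card F - 1) ≤ padicValNat r s) :
    ∃ z : F, (∀ b : F, b ^ r ≠ z) ∧ z ^ s = 1 := by
  obtain ⟨g, hg⟩ := IsCyclic.exists_generator (α := Fˣ)
  have hg' : orderOf g = Fintype.card F - 1 := by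
    rw [orderOf_eq_card_of_forall_mem_zpowers hg, Nat.card_units, Nat.card_eq_fintype_card]
  set N := Fintype.card F - 1 with hN
  set v := padicValNat r N with hv
  have hN0 : N ≠ 0 := by have := Fintype.one_lt_card (α := F); omega
  obtain ⟨M, hM⟩ : r ^ v ∣ N := pow_padicValNat_dvd
  have hrM : ¬ r ∣ M := by
    rintro ⟨c, rfl⟩
    have h1 : r ^ (v + 1) ∣ N := ⟨c, by rw [hM, pow_succ, mul_assoc]⟩
    have h2 := (padicValNat_dvd_iff_le hN0).mp h1
    omega
  refine ⟨((g ^ M : Fˣ) : F), fun b hb => ?_, ?_⟩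
  · have h1 := (pow_div_eq_one_iff (r := r) (Units.ne_zero (g ^ M)) hd).mpr ⟨b, hb⟩
    rw [← hN, ← Units.val_pow_eq_pow_val, Units.val_eq_one, ← pow_mul,
      ← orderOf_dvd_iff_pow_eq_one, hg'] at h1
    obtain ⟨c, hc⟩ := hd
    rw [hc, Nat.mul_div_cancel_left _ hr.out.pos,
      Nat.mul_dvd_mul_iff_right (Nat.pos_of_ne_zero (by rintro rfl; simp at hc; omega))] at h1
    exact hrM h1
  · rw [← Units.val_pow_eq_pow_val, Units.val_eq_one, ← pow_mul, ← orderOf_dvd_iff_pow_eq_one,
      hg', hM, mul_comm]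
    rcases eq_or_ne s 0 with rfl | hs0
    · simp
    · exact Nat.mul_dvd_mul_left M
        ((pow_dvd_pow r hs).trans pow_padicValNat_dvd)

theorem neg_one_isSquare_of_mod_four (h : Fintype.card F % 4 = 1) : ∃ b : F, b ^ 2 = -1 := by
  obtain ⟨b, hb⟩ := FiniteField.isSquare_neg_one_iff.mpr (show Fintype.card F % 4 ≠ 3 by omega)
  exact ⟨b, by rw [pow_two, ← hb]⟩

variable {n : ℕ}

/-- Either `w⁻¹ x` has `r`-th power one, or every invariant subspace has dimension divisible by `r`
and `n` has a large `r`-part. -/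
theorem twist_or_dvd (hi : orderOf (Fintype.card F : ZMod r) = 1) (hn : 0 < n) {z : F}
    {f : Module.End F (Fin n → F)} (hdet : LinearMap.det f = 1) (h : f ^ r = z • 1) :
    (∃ w : F, w ≠ 0 ∧ (w⁻¹ • f) ^ r = 1) ∨
      (r ∣ n ∧ (∀ W : Submodule F (Fin n → F), W.map f ≤ W → r ∣ finrank F W) ∧
        ¬ (padicValNat r n ≤ padicValNat r (Fintype.card F - 1) ∧
          (r = 2 → Even n → Fintype.card F % 4 = 1))) := by
  have hd : r ∣ Fintype.card F - 1 := by
    have := (dvd_pow_sub_one_iff_orderOf_dvd (F := F) (r := r) 1).mpr (by rw [hi])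
    rwa [pow_one] at this
  have hz0 : z ≠ 0 := by
    rintro rfl
    have h1 := congrArg LinearMap.det h
    rw [map_pow, hdet, one_pow, LinearMap.det_smul, zero_pow (by simp; omega), zero_mul] at h1
    exact one_ne_zero h1
  by_cases hp : ∃ b : F, b ^ r = z
  · obtain ⟨b, hb⟩ := hp
    exact Or.inl ⟨b, fun e => hz0 (by rw [← hb, e, zero_pow hr.out.ne_zero]),
      smul_pow_eq_one hb hz0 h⟩
  right
  push Not at hp
  obtain ⟨h1, h2, h3⟩ := of_pow_eq_smul_nonpower hp h
  rw [finrank_fin_fun] at h1 h2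
  refine ⟨h1, h3, fun ⟨hv, h4⟩ => ?_⟩
  obtain ⟨s, rfl⟩ := h1
  rw [Nat.mul_div_cancel_left _ hr.out.pos, hdet] at h2
  have hs0 : s ≠ 0 := by rintro rfl; omega
  rw [padicValNat.mul hr.out.ne_zero hs0, padicValNat.self hr.out.one_lt] at hv
  suffices padicValNat r (Fintype.card F - 1) ≤ padicValNat r s by omega
  rcases hr.out.eq_two_or_odd' with rfl | hodd
  · obtain ⟨c, hc⟩ := neg_one_isSquare_of_mod_four (h4 rfl (even_two_mul s))
    refine padicValNat_le_of_nonpower hd (z := -z) ?_ (by simpa using h2.symm) hs0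
    intro b hb
    exact hp (c * b) (by rw [mul_pow, hc, hb]; ring)
  · exact padicValNat_le_of_nonpower hd hp (by simpa [hodd.neg_one_pow] using h2.symm) hs0

/-- An element all of whose invariant subspaces have dimension divisible by `r`. -/
theorem exists_sl_dvd (hi : orderOf (Fintype.card F : ZMod r) = 1) (hn : 0 < n) (hr2 : (r : F) ≠ 0)
    (h : ¬ (padicValNat r n ≤ padicValNat r (Fintype.card F - 1) ∧
          (r = 2 → Even n → Fintype.card F % 4 = 1))) :
    r ∣ n ∧ ∃ (x : Matrix.SpecialLinearGroup (Fin n) F) (z : F),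
      ((x ^ r : Matrix.SpecialLinearGroup (Fin n) F) : Matrix (Fin n) (Fin n) F) = z • 1 ∧
      (∀ c : F, (x : Matrix (Fin n) (Fin n) F) ≠ c • 1) ∧
      ∀ W : Submodule F (Fin n → F),
        W.map (Matrix.toLin' (x : Matrix (Fin n) (Fin n) F)) ≤ W → r ∣ finrank F W := by
  have hd : r ∣ Fintype.card F - 1 := by
    have := (dvd_pow_sub_one_iff_orderOf_dvd (F := F) (r := r) 1).mpr (by rw [hi])
    rwa [pow_one] at this
  have hrn : r ∣ n := by
    by_contra hrn
    refine h ⟨by simp [padicValNat.eq_zero_of_not_dvd hrn], ?_⟩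
    rintro rfl he
    exact absurd he.two_dvd hrn
  refine ⟨hrn, ?_⟩
  obtain ⟨s, rfl⟩ := hrn
  have hs0 : s ≠ 0 := by rintro rfl; omega
  have key : ∃ z : F, (∀ b : F, b ^ r ≠ z) ∧ ((-1) ^ r * -z) ^ s = 1 := by
    rw [padicValNat.mul hr.out.ne_zero hs0, padicValNat.self hr.out.one_lt] at h
    rcases hr.out.eq_two_or_odd' with rfl | hodd
    · rcases Nat.lt_or_ge (Fintype.card F % 4) 3 with h3 | h3
      · have hodd : Fintype.card F % 2 = 1 := by
          rcases Nat.mod_two_eq_zero_or_one (Fintype.card F) with h0 | h0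
          · exfalso
            have := Fintype.one_lt_card (α := F)
            omega
          · exact h0
        have h1 : Fintype.card F % 4 = 1 := by omega
        obtain ⟨w, hw, hws⟩ := exists_nonpower_pow_eq_one (F := F) (r := 2) hd (s := s) (by
          by_contra hc
          exact h ⟨by omega, fun _ _ => h1⟩)
        obtain ⟨c, hc⟩ := neg_one_isSquare_of_mod_four h1
        refine ⟨-w, fun b hb => hw (c * b) ?_, by simpa using hws⟩
        rw [mul_pow, hc, hb]; ring
      · refine ⟨-1, fun b hb => ?_, by simp⟩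
        have := FiniteField.isSquare_neg_one_iff.mp ⟨b, by rw [← hb, pow_two]⟩
        omega
    · obtain ⟨w, hw, hws⟩ := exists_nonpower_pow_eq_one (F := F) hd (s := s) (by
        by_contra hc
        exact h ⟨by omega, fun e => by rw [e] at hodd; exact absurd hodd (by decide)⟩)
      exact ⟨w, hw, by simpa [hodd.neg_one_pow] using hws⟩
  obtain ⟨z, hz, hzs⟩ := key
  obtain ⟨f, hf⟩ := exists_pow_eq_smul (n := r * s) hz ⟨s, rfl⟩
  obtain ⟨-, hdet, hdims⟩ := of_pow_eq_smul_nonpower hz hf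
  rw [finrank_fin_fun, Nat.mul_div_cancel_left _ hr.out.pos, hzs] at hdet
  have hns : ∀ c : F, f ≠ c • 1 := by
    rintro c rfl
    refine hz c ?_
    rw [_root_.smul_pow, one_pow] at hf
    have := congrFun (LinearMap.congr_fun hf (Pi.single ⟨0, hn⟩ 1)) ⟨0, hn⟩
    simpa using this
  obtain ⟨x, hx, hxz, hxns⟩ := exists_sl_of_end hdet hf hns
  exact ⟨x, z, hxz, hxns, by rw [hx]; exact hdims⟩

/-- An element with `r`-th power one and prescribed fixed-space dimension, when `r ∤ q - 1`. -/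
theorem exists_sl_orbit (hrF : (r : F) ≠ 0) (hi : orderOf (Fintype.card F : ZMod r) ≠ 1) {l : ℕ}
    (hl0 : 0 < l) (hl : l * orderOf (Fintype.card F : ZMod r) ≤ n) :
    ∃ x : Matrix.SpecialLinearGroup (Fin n) F,
      ((x ^ r : Matrix.SpecialLinearGroup (Fin n) F) : Matrix (Fin n) (Fin n) F) = (1 : F) • 1 ∧
      (∀ c : F, (x : Matrix (Fin n) (Fin n) F) ≠ c • 1) ∧
      (Matrix.toLin' (x : Matrix (Fin n) (Fin n) F) : Module.End F (Fin n → F)) ^ r = 1 ∧
      finrank F ↥(LinearMap.ker
        ((Matrix.toLin' (x : Matrix (Fin n) (Fin n) F) : Module.End F (Fin n → F)) - (1 : F) • 1)) =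
          n - l * orderOf (Fintype.card F : ZMod r) ∧
      finrank F ↥(LinearMap.range
        ((Matrix.toLin' (x : Matrix (Fin n) (Fin n) F) : Module.End F (Fin n → F)) - (1 : F) • 1)) =
          l * orderOf (Fintype.card F : ZMod r) := by
  have hipos := Nat.mul_pos hl0 (orderOf_card_pos (F := F) (r := r) hrF)
  obtain ⟨f, hf, hk, hR⟩ := exists_pow_eq_one_finrank_ker hrF hl
  have hdet : LinearMap.det f = 1 :=
    eq_one_of_pow_eq_one (r := r) hi (by rw [← map_pow, hf, map_one])
  have : Nonempty (Fin n) := ⟨⟨0, by omega⟩⟩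
  obtain ⟨x, hx, hxz, hxns⟩ := exists_sl_of_end hdet (z := 1) (by rw [hf, one_smul])
    (ne_smul_one_of_finrank_ker hf (by rw [hk, Fintype.card_fin]; omega)
      (fun c hc => eq_one_of_pow_eq_one hi hc))
  exact ⟨x, hxz, hxns, by rw [hx]; exact hf, by rw [hx]; exact hk, by rw [hx]; exact hR⟩

end CfsgLib.Classical.Semisimple
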