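import Cfsg.Agent.Classical.Semisimple.Imprimitive
import Cfsg.Agent.Classical.Semisimple.Monomial
import Cfsg.Agent.Classical.Semisimple.PrimeOrder

/-!
Maps of prime order permuting the summands of an equidimensional decomposition: bounds for the
fixed space, and constructions of such decompositions.
-/

set_option autoImplicit false

namespace CfsgLib.Classical.Semisimple

open Module Polynomial

variable {F V : Type*} [Field F] [AddCommGroup V] [Module F V] [FiniteDimensional F V] {t : ℕ}

theorem finrank_finset_sup_of_indep {ι : Type*} {E : ι → Submodule F V} (hind : iSupIndep E)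
    (S : Finset ι) : finrank F ↥(S.sup E) = ∑ k ∈ S, finrank F (E k) := by
  classical
  induction S using Finset.induction_on with
  | empty => simp
  | insert k S hk ih =>
    rw [Finset.sup_insert, Finset.sum_insert hk, finrank_add_of_disjoint ?_, ih]
    refine (hind k).mono_right (Finset.sup_le fun i hi => ?_)
    exact le_iSup₂_of_le i (fun h => hk (h ▸ hi)) le_rfl

theorem eq_zero_of_forall_mem_iSup_ne {D : Fin t → Submodule F V} (hind : iSupIndep D)
    (htop : iSup D = ⊤) {x : V} (h : ∀ k, x ∈ ⨆ (i) (_ : i ≠ k), D i) : x = 0 := by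
  obtain ⟨c, hc⟩ := (Submodule.mem_iSup_finset_iff_exists_sum (s := Finset.univ) D x).mp
    (by simp only [Finset.mem_univ, iSup_pos, htop]; exact Submodule.mem_top)
  refine hc ▸ Finset.sum_eq_zero fun k _ => ?_
  have hk : (c k : V) ∈ ⨆ (i) (_ : i ≠ k), D i := by
    have e : (c k : V) = x - ∑ i ∈ Finset.univ.erase k, (c i : V) := by
      rw [← hc, ← Finset.add_sum_erase _ _ (Finset.mem_univ k)]; abel
    rw [e]
    refine Submodule.sub_mem _ (h k) (Submodule.sum_mem _ fun i hi => ?_)
    exact Submodule.mem_iSup_of_mem i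
      (Submodule.mem_iSup_of_mem (Finset.ne_of_mem_erase hi) (c i).2)
  exact (Submodule.mem_bot F).mp ((hind k).le_bot ⟨(c k).2, hk⟩)

/-- Maps of degree less than `r` fix every summand. -/
theorem fixes_of_aeval_eq_zero {f : Module.End F V} {D : Fin t → Submodule F V}
    (hind : iSupIndep D) (hne : ∀ k, D k ≠ ⊥) {σ : Equiv.Perm (Fin t)}
    (hσ : ∀ j, (D j).map f = D (σ j)) {r : ℕ} [hr : Fact r.Prime] (hσr : σ ^ r = 1)
    (hf : Function.Injective f) {Q : F[X]} (hQ : Q ≠ 0) (hdeg : Q.natDegree < r)
    (h : aeval f Q = 0) (k : Fin t) : σ k = k := by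
  by_contra hk
  obtain ⟨v, hv, hv0⟩ := Submodule.exists_mem_ne_zero_of_ne_bot (hne k)
  have hmem : ∀ i, (f ^ i) v ∈ D ((σ ^ i) k) := fun i => by
    rw [← map_pow_eq hσ]; exact Submodule.mem_map_of_mem hv
  have hper : Function.minimalPeriod σ k = r :=
    Function.minimalPeriod_eq_prime (by
      rw [Function.IsPeriodicPt, Function.IsFixedPt, ← Equiv.Perm.coe_pow, hσr]; rfl) hk
  have hinj : ∀ i < r, ∀ j < r, (σ ^ i) k = (σ ^ j) k → i = j := fun i hi j hj hij => by
    simp only [Equiv.Perm.coe_pow] at hij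
    exact Function.iterate_injOn_Iio_minimalPeriod (f := σ) (x := k)
      (by rw [hper]; exact hi) (by rw [hper]; exact hj) hij
  set d := Q.natDegree with hd
  have h0 := LinearMap.congr_fun h v
  rw [aeval_eq_sum_range, LinearMap.sum_apply, LinearMap.zero_apply, Finset.sum_range_succ,
    LinearMap.smul_apply] at h0
  have hrest : ∑ i ∈ Finset.range d, (Q.coeff i • f ^ i) v ∈ ⨆ (i) (_ : i ≠ (σ ^ d) k), D i := by
    refine Submodule.sum_mem _ fun i hi => ?_
    rw [Finset.mem_range] at hi
    refine Submodule.mem_iSup_of_mem ((σ ^ i) k) (Submodule.mem_iSup_of_mem ?_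
      ((D ((σ ^ i) k)).smul_mem (Q.coeff i) (hmem i)))
    intro he
    have := hinj i (by omega) d hdeg he
    omega
  have h1 : Q.coeff d • (f ^ d) v ∈ D ((σ ^ d) k) ⊓ ⨆ (i) (_ : i ≠ (σ ^ d) k), D i :=
    ⟨Submodule.smul_mem _ _ (hmem d), by
      rw [eq_neg_of_add_eq_zero_right h0]; exact Submodule.neg_mem _ hrest⟩
  have h2 := (Submodule.mem_bot F).mp ((hind _).le_bot h1)
  rcases smul_eq_zero.mp h2 with h3 | h3
  · exact hQ (leadingCoeff_eq_zero.mp h3)
  · refine hv0 ?_
    have hfd : Function.Injective (f ^ d : Module.End F V) := by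
      rw [Module.End.coe_pow]; exact hf.iterate d
    exact hfd (by rw [h3, map_zero])

/-- The representatives of the orbits of a permutation. -/
def orbitReps (σ : Equiv.Perm (Fin t)) (r : ℕ) : Finset (Fin t) :=
  Finset.univ.filter fun k => ∀ i ∈ Finset.range r, k ≤ (σ ^ i) k

variable {σ : Equiv.Perm (Fin t)} {r : ℕ}

theorem mem_orbitReps_iff (hr : 0 < r) (hσr : σ ^ r = 1) {k : Fin t} :
    k ∈ orbitReps σ r ↔ ∀ i : ℕ, k ≤ (σ ^ i) k := by
  rw [orbitReps, Finset.mem_filter]
  refine ⟨fun h i => ?_, fun h => ⟨Finset.mem_univ _, fun i _ => h i⟩⟩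
  rw [pow_eq_pow_mod i hσr]
  exact h.2 _ (Finset.mem_range.mpr (Nat.mod_lt _ hr))

theorem exists_pow_mem_orbitReps (hr : 0 < r) (hσr : σ ^ r = 1) (k : Fin t) :
    ∃ i < r, (σ ^ i) k ∈ orbitReps σ r := by
  obtain ⟨i, hi, hmin⟩ := Finset.exists_min_image (Finset.range r) (fun i => (σ ^ i) k)
    ⟨0, Finset.mem_range.mpr hr⟩
  refine ⟨i, Finset.mem_range.mp hi, (mem_orbitReps_iff hr hσr).mpr fun j => ?_⟩
  rw [← Equiv.Perm.mul_apply, ← pow_add, pow_eq_pow_mod (j + i) hσr]
  exact hmin _ (Finset.mem_range.mpr (Nat.mod_lt _ hr))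

theorem eq_of_mem_orbitReps (hr : 0 < r) (hσr : σ ^ r = 1) {k k' : Fin t}
    (hk : k ∈ orbitReps σ r) (hk' : k' ∈ orbitReps σ r) {i : ℕ} (hi : i < r)
    (h : (σ ^ i) k = k') : k = k' := by
  refine le_antisymm (h ▸ (mem_orbitReps_iff hr hσr).mp hk i) ?_
  have h2 := (mem_orbitReps_iff hr hσr).mp hk' (r - i)
  rwa [← h, ← Equiv.Perm.mul_apply, ← pow_add, Nat.sub_add_cancel hi.le, hσr,
    Equiv.Perm.one_apply, h] at h2

theorem le_mul_card_orbitReps (hr : 0 < r) (hσr : σ ^ r = 1) :
    t ≤ r * (orbitReps σ r).card := by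
  classical
  have : (Finset.univ : Finset (Fin t)) ⊆
      (orbitReps σ r).biUnion fun k => (Finset.range r).image fun i => (σ ^ i) k := by
    intro k _
    obtain ⟨i, hi, hm⟩ := exists_pow_mem_orbitReps hr hσr k
    refine Finset.mem_biUnion.mpr ⟨_, hm, Finset.mem_image.mpr ⟨(r - i) % r,
      Finset.mem_range.mpr (Nat.mod_lt _ hr), ?_⟩⟩
    rw [← pow_eq_pow_mod (r - i) hσr, ← Equiv.Perm.mul_apply, ← pow_add,
      Nat.sub_add_cancel hi.le, hσr, Equiv.Perm.one_apply]
  have h := (Finset.card_le_card this).trans (Finset.card_biUnion_le_card_mul _ _ r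
    fun k _ => Finset.card_image_le.trans (Finset.card_range r).le)
  rw [Finset.card_univ, Fintype.card_fin, mul_comm] at h
  exact h

theorem add_orbitReps_card_le_of_moved [hr : Fact r.Prime] (hσr : σ ^ r = 1) {k : Fin t}
    (hk : σ k ≠ k) : r - 1 + (orbitReps σ r).card ≤ t := by
  classical
  have hrp := hr.out.pos
  obtain ⟨i0, -, hm⟩ := exists_pow_mem_orbitReps hrp hσr k
  set k0 := (σ ^ i0) k with hk0
  have hk0m : σ k0 ≠ k0 := by
    intro h
    refine hk ((σ ^ i0).injective ?_)
    rw [← hk0, ← Equiv.Perm.mul_apply, ← pow_succ, pow_succ', Equiv.Perm.mul_apply, ← hk0, h]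
  have hper : Function.minimalPeriod σ k0 = r :=
    Function.minimalPeriod_eq_prime (by
      rw [Function.IsPeriodicPt, Function.IsFixedPt, ← Equiv.Perm.coe_pow, hσr]; rfl) hk0m
  have hsub : (Finset.Ico 1 r).image (fun i => (σ ^ i) k0) ⊆ Finset.univ \ orbitReps σ r := by
    intro x hx
    obtain ⟨i, hi, rfl⟩ := Finset.mem_image.mp hx
    rw [Finset.mem_Ico] at hi
    refine Finset.mem_sdiff.mpr ⟨Finset.mem_univ _, fun hmem => ?_⟩
    have h1 := (eq_of_mem_orbitReps hrp hσr hm hmem hi.2 rfl).symm
    simp only [Equiv.Perm.coe_pow] at h1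
    have := Function.iterate_injOn_Iio_minimalPeriod (f := σ) (x := k0)
      (show i ∈ Set.Iio _ by rw [hper]; exact hi.2)
      (show 0 ∈ Set.Iio _ by rw [hper]; exact hrp) (h1.trans (Function.iterate_zero_apply σ k0).symm)
    omega
  have h := Finset.card_le_card hsub
  rw [Finset.card_image_of_injOn ?_, Nat.card_Ico, Finset.card_sdiff_of_subset (Finset.subset_univ _),
    Finset.card_univ, Fintype.card_fin] at h
  · have := (Finset.card_le_univ (orbitReps σ r))
    rw [Fintype.card_fin] at this
    omega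
  · intro i hi j hj hij
    rw [Finset.mem_coe, Finset.mem_Ico] at hi hj
    simp only [Equiv.Perm.coe_pow] at hij
    exact Function.iterate_injOn_Iio_minimalPeriod (f := σ) (x := k0)
      (show i ∈ Set.Iio _ by rw [hper]; exact hi.2) (show j ∈ Set.Iio _ by rw [hper]; exact hj.2) hij

variable {f : Module.End F V} {D : Fin t → Submodule F V}

theorem map_pow_iSup_ne_le (hσ : ∀ j, (D j).map f = D (σ j)) (e : ℕ) (m : Fin t) :
    (⨆ (i) (_ : i ≠ m), D i).map (f ^ e) ≤ ⨆ (i) (_ : i ≠ (σ ^ e) m), D i := by
  simp only [Submodule.map_iSup, map_pow_eq hσ]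
  exact iSup₂_le fun i hi => le_iSup₂ (f := fun i (_ : i ≠ (σ ^ e) m) => D i) ((σ ^ e) i)
    (fun h => hi ((σ ^ e).injective h))

/-- The fixed space has dimension at most that of one summand for each orbit. -/
theorem finrank_ker_le_orbitReps (hind : iSupIndep D) (htop : iSup D = ⊤) {a : ℕ}
    (hd : ∀ k, finrank F (D k) = a) (hσ : ∀ j, (D j).map f = D (σ j)) (hr : 0 < r)
    (hσr : σ ^ r = 1) :
    finrank F ↥(LinearMap.ker (f - (1 : F) • 1)) ≤ a * (orbitReps σ r).card := by
  classical
  set S := Finset.univ \ orbitReps σ r with hS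
  have hdis : Disjoint (LinearMap.ker (f - (1 : F) • 1)) (S.sup D) := by
    rw [Submodule.disjoint_def]
    intro x hx hxS
    refine eq_zero_of_forall_mem_iSup_ne hind htop fun k => ?_
    have hfix : f x = x := by simpa [sub_eq_zero] using hx
    have hfe : ∀ e : ℕ, (f ^ e) x = x := fun e => by
      rw [Module.End.coe_pow]; exact Function.iterate_fixed hfix e
    obtain ⟨i, hi, hm⟩ := exists_pow_mem_orbitReps hr hσr k
    have h1 : x ∈ ⨆ (l) (_ : l ≠ (σ ^ i) k), D l := by
      refine (Finset.sup_le fun l hl => ?_ : S.sup D ≤ _) hxS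
      refine le_iSup₂ (f := fun l (_ : l ≠ (σ ^ i) k) => D l) l fun h => ?_
      exact (Finset.mem_sdiff.mp hl).2 (h ▸ hm)
    have h2 := map_pow_iSup_ne_le hσ (r - i) _ ⟨x, h1, hfe _⟩
    rwa [← Equiv.Perm.mul_apply, ← pow_add, Nat.sub_add_cancel hi.le, hσr,
      Equiv.Perm.one_apply] at h2
  have h1 := Submodule.finrank_le (LinearMap.ker (f - (1 : F) • 1) ⊔ S.sup D)
  rw [finrank_add_of_disjoint hdis, finrank_finset_sup_of_indep hind,
    Finset.sum_const_nat fun k _ => hd k] at h1
  have h2 := finrank_finset_sup_of_indep hind Finset.univ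
  rw [Finset.sup_univ_eq_iSup, htop, finrank_top, Finset.sum_const_nat fun k _ => hd k] at h2
  have h3 : S.card + (orbitReps σ r).card = (Finset.univ : Finset (Fin t)).card :=
    Finset.card_sdiff_add_card_eq_card (Finset.subset_univ _)
  rw [h2, ← h3, Nat.add_mul] at h1
  rw [mul_comm]
  omega

/-- For lines and `r`-th power one the fixed space has dimension at least the number of orbits. -/
theorem card_orbitReps_le_finrank_ker [hr : Fact r.Prime] (hind : iSupIndep D)
    (hd : ∀ k, finrank F (D k) = 1) (hσ : ∀ j, (D j).map f = D (σ j))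
    (hσr : σ ^ r = 1) (hf : f ^ r = 1) (hrF : (r : F) ≠ 0)
    (hroot : ∀ c : F, c ^ r = 1 → c = 1) :
    (orbitReps σ r).card ≤ finrank F ↥(LinearMap.ker (f - (1 : F) • 1)) := by
  classical
  have hrp := hr.out.pos
  let g : Module.End F V := ∑ i ∈ Finset.range r, f ^ i
  have hg : ∀ v, g v ∈ LinearMap.ker (f - (1 : F) • 1) := fun v => by
    have h : f * g - g = 0 := by
      have h1 := mul_geom_sum f r
      rw [hf, sub_self, sub_mul, one_mul] at h1
      exact h1
    simpa using LinearMap.congr_fun h v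
  choose v hv hv0 using fun k => Submodule.exists_mem_ne_zero_of_ne_bot
    (show D k ≠ ⊥ by intro h; have := hd k; rw [h, finrank_bot] at this; omega)
  have hmem : ∀ k i, (f ^ i) (v k) ∈ D ((σ ^ i) k) := fun k i => by
    rw [← map_pow_eq hσ]; exact Submodule.mem_map_of_mem (hv k)
  have hgv : ∀ k ∈ orbitReps σ r, ∃ c : F, c ≠ 0 ∧
      g (v k) - c • v k ∈ ⨆ (i) (_ : i ≠ k), D i := by
    intro k hk
    by_cases hfix : σ k = k
    · obtain ⟨μ, hμ⟩ : ∃ μ : F, f (v k) = μ • v k := by
        have hm : f (v k) ∈ D k := by simpa [hfix] using hmem k 1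
        obtain ⟨c, hc⟩ := exists_smul_eq_of_finrank_eq_one (hd k)
          (x := (⟨v k, hv k⟩ : D k)) (fun h => hv0 k (congrArg Subtype.val h)) ⟨f (v k), hm⟩
        exact ⟨c, (congrArg Subtype.val hc).symm⟩
      have hpow : ∀ i : ℕ, (f ^ i) (v k) = μ ^ i • v k := by
        intro i
        induction i with
        | zero => simp
        | succ i ih => rw [pow_succ', Module.End.mul_apply, ih, map_smul, hμ, smul_smul, pow_succ]
      have hμ1 : μ = 1 := by
        refine hroot μ ?_
        have h1 := hpow r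
        rw [hf, Module.End.one_apply] at h1
        by_contra hne
        refine hv0 k ((smul_eq_zero.mp (show (1 - μ ^ r) • v k = 0 by
          rw [sub_smul, one_smul, ← h1, sub_self])).resolve_left (sub_ne_zero.mpr (Ne.symm hne)))
      refine ⟨(r : F), hrF, ?_⟩
      have : g (v k) = (r : F) • v k := by
        simp [g, hpow, hμ1, Nat.cast_smul_eq_nsmul]
      rw [this, sub_self]
      exact Submodule.zero_mem _
    · refine ⟨1, one_ne_zero, ?_⟩
      obtain ⟨r', hr'⟩ : ∃ r', r = r' + 1 := ⟨r - 1, by omega⟩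
      have e : g (v k) - (1 : F) • v k = ∑ i ∈ Finset.range r', (f ^ (i + 1)) (v k) := by
        simp [g, hr', Finset.sum_range_succ', LinearMap.sum_apply]
      rw [e]
      refine Submodule.sum_mem _ fun i hi => Submodule.mem_iSup_of_mem _
        (Submodule.mem_iSup_of_mem ?_ (hmem k (i + 1)))
      rw [Finset.mem_range] at hi
      intro h
      have hper : Function.minimalPeriod σ k = r :=
        Function.minimalPeriod_eq_prime (by
          rw [Function.IsPeriodicPt, Function.IsFixedPt, ← Equiv.Perm.coe_pow, hσr]; rfl) hfix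
      rw [Equiv.Perm.coe_pow] at h
      exact Function.not_isPeriodicPt_of_pos_of_lt_minimalPeriod (f := σ) (x := k)
        (n := i + 1) (by omega) (by omega) h
  have hcross : ∀ k ∈ orbitReps σ r, ∀ k' ∈ orbitReps σ r, k' ≠ k →
      g (v k') ∈ ⨆ (i) (_ : i ≠ k), D i := by
    intro k hk k' hk' hne
    simp only [g, LinearMap.sum_apply]
    refine Submodule.sum_mem _ fun i hi => Submodule.mem_iSup_of_mem _
      (Submodule.mem_iSup_of_mem ?_ (hmem k' i))
    intro h
    exact hne (eq_of_mem_orbitReps hrp hσr hk' hk (Finset.mem_range.mp hi) h)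
  have hli : LinearIndependent F (fun k : {k // k ∈ orbitReps σ r} =>
      (⟨g (v k), hg _⟩ : LinearMap.ker (f - (1 : F) • 1))) := by
    refine Fintype.linearIndependent_iff.mpr fun c hc k => ?_
    have h0 : ∑ i, c i • g (v (i : Fin t)) = 0 := by
      simpa using congrArg Subtype.val hc
    rw [← Finset.add_sum_erase _ _ (Finset.mem_univ k)] at h0
    obtain ⟨d, hd0, hd'⟩ := hgv k k.2
    have hrest : ∑ i ∈ Finset.univ.erase k, c i • g (v (i : Fin t)) ∈
        ⨆ (i) (_ : i ≠ (k : Fin t)), D i :=
      Submodule.sum_mem _ fun i hi => Submodule.smul_mem _ _ (hcross k k.2 i i.2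
        fun h => Finset.ne_of_mem_erase hi (Subtype.ext h))
    have h1 : (c k * d) • v (k : Fin t) ∈ ⨆ (i) (_ : i ≠ (k : Fin t)), D i := by
      have h2 := Submodule.sub_mem _
        (show c k • g (v (k : Fin t)) ∈ ⨆ (i) (_ : i ≠ (k : Fin t)), D i by
          rw [eq_neg_of_add_eq_zero_left h0]; exact Submodule.neg_mem _ hrest)
        (Submodule.smul_mem _ (c k) hd')
      rwa [smul_sub, sub_sub_cancel, smul_smul] at h2
    have h3 := (Submodule.mem_bot F).mp ((hind k).le_bot ⟨Submodule.smul_mem _ _ (hv k), h1⟩)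
    exact (mul_eq_zero.mp ((smul_eq_zero.mp h3).resolve_right (hv0 k))).resolve_right hd0
  simpa using hli.fintype_card_le_finrank

/-! ### constructions -/

theorem iSupIndep_of_finrank_eq {D : Fin t → Submodule F V} {a : ℕ}
    (hd : ∀ k, finrank F (D k) = a) (htop : iSup D = ⊤) (hV : finrank F V = t * a) :
    iSupIndep D := by
  classical
  have hsum : ∀ S : Finset (Fin t), finrank F ↥(S.sup D) ≤ S.card * a := by
    intro S
    induction S using Finset.induction_on with
    | empty => simp
    | insert k S hk ih =>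
      rw [Finset.sup_insert, Finset.card_insert_of_notMem hk, Nat.add_mul, one_mul]
      have h := Submodule.finrank_add_le_finrank_add_finrank (D k) (S.sup D)
      rw [hd] at h
      omega
  intro k
  set W := (Finset.univ.erase k).sup D with hW
  have hWle : (⨆ (i) (_ : i ≠ k), D i) ≤ W :=
    iSup₂_le fun i hi => Finset.le_sup (f := D) (Finset.mem_erase.mpr ⟨hi, Finset.mem_univ i⟩)
  refine Disjoint.mono_right hWle ?_
  have h1 := Submodule.finrank_sup_add_finrank_inf_eq (D k) W
  have h2 : D k ⊔ W = ⊤ := by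
    rw [hW, ← Finset.sup_insert, Finset.insert_erase (Finset.mem_univ k),
      Finset.sup_univ_eq_iSup, htop]
  rw [h2, finrank_top, hV, hd] at h1
  have h3 := hsum (Finset.univ.erase k)
  rw [Finset.card_erase_of_mem (Finset.mem_univ k), Finset.card_univ, Fintype.card_fin,
    Nat.sub_one_mul] at h3
  have ht := Nat.le_mul_of_pos_left a (Nat.lt_of_le_of_lt (Nat.zero_le _) k.2)
  rw [disjoint_iff, ← Submodule.finrank_eq_zero (R := F)]
  rw [← hW] at h3
  omega

/-- A fixed space large enough gives a decomposition into invariant subspaces. -/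
theorem exists_invariant_decomposition {f : Module.End F V} (hs : f.IsSemisimple) {c a : ℕ}
    (hc : 0 < c) (hP : Pieces f (LinearMap.range (f - (1 : F) • 1)) c) {T : ℕ} :
    ∀ A B : Submodule F V, A ≤ LinearMap.ker (f - (1 : F) • 1) →
      B ≤ LinearMap.range (f - (1 : F) • 1) → B.map f ≤ B → finrank F A + finrank F B = T * a →
      T * (a % c) ≤ finrank F A →
      ∃ D : Fin T → Submodule F V, (∀ k, finrank F (D k) = a) ∧ (∀ k, (D k).map f ≤ D k) ∧
        A ⊔ B ≤ iSup D := by
  induction T with
  | zero =>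
    intro A B _ _ _ h _
    refine ⟨Fin.elim0, fun k => k.elim0, fun k => k.elim0, ?_⟩
    rw [Submodule.finrank_eq_zero.mp (show finrank F A = 0 by omega),
      Submodule.finrank_eq_zero.mp (show finrank F B = 0 by omega)]
    simp
  | succ T ih =>
    intro A B hA hB hBinv hsum hle
    obtain ⟨m, hm⟩ := (hP.mono hB).dvd_finrank hs hc hBinv
    rw [Nat.succ_mul] at hsum hle
    obtain ⟨l, hl⟩ : ∃ l, l = min (a / c) m := ⟨_, rfl⟩
    have hdiv := Nat.div_add_mod a c
    have hlc : l * c ≤ a / c * c := Nat.mul_le_mul_right c (hl ▸ min_le_left _ _)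
    have hlm : l * c ≤ finrank F B := by
      rw [hm, mul_comm c m]; exact Nat.mul_le_mul_right c (hl ▸ min_le_right _ _)
    rw [mul_comm c] at hdiv
    have hcase : l * c = a / c * c ∨ l * c = finrank F B := by
      rcases min_choice (a / c) m with h | h
      · left; rw [hl, h]
      · right; rw [hl, h, hm, mul_comm]
    have hmul : T * (a % c) ≤ T * a := Nat.mul_le_mul_left T (Nat.mod_le a c)
    obtain ⟨B1, hB1B, hB1, hB1d⟩ := (hP.mono hB).exists_subspace hs hBinv l hlm
    obtain ⟨B2, hB2B, hB2, hBsup, hBdis⟩ := exists_invariant_compl_in hs hB1 hBinv hB1B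
    have hAj : a - l * c ≤ finrank F A := by omega
    obtain ⟨A1', hA1d⟩ := exists_submodule_finrank_eq (M := ↥A) (a - l * c) hAj
    set A1 := A1'.map A.subtype with hA1
    have hA1A : A1 ≤ A := Submodule.map_subtype_le _ _
    obtain ⟨C, hC⟩ := Submodule.exists_isCompl A1'
    set A2 := C.map A.subtype with hA2
    have hA2A : A2 ≤ A := Submodule.map_subtype_le _ _
    have hAsup : A1 ⊔ A2 = A := by
      rw [hA1, hA2, ← Submodule.map_sup, hC.sup_eq_top, Submodule.map_top, Submodule.range_subtype]
    have hA2d : finrank F A2 + (a - l * c) = finrank F A := by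
      rw [hA2, Submodule.finrank_map_subtype_eq, ← Submodule.finrank_add_eq_of_isCompl hC, hA1d,
        add_comm]
    have hB2d : finrank F B2 + l * c = finrank F B := by
      rw [← hBsup, finrank_add_of_disjoint hBdis, hB1d, add_comm]
    obtain ⟨D, hDd, hDi, hDsup⟩ := ih A2 B2 (hA2A.trans hA) (hB2B.trans hB) hB2 (by omega)
      (by omega)
    refine ⟨Fin.cons (A1 ⊔ B1) D, ?_, ?_, ?_⟩
    · refine Fin.cases ?_ ?_
      · rw [Fin.cons_zero, finrank_add_of_disjoint ((isCompl_ker_range hs 1).disjoint.mono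
          (hA1A.trans hA) (hB1B.trans hB)), hA1, Submodule.finrank_map_subtype_eq, hA1d, hB1d]
        omega
      · intro k; rw [Fin.cons_succ]; exact hDd k
    · refine Fin.cases ?_ ?_
      · rw [Fin.cons_zero]
        refine sup_map_le (map_le_of_forall_mem fun x hx => ?_) hB1
        have h2 : f x = x := by simpa [sub_eq_zero] using hA (hA1A hx)
        rwa [h2]
      · intro k; rw [Fin.cons_succ]; exact hDi k
    · rw [← hAsup, ← hBsup]
      have h0 : A1 ⊔ B1 ≤ iSup (Fin.cons (A1 ⊔ B1) D : Fin (T + 1) → Submodule F V) :=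
        le_iSup_of_le 0 (by rw [Fin.cons_zero])
      have h1 : A2 ⊔ B2 ≤ iSup (Fin.cons (A1 ⊔ B1) D : Fin (T + 1) → Submodule F V) :=
        hDsup.trans (iSup_le fun k => le_iSup_of_le k.succ (by rw [Fin.cons_succ]))
      exact sup_le (sup_le (le_sup_left.trans h0) (le_sup_left.trans h1))
        (sup_le (le_sup_right.trans h0) (le_sup_right.trans h1))

variable [Fintype F] [hr : Fact r.Prime]

/-- With few orbit types and enough fixed vectors a map of order `r` permutes the lines of a
basis. -/
theorem exists_lines_of_orderOf_eq (hrF : (r : F) ≠ 0)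
    (hc : orderOf (Fintype.card F : ZMod r) = r - 1) {f : Module.End F V} (hf : f ^ r = 1)
    (hle : finrank F V ≤ r * finrank F ↥(LinearMap.ker (f - (1 : F) • 1))) :
    ∃ (D : Fin (finrank F V) → Submodule F V) (σ : Equiv.Perm (Fin (finrank F V))),
      (∀ k, finrank F (D k) = 1) ∧ iSupIndep D ∧ iSup D = ⊤ ∧ ∀ k, (D k).map f = D (σ k) := by
  classical
  obtain ⟨r', hr'⟩ : ∃ r', r = r' + 1 := ⟨r - 1, by have := hr.out.pos; omega⟩
  set K := LinearMap.ker (f - (1 : F) • 1) with hK
  set R := LinearMap.range (f - (1 : F) • 1) with hR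
  have hs := isSemisimple_of_pow_eq_one hrF hf
  obtain ⟨P, hP, hdeg⟩ : ∃ P : F[X], Irreducible P ∧ P = cyclotomic r F := by
    refine ⟨_, ?_, rfl⟩
    obtain ⟨P, hP, hd⟩ := WfDvdMonoid.exists_irreducible_factor (a := cyclotomic r F)
      (fun h => by
        have := natDegree_eq_zero_of_isUnit h
        rw [natDegree_cyclotomic, Nat.totient_prime hr.out] at this
        have := hr.out.two_le
        omega) (cyclotomic_ne_zero r F)
    refine (associated_of_dvd_of_natDegree_le hd (cyclotomic_ne_zero r F) ?_).irreducible hP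
    rw [natDegree_cyclotomic, Nat.totient_prime hr.out, natDegree_of_dvd_cyclotomic hrF hP hd, hc]
  have hRinv : R.map f ≤ R := by
    have := range_map_le f (X - 1 : F[X])
    simpa [hR] using this
  have hkill : ∀ y ∈ R, aeval f (cyclotomic r F) y = 0 := by
    rintro _ ⟨y, rfl⟩
    have hX : f - (1 : F) • 1 = aeval f (X - 1 : F[X]) := by simp
    rw [hX, ← Module.End.mul_apply, ← map_mul, cyclotomic_prime_mul_X_sub_one]
    simp [hf]
  set fR := f.restrict (fun x hx => mem_of_map_le hRinv hx) with hfR
  have hco : ∀ (Q : F[X]) (x : R), (aeval fR Q x : V) = aeval f Q (x : V) := by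
    intro Q
    induction Q using Polynomial.induction_on' with
    | add p q hp hq => intro x; simp [hp, hq]
    | monomial k c =>
      intro x
      simp only [aeval_monomial, Module.End.mul_apply, Module.algebraMap_end_apply,
        Submodule.coe_smul]
      congr 1
      induction k generalizing x with
      | zero => simp
      | succ k ih => rw [pow_succ, pow_succ, Module.End.mul_apply, Module.End.mul_apply, ih]; rfl
  have hae : aeval fR P = 0 := LinearMap.ext fun x => Subtype.ext (by
    rw [hco, hdeg, hkill x x.2]; rfl)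
  obtain ⟨s, hs', e, he⟩ := exists_equiv_root hP hae
  rw [hdeg, natDegree_cyclotomic, Nat.totient_prime hr.out, hr', Nat.add_sub_cancel] at hs'
  have hsum := Submodule.finrank_add_eq_of_isCompl (isCompl_ker_range hs (1 : F))
  rw [← hK, ← hR] at hsum
  have hsK : s ≤ finrank F K := by
    rw [← hsum, hs', hr', Nat.add_mul, one_mul] at hle
    refine Nat.le_of_mul_le_mul_right ?_ (show 0 < r' by have := hr.out.two_le; omega)
    rw [mul_comm (finrank F K) r']
    omega
  obtain ⟨l, hl⟩ := Nat.exists_eq_add_of_le hsK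
  let bK := Module.finBasisOfFinrankEq F K hl
  let w : Fin s → V := fun i => ((e.symm (Pi.single i 1) : R) : V)
  let v : Fin s → V := fun i => (bK (Fin.castAdd l i) : V) + w i
  let fam : (Fin s × Fin r) ⊕ Fin l → V :=
    Sum.elim (fun p => (f ^ (p.2 : ℕ)) (v p.1)) (fun j => (bK (Fin.natAdd s j) : V))
  set S := Submodule.span F (Set.range fam) with hS
  have hfix : ∀ u : K, f u = u := fun u => by
    simpa [hK, sub_eq_zero] using u.2
  let π : (Fin s × Fin r) ⊕ Fin l → (Fin s × Fin r) ⊕ Fin l :=
    Sum.map (Prod.map id (finRotate r)) id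
  have hπ : ∀ i, f (fam i) = fam (π i) := by
    rintro (⟨i, k⟩ | j)
    · simp only [fam, π, Sum.map_inl, Sum.elim_inl, Prod.map_apply, id_eq, ← Module.End.mul_apply,
        ← pow_succ']
      subst hr'
      rw [coe_finRotate]
      split_ifs with h
      · rw [pow_zero, h, Fin.val_last, hf]
      · rfl
    · exact hfix _
  have hSinv : S.map f ≤ S := by
    rw [hS, Submodule.map_span, Submodule.span_le]
    rintro _ ⟨_, ⟨i, rfl⟩, rfl⟩
    rw [hπ]
    exact Submodule.subset_span ⟨π i, rfl⟩
  have hv : ∀ i, v i ∈ S := fun i => Submodule.subset_span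
    ⟨Sum.inl (i, ⟨0, hr.out.pos⟩), by simp [fam]⟩
  have hu : ∀ i, (bK (Fin.castAdd l i) : V) ∈ S := by
    intro i
    have hpow : ∀ k : ℕ, (f ^ k) (bK (Fin.castAdd l i) : V) = (bK (Fin.castAdd l i) : V) := fun k => by
      rw [Module.End.coe_pow]; exact Function.iterate_fixed (hfix _) k
    have h1 : aeval f (cyclotomic r F) (v i) = (r : F) • (bK (Fin.castAdd l i) : V) := by
      show aeval f (cyclotomic r F) ((bK (Fin.castAdd l i) : V) + w i) = _
      rw [map_add, hkill (w i) (e.symm (Pi.single i 1)).2, add_zero]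
      simp [cyclotomic_prime, hpow, Nat.cast_smul_eq_nsmul]
    have h2 := aeval_mem hSinv (cyclotomic r F) (hv i)
    rw [h1] at h2
    exact (S.smul_mem_iff hrF).mp h2
  have hw : ∀ i, w i ∈ S := fun i => by
    simpa [v] using S.sub_mem (hv i) (hu i)
  have hKS : K ≤ S := by
    intro x hx
    have h := congrArg Subtype.val (bK.sum_repr ⟨x, hx⟩)
    simp only [Submodule.coe_sum, Submodule.coe_smul] at h
    rw [← h]
    refine S.sum_mem fun i _ => S.smul_mem _ ?_
    refine Fin.addCases (fun i => hu i) (fun j => ?_) i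
    exact Submodule.subset_span ⟨Sum.inr j, rfl⟩
  have heval : ∀ (Q : F[X]) (x : R), e (aeval fR Q x) = AdjoinRoot.mk P Q • e x := by
    intro Q
    induction Q using Polynomial.induction_on' with
    | add p q hp hq => intro x; simp [hp, hq, add_smul]
    | monomial k c =>
      intro x
      have hk : ∀ x, e ((fR ^ k) x) = AdjoinRoot.root P ^ k • e x := by
        induction k with
        | zero => simp
        | succ k ih => intro x; rw [pow_succ', Module.End.mul_apply, he, ih, smul_smul, pow_succ']
      rw [aeval_monomial, Module.End.mul_apply, Module.algebraMap_end_apply, map_smul, hk,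
        ← C_mul_X_pow_eq_monomial, map_mul, map_pow, AdjoinRoot.mk_C, AdjoinRoot.mk_X, mul_smul,
        ← AdjoinRoot.algebraMap_eq, algebraMap_smul]
  have hRS : R ≤ S := by
    intro x hx
    choose Q hQ using fun i => AdjoinRoot.mk_surjective (e ⟨x, hx⟩ i)
    have h1 : (⟨x, hx⟩ : R) = ∑ i, aeval fR (Q i) (e.symm (Pi.single i 1)) := e.injective (by
      simp only [map_sum, heval, LinearEquiv.apply_symm_apply, hQ]
      funext j
      simp [Finset.sum_apply, Pi.single_apply])
    have h2 := congrArg Subtype.val h1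
    simp only [Submodule.coe_sum, hco] at h2
    rw [show x = _ from h2]
    exact S.sum_mem fun i _ => aeval_mem hSinv _ (hw i)
  have htop : ⊤ ≤ S := by
    rw [← (isCompl_ker_range hs (1 : F)).sup_eq_top]
    exact sup_le hKS hRS
  have hcard : Fintype.card ((Fin s × Fin r) ⊕ Fin l) = finrank F V := by
    simp only [Fintype.card_sum, Fintype.card_prod, Fintype.card_fin]
    rw [← hsum, hs', hl, hr', Nat.mul_add, mul_one]
    omega
  let b := basisOfTopLeSpanOfCardEqFinrank fam htop hcard
  let q : Fin (finrank F V) ≃ (Fin s × Fin r) ⊕ Fin l := (Fintype.equivFinOfCardEq hcard).symm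
  let πe : Equiv.Perm ((Fin s × Fin r) ⊕ Fin l) :=
    Equiv.sumCongr (Equiv.prodCongr (Equiv.refl _) (finRotate r)) (Equiv.refl _)
  obtain ⟨D, hD⟩ := exists_decomposition_of_monomial b
    (f := f) (Function.HasLeftInverse.injective ⟨(f ^ r' : Module.End F V), fun x => by
      rw [← Module.End.mul_apply, ← pow_succ, ← hr', hf, Module.End.one_apply]⟩) π
    (fun i => by
      rw [coe_basisOfTopLeSpanOfCardEqFinrank, hπ]
      exact Submodule.mem_span_singleton_self _)
    (a := 1) (mul_one _).symm (fun k => {q k}) ((q.trans πe).trans q.symm)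
    (fun k => Finset.card_singleton _)
    (fun i j hij => Finset.disjoint_singleton.mpr fun h => hij (q.injective h))
    (fun k => by
      rw [Finset.image_singleton]
      simp only [Equiv.trans_apply, Equiv.apply_symm_apply]
      rfl)
  exact ⟨D, _, hD⟩

omit hr in
/-- A map whose `r`-th power is a non-power scalar permutes the summands of some decomposition,
provided `r` divides the dimension. -/
theorem exists_decomposition_of_nonpower [hr : Fact r.Prime] {f : Module.End F V} {z : F}
    (hz : ∀ b : F, b ^ r ≠ z) (hf : f ^ r = z • 1) {a : ℕ} (hat : finrank F V = t * a) :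
    ∃ (D : Fin t → Submodule F V) (σ : Equiv.Perm (Fin t)), (∀ k, finrank F (D k) = a) ∧
      iSupIndep D ∧ iSup D = ⊤ ∧ ∀ k, (D k).map f = D (σ k) := by
  classical
  have hP := irreducible_X_pow_sub_C_of_forall hz
  have hae : aeval f (X ^ r - C z : F[X]) = 0 := by simp [hf, Algebra.algebraMap_eq_smul_one]
  obtain ⟨m, hm, e, he⟩ := exists_equiv_root hP hae
  rw [natDegree_X_pow_sub_C] at hm
  let bF := (AdjoinRoot.powerBasis hP.ne_zero).basis.reindex
    (finCongr (show (AdjoinRoot.powerBasis hP.ne_zero).dim = r by simp))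
  let b : Basis ((_ : Fin m) × Fin r) F V := (Pi.basis fun _ : Fin m => bF).map e.symm
  let π : (_ : Fin m) × Fin r → (_ : Fin m) × Fin r := fun p => ⟨p.1, finRotate r p.2⟩
  have hb : ∀ p, f (b p) ∈ Submodule.span F {b (π p)} := by
    rintro ⟨i, k⟩
    obtain ⟨r', rfl⟩ : ∃ r', r = r' + 1 := ⟨r - 1, by have := hr.out.pos; omega⟩
    have hbk : ∀ k : Fin (r' + 1), b ⟨i, k⟩ =
        e.symm (Pi.single i (AdjoinRoot.root (X ^ (r' + 1) - C z : F[X]) ^ (k : ℕ))) := by
      intro k
      simp [b, bF, PowerBasis.coe_basis]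
    rw [Submodule.mem_span_singleton]
    refine ⟨if k = Fin.last r' then z else 1, e.injective ?_⟩
    rw [map_smul, he, hbk, hbk, LinearEquiv.apply_symm_apply, LinearEquiv.apply_symm_apply]
    simp only [π, coe_finRotate]
    rw [← Pi.single_smul, ← Pi.single_smul, smul_eq_mul, ← pow_succ']
    congr 1
    split_ifs with h
    · subst h
      have h1 := AdjoinRoot.eval₂_root (X ^ (r' + 1) - C z : F[X])
      simp only [eval₂_sub, eval₂_X_pow, eval₂_C, sub_eq_zero] at h1
      rw [pow_zero, Fin.val_last, h1, Algebra.smul_def, mul_one, AdjoinRoot.algebraMap_eq]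
    · simp
  have hinj : Function.Injective f := fun x y hxy => e.injective (by
    have h := congrArg e hxy
    rw [he, he] at h
    have := Fact.mk hP
    exact smul_right_injective _ (fun h0 => by
      have h1 := AdjoinRoot.eval₂_root (X ^ r - C z : F[X])
      simp only [eval₂_sub, eval₂_X_pow, eval₂_C, sub_eq_zero, h0, zero_pow hr.out.ne_zero] at h1
      exact hz 0 (by
        rw [zero_pow hr.out.ne_zero]
        exact ((map_eq_zero (AdjoinRoot.of (X ^ r - C z : F[X]))).mp h1.symm).symm)) h)
  by_cases hra : r ∣ a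
  · obtain ⟨β, rfl⟩ := hra
    have hmβ : m = t * β := Nat.eq_of_mul_eq_mul_right hr.out.pos (by rw [← hm, hat]; ring)
    subst hmβ
    let part : Fin t → Finset ((_ : Fin (t * β)) × Fin r) := fun j =>
      Finset.univ.filter fun p => (finProdFinEquiv.symm p.1).1 = j
    obtain ⟨D, hD⟩ := exists_decomposition_of_monomial b hinj π hb hat part 1
      (fun j => by
        have : part j = ((Finset.univ : Finset (Fin β × Fin r)).image
            fun q => ⟨finProdFinEquiv (j, q.1), q.2⟩) := by
          ext ⟨i, k⟩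
          simp only [part, Finset.mem_filter, Finset.mem_univ, true_and, Finset.mem_image]
          constructor
          · intro h
            refine ⟨((finProdFinEquiv.symm i).2, k), ?_⟩
            rw [← h, Prod.mk.eta, Equiv.apply_symm_apply]
          · rintro ⟨q, hq⟩
            obtain ⟨rfl, -⟩ := Sigma.mk.inj hq
            simp
        rw [this, Finset.card_image_of_injective _ fun q q' h => by
          obtain ⟨h1, h2⟩ := Sigma.mk.inj h
          exact Prod.ext (congrArg Prod.snd (finProdFinEquiv.injective h1)) (eq_of_heq h2)]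
        simp [mul_comm])
      (fun i j hij => Finset.disjoint_left.mpr fun p hp hp' =>
        hij ((Finset.mem_filter.mp hp).2.symm.trans (Finset.mem_filter.mp hp').2))
      (fun j => by
        ext ⟨i, k⟩
        simp only [part, π, Finset.mem_filter, Finset.mem_univ, true_and, Finset.mem_image,
          Equiv.Perm.one_apply]
        constructor
        · rintro ⟨⟨i', k'⟩, h, h'⟩
          obtain ⟨rfl, -⟩ := Sigma.mk.inj h'
          exact h
        · exact fun h => ⟨⟨i, (finRotate r).symm k⟩, h, by simp⟩)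
    exact ⟨D, 1, hD⟩
  · have hrt : r ∣ t := ((hr.out.dvd_mul).mp (by rw [← hat, hm]; exact dvd_mul_left r m)).resolve_right hra
    obtain ⟨u, rfl⟩ := hrt
    have hmu : m = u * a := Nat.eq_of_mul_eq_mul_right hr.out.pos (by rw [← hm, hat]; ring)
    subst hmu
    let q : Fin (r * u) ≃ Fin r × Fin u := finProdFinEquiv.symm
    let part : Fin (r * u) → Finset ((_ : Fin (u * a)) × Fin r) := fun j =>
      Finset.univ.image fun x : Fin a => ⟨finProdFinEquiv ((q j).2, x), (q j).1⟩
    obtain ⟨D, hD⟩ := exists_decomposition_of_monomial b hinj π hb hat part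
      ((q.trans (Equiv.prodCongr (finRotate r) (Equiv.refl _))).trans q.symm)
      (fun j => by
        rw [Finset.card_image_of_injective _ fun x x' h => congrArg Prod.snd
          (finProdFinEquiv.injective (congrArg Sigma.fst h))]
        simp)
      (fun i j hij => Finset.disjoint_left.mpr fun p hp hp' => by
        obtain ⟨x, -, rfl⟩ := Finset.mem_image.mp hp
        obtain ⟨x', -, h⟩ := Finset.mem_image.mp hp'
        obtain ⟨h1, h2⟩ := Sigma.mk.inj h
        exact hij (q.injective (Prod.ext (eq_of_heq h2).symm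
          (congrArg Prod.fst (finProdFinEquiv.injective h1)).symm)))
      (fun j => by
        simp only [part, π, Finset.image_image, Function.comp_def, Equiv.trans_apply,
          Equiv.apply_symm_apply, Equiv.prodCongr_apply, Prod.map, Equiv.refl_apply])
    exact ⟨D, _, hD⟩

end CfsgLib.Classical.Semisimple
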