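import Cfsg.Agent.Classical.Semisimple.AltIsometry
import Cfsg.Agent.Classical.Semisimple.Permuting

/-!
Orthogonal decompositions invariant under an isometry of odd prime order, and the count of ordered tuples.
-/

set_option autoImplicit false

namespace CfsgLib.Classical.Semisimple.AltIsometry

open Module

variable {F : Type*} [Field F] [Fintype F] {V : Type*} [AddCommGroup V] [Module F V] [FiniteDimensional F V]
variable {B : LinearMap.BilinForm F V} {f : Module.End F V} {r : ℕ} [hr : Fact r.Prime]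

/-- An invariant orthogonal decomposition exists when the moved space is small enough. -/
theorem Setting.exists_orth_decomp (hs : Setting B f r) {a c : ℕ} (hae : Even a)
    (hc : c = if Even (orderOf (Fintype.card F : ZMod r)) then orderOf (Fintype.card F : ZMod r)
      else 2 * orderOf (Fintype.card F : ZMod r)) :
    ∀ (s L : ℕ) (U : Submodule F V), NondegIn B U → U.map f ≤ U → finrank F U = a * s →
      finrank F ↥(U ⊓ moved f) = c * L → L ≤ s * (a / c) →
      ∃ D : Fin s → Submodule F V,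
        (∀ j, D j ≤ U ∧ NondegIn B (D j) ∧ finrank F (D j) = a ∧ (D j).map f ≤ D j) ∧
        (∀ j j', j ≠ j' → D j' ≤ B.orthogonal (D j)) ∧ U ≤ iSup D := by
  intro s
  induction s with
  | zero =>
    intro L U _ _ hd _ _
    rw [Nat.mul_zero, Submodule.finrank_eq_zero] at hd
    exact ⟨Fin.elim0, fun j => j.elim0, fun j => j.elim0, by simp [hd]⟩
  | succ s ih =>
    intro L U hU hinv hd hmd hL
    obtain ⟨hM, hK, hsum⟩ := hs.nondegIn_inter hU hinv
    have hMinv : (U ⊓ moved f).map f ≤ U ⊓ moved f := inf_map_le hinv moved_map_le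
    have hdiv : c * (a / c) ≤ a := Nat.mul_div_le a c
    rw [Nat.succ_mul] at hL
    have h1 : c * L ≤ s * a + c * (a / c) := by
      calc c * L ≤ c * (s * (a / c) + a / c) := Nat.mul_le_mul_left c hL
        _ = s * (c * (a / c)) + c * (a / c) := by ring
        _ ≤ s * a + c * (a / c) := Nat.add_le_add_right (Nat.mul_le_mul_left s hdiv) _
    rw [Nat.mul_succ, mul_comm a s] at hd
    obtain ⟨l, hla, hlL, hfix, hrest⟩ : ∃ l, c * l ≤ a ∧ l ≤ L ∧ a + c * L ≤ (s * a + a) + c * l ∧
        L - l ≤ s * (a / c) := by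
      rcases le_total L (a / c) with h | h
      · exact ⟨L, (Nat.mul_le_mul_left c h).trans hdiv, le_rfl, by omega, by omega⟩
      · exact ⟨a / c, hdiv, h, by omega, by omega⟩
    obtain ⟨W1, hW1M, hW1, hW1f, hW1d, -⟩ := (hs.exists_nondeg_sub hM hMinv inf_le_right hc).2 l
      (hmd.symm ▸ Nat.mul_le_mul_left c hlL)
    obtain ⟨j, hj⟩ : Even (a - c * l) :=
      (Nat.even_sub hla).2 ⟨fun _ => hW1d ▸ AltIsometry.even_finrank hs.alt hW1, fun _ => hae⟩
    obtain ⟨-, W0, hW0K, hW0, hW0d⟩ := exists_sub_of_le hs.alt hK (j := j) (by omega)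
    have hW0f : W0.map f ≤ W0 := fixed_map_le (hW0K.trans inf_le_right)
    have hW0o : W0 ≤ B.orthogonal W1 := fun x hx w hw =>
      comm_zero hs.alt (hs.fixed_moved (hW0K hx).2 (hW1M hw).2)
    obtain ⟨hW, hdisj⟩ := nondegIn_sup hs.alt hW1 hW0 hW0o
    have hWU : W1 ⊔ W0 ≤ U := sup_le (hW1M.trans inf_le_left) (hW0K.trans inf_le_left)
    obtain ⟨hsup, hR, hRd⟩ := AltIsometry.split hs.alt hU hW hWU
    have hWd : finrank F ↥(W1 ⊔ W0) = a := by
      rw [finrank_add_of_disjoint hdisj, hW1d, hW0d]; omega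
    set R := U ⊓ B.orthogonal (W1 ⊔ W0) with hRdef
    have hRM : R ⊓ moved f = (U ⊓ moved f) ⊓ B.orthogonal W1 := by
      refine le_antisymm (fun x hx => ⟨⟨hx.1.1, hx.2⟩, fun w hw => hx.1.2 w (Submodule.mem_sup_left hw)⟩)
        fun x hx => ⟨⟨hx.1.1, fun w hw => ?_⟩, hx.1.2⟩
      obtain ⟨w1, hw1, w0, hw0, rfl⟩ := Submodule.mem_sup.1 hw
      simp only [map_add, LinearMap.add_apply]
      rw [show B w1 x = 0 from hx.2 w1 hw1, hs.fixed_moved (hW0K hw0).2 hx.1.2, add_zero]
    obtain ⟨-, -, hMd⟩ := AltIsometry.split hs.alt hM hW1 hW1M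
    obtain ⟨D, hD, hDo, hDle⟩ := ih (L - l) R hR
      (inf_map_le hinv (hs.orth_map_le (sup_map_le hW1f hW0f))) (by rw [mul_comm]; omega)
      (by rw [hRM, Nat.mul_sub]; omega) hrest
    let E : Fin (s + 1) → Submodule F V := Fin.cons (W1 ⊔ W0) D
    have hE0 : E 0 = W1 ⊔ W0 := rfl
    have hEs : ∀ k : Fin s, E k.succ = D k := fun k => rfl
    refine ⟨E, ?_, ?_, ?_⟩
    · intro k
      induction k using Fin.cases with
      | zero => rw [hE0]; exact ⟨hWU, hW, hWd, sup_map_le hW1f hW0f⟩
      | succ k => rw [hEs]; exact ⟨(hD k).1.trans inf_le_left, (hD k).2⟩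
    · intro k k' hkk
      induction k using Fin.cases with
      | zero =>
        induction k' using Fin.cases with
        | zero => exact absurd rfl hkk
        | succ k' => rw [hE0, hEs]; exact (hD k').1.trans inf_le_right
      | succ k =>
        induction k' using Fin.cases with
        | zero =>
          rw [hE0, hEs]
          exact fun x hx y hy => comm_zero hs.alt (((hD k).1 hy).2 x hx)
        | succ k' => rw [hEs, hEs]; exact hDo k k' fun e => hkk (by rw [e])
    · rw [← hsup]
      refine sup_le (le_iSup_of_le 0 hE0.ge) (hDle.trans (iSup_le fun k => ?_))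
      exact le_iSup_of_le k.succ (hEs k).ge

omit [Fintype F] in
/-- `t!` divides the number of ordered injective tuples in a permutation-stable set. -/
theorem factorial_dvd_card_tuples {α : Type*} {t : ℕ} (P : (Fin t → α) → Prop)
    (hinj : ∀ D, P D → Function.Injective D) (hperm : ∀ (σ : Equiv.Perm (Fin t)) D, P D → P (D ∘ σ)) :
    Nat.factorial t ∣ Nat.card {D // P D} := by
  classical
  let _ : MulAction (Equiv.Perm (Fin t)) {D // P D} :=
    { smul := fun σ D => ⟨D.1 ∘ (σ⁻¹ : Equiv.Perm (Fin t)), hperm _ _ D.2⟩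
      one_smul := fun D => Subtype.ext rfl
      mul_smul := fun σ τ D => Subtype.ext (funext fun j => by
        show D.1 ((σ * τ)⁻¹ j) = D.1 (τ⁻¹ (σ⁻¹ j))
        rw [mul_inv_rev, Equiv.Perm.mul_apply]) }
  have hfree : ∀ D : {D // P D}, MulAction.stabilizer (Equiv.Perm (Fin t)) D = ⊥ := by
    intro D
    rw [eq_bot_iff]
    intro σ hσ
    refine Subgroup.mem_bot.mpr (Equiv.ext fun j => ?_)
    have h := congrFun (congrArg Subtype.val (MulAction.mem_stabilizer_iff.mp hσ)) (σ j)
    change D.1 (σ⁻¹ (σ j)) = D.1 (σ j) at h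
    rw [Equiv.Perm.coe_inv, Equiv.symm_apply_apply] at h
    exact (hinj _ D.2 h).symm
  rw [Nat.card_congr (MulAction.selfEquivOrbitsQuotientProd hfree), Nat.card_prod,
    Nat.card_perm, Nat.card_fin]
  exact dvd_mul_left _ _

end CfsgLib.Classical.Semisimple.AltIsometry
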