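import Cfsg.Prelude.Def_GeometricClasses
import Cfsg.Agent.Eq.Def_GeometricClasses
import Cfsg.Agent.Classical.Semisimple.Monomial

/-!
The number of decompositions into `t` subspaces of dimension `a` divides the order of the general
linear group, and its quotient by `t!` is an integer.
-/

set_option autoImplicit false

namespace CfsgLib.Classical.Semisimple

open Module

variable {F : Type*} [Field F] [Fintype F] {n a t : ℕ}

local notation "V" => (Fin n → F)
local notation "Dec" => {D : Fin t → Submodule F (Fin n → F) // Cfsg.Geo.IsMDecomposition a D}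

/-- `t!` divides the number of ordered decompositions. -/
theorem factorial_dvd_card_decompositions :
    Nat.factorial t ∣ Nat.card Dec := by
  classical
  let _ : MulAction (Equiv.Perm (Fin t)) Dec :=
    { smul := fun σ D => ⟨fun j => D.1 (σ⁻¹ j),
        { two_le := D.2.two_le
          pos := D.2.pos
          finrank_eq := fun j => D.2.finrank_eq _
          indep := D.2.indep.comp σ⁻¹.injective
          iSup_eq_top := (σ⁻¹.iSup_comp (g := D.1)).trans D.2.iSup_eq_top }⟩
      one_smul := fun D => Subtype.ext rfl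
      mul_smul := fun σ τ D => Subtype.ext (funext fun j => by
        show D.1 ((σ * τ)⁻¹ j) = D.1 (τ⁻¹ (σ⁻¹ j))
        rw [mul_inv_rev, Equiv.Perm.mul_apply]) }
  have hfree : ∀ D : Dec, MulAction.stabilizer (Equiv.Perm (Fin t)) D = ⊥ := by
    intro D
    rw [eq_bot_iff]
    intro σ hσ
    have hinj : Function.Injective D.1 := iSupIndep.injective D.2.indep fun j hj => by
      have := D.2.finrank_eq j
      rw [hj, finrank_bot] at this
      have := D.2.pos
      omega
    refine Subgroup.mem_bot.mpr (Equiv.ext fun j => ?_)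
    have h := congrFun (congrArg Subtype.val (MulAction.mem_stabilizer_iff.mp hσ)) (σ j)
    change D.1 (σ⁻¹ (σ j)) = D.1 (σ j) at h
    rw [Equiv.Perm.coe_inv, Equiv.symm_apply_apply] at h
    exact (hinj h).symm
  rw [Nat.card_congr (MulAction.selfEquivOrbitsQuotientProd hfree), Nat.card_prod,
    Nat.card_perm, Nat.card_fin]
  exact dvd_mul_left _ _

/-- The linear automorphisms act transitively, so their number is a multiple of the number of
decompositions. -/
theorem card_decompositions_dvd (D0 : Dec) :
    Nat.card Dec ∣ Nat.card (GL (Fin n) F) := by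
  classical
  · have : Finite (V ≃ₗ[F] V) :=
      Finite.of_injective (fun g : V ≃ₗ[F] V => (g : V → V)) DFunLike.coe_injective
    have hGL : Nat.card (GL (Fin n) F) = Nat.card (V ≃ₗ[F] V) :=
      Nat.card_congr (Matrix.GeneralLinearGroup.toLin.trans
        (LinearMap.GeneralLinearGroup.generalLinearEquiv F V)).toEquiv
    have hmove : ∀ (g : V ≃ₗ[F] V) (D : Dec),
        Cfsg.Geo.IsMDecomposition a (fun j => (D.1 j).map (g : V →ₗ[F] V)) := fun g D =>
      { two_le := D.2.two_le
        pos := D.2.pos
        finrank_eq := fun j => (LinearEquiv.finrank_map_eq g _).trans (D.2.finrank_eq j)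
        indep := (LinearMap.iSupIndep_map (g : V →ₗ[F] V) g.injective D.2.indep)
        iSup_eq_top := by
          rw [← Submodule.map_iSup, D.2.iSup_eq_top, Submodule.map_top]
          exact LinearMap.range_eq_top.mpr g.surjective }
    let Φ : (V ≃ₗ[F] V) → Dec := fun g => ⟨fun j => (D0.1 j).map (g : V →ₗ[F] V), hmove g D0⟩
    have hsurj : ∀ D : Dec, ∃ g, Φ g = D := by
      intro D
      have h0 := DirectSum.isInternal_submodule_of_iSupIndep_of_iSup_eq_top D0.2.indep D0.2.iSup_eq_top
      have h1 := DirectSum.isInternal_submodule_of_iSupIndep_of_iSup_eq_top D.2.indep D.2.iSup_eq_top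
      let b0 := h0.collectedBasis fun j => Module.finBasisOfFinrankEq F (D0.1 j) (D0.2.finrank_eq j)
      let b1 := h1.collectedBasis fun j => Module.finBasisOfFinrankEq F (D.1 j) (D.2.finrank_eq j)
      refine ⟨b0.equiv b1 (Equiv.refl _), Subtype.ext (funext fun j => ?_)⟩
      refine Submodule.eq_of_le_of_finrank_eq ?_
        (((LinearEquiv.finrank_map_eq _ _).trans (D0.2.finrank_eq j)).trans (D.2.finrank_eq j).symm)
      rintro _ ⟨x, hx, rfl⟩
      have h := congrArg Subtype.val ((Module.finBasisOfFinrankEq F (D0.1 j) (D0.2.finrank_eq j)).sum_repr ⟨x, hx⟩)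
      simp only [Submodule.coe_sum, Submodule.coe_smul] at h
      rw [LinearEquiv.coe_coe, ← h, map_sum]
      refine (D.1 j).sum_mem fun i _ => ?_
      rw [map_smul]
      refine (D.1 j).smul_mem _ ?_
      have e : ((Module.finBasisOfFinrankEq F (D0.1 j) (D0.2.finrank_eq j)) i : V) = b0 ⟨j, i⟩ := by
        simp [b0, DirectSum.IsInternal.collectedBasis_coe]
      rw [e, Module.Basis.equiv_apply, Equiv.refl_apply]
      simp only [b1, DirectSum.IsInternal.collectedBasis_coe]
      exact Submodule.coe_mem _
    have hfib : ∀ D : Dec, Nat.card {g // Φ g = D} = Nat.card {g // Φ g = D0} := by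
      intro D
      obtain ⟨g1, hg1⟩ := hsurj D
      have hcomp : ∀ g g' : V ≃ₗ[F] V, (Φ (g'.trans g)).1 = fun j => ((Φ g').1 j).map (g : V →ₗ[F] V) :=
        fun g g' => funext fun j => by
          show Submodule.map _ _ = Submodule.map _ (Submodule.map _ _)
          rw [← Submodule.map_comp]
          rfl
      refine Nat.card_congr
        { toFun := fun g => ⟨g.1.trans g1.symm, Subtype.ext (by
            rw [hcomp, g.2, ← hg1, ← hcomp, LinearEquiv.self_trans_symm]
            exact funext fun j => Submodule.map_id _)⟩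
          invFun := fun g => ⟨g.1.trans g1, Subtype.ext (by rw [hcomp, g.2, ← hg1])⟩
          left_inv := fun g => Subtype.ext (by ext1 v; simp)
          right_inv := fun g => Subtype.ext (by ext1 v; simp) }
    let _ : Fintype Dec := Fintype.ofFinite _
    rw [hGL, ← Nat.card_congr (Equiv.sigmaFiberEquiv Φ), Nat.card_sigma,
      Finset.sum_congr rfl fun D _ => hfib D, Finset.sum_const, Finset.card_univ, smul_eq_mul,
      ← Nat.card_eq_fintype_card]
    exact dvd_mul_right _ _

/-- A prime dividing the number of decompositions up to order is the characteristic or divides some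
`q ^ j - 1` with `j ≤ n`. -/
theorem exists_dvd_of_dvd_card_decompositions {r : ℕ} (hr : r.Prime)
    (hrq : ¬ r ∣ Fintype.card F) (hat : n = a * t) (ha : 0 < a) (ht : 2 ≤ t)
    (h : r ∣ Nat.card Dec / Nat.factorial t) :
    ∃ j, 0 < j ∧ j ≤ n ∧ r ∣ Fintype.card F ^ j - 1 := by
  obtain ⟨D0, -, hd0, hi0, ht0, -⟩ := exists_decomposition_of_sq (one_ne_zero (α := F))
    (f := (1 : Module.End F V)) (by rw [one_pow, one_smul]) (t := t) ha
    (by rw [finrank_fintype_fun_eq_card, Fintype.card_fin, hat, mul_comm])
  obtain ⟨k, hk⟩ := factorial_dvd_card_decompositions (F := F) (n := n) (a := a) (t := t)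
  rw [hk, Nat.mul_div_cancel_left _ (Nat.factorial_pos t)] at h
  have h1 : r ∣ Nat.card (GL (Fin n) F) :=
    (dvd_mul_of_dvd_right h _).trans (hk ▸ card_decompositions_dvd ⟨D0, ⟨ht, ha, hd0, hi0, ht0⟩⟩)
  rw [Matrix.card_GL_field] at h1
  obtain ⟨i, -, hi⟩ := (Prime.dvd_finsetProd_iff hr.prime _).mp h1
  refine ⟨n - i, by omega, Nat.sub_le _ _, ?_⟩
  rw [show Fintype.card F ^ n - Fintype.card F ^ (i : ℕ) =
    Fintype.card F ^ (i : ℕ) * (Fintype.card F ^ (n - i) - 1) by
      rw [Nat.mul_sub, mul_one, ← pow_add, Nat.add_sub_cancel' i.2.le]] at hi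
  exact (hr.dvd_mul.mp hi).resolve_left fun h => hrq (hr.dvd_of_dvd_pow h)

end CfsgLib.Classical.Semisimple
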