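import Cfsg.Prelude.Def_GeometricClasses
import Cfsg.Agent.Eq.Def_GeometricClasses
import Cfsg.Agent.Classical.Semisimple.Classify
import Cfsg.Agent.Classical.Semisimple.Bridge

/-!
Elements of `SL` conjugate into the normaliser of a field subalgebra.
-/

set_option autoImplicit false

namespace CfsgLib.Classical.Semisimple

open Module Matrix Polynomial

variable {F : Type*} [Field F] [Fintype F] {n k : ℕ} {K : Subalgebra F (Matrix (Fin n) (Fin n) F)}

/-- A field subalgebra of degree `k` is generated by a root of any irreducible polynomial of degree `k`. -/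
theorem exists_root_generator (hK : Cfsg.Geo.IsFieldSubalgebra k K) [NeZero n] {P : F[X]}
    (hP : Irreducible P) (hdeg : P.natDegree = k) :
    ∃ J : K, aeval J P = 0 ∧ ∀ a : K, ∃ Q : F[X], a = aeval J Q := by
  classical
  have : Nontrivial K := ⟨⟨0, 1, fun h => by
    have := congrArg (fun a : K => (a : Matrix (Fin n) (Fin n) F) 0 0) h
    simp at this⟩⟩
  have hfield : IsField K :=
    { exists_pair_ne := exists_pair_ne K
      mul_comm := fun a b => Subtype.ext (hK.comm a a.2 b b.2)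
      mul_inv_cancel := fun {a} ha => by
        obtain ⟨b, hb, hab⟩ := hK.inv a a.2 fun h => ha (Subtype.ext h)
        exact ⟨⟨b, hb⟩, Subtype.ext hab⟩ }
  let _ : Field K := { hfield.toField, (inferInstance : Ring K) with }
  have : Finite K := Finite.of_injective Subtype.val Subtype.val_injective
  have := Fact.mk hP
  have : FiniteDimensional F (AdjoinRoot P) := (AdjoinRoot.powerBasis hP.ne_zero).finite
  have hd : finrank F (AdjoinRoot P) = k := by
    rw [(AdjoinRoot.powerBasis hP.ne_zero).finrank, AdjoinRoot.powerBasis_dim, hdeg]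
  have hd' : finrank F (AdjoinRoot P) ∣ finrank F K := by rw [hd, hK.finrank_eq]
  obtain ⟨φ⟩ := FiniteField.nonempty_algHom_of_finrank_dvd (F := F) (K := AdjoinRoot P) (L := K) hd'
  refine ⟨φ (AdjoinRoot.root P), ?_, fun a => ?_⟩
  · rw [aeval_algHom_apply, AdjoinRoot.aeval_eq, AdjoinRoot.mk_self, map_zero]
  · have hsurj : Function.Surjective φ.toLinearMap :=
      (LinearMap.injective_iff_surjective_of_finrank_eq_finrank (by rw [hd]; exact hK.finrank_eq.symm)).1
        φ.toRingHom.injective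
    obtain ⟨b, hb⟩ := hsurj a
    obtain ⟨Q, hQ⟩ := AdjoinRoot.mk_surjective b
    refine ⟨Q, ?_⟩
    rw [aeval_algHom_apply, AdjoinRoot.aeval_eq, hQ]
    exact hb.symm

/-- An element semicommuting with a root of an irreducible polynomial of degree `k` is conjugate
into the normaliser of any field subalgebra of degree `k`. -/
theorem exists_conj_mem_normalizer (hK : Cfsg.Geo.IsFieldSubalgebra k K) [NeZero n]
    (x : Matrix.SpecialLinearGroup (Fin n) F) {P : F[X]} (hP : Irreducible P) (hdeg : P.natDegree = k)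
    {J : Module.End F (Fin n → F)} (hJ : aeval J P = 0) (R : F[X])
    (hx : Matrix.toLin' (x : Matrix (Fin n) (Fin n) F) * J =
      aeval J R * Matrix.toLin' (x : Matrix (Fin n) (Fin n) F)) :
    ∃ Q : Matrix.SpecialLinearGroup (Fin n) F, Q⁻¹ * x * Q ∈ (Cfsg.Geo.subalgebraNormalizer K).comap
      (Matrix.SpecialLinearGroup.toGL : Matrix.SpecialLinearGroup (Fin n) F →* GL (Fin n) F) := by
  classical
  obtain ⟨J0, hJ0, hgen⟩ := exists_root_generator hK hP hdeg
  set M0 : Matrix (Fin n) (Fin n) F := (J0 : Matrix (Fin n) (Fin n) F) with hM0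
  have hco : ∀ S : F[X], ((aeval J0 S : K) : Matrix (Fin n) (Fin n) F) = aeval M0 S := fun S =>
    (aeval_algHom_apply K.val J0 S).symm
  have hM0P : aeval M0 P = 0 := by rw [← hco, hJ0]; rfl
  set j0 : Module.End F (Fin n → F) := Matrix.toLinAlgEquiv' M0 with hj0
  have hj0co : ∀ S : F[X], aeval j0 S = Matrix.toLinAlgEquiv' (aeval M0 S) := fun S =>
    aeval_algHom_apply (Matrix.toLinAlgEquiv' (R := F) (n := Fin n)).toAlgHom M0 S
  have hj0P : aeval j0 P = 0 := by rw [hj0co, hM0P, map_zero]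
  obtain ⟨e, he⟩ := exists_equiv_of_irreducible hP hj0P hJ rfl
  have hs : j0.IsSemisimple :=
    Module.End.isSemisimple_of_squarefree_aeval_eq_zero hP.squarefree hj0P
  have he0 : LinearMap.det (e : (Fin n → F) →ₗ[F] (Fin n → F)) ≠ 0 := (LinearEquiv.isUnit_det' e).ne_zero
  obtain ⟨c, hc, hcdet⟩ := exists_commute_det_eq hs (inv_ne_zero he0)
  let T : (Fin n → F) ≃ₗ[F] (Fin n → F) := c.trans e
  have hTdet : LinearMap.det (T : (Fin n → F) →ₗ[F] (Fin n → F)) = 1 := by
    rw [show (T : (Fin n → F) →ₗ[F] (Fin n → F)) =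
      (e : (Fin n → F) →ₗ[F] (Fin n → F)) ∘ₗ (c : (Fin n → F) →ₗ[F] (Fin n → F)) from rfl,
      LinearMap.det_comp, hcdet, mul_inv_cancel₀ he0]
  have hT : ∀ v, T (j0 v) = J (T v) := fun v => by
    show e (c (j0 v)) = J (e (c v))
    rw [hc, he]
  have hTS : ∀ (S : F[X]) v, T (aeval j0 S v) = aeval J S (T v) := by
    intro S
    induction S using Polynomial.induction_on with
    | C a => intro v; simp
    | add p q hp hq => intro v; simp [hp, hq]
    | monomial i a h =>
      intro v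
      have h2 := h (j0 v)
      rw [hT] at h2
      simpa [pow_succ, mul_assoc] using h2
  let Qs : Matrix.SpecialLinearGroup (Fin n) F :=
    ⟨LinearMap.toMatrix' (T : (Fin n → F) →ₗ[F] (Fin n → F)), by rw [LinearMap.det_toMatrix', hTdet]⟩
  refine ⟨Qs, ?_⟩
  set y : Matrix.SpecialLinearGroup (Fin n) F := Qs⁻¹ * x * Qs with hyd
  have hy : ∀ v, T (Matrix.toLin' (y : Matrix (Fin n) (Fin n) F) v) =
      Matrix.toLin' (x : Matrix (Fin n) (Fin n) F) (T v) := by
    intro v
    have h1 : (Qs : Matrix (Fin n) (Fin n) F) * (y : Matrix (Fin n) (Fin n) F) =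
        (x : Matrix (Fin n) (Fin n) F) * (Qs : Matrix (Fin n) (Fin n) F) := by
      rw [← Matrix.SpecialLinearGroup.coe_mul, ← Matrix.SpecialLinearGroup.coe_mul,
        show Qs * y = x * Qs by simp [hyd, mul_assoc]]
    have h2 := congrArg (fun A => Matrix.toLin' A v) h1
    simpa [Qs, Matrix.toLin'_mul] using h2
  have hrel : (y : Matrix (Fin n) (Fin n) F) * M0 = aeval M0 R * (y : Matrix (Fin n) (Fin n) F) := by
    apply (Matrix.toLinAlgEquiv' (R := F) (n := Fin n)).injective
    rw [map_mul, map_mul, ← hj0co]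
    refine LinearMap.ext fun v => T.injective ?_
    show T (Matrix.toLin' (y : Matrix (Fin n) (Fin n) F) (j0 v)) =
      T (aeval j0 R (Matrix.toLin' (y : Matrix (Fin n) (Fin n) F) v))
    rw [hy, hTS, hy, hT]
    exact LinearMap.congr_fun hx _
  have hrelS : ∀ S : F[X], (y : Matrix (Fin n) (Fin n) F) * aeval M0 S =
      aeval (aeval M0 R) S * (y : Matrix (Fin n) (Fin n) F) := by
    intro S
    induction S using Polynomial.induction_on' with
    | add p q hp hq => rw [map_add, map_add, mul_add, add_mul, hp, hq]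
    | monomial i a =>
      have h : (y : Matrix (Fin n) (Fin n) F) * M0 ^ i =
          aeval M0 R ^ i * (y : Matrix (Fin n) (Fin n) F) := SemiconjBy.pow_right hrel i
      rw [aeval_monomial, aeval_monomial, ← Algebra.smul_def, ← Algebra.smul_def, mul_smul_comm,
        smul_mul_assoc, h]
  let yG : GL (Fin n) F := Matrix.SpecialLinearGroup.toGL y
  have hinv : (yG : Matrix (Fin n) (Fin n) F) * ((yG⁻¹ : GL (Fin n) F) : Matrix (Fin n) (Fin n) F) = 1 :=
    Units.mul_inv yG
  have hinv' : ((yG⁻¹ : GL (Fin n) F) : Matrix (Fin n) (Fin n) F) * (yG : Matrix (Fin n) (Fin n) F) = 1 :=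
    Units.inv_mul yG
  have hmem : ∀ a ∈ K, (yG : Matrix (Fin n) (Fin n) F) * a *
      ((yG⁻¹ : GL (Fin n) F) : Matrix (Fin n) (Fin n) F) ∈ K := by
    intro a ha
    obtain ⟨S, hS⟩ := hgen ⟨a, ha⟩
    have ha' : a = aeval M0 S := by rw [← hco, ← hS]
    rw [ha', show (yG : Matrix (Fin n) (Fin n) F) = (y : Matrix (Fin n) (Fin n) F) from rfl, hrelS, mul_assoc]
    rw [show (y : Matrix (Fin n) (Fin n) F) * ((yG⁻¹ : GL (Fin n) F) : Matrix (Fin n) (Fin n) F) = 1 from hinv,
      mul_one, ← hco, show ((aeval J0 R : K) : Matrix (Fin n) (Fin n) F) = K.val (aeval J0 R) from rfl,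
      aeval_algHom_apply]
    exact SetLike.coe_mem _
  show yG ∈ Cfsg.Geo.subalgebraNormalizer K
  intro a
  refine ⟨hmem a, fun ha => ?_⟩
  let L : K →ₗ[F] K :=
    { toFun := fun b => ⟨_, hmem b b.2⟩
      map_add' := fun b b' => Subtype.ext (by simp [mul_add, add_mul])
      map_smul' := fun t b => Subtype.ext (by simp) }
  have hLinj : Function.Injective L := fun b b' h => by
    refine Subtype.ext ?_
    have h1 := congrArg (fun z : K => ((yG⁻¹ : GL (Fin n) F) : Matrix (Fin n) (Fin n) F) *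
      (z : Matrix (Fin n) (Fin n) F) * (yG : Matrix (Fin n) (Fin n) F)) h
    change _ * (_ * _ * _) * _ = _ * (_ * _ * _) * _ at h1
    simpa [mul_assoc, hinv', ← mul_assoc ((yG⁻¹ : GL (Fin n) F) : Matrix (Fin n) (Fin n) F)
      (yG : Matrix (Fin n) (Fin n) F)] using h1
  obtain ⟨b, hb⟩ := (LinearMap.injective_iff_surjective.1 hLinj) ⟨_, ha⟩
  have hb' : (yG : Matrix (Fin n) (Fin n) F) * (b : Matrix (Fin n) (Fin n) F) *
      ((yG⁻¹ : GL (Fin n) F) : Matrix (Fin n) (Fin n) F) = (yG : Matrix (Fin n) (Fin n) F) * a *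
      ((yG⁻¹ : GL (Fin n) F) : Matrix (Fin n) (Fin n) F) := congrArg Subtype.val hb
  have h2 : (b : Matrix (Fin n) (Fin n) F) = a := by
    have h1 := congrArg (fun z => ((yG⁻¹ : GL (Fin n) F) : Matrix (Fin n) (Fin n) F) * z *
      (yG : Matrix (Fin n) (Fin n) F)) hb'
    simpa [mul_assoc, hinv', ← mul_assoc ((yG⁻¹ : GL (Fin n) F) : Matrix (Fin n) (Fin n) F)
      (yG : Matrix (Fin n) (Fin n) F)] using h1
  exact h2 ▸ b.2

omit [Fintype F] in
/-- A scalar times a map one plus rank one normalises no proper field extension structure. -/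
theorem not_mem_normalizer_of_rankOne (hK : Cfsg.Geo.IsFieldSubalgebra k K) (hk : 2 ≤ k) (hn : 3 ≤ n)
    {x : Matrix.SpecialLinearGroup (Fin n) F} {w : F} {a φ : Fin n → F} (ha : a ≠ 0) (hφ : φ ≠ 0)
    (hx : (x : Matrix (Fin n) (Fin n) F) = w • (1 + vecMulVec a φ))
    (Q : Matrix.SpecialLinearGroup (Fin n) F) :
    Q⁻¹ * x * Q ∉ (Cfsg.Geo.subalgebraNormalizer K).comap
      (Matrix.SpecialLinearGroup.toGL : Matrix.SpecialLinearGroup (Fin n) F →* GL (Fin n) F) := by
  intro hmem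
  have : NeZero n := ⟨by omega⟩
  set y : Matrix.SpecialLinearGroup (Fin n) F := Q⁻¹ * x * Q with hyd
  set Qi : Matrix (Fin n) (Fin n) F :=
    ((Q⁻¹ : Matrix.SpecialLinearGroup (Fin n) F) : Matrix (Fin n) (Fin n) F)
  set Qm : Matrix (Fin n) (Fin n) F := (Q : Matrix (Fin n) (Fin n) F)
  have hQQ : Qi * Qm = 1 := by
    rw [← Matrix.SpecialLinearGroup.coe_mul, inv_mul_cancel, Matrix.SpecialLinearGroup.coe_one]
  set b : Fin n → F := Qi *ᵥ a with hb
  set ψ : Fin n → F := φ ᵥ* Qm with hψ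
  have hy : (y : Matrix (Fin n) (Fin n) F) = w • (1 + vecMulVec b ψ) := by
    rw [hyd, Matrix.SpecialLinearGroup.coe_mul, Matrix.SpecialLinearGroup.coe_mul, hx, mul_smul_comm,
      smul_mul_assoc]
    show w • (Qi * (1 + vecMulVec a φ) * Qm) = _
    rw [mul_add, mul_one, add_mul, hQQ, Matrix.mul_vecMulVec, Matrix.vecMulVec_mul]
  have hb0 : b ≠ 0 := fun h => ha (by
    have := congrArg (Qm *ᵥ ·) h
    simpa [b, mulVec_mulVec, mul_eq_one_comm.mp hQQ] using this)
  have hψ0 : ψ ≠ 0 := fun h => hφ (by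
    have := congrArg (· ᵥ* Qi) h
    simpa [ψ, vecMul_vecMul, mul_eq_one_comm.mp hQQ] using this)
  have hw : w ≠ 0 := by
    rintro rfl
    have := y.2
    rw [hy, zero_smul, Matrix.det_zero] at this
    exact zero_ne_one this
  have hscal : ∀ j ∈ K, ∃ t : F, j = t • (1 : Matrix (Fin n) (Fin n) F) := by
    intro j hj
    set G : GL (Fin n) F := Matrix.SpecialLinearGroup.toGL y
    have hj'' : (G : Matrix (Fin n) (Fin n) F) * j * ((G⁻¹ : GL (Fin n) F) : Matrix (Fin n) (Fin n) F) ∈ K :=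
      (hmem j).1 hj
    set j2 := (G : Matrix (Fin n) (Fin n) F) * j * ((G⁻¹ : GL (Fin n) F) : Matrix (Fin n) (Fin n) F)
    have hrel : (y : Matrix (Fin n) (Fin n) F) * j = j2 * (y : Matrix (Fin n) (Fin n) F) := by
      show (G : Matrix (Fin n) (Fin n) F) * j = _ * _ * _ * (G : Matrix (Fin n) (Fin n) F)
      rw [mul_assoc ((G : Matrix (Fin n) (Fin n) F) * j), Units.inv_mul, mul_one]
    obtain ⟨v, hv, hv0⟩ : ∃ v, (ψ ⬝ᵥ v = 0 ∧ ψ ⬝ᵥ (j *ᵥ v) = 0) ∧ v ≠ 0 := by
      let f : (Fin n → F) →ₗ[F] (Fin 2 → F) :=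
        { toFun := fun v => ![ψ ⬝ᵥ v, ψ ⬝ᵥ (j *ᵥ v)]
          map_add' := fun u v => by
            funext i; fin_cases i <;> simp [mulVec_add, dotProduct_add]
          map_smul' := fun t v => by
            funext i; fin_cases i <;> simp [mulVec_smul] }
      obtain ⟨v, hv, hv0⟩ := Submodule.exists_mem_ne_zero_of_ne_bot
        (show LinearMap.ker f ≠ ⊥ from fun h => by
          have h1 := LinearMap.finrank_le_finrank_of_injective (LinearMap.ker_eq_bot.1 h)
          simp [finrank_fintype_fun_eq_card] at h1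
          omega)
      have h0 := congrFun (LinearMap.mem_ker.1 hv) 0
      have h1 := congrFun (LinearMap.mem_ker.1 hv) 1
      exact ⟨v, ⟨by simpa [f] using h0, by simpa [f] using h1⟩, hv0⟩
    have hyv : ∀ u, ψ ⬝ᵥ u = 0 → (y : Matrix (Fin n) (Fin n) F) *ᵥ u = w • u := fun u hu => by
      rw [hy, smul_mulVec, add_mulVec, one_mulVec, vecMulVec_mulVec, hu]
      simp
    have heq : j2 = j := by
      by_contra hne
      obtain ⟨d, hd, hdd⟩ := hK.inv _ (sub_mem hj'' hj) (sub_ne_zero.2 hne)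
      have hdd' : d * (j2 - j) = 1 := hK.comm d hd _ (sub_mem hj'' hj) ▸ hdd
      have h := congrArg (· *ᵥ v) hrel
      simp only [← mulVec_mulVec] at h
      rw [hyv _ hv.2, hyv _ hv.1, mulVec_smul] at h
      have h2 : (j2 - j) *ᵥ v = 0 := by
        rw [sub_mulVec, sub_eq_zero]
        exact (smul_right_injective _ hw h).symm
      have h3 := congrArg (· *ᵥ v) hdd'
      simp only [← mulVec_mulVec, h2, mulVec_zero, one_mulVec] at h3
      exact hv0 h3.symm
    rw [heq, hy, smul_mul_assoc, mul_smul_comm] at hrel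
    have hR : vecMulVec b ψ * j = j * vecMulVec b ψ := by
      have h := smul_right_injective _ hw hrel
      simpa [add_mul, mul_add] using h
    obtain ⟨i, hi⟩ := Function.ne_iff.1 hψ0
    rw [Pi.zero_apply] at hi
    set u : Fin n → F := Pi.single i (ψ i)⁻¹
    have hu : ψ ⬝ᵥ u = 1 := by simp [u, hi]
    have h := congrArg (· *ᵥ u) hR
    simp only [← mulVec_mulVec, vecMulVec_mulVec, hu] at h
    refine ⟨ψ ⬝ᵥ (j *ᵥ u), by_contra fun hne => ?_⟩
    obtain ⟨d, hd, hdd⟩ := hK.inv _ (sub_mem hj (Subalgebra.smul_mem K (one_mem K) (ψ ⬝ᵥ (j *ᵥ u))))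
      (sub_ne_zero.2 hne)
    have hdd' := hK.comm d hd _ (sub_mem hj (Subalgebra.smul_mem K (one_mem K) (ψ ⬝ᵥ (j *ᵥ u)))) ▸ hdd
    have h3 := congrArg (· *ᵥ b) hdd'
    simp only [← mulVec_mulVec, one_mulVec] at h3
    refine hb0 (h3.symm.trans ?_)
    rw [show (j - (ψ ⬝ᵥ (j *ᵥ u)) • (1 : Matrix (Fin n) (Fin n) F)) *ᵥ b = 0 by
      rw [sub_mulVec, smul_mulVec, one_mulVec, sub_eq_zero]; simpa using h.symm, mulVec_zero]
  have hbot : K = ⊥ := eq_bot_iff.mpr fun j hj => by
    obtain ⟨t, rfl⟩ := hscal j hj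
    exact Algebra.mem_bot.mpr ⟨t, by rw [Algebra.algebraMap_eq_smul_one]⟩
  have := hK.finrank_eq
  rw [hbot, Subalgebra.finrank_bot] at this
  omega

end CfsgLib.Classical.Semisimple
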