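import Cfsg.Agent.Classical.Semisimple.SubspaceCount

/-!
Prime divisors of the numbers of flags and of complementary pairs of subspaces.
-/

set_option autoImplicit false

namespace CfsgLib.Classical.Semisimple

open Module

variable {F V : Type*} [Field F] [Fintype F] [AddCommGroup V] [Module F V] [Finite V]

omit [Fintype F] in
/-- Subspaces of dimension `k` correspond to those of codimension `k` in the dual. -/
theorem card_subspaces_dual (k : ℕ) (hk : k ≤ finrank F V) :
    Nat.card {W : Submodule F V // finrank F ↥W = k} =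
      Nat.card {W : Submodule F (Dual F V) // finrank F ↥W = finrank F V - k} := by
  refine Nat.card_congr (((Subspace.orderIsoFiniteDimensional (K := F) (V := V)).toEquiv.trans
    OrderDual.ofDual).subtypeEquiv fun W => ?_)
  show finrank F ↥W = k ↔ finrank F ↥(W.dualAnnihilator) = finrank F V - k
  have := Subspace.finrank_add_finrank_dualAnnihilator_eq W
  omega

theorem exists_dvd_of_dvd_card_subspaces_codim {r : ℕ} (hr : r.Prime) {k : ℕ}
    (hk : k ≤ finrank F V)
    (h : r ∣ Nat.card {W : Submodule F V // finrank F ↥W = k}) :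
    ∃ b < finrank F V - k, r ∣ Fintype.card F ^ (finrank F V - b) - 1 := by
  have : Finite (Dual F V) := Module.finite_of_finite F
  rw [card_subspaces_dual k hk] at h
  obtain ⟨b, hb, hd⟩ := exists_dvd_of_dvd_card_subspaces (F := F) (V := Dual F V) hr
    (by rw [Subspace.dual_finrank_eq]; omega) h
  rw [Subspace.dual_finrank_eq] at hd
  exact ⟨b, hb, hd⟩

omit [Fintype F] in
theorem finrank_map_mkQ_eq {U W : Submodule F V} {n m : ℕ} (h : U ≤ W) (hU : finrank F U = m)
    (hW : finrank F W = n - m) : finrank F ↥(W.map U.mkQ) = n - 2 * m := by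
  have h4 := LinearMap.finrank_range_add_finrank_ker (U.mkQ.comp W.subtype)
  rw [LinearMap.ker_comp, Submodule.ker_mkQ, LinearMap.range_comp, Submodule.range_subtype,
    (Submodule.comapSubtypeEquivOfLe h).finrank_eq, hU, hW] at h4
  omega

omit [Fintype F] in
theorem finrank_comap_mkQ_eq (U : Submodule F V) (X : Submodule F (V ⧸ U)) {n m : ℕ}
    (hm : 2 * m ≤ n) (hU : finrank F U = m) (hX : finrank F X = n - 2 * m) :
    finrank F ↥(X.comap U.mkQ) = n - m := by
  have h4 := LinearMap.finrank_range_add_finrank_ker (U.mkQ.comp (X.comap U.mkQ).subtype)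
  rw [LinearMap.range_comp, Submodule.range_subtype, Submodule.map_comap_eq_of_surjective
    (Submodule.mkQ_surjective _), hX, LinearMap.ker_comp, Submodule.ker_mkQ,
    (Submodule.comapSubtypeEquivOfLe (U.le_comap_mkQ X)).finrank_eq, hU] at h4
  omega

/-- A prime dividing the number of flags `U ≤ W` of dimensions `m ≤ n - m` divides some
`q ^ (n - a) - 1` with `a < 2 m`. -/
theorem exists_dvd_of_dvd_card_flags {r : ℕ} (hr : r.Prime) {m : ℕ} (hm : 2 * m ≤ finrank F V)
    (h : r ∣ Nat.card {P : Submodule F V × Submodule F V //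
      P.1 ≤ P.2 ∧ finrank F ↥P.1 = m ∧ finrank F ↥P.2 = finrank F V - m}) :
    ∃ a < 2 * m, r ∣ Fintype.card F ^ (finrank F V - a) - 1 := by
  classical
  set n := finrank F V with hn
  have e : {P : Submodule F V × Submodule F V //
      P.1 ≤ P.2 ∧ finrank F ↥P.1 = m ∧ finrank F ↥P.2 = n - m} ≃
      Σ U : {U : Submodule F V // finrank F ↥U = m},
        {X : Submodule F (V ⧸ U.1) // finrank F ↥X = n - 2 * m} :=
    { toFun := fun P => ⟨⟨P.1.1, P.2.2.1⟩, ⟨P.1.2.map (Submodule.mkQ P.1.1),
          finrank_map_mkQ_eq P.2.1 P.2.2.1 P.2.2.2⟩⟩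
      invFun := fun x => ⟨(x.1.1, x.2.1.comap x.1.1.mkQ), x.1.1.le_comap_mkQ x.2.1, x.1.2,
        finrank_comap_mkQ_eq x.1.1 x.2.1 hm x.1.2 x.2.2⟩
      left_inv := fun P => Subtype.ext (Prod.ext rfl (by
        simp only [Submodule.comap_map_mkQ]
        exact sup_eq_right.mpr P.2.1))
      right_inv := by
        rintro ⟨⟨U, hU⟩, ⟨X, hX⟩⟩
        refine Sigma.ext rfl (heq_of_eq (Subtype.ext ?_))
        exact Submodule.map_comap_eq_of_surjective (Submodule.mkQ_surjective U) X }
  have : Finite {U : Submodule F V // finrank F ↥U = m} := inferInstance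
  let := Fintype.ofFinite {U : Submodule F V // finrank F ↥U = m}
  have (U : {U : Submodule F V // finrank F ↥U = m}) :
      Finite {X : Submodule F (V ⧸ U.1) // finrank F ↥X = n - 2 * m} := by
    have : Finite (V ⧸ U.1) := Quotient.finite _
    infer_instance
  rw [Nat.card_congr e, Nat.card_sigma] at h
  by_contra hc
  push Not at hc
  have hsum : ∀ U : {U : Submodule F V // finrank F ↥U = m},
      ¬ r ∣ Nat.card {X : Submodule F (V ⧸ U.1) // finrank F ↥X = n - 2 * m} := by
    intro U hd
    have hq : finrank F (V ⧸ U.1) = n - m := by rw [Submodule.finrank_quotient, U.2]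
    have : Finite (V ⧸ U.1) := Quotient.finite _
    obtain ⟨b, hb, hdb⟩ := exists_dvd_of_dvd_card_subspaces_codim (F := F) (V := V ⧸ U.1) hr
      (k := n - 2 * m) (by omega) hd
    rw [hq] at hb hdb
    exact hc (m + b) (by omega) (by rwa [← Nat.sub_sub])
  -- all fibres have the same size
  have hconst : ∀ U U' : {U : Submodule F V // finrank F ↥U = m},
      Nat.card {X : Submodule F (V ⧸ U.1) // finrank F ↥X = n - 2 * m} =
        Nat.card {X : Submodule F (V ⧸ U'.1) // finrank F ↥X = n - 2 * m} := by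
    intro U U'
    let ψ : (V ⧸ U.1) ≃ₗ[F] (V ⧸ U'.1) := LinearEquiv.ofFinrankEq _ _
      (by rw [Submodule.finrank_quotient, Submodule.finrank_quotient, U.2, U'.2])
    refine Nat.card_congr ((Submodule.orderIsoMapComap ψ).toEquiv.subtypeEquiv fun X => ?_)
    show finrank F ↥X = _ ↔ finrank F ↥(X.map (ψ : (V ⧸ U.1) →ₗ[F] (V ⧸ U'.1))) = _
    rw [ψ.finrank_map_eq]
  obtain ⟨A, hA⟩ := exists_submodule_finrank_eq' (F := F) (V := V) m (by omega)
  rw [Finset.sum_congr rfl (fun U _ => hconst U ⟨A, hA⟩), Finset.sum_const, smul_eq_mul,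
    Finset.card_univ, ← Nat.card_eq_fintype_card] at h
  rcases (Nat.Prime.dvd_mul hr).mp h with h1 | h1
  · obtain ⟨a, ha, hd⟩ := exists_dvd_of_dvd_card_subspaces (F := F) (V := V) hr (by omega) h1
    exact hc a (by omega) hd
  · exact hsum ⟨A, hA⟩ h1
where
  exists_submodule_finrank_eq' {F V : Type _} [Field F] [AddCommGroup V] [Module F V] (j : ℕ)
      (hj : j ≤ finrank F V) : ∃ A : Submodule F V, finrank F A = j := by
    obtain ⟨v, hv⟩ := exists_linearIndependent_of_le_finrank hj
    exact ⟨Submodule.span F (Set.range v), by rw [finrank_span_eq_card hv, Fintype.card_fin]⟩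

/-- A prime dividing the number of complementary pairs is the characteristic or divides the
number of subspaces. -/
theorem dvd_card_complements {p : ℕ} [CharP F p] {r : ℕ} (hr : r.Prime) (hrp : r ≠ p) (m : ℕ)
    (h : r ∣ Nat.card {P : Submodule F V × Submodule F V //
      IsCompl P.1 P.2 ∧ finrank F ↥P.1 = m}) :
    r ∣ Nat.card {W : Submodule F V // finrank F ↥W = m} := by
  classical
  have e : {P : Submodule F V × Submodule F V // IsCompl P.1 P.2 ∧ finrank F ↥P.1 = m} ≃
      Σ U : {U : Submodule F V // finrank F ↥U = m}, {q // IsCompl U.1 q} :=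
    { toFun := fun P => ⟨⟨P.1.1, P.2.2⟩, ⟨P.1.2, P.2.1⟩⟩
      invFun := fun x => ⟨(x.1.1, x.2.1), x.2.2, x.1.2⟩
      left_inv := fun P => rfl
      right_inv := fun x => rfl }
  let := Fintype.ofFinite {U : Submodule F V // finrank F ↥U = m}
  have hfib : ∀ U : {U : Submodule F V // finrank F ↥U = m},
      Nat.card {q // IsCompl U.1 q} = Fintype.card F ^ (m * (finrank F V - m)) := by
    intro U
    obtain ⟨q0, hq0⟩ := Submodule.exists_isCompl U.1
    let f0 := Submodule.isComplEquivProj U.1 ⟨q0, hq0⟩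
    let S : (V ⧸ U.1 →ₗ[F] U.1) ≃ {f : V →ₗ[F] U.1 // ∀ x : U.1, f x = x} :=
      { toFun := fun g => ⟨f0.1 + g.comp U.1.mkQ, fun x => by
            rw [LinearMap.add_apply, LinearMap.comp_apply, f0.2 x,
              (Submodule.Quotient.mk_eq_zero _).mpr x.2 |> fun h => (show U.1.mkQ x = 0 from h),
              map_zero, add_zero]⟩
        invFun := fun f => U.1.liftQ (f.1 - f0.1) (fun x hx => by
            rw [LinearMap.mem_ker, LinearMap.sub_apply, f.2 ⟨x, hx⟩, f0.2 ⟨x, hx⟩, sub_self])
        left_inv := fun g => by ext; simp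
        right_inv := fun f => by ext; simp }
    have : Finite (V ⧸ U.1) := Quotient.finite _
    rw [Nat.card_congr ((Submodule.isComplEquivProj U.1).trans S.symm),
      Module.natCard_eq_pow_finrank (K := F), Module.finrank_linearMap,
      Submodule.finrank_quotient, U.2, mul_comm, Nat.card_eq_fintype_card]
  rw [Nat.card_congr e, Nat.card_sigma, Finset.sum_congr rfl (fun U _ => hfib U), Finset.sum_const,
    smul_eq_mul, Finset.card_univ, ← Nat.card_eq_fintype_card] at h
  rcases (Nat.Prime.dvd_mul hr).mp h with h1 | h1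
  · exact h1
  · exfalso
    obtain ⟨f, hp, hf⟩ := FiniteField.card F p
    rw [hf, ← pow_mul] at h1
    exact hrp ((Nat.prime_dvd_prime_iff_eq hr hp).mp (hr.dvd_of_dvd_pow h1))

end CfsgLib.Classical.Semisimple
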