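import Cfsg.Agent.Classical.Semisimple.Basic

/-!
Maps permuting the summands of a direct-sum decomposition.
-/

set_option autoImplicit false

namespace CfsgLib.Classical.Semisimple

open Module

variable {F V : Type*} [Field F] [AddCommGroup V] [Module F V] {t : ℕ}

/-- The summands of a decomposition into non-zero independent subspaces are distinct. -/
theorem injective_of_iSupIndep {D : Fin t → Submodule F V} (hind : iSupIndep D) {a : ℕ}
    (ha : 0 < a) (hd : ∀ j, finrank F (D j) = a) : Function.Injective D := by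
  refine iSupIndep.injective hind fun j hj => ?_
  have := hd j
  rw [hj, finrank_bot] at this
  omega

/-- The complement of a fixed summand is invariant. -/
theorem map_iSup_ne_le {f : Module.End F V} {D : Fin t → Submodule F V} {σ : Equiv.Perm (Fin t)}
    (hσ : ∀ j, (D j).map f = D (σ j)) {j : Fin t} (hj : σ j = j) :
    (⨆ (k) (_ : k ≠ j), D k).map f ≤ ⨆ (k) (_ : k ≠ j), D k := by
  simp only [Submodule.map_iSup, hσ]
  refine iSup₂_le fun k hk => ?_
  exact le_iSup₂ (f := fun k (_ : k ≠ j) => D k) (σ k) (fun h => hk (σ.injective (h.trans hj.symm)))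

/-- A fixed summand has an invariant complement. -/
theorem isCompl_fixed {D : Fin t → Submodule F V} (hind : iSupIndep D) (htop : iSup D = ⊤)
    (j : Fin t) : IsCompl (D j) (⨆ (k) (_ : k ≠ j), D k) := by
  refine ⟨hind j, codisjoint_iff.mpr (eq_top_iff.mpr ?_)⟩
  rw [← htop]
  refine iSup_le fun k => ?_
  rcases eq_or_ne k j with rfl | hk
  · exact le_sup_left
  · exact le_sup_of_le_right (le_iSup₂ (f := fun k (_ : k ≠ j) => D k) k hk)

theorem map_pow_eq {f : Module.End F V} {D : Fin t → Submodule F V} {σ : Equiv.Perm (Fin t)}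
    (hσ : ∀ j, (D j).map f = D (σ j)) (k : ℕ) (j : Fin t) :
    (D j).map (f ^ k) = D ((σ ^ k) j) := by
  induction k with
  | zero => simp [Module.End.one_eq_id]
  | succ k ih =>
    rw [pow_succ', Module.End.mul_eq_comp, Submodule.map_comp, ih, hσ, pow_succ',
      Equiv.Perm.mul_apply]

theorem perm_pow_eq_one {f : Module.End F V} {D : Fin t → Submodule F V}
    {σ : Equiv.Perm (Fin t)} (hinj : Function.Injective D) (hσ : ∀ j, (D j).map f = D (σ j))
    {k : ℕ} {c : F} (hc : c ≠ 0) (hf : f ^ k = c • 1) : σ ^ k = 1 := by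
  refine Equiv.ext fun j => hinj ?_
  rw [← map_pow_eq hσ k j, hf, Submodule.map_smul _ _ c hc, Module.End.one_eq_id,
    Submodule.map_id]
  rfl

/-- On a moved summand the orbit sum is injective, so its rank is at least the dimension. -/
theorem finrank_le_range_orbit_sum [FiniteDimensional F V] {f : Module.End F V}
    {D : Fin t → Submodule F V} (hind : iSupIndep D) {σ : Equiv.Perm (Fin t)}
    (hσ : ∀ j, (D j).map f = D (σ j)) {p : ℕ} [hp : Fact p.Prime] (hσp : σ ^ p = 1) {j : Fin t}
    (hj : σ j ≠ j) : finrank F (D j) ≤ finrank F ↥(LinearMap.range (∑ i ∈ Finset.range p, f ^ i)) := by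
  have hne : ∀ i, 0 < i → i < p → (σ ^ i) j ≠ j := by
    intro i hi hip h
    refine hj ?_
    have h1 : σ ^ i ∈ MulAction.stabilizer (Equiv.Perm (Fin t)) j := h
    have hcop : Nat.Coprime i p :=
      (Nat.coprime_of_lt_prime (by omega) hip hp.out).symm
    obtain ⟨e, he⟩ := exists_pow_eq_self_of_coprime (x := σ) (n := i)
      (hcop.coprime_dvd_right (orderOf_dvd_of_pow_eq_one hσp))
    have h2 := Subgroup.pow_mem _ h1 e
    rw [he] at h2
    exact h2
  let g : ↥(D j) →ₗ[F] V := (∑ i ∈ Finset.range p, f ^ i).comp (D j).subtype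
  have hg : Function.Injective g := by
    rw [← LinearMap.ker_eq_bot, Submodule.eq_bot_iff]
    rintro ⟨v, hv⟩ h
    rw [LinearMap.mem_ker] at h
    simp only [g, LinearMap.comp_apply, Submodule.subtype_apply, LinearMap.sum_apply] at h
    obtain ⟨p', hp'⟩ : ∃ p', p = p' + 1 := ⟨p - 1, by have := hp.out.pos; omega⟩
    rw [hp', Finset.sum_range_succ', pow_zero, Module.End.one_apply] at h
    refine Subtype.ext ?_
    have hrest : ∑ i ∈ Finset.range p', (f ^ (i + 1)) v ∈ ⨆ (k) (_ : k ≠ j), D k := by
      refine Submodule.sum_mem _ fun i hi => ?_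
      refine Submodule.mem_iSup_of_mem ((σ ^ (i + 1)) j) (Submodule.mem_iSup_of_mem
        (hne (i + 1) (by omega) (by rw [Finset.mem_range] at hi; omega)) ?_)
      rw [← map_pow_eq hσ]
      exact Submodule.mem_map_of_mem hv
    rw [add_comm, add_eq_zero_iff_eq_neg] at h
    have := (hind j).le_bot ⟨hv, h ▸ Submodule.neg_mem _ hrest⟩
    simpa using this
  exact (LinearMap.finrank_range_of_inj hg).symm.le.trans
    (Submodule.finrank_mono (LinearMap.range_comp_le_range _ _))

end CfsgLib.Classical.Semisimple
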