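import Cfsg.Agent.Classical.Semisimple.ClassCount
import Cfsg.Agent.Classical.Semisimple.OrderRCount

/-!
Classes of elements of prime order `r ∣ q - 1` in `GL n F` modulo its centre.
-/

set_option autoImplicit false

namespace CfsgLib.Classical.PGLOrderR

open Polynomial Module UniqueFactorizationMonoid CfsgLib.Classical.Semisimple

variable {F : Type*} [Field F] [Fintype F] {n r : ℕ}

/-- The scalar matrix as an element of `GL`. -/
abbrev scal (a : Fˣ) : GL (Fin n) F := Matrix.GeneralLinearGroup.scalar (Fin n) a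

theorem coe_scal (a : Fˣ) :
    ((scal a : GL (Fin n) F) : Matrix (Fin n) (Fin n) F) = Matrix.scalar (Fin n) (a : F) := rfl

theorem scal_mem_center (a : Fˣ) : scal a ∈ Subgroup.center (GL (Fin n) F) :=
  Matrix.GeneralLinearGroup.mem_center_iff_val_mem_range_scalar.mpr ⟨(a : F), rfl⟩

theorem exists_scal {g : GL (Fin n) F} (hg : g ∈ Subgroup.center (GL (Fin n) F)) :
    ∃ a : Fˣ, g = scal a := by
  rw [Matrix.GeneralLinearGroup.center_eq_range_scalar] at hg
  obtain ⟨a, rfl⟩ := hg
  exact ⟨a, rfl⟩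

theorem scal_inj [NeZero n] {a b : Fˣ} (h : (scal a : GL (Fin n) F) = scal b) : a = b := by
  have h1 := congrArg (fun g : GL (Fin n) F => (g : Matrix (Fin n) (Fin n) F) 0 0) h
  simp only [coe_scal, Matrix.scalar_apply, Matrix.diagonal_apply_eq] at h1
  exact Units.ext h1

theorem scal_comm (a : Fˣ) (g : GL (Fin n) F) : g * scal a = scal a * g :=
  Subgroup.mem_center_iff.mp (scal_mem_center a) g

theorem scal_mul_pow (a : Fˣ) (g : GL (Fin n) F) (k : ℕ) :
    (scal a * g) ^ k = scal (a ^ k) * g ^ k := by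
  rw [Commute.mul_pow (scal_comm a g).symm, scal, ← map_pow]

theorem pow_eq_of_isConj {g h : GL (Fin n) F} {c : Fˣ} (hc : IsConj g h)
    (hg : g ^ r = scal c) : h ^ r = scal c := by
  obtain ⟨u, rfl⟩ := isConj_iff.mp hc
  rw [conj_pow, hg, scal_comm, mul_inv_cancel_right]

theorem charpoly_eq_of_isConj {g h : GL (Fin n) F} (hc : IsConj g h) :
    (g : Matrix (Fin n) (Fin n) F).charpoly = (h : Matrix (Fin n) (Fin n) F).charpoly := by
  obtain ⟨u, rfl⟩ := isConj_iff.mp hc
  rw [Units.val_mul, Units.val_mul, Matrix.coe_units_inv, Matrix.charpoly_units_conj]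

/-- Conjugacy modulo the centre. -/
theorem mk_isConj_iff {g h : GL (Fin n) F} :
    IsConj (QuotientGroup.mk g : GL (Fin n) F ⧸ Subgroup.center (GL (Fin n) F))
      (QuotientGroup.mk h) ↔ ∃ a : Fˣ, IsConj g (scal a * h) := by
  constructor
  · intro hc
    obtain ⟨u, hu⟩ := isConj_iff.mp hc
    obtain ⟨w, rfl⟩ := QuotientGroup.mk_surjective u
    rw [← QuotientGroup.mk_mul, ← QuotientGroup.mk_inv, ← QuotientGroup.mk_mul,
      QuotientGroup.eq] at hu
    obtain ⟨b, hb⟩ := exists_scal hu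
    refine ⟨b⁻¹, isConj_iff.mpr ⟨w, ?_⟩⟩
    rw [inv_mul_eq_iff_eq_mul] at hb
    rw [hb, scal, map_inv, scal_comm b, inv_mul_cancel_left]
  · rintro ⟨a, ha⟩
    have h1 := MonoidHom.map_isConj
      (QuotientGroup.mk' (Subgroup.center (GL (Fin n) F))) ha
    have h2 : (QuotientGroup.mk' (Subgroup.center (GL (Fin n) F))) (scal a) = 1 :=
      (QuotientGroup.eq_one_iff _).mpr (scal_mem_center a)
    rw [map_mul, h2, one_mul] at h1
    exact h1

theorem natCast_ne_zero_of_dvd (hrq : r ∣ Fintype.card F - 1) : (r : F) ≠ 0 := by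
  obtain ⟨k, hk⟩ := hrq
  intro h
  have h1 : ((Fintype.card F : ℕ) : F) = 0 := FiniteField.cast_card_eq_zero F
  have h2 : Fintype.card F = r * k + 1 := by
    have := Fintype.card_pos (α := F)
    omega
  rw [h2] at h1
  simp [h] at h1

theorem coprime_orderOf (p : ℕ) [Fact p.Prime] [CharP F p] (hrq : r ∣ Fintype.card F - 1)
    {g : GL (Fin n) F} {c : Fˣ} (hg : g ^ r = scal c) : (orderOf g).Coprime p := by
  classical
  have hq : (((Fintype.card F - 1 : ℕ)) : F) ≠ 0 := by
    rw [Nat.cast_sub Fintype.card_pos, FiniteField.cast_card_eq_zero]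
    simp
  have h1 : g ^ (r * (Fintype.card F - 1)) = 1 := by
    rw [pow_mul, hg, scal, ← map_pow, ← Fintype.card_units, pow_card_eq_one, map_one]
  refine Nat.Coprime.coprime_dvd_left (orderOf_dvd_of_pow_eq_one h1) ?_
  rw [Nat.coprime_comm, (Fact.out : p.Prime).coprime_iff_not_dvd, ← CharP.cast_eq_zero_iff F p,
    Nat.cast_mul]
  exact mul_ne_zero (natCast_ne_zero_of_dvd hrq) hq

theorem isConj_of_charpoly (hrq : r ∣ Fintype.card F - 1) {g h : GL (Fin n) F} {c d : Fˣ}
    (hg : g ^ r = scal c) (hh : h ^ r = scal d)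
    (hc : (g : Matrix (Fin n) (Fin n) F).charpoly = (h : Matrix (Fin n) (Fin n) F).charpoly) :
    IsConj g h := by
  obtain ⟨p, hp⟩ := CharP.exists F
  haveI : Fact p.Prime := ⟨CharP.char_is_prime F p⟩
  exact gl_isConj_of_charpoly_eq p (coprime_orderOf p hrq hg) (coprime_orderOf p hrq hh) hc

theorem dvd_of_pow_eq (hrq : r ∣ Fintype.card F - 1) {g : GL (Fin n) F} {c : Fˣ}
    (hg : g ^ r = scal c) {P : F[X]} (hP : Irreducible P) (hPm : P.Monic)
    (hd : P ∣ (g : Matrix (Fin n) (Fin n) F).charpoly) : P ∣ X ^ r - C (c : F) := by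
  obtain ⟨p, hp⟩ := CharP.exists F
  haveI : Fact p.Prime := ⟨CharP.char_is_prime F p⟩
  set f : Module.End F (Fin n → F) := Matrix.toLin' (g : Matrix (Fin n) (Fin n) F) with hf
  obtain ⟨v, hv, hv0⟩ := exists_apply_eq_zero_of_dvd_charpoly
    (gl_isSemisimple p (coprime_orderOf p hrq hg)) hP hPm
    (by rw [Matrix.charpoly_toLin']; exact hd)
  have hfr : f ^ r = algebraMap F (Module.End F (Fin n → F)) (c : F) := by
    rw [hf, toLin'_pow, ← Units.val_pow_eq_pow_val, hg, coe_scal]
    refine LinearMap.ext fun w => ?_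
    funext i
    simp [Matrix.mulVec_diagonal]
  have hQ : aeval f (X ^ r - C (c : F)) = 0 := by simp [hfr]
  by_contra hnd
  obtain ⟨a, b, hab⟩ := hP.coprime_iff_not_dvd.mpr hnd
  have := congrArg (fun T => aeval f T v) hab
  have hv0' : aeval f P v = 0 := hv0
  simp only [map_add, map_mul, hQ, mul_zero, add_zero, Module.End.mul_apply, hv0', map_zero,
    map_one, Module.End.one_apply] at this
  exact hv this.symm

theorem exists_of_charpoly (hr : r.Prime) (hrq : r ∣ Fintype.card F - 1) (c : Fˣ) {χ : F[X]}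
    (hm : χ.Monic) (hdeg : χ.natDegree = n)
    (hfac : ∀ P : F[X], Irreducible P → P.Monic → P ∣ χ → P ∣ X ^ r - C (c : F)) :
    ∃ g : GL (Fin n) F, g ^ r = scal c ∧ (g : Matrix (Fin n) (Fin n) F).charpoly = χ := by
  obtain ⟨p, hp⟩ := CharP.exists F
  haveI : Fact p.Prime := ⟨CharP.char_is_prime F p⟩
  obtain ⟨M, hM⟩ := exists_matrix_charpoly_eq hm hdeg
  have hu : IsUnit M := by
    rw [Matrix.isUnit_iff_isUnit_det, isUnit_iff_ne_zero, det_eq_coeff, hM]
    refine mul_ne_zero (pow_ne_zero _ (neg_ne_zero.mpr one_ne_zero)) fun h0 => ?_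
    have h1 := hfac X irreducible_X monic_X (X_dvd_iff.mpr h0)
    rw [X_dvd_iff] at h1
    simp [hr.ne_zero.symm] at h1
  obtain ⟨N, hN, hchar⟩ := exists_pow_card_pow_coprime p hu.unit
  have hch : ((hu.unit ^ Fintype.card F ^ N : GL (Fin n) F) :
      Matrix (Fin n) (Fin n) F).charpoly = χ :=
    hchar.trans ((congrArg Matrix.charpoly hu.unit_spec).trans hM)
  refine ⟨_, Units.ext (Matrix.toLin'.injective ?_), hch⟩
  have h := aeval_eq_zero_of_forall_dvd (gl_isSemisimple p hN) (Q := X ^ r - C (c : F))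
    (fun P hP hPm hd => hfac P hP hPm (by rwa [Matrix.charpoly_toLin', hch] at hd))
  rw [Units.val_pow_eq_pow_val, ← toLin'_pow, coe_scal]
  simp only [map_sub, map_pow, aeval_X, aeval_C, sub_eq_zero] at h
  rw [h]
  refine LinearMap.ext fun w => ?_
  funext i
  simp [Matrix.mulVec_diagonal]

/-- The `r`-th roots of unity among the units. -/
abbrev mu (F : Type*) [Field F] (r : ℕ) : Subgroup Fˣ := (powMonoidHom r : Fˣ →* Fˣ).ker

/-- The polynomial with the given multiset of roots. -/
noncomputable def ev (s : Sym (mu F r) n) : F[X] :=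
  ((s : Multiset (mu F r)).map fun z : mu F r => X - C (((z : Fˣ) : F))).prod

omit [Fintype F] in
theorem ev_injective : Function.Injective (ev : Sym (mu F r) n → F[X]) := by
  intro s t h
  have h1 := congrArg Polynomial.roots h
  unfold ev at h1
  have e : ∀ m : Multiset (mu F r), (m.map fun z : mu F r => X - C ((z : Fˣ) : F)) =
      (m.map fun z : mu F r => ((z : Fˣ) : F)).map fun a => X - C a :=
    fun m => by rw [Multiset.map_map]; rfl
  rw [e, e, roots_multiset_prod_X_sub_C, roots_multiset_prod_X_sub_C] at h1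
  exact Sym.coe_injective
    (Multiset.map_injective (Units.val_injective.comp Subtype.val_injective) h1)

/-- A diagonal matrix with roots of unity on the diagonal. -/
noncomputable def dg (f : Fin n → mu F r) : GL (Fin n) F :=
  ⟨Matrix.diagonal fun i => ((f i : Fˣ) : F),
    Matrix.diagonal fun i => (((f i : Fˣ)⁻¹ : Fˣ) : F),
    by rw [Matrix.diagonal_mul_diagonal]; simp,
    by rw [Matrix.diagonal_mul_diagonal]; simp⟩

omit [Fintype F] in
theorem coe_dg (f : Fin n → mu F r) :
    ((dg f : GL (Fin n) F) : Matrix (Fin n) (Fin n) F) =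
      Matrix.diagonal fun i => ((f i : Fˣ) : F) := rfl

theorem dg_pow (f : Fin n → mu F r) : dg f ^ r = scal 1 := by
  refine Units.ext ?_
  rw [Units.val_pow_eq_pow_val, coe_dg, coe_scal, Matrix.diagonal_pow, Matrix.scalar_apply]
  congr 1
  funext i
  have h : (f i : Fˣ) ^ r = 1 := (f i).2
  simp [← Units.val_pow_eq_pow_val, h]

theorem scal_mul_dg (z : mu F r) (f : Fin n → mu F r) :
    scal (z : Fˣ) * dg f = dg fun i => z * f i := by
  refine Units.ext ?_
  rw [Units.val_mul, coe_scal, coe_dg, coe_dg, Matrix.scalar_apply, Matrix.diagonal_mul_diagonal]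
  simp

omit [Fintype F] in
theorem charpoly_dg (f : Fin n → mu F r) (s : Sym (mu F r) n)
    (h : (Finset.univ : Finset (Fin n)).val.map f = s) :
    ((dg f : GL (Fin n) F) : Matrix (Fin n) (Fin n) F).charpoly = ev s := by
  rw [coe_dg, Matrix.charpoly_diagonal, ev, ← h, Multiset.map_map]
  rfl

omit [Fintype F] in
theorem exists_fun (s : Sym (mu F r) n) :
    ∃ f : Fin n → mu F r, (Finset.univ : Finset (Fin n)).val.map f = s := by
  obtain ⟨m, hm⟩ := s
  induction m using Quotient.inductionOn with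
  | _ l =>
    simp only [Multiset.quot_mk_to_coe, Multiset.coe_card] at hm
    subst hm
    refine ⟨fun i => l[i], ?_⟩
    show _ = (l : Multiset (mu F r))
    rw [Fin.univ_val_map]
    simp [List.ofFn_getElem]

/-- The diagonal representative of a multiset of roots of unity. -/
noncomputable def rep (s : Sym (mu F r) n) : GL (Fin n) F := dg (exists_fun s).choose

theorem rep_pow (s : Sym (mu F r) n) : rep s ^ r = scal 1 := dg_pow _

omit [Fintype F] in
theorem charpoly_rep (s : Sym (mu F r) n) :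
    ((rep s : GL (Fin n) F) : Matrix (Fin n) (Fin n) F).charpoly = ev s :=
  charpoly_dg _ s (exists_fun s).choose_spec

theorem exists_rep_eq (s : Sym (mu F r) n) : ∃ f : Fin n → mu F r,
    rep s = dg f ∧ (Finset.univ : Finset (Fin n)).val.map f = s :=
  ⟨_, rfl, (exists_fun s).choose_spec⟩

theorem charpoly_scal_mul_rep (z : mu F r) (s : Sym (mu F r) n) :
    ((scal (z : Fˣ) * rep s : GL (Fin n) F) : Matrix (Fin n) (Fin n) F).charpoly =
      ev (Sym.map (fun y => z * y) s) := by
  obtain ⟨f, hf, hfs⟩ := exists_rep_eq s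
  rw [hf, scal_mul_dg]
  refine charpoly_dg _ _ ?_
  rw [Sym.coe_map, ← hfs, Multiset.map_map]
  rfl

theorem rep_eq_scal_of_replicate (z : mu F r) :
    rep (Sym.replicate n z : Sym (mu F r) n) = scal (z : Fˣ) := by
  obtain ⟨f, hf, hfs⟩ := exists_rep_eq (Sym.replicate n z : Sym (mu F r) n)
  refine Units.ext ?_
  rw [hf, coe_dg, coe_scal, Matrix.scalar_apply]
  congr 1
  funext i
  have h1 : f i ∈ ((Sym.replicate n z : Sym (mu F r) n) : Multiset (mu F r)) := by
    rw [← hfs]
    exact Multiset.mem_map.mpr ⟨i, Finset.mem_univ_val i, rfl⟩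
  rw [Sym.coe_replicate] at h1
  rw [Multiset.eq_of_mem_replicate h1]

theorem replicate_of_rep_eq_scal [NeZero n] {s : Sym (mu F r) n} {a : Fˣ} (h : rep s = scal a) :
    ∃ z, s = Sym.replicate n z := by
  obtain ⟨f, hf, hfs⟩ := exists_rep_eq s
  refine ⟨f 0, Sym.coe_injective ?_⟩
  rw [Sym.coe_replicate, ← hfs, Multiset.eq_replicate]
  refine ⟨by simp, fun y hy => ?_⟩
  obtain ⟨i, -, rfl⟩ := Multiset.mem_map.mp hy
  have h1 : ∀ i, ((f i : Fˣ) : F) = a := fun i => by
    have := congrArg (fun g : GL (Fin n) F => (g : Matrix (Fin n) (Fin n) F) i i) h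
    simpa [hf, coe_dg, coe_scal] using this
  exact Subtype.ext (Units.ext ((h1 i).trans (h1 0).symm))

theorem card_mu (hrq : r ∣ Fintype.card F - 1) : Nat.card (mu F r) = r := by
  classical
  rw [IsCyclic.card_powMonoidHom_ker, Nat.card_eq_fintype_card, Fintype.card_units,
    Nat.gcd_eq_right hrq]

theorem index_powers (hrq : r ∣ Fintype.card F - 1) :
    (powMonoidHom r : Fˣ →* Fˣ).range.index = r := by
  classical
  rw [IsCyclic.index_powMonoidHom_range, Nat.card_eq_fintype_card, Fintype.card_units,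
    Nat.gcd_eq_right hrq]

theorem exists_ev_eq (hr : r.Prime) (hrq : r ∣ Fintype.card F - 1) {g : GL (Fin n) F}
    (hg : g ^ r = scal 1) :
    ∃ s : Sym (mu F r) n, (g : Matrix (Fin n) (Fin n) F).charpoly = ev s := by
  classical
  haveI : Fintype (mu F r) := Fintype.ofFinite _
  set χ := (g : Matrix (Fin n) (Fin n) F).charpoly with hχ
  have hχm : χ.Monic := Matrix.charpoly_monic _
  obtain ⟨ζ, hζ⟩ : ∃ ζ : F, IsPrimitiveRoot ζ r := by
    haveI : Fact r.Prime := ⟨hr⟩
    obtain ⟨u, hu⟩ := exists_prime_orderOf_dvd_card' (G := mu F r) r (by rw [card_mu hrq])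
    refine ⟨((u : Fˣ) : F), ?_⟩
    have h1 := IsPrimitiveRoot.orderOf ((u : Fˣ) : F)
    rwa [orderOf_units, Subgroup.orderOf_coe, hu] at h1
  have hspl : (X ^ r - C (1 : F)).Splits := by
    rw [C_1]; exact X_pow_sub_one_splits hζ
  have hne : (X ^ r - C (1 : F)) ≠ 0 := X_pow_sub_C_ne_zero hr.pos 1
  have hχs : χ.Splits := by
    rw [splits_iff_splits]
    refine Or.inr fun {P} hP hd => ?_
    have hPm : (P * C P.leadingCoeff⁻¹).Monic := monic_mul_leadingCoeff_inv hP.ne_zero
    have h1 := dvd_of_pow_eq hrq hg (irreducible_mul_leadingCoeff_inv.mpr hP) hPm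
      ((associated_mul_unit_left P _ (isUnit_C.mpr
        (isUnit_iff_ne_zero.mpr (inv_ne_zero (leadingCoeff_ne_zero.mpr hP.ne_zero))))).dvd.trans hd)
    rw [Units.val_one] at h1
    exact (hspl.of_dvd hne (dvd_trans (dvd_mul_right P _) h1)).degree_eq_one_of_irreducible hP
  have hroots : ∀ x ∈ χ.roots, ∃ z : mu F r, ((z : Fˣ) : F) = x := by
    intro x hx
    have h1 := dvd_of_pow_eq hrq hg (irreducible_X_sub_C x) (monic_X_sub_C x)
      (dvd_iff_isRoot.mpr (isRoot_of_mem_roots hx))
    rw [Units.val_one, dvd_iff_isRoot] at h1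
    have h2 : x ^ r = 1 := by simpa [sub_eq_zero] using h1
    have hx0 : x ≠ 0 := fun h => by simp [h, hr.ne_zero] at h2
    exact ⟨⟨Units.mk0 x hx0, Units.ext h2⟩, rfl⟩
  choose z hz using hroots
  have hcard : Multiset.card χ.roots = n := by
    rw [← hχs.natDegree_eq_card_roots, hχ, Matrix.charpoly_natDegree_eq_dim, Fintype.card_fin]
  refine ⟨⟨χ.roots.attach.map fun x => z x.1 x.2, by simp [hcard]⟩, ?_⟩
  conv_lhs => rw [hχs.eq_prod_roots_of_monic hχm, ← Multiset.attach_map_val χ.roots]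
  simp only [ev, Sym.coe_mk, Multiset.map_map, Function.comp_def, hz]

theorem irreducible_of_not_pow (hr : r.Prime) {c : Fˣ} (hc : ∀ b : Fˣ, b ^ r ≠ c) :
    Irreducible (X ^ r - C (c : F)) := by
  refine X_pow_sub_C_irreducible_of_prime hr fun b hb => ?_
  rcases eq_or_ne b 0 with rfl | hb0
  · rw [zero_pow hr.ne_zero] at hb
    exact c.ne_zero hb.symm
  · exact hc (Units.mk0 b hb0) (Units.ext hb)

theorem charpoly_of_not_pow (hr : r.Prime) (hrq : r ∣ Fintype.card F - 1) {g : GL (Fin n) F}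
    {c : Fˣ} (hg : g ^ r = scal c) (hc : ∀ b : Fˣ, b ^ r ≠ c) :
    r ∣ n ∧ (g : Matrix (Fin n) (Fin n) F).charpoly = (X ^ r - C (c : F)) ^ (n / r) := by
  classical
  set χ := (g : Matrix (Fin n) (Fin n) F).charpoly with hχ
  have hχm : χ.Monic := Matrix.charpoly_monic _
  have hP0 := irreducible_of_not_pow hr hc
  have hP0m : (X ^ r - C (c : F)).Monic := monic_X_pow_sub_C _ hr.ne_zero
  have hrep : normalizedFactors χ =
      Multiset.replicate (Multiset.card (normalizedFactors χ)) (X ^ r - C (c : F)) := by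
    refine Multiset.eq_replicate_card.mpr fun P hP => ?_
    have hPi := irreducible_of_normalized_factor P hP
    have hPm : P.Monic := by
      rw [← normalize_normalized_factor P hP]
      exact Polynomial.monic_normalize hPi.ne_zero
    exact eq_of_monic_of_associated hPm hP0m (hPi.associated_of_dvd hP0
      (dvd_of_pow_eq hrq hg hPi hPm (dvd_of_mem_normalizedFactors hP)))
  have hprod : (normalizedFactors χ).prod = χ := by
    rw [prod_normalizedFactors_eq hχm.ne_zero, hχm.normalize_eq_self]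
  rw [hrep, Multiset.prod_replicate] at hprod
  have hdeg := congrArg natDegree hprod
  rw [natDegree_pow, natDegree_X_pow_sub_C, hχ, Matrix.charpoly_natDegree_eq_dim,
    Fintype.card_fin] at hdeg
  refine ⟨⟨_, hdeg.symm.trans (mul_comm _ _)⟩, ?_⟩
  rw [← hprod, ← hdeg, Nat.mul_div_cancel _ hr.pos]

theorem exists_of_not_pow (hr : r.Prime) (hrq : r ∣ Fintype.card F - 1) (hrn : r ∣ n) {c : Fˣ}
    (hc : ∀ b : Fˣ, b ^ r ≠ c) : ∃ g : GL (Fin n) F, g ^ r = scal c := by
  have hP0m : (X ^ r - C (c : F)).Monic := monic_X_pow_sub_C _ hr.ne_zero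
  obtain ⟨g, hg, -⟩ := exists_of_charpoly (n := n) hr hrq c (hP0m.pow (n / r))
    (by rw [natDegree_pow, natDegree_X_pow_sub_C, Nat.div_mul_cancel hrn])
    (fun P hP _ hd => hP.prime.dvd_of_dvd_pow hd)
  exact ⟨g, hg⟩

/-- Multisets of roots of unity which are not constant. -/
abbrev NonConst (F : Type*) [Field F] (r n : ℕ) : Type _ :=
  {s : Sym (mu F r) n // ∀ z, s ≠ Sym.replicate n z}

omit [Fintype F] in
theorem map_mul_ne_replicate (z : mu F r) (s : NonConst F r n) (y : mu F r) :
    Sym.map (fun x => z * x) s.1 ≠ Sym.replicate n y := by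
  intro h
  have h1 := congrArg (Sym.map fun x => z⁻¹ * x) h
  rw [Sym.map_map] at h1
  refine s.2 (z⁻¹ * y) (Sym.coe_injective ?_)
  have h2 := congrArg (fun t : Sym (mu F r) n => (t : Multiset (mu F r))) h1
  simp only [Sym.coe_map, Sym.coe_replicate, Multiset.map_replicate, Function.comp_def,
    inv_mul_cancel_left, Multiset.map_id'] at h2
  rw [Sym.coe_replicate]
  exact h2

instance : MulAction (mu F r) (NonConst F r n) where
  smul z s := ⟨Sym.map (fun x => z * x) s.1, map_mul_ne_replicate z s⟩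
  one_smul s := Subtype.ext (by
    show Sym.map (fun x => 1 * x) s.1 = s.1
    simp)
  mul_smul a b s := Subtype.ext (by
    show Sym.map (fun x => a * b * x) s.1 = Sym.map (fun x => a * x) (Sym.map (fun x => b * x) s.1)
    rw [Sym.map_map]
    simp [Function.comp_def, mul_assoc])

omit [Fintype F] in
theorem smul_val (z : mu F r) (s : NonConst F r n) :
    (z • s).1 = Sym.map (fun x => z * x) s.1 := rfl

theorem card_nonConst [NeZero n] (hrq : r ∣ Fintype.card F - 1) :
    Nat.card (NonConst F r n) + r = Nat.choose (r + n - 1) n := by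
  classical
  haveI : Fintype (mu F r) := Fintype.ofFinite _
  have hmu : Fintype.card (mu F r) = r := by rw [← Nat.card_eq_fintype_card, card_mu hrq]
  have h1 := Nat.card_congr (Equiv.sumCompl (fun s : Sym (mu F r) n => ∀ z, s ≠ Sym.replicate n z))
  rw [Nat.card_sum, Nat.card_eq_fintype_card (α := Sym (mu F r) n), Sym.card_sym_eq_choose,
    hmu] at h1
  rw [← h1]
  congr 1
  refine (Nat.card_eq_of_bijective (fun z : mu F r => (⟨Sym.replicate n z, fun h => h z rfl⟩ :
    {s : Sym (mu F r) n // ¬∀ z, s ≠ Sym.replicate n z})) ⟨?_, ?_⟩).symm.trans (card_mu hrq) |>.symm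
  · intro a b h
    have h2 := congrArg (fun s => (s.1 : Multiset (mu F r))) h
    simp only [Sym.coe_replicate] at h2
    exact (Multiset.replicate_right_injective (NeZero.ne n) h2)
  · rintro ⟨s, hs⟩
    push Not at hs
    obtain ⟨z, rfl⟩ := hs
    exact ⟨z, rfl⟩

theorem card_fixedBy (hr : r.Prime) (hrq : r ∣ Fintype.card F - 1) [NeZero n] {z : mu F r}
    (hz : z ≠ 1) :
    Nat.card (MulAction.fixedBy (NonConst F r n) z) = if r ∣ n then 1 else 0 := by
  classical
  haveI : Fintype (mu F r) := Fintype.ofFinite _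
  haveI : Fact r.Prime := ⟨hr⟩
  have hmu : Fintype.card (mu F r) = r := by rw [← Nat.card_eq_fintype_card, card_mu hrq]
  have hconst : ∀ s : MulAction.fixedBy (NonConst F r n) z, ∀ y,
      Multiset.count y (s.1.1 : Multiset (mu F r)) * r = n := by
    intro s y
    have hfix : (s.1.1 : Multiset (mu F r)).map (fun x => z * x) = s.1.1 :=
      congrArg (fun t : NonConst F r n => (t.1 : Multiset (mu F r))) s.2
    have hstep : ∀ w, Multiset.count (z * w) (s.1.1 : Multiset (mu F r)) =
        Multiset.count w (s.1.1 : Multiset (mu F r)) := fun w => by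
      conv_lhs => rw [← hfix]
      exact Multiset.count_map_eq_count' _ _ (mul_right_injective z) w
    have hpow : ∀ k : ℕ, Multiset.count (z ^ k) (s.1.1 : Multiset (mu F r)) =
        Multiset.count 1 (s.1.1 : Multiset (mu F r)) := fun k => by
      induction k with
      | zero => rw [pow_zero]
      | succ k ih => rw [pow_succ', hstep, ih]
    have hall : ∀ w, Multiset.count w (s.1.1 : Multiset (mu F r)) =
        Multiset.count 1 (s.1.1 : Multiset (mu F r)) := fun w => by
      obtain ⟨k, rfl⟩ := mem_powers_of_prime_card (card_mu hrq) hz (g' := w)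
      exact hpow k
    have h2 := Multiset.sum_count_eq_card (s := Finset.univ)
      (m := (s.1.1 : Multiset (mu F r))) fun w _ => Finset.mem_univ w
    rw [Finset.sum_congr rfl fun w _ => hall w, Finset.sum_const, Finset.card_univ, hmu,
      smul_eq_mul] at h2
    rw [hall y, mul_comm, h2]
    exact s.1.1.2
  split_ifs with hrn
  · obtain ⟨k, hk⟩ := hrn
    let u : Sym (mu F r) n := ⟨k • (Finset.univ : Finset (mu F r)).val, by
      rw [Multiset.card_nsmul, Finset.card_val, Finset.card_univ, hmu, hk, mul_comm]⟩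
    have hu : ∀ y, Multiset.count y (u : Multiset (mu F r)) = k := fun y => by
      show Multiset.count y (k • (Finset.univ : Finset (mu F r)).val) = k
      rw [Multiset.count_nsmul,
        Multiset.count_eq_one_of_mem Finset.univ.nodup (Finset.mem_univ_val y), mul_one]
    have huN : ∀ y, u ≠ Sym.replicate n y := by
      intro y h
      obtain ⟨w, hw⟩ : ∃ w, w ≠ y :=
        ⟨z * y, fun h2 => hz (mul_right_cancel (h2.trans (one_mul y).symm))⟩
      have h2 := hu w
      rw [h, Sym.coe_replicate, Multiset.count_replicate, if_neg (Ne.symm hw)] at h2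
      exact NeZero.ne n (by rw [hk, ← h2, mul_zero])
    have hufix : z • (⟨u, huN⟩ : NonConst F r n) = ⟨u, huN⟩ := by
      refine Subtype.ext (Sym.coe_injective (Multiset.ext.mpr fun y => ?_))
      rw [smul_val, Sym.coe_map, hu,
        show y = z * (z⁻¹ * y) by simp, Multiset.count_map_eq_count' _ _ (mul_right_injective z)]
      exact hu _
    rw [Nat.card_eq_one_iff_unique]
    refine ⟨⟨fun a b => Subtype.ext (Subtype.ext (Sym.coe_injective
      (Multiset.ext.mpr fun y => ?_)))⟩, ⟨⟨_, hufix⟩⟩⟩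
    exact Nat.eq_of_mul_eq_mul_right hr.pos ((hconst a y).trans (hconst b y).symm)
  · rw [Nat.card_eq_zero]
    exact Or.inl ⟨fun s => hrn ⟨_, (hconst s 1).symm.trans (mul_comm _ _)⟩⟩

theorem card_orbits (hr : r.Prime) (hrq : r ∣ Fintype.card F - 1) [NeZero n] :
    Nat.card (Quotient (MulAction.orbitRel (mu F r) (NonConst F r n))) * r + r =
      Nat.choose (r + n - 1) n + (r - 1) * (if r ∣ n then 1 else 0) := by
  classical
  haveI : Fintype (mu F r) := Fintype.ofFinite _
  haveI : Fintype (NonConst F r n) := Fintype.ofFinite _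
  have hmu : Fintype.card (mu F r) = r := by rw [← Nat.card_eq_fintype_card, card_mu hrq]
  have h := MulAction.sum_card_fixedBy_eq_card_orbits_mul_card_group (mu F r) (NonConst F r n)
  rw [hmu, ← Nat.card_eq_fintype_card,
    ← Finset.add_sum_erase _ _ (Finset.mem_univ (1 : mu F r))] at h
  rw [Finset.sum_congr rfl fun z hz => (Nat.card_eq_fintype_card).symm.trans
      (card_fixedBy hr hrq (Finset.ne_of_mem_erase hz)), Finset.sum_const,
    Finset.card_erase_of_mem (Finset.mem_univ _), Finset.card_univ, hmu, smul_eq_mul] at h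
  rw [← h, ← card_nonConst (F := F) hrq, ← Nat.card_eq_fintype_card]
  have h1 : Nat.card (MulAction.fixedBy (NonConst F r n) (1 : mu F r)) =
      Nat.card (NonConst F r n) :=
    Nat.card_congr (Equiv.subtypeUnivEquiv fun s => one_smul _ s)
  omega

theorem orderOf_mk_eq_iff (hr : r.Prime) {g : GL (Fin n) F} :
    orderOf (QuotientGroup.mk g : GL (Fin n) F ⧸ Subgroup.center (GL (Fin n) F)) = r ↔
      (∃ c : Fˣ, g ^ r = scal c) ∧ g ∉ Subgroup.center (GL (Fin n) F) := by
  haveI : Fact r.Prime := ⟨hr⟩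
  rw [orderOf_eq_prime_iff, ← QuotientGroup.mk_pow, QuotientGroup.eq_one_iff, Ne,
    QuotientGroup.eq_one_iff]
  constructor
  · rintro ⟨h1, h2⟩; exact ⟨exists_scal h1, h2⟩
  · rintro ⟨⟨c, hc⟩, h2⟩; exact ⟨hc ▸ scal_mem_center c, h2⟩

theorem card_classes (hr : r.Prime) (hrq : r ∣ Fintype.card F - 1) [NeZero n] :
    Nat.card {C : ConjClasses (GL (Fin n) F ⧸ Subgroup.center (GL (Fin n) F)) //
      ∃ g : GL (Fin n) F ⧸ Subgroup.center (GL (Fin n) F), ConjClasses.mk g = C ∧ orderOf g = r} =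
      Nat.card (Quotient (MulAction.orbitRel (mu F r) (NonConst F r n))) +
        (if r ∣ n then r - 1 else 0) := by
  classical
  have hT : Nat.card {x : Fˣ ⧸ (powMonoidHom r : Fˣ →* Fˣ).range // x ≠ 1 ∧ r ∣ n} =
      if r ∣ n then r - 1 else 0 := by
    have hQ : Nat.card (Fˣ ⧸ (powMonoidHom r : Fˣ →* Fˣ).range) = r := index_powers hrq
    haveI : Fintype (Fˣ ⧸ (powMonoidHom r : Fˣ →* Fˣ).range) := Fintype.ofFinite _
    split_ifs with hrn
    · rw [Nat.card_congr (Equiv.subtypeEquivRight fun x => and_iff_left hrn),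
        Nat.card_eq_fintype_card, Fintype.card_subtype_compl, Fintype.card_subtype_eq,
        ← Nat.card_eq_fintype_card, hQ]
    · rw [Nat.card_eq_zero]
      exact Or.inl ⟨fun x => hrn x.2.2⟩
  rw [← hT, ← Nat.card_sum]
  have hout : ∀ x : {x : Fˣ ⧸ (powMonoidHom r : Fˣ →* Fˣ).range // x ≠ 1 ∧ r ∣ n},
      ∀ b : Fˣ, b ^ r ≠ x.1.out := fun x b hb => x.2.1 (by
    rw [← QuotientGroup.out_eq' x.1, QuotientGroup.eq_one_iff]
    exact ⟨b, hb⟩)
  choose repB hB using fun x : {x : Fˣ ⧸ (powMonoidHom r : Fˣ →* Fˣ).range // x ≠ 1 ∧ r ∣ n} =>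
    exists_of_not_pow hr hrq x.2.2 (hout x)
  have hA : ∀ s : NonConst F r n,
      orderOf (QuotientGroup.mk (rep s.1) : GL (Fin n) F ⧸ Subgroup.center (GL (Fin n) F)) = r := by
    intro s
    refine (orderOf_mk_eq_iff hr).mpr ⟨⟨1, rep_pow _⟩, fun h => ?_⟩
    obtain ⟨a, ha⟩ := exists_scal h
    obtain ⟨z, hz⟩ := replicate_of_rep_eq_scal ha
    exact s.2 z hz
  have hB' : ∀ x,
      orderOf (QuotientGroup.mk (repB x) : GL (Fin n) F ⧸ Subgroup.center (GL (Fin n) F)) = r := by
    intro x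
    refine (orderOf_mk_eq_iff hr).mpr ⟨⟨_, hB x⟩, fun h => ?_⟩
    obtain ⟨a, ha⟩ := exists_scal h
    have h1 := hB x
    rw [ha, scal, ← map_pow] at h1
    exact hout x a (scal_inj h1)
  symm
  refine Nat.card_eq_of_bijective (Sum.elim
    (fun o => ⟨ConjClasses.mk (QuotientGroup.mk (rep (Quotient.out o).1)), _, rfl, hA _⟩)
    (fun x => ⟨ConjClasses.mk (QuotientGroup.mk (repB x)), _, rfl, hB' x⟩)) ⟨?_, ?_⟩
  · have key : ∀ {g h : GL (Fin n) F} {c d : Fˣ}, g ^ r = scal c → h ^ r = scal d →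
        IsConj (QuotientGroup.mk g : GL (Fin n) F ⧸ Subgroup.center (GL (Fin n) F))
          (QuotientGroup.mk h) →
        ∃ a : Fˣ, IsConj g (scal a * h) ∧ c = a ^ r * d := by
      intro g h c d hg hh hc
      obtain ⟨a, ha⟩ := mk_isConj_iff.mp hc
      refine ⟨a, ha, scal_inj (n := n) ?_⟩
      rw [← pow_eq_of_isConj ha hg, scal_mul_pow, hh, scal, ← map_mul]
    rintro (o | x) (o' | y) h <;> simp only [Sum.elim_inl, Sum.elim_inr, Subtype.mk.injEq,
      ConjClasses.mk_eq_mk_iff_isConj] at h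
    · obtain ⟨a, ha, hc⟩ := key (rep_pow _) (rep_pow _) h
      rw [mul_one] at hc
      have h1 := charpoly_eq_of_isConj ha
      rw [charpoly_rep, charpoly_scal_mul_rep ⟨a, hc.symm⟩] at h1
      have h2 : Quotient.out o = (⟨a, hc.symm⟩ : mu F r) • Quotient.out o' :=
        Subtype.ext (ev_injective h1)
      rw [← Quotient.out_eq o, ← Quotient.out_eq o']
      exact congrArg Sum.inl (Quotient.sound (MulAction.orbitRel_apply.mpr ⟨_, h2.symm⟩))
    · obtain ⟨a, -, hc⟩ := key (rep_pow _) (hB y) h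
      refine absurd ?_ (hout y a⁻¹)
      rw [inv_pow, eq_comm, eq_inv_iff_mul_eq_one, mul_comm]
      exact hc.symm
    · obtain ⟨a, -, hc⟩ := key (hB x) (rep_pow _) h
      rw [mul_one] at hc
      exact absurd hc.symm (hout x a)
    · obtain ⟨a, -, hc⟩ := key (hB x) (hB y) h
      refine congrArg Sum.inr (Subtype.ext ?_)
      rw [← QuotientGroup.out_eq' x.1, ← QuotientGroup.out_eq' y.1, hc, QuotientGroup.mk_mul,
        (QuotientGroup.eq_one_iff (a ^ r)).mpr (MonoidHom.mem_range.mpr ⟨a, rfl⟩), one_mul]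
  · rintro ⟨C, g, rfl, hg⟩
    obtain ⟨g, rfl⟩ := QuotientGroup.mk_surjective g
    obtain ⟨⟨c, hc⟩, hgc⟩ := (orderOf_mk_eq_iff hr).mp hg
    by_cases hcH : ∃ b : Fˣ, b ^ r = c
    · obtain ⟨b, rfl⟩ := hcH
      have hg' : (scal b⁻¹ * g) ^ r = scal 1 := by
        rw [scal_mul_pow, hc, scal, ← map_mul, inv_pow, inv_mul_cancel]
      obtain ⟨s, hs⟩ := exists_ev_eq hr hrq hg'
      have hconj : IsConj (scal b⁻¹ * g) (rep s) :=
        isConj_of_charpoly hrq hg' (rep_pow s) (hs.trans (charpoly_rep s).symm)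
      have hsN : ∀ z, s ≠ Sym.replicate n z := by
        rintro z rfl
        rw [rep_eq_scal_of_replicate, isConj_iff] at hconj
        obtain ⟨u, hu⟩ := hconj
        have h2 : scal b⁻¹ * g = scal (z : Fˣ) := by
          rw [mul_inv_eq_iff_eq_mul, ← scal_comm (z : Fˣ) u] at hu
          exact mul_left_cancel hu
        apply hgc
        rw [scal, map_inv, inv_mul_eq_iff_eq_mul] at h2
        rw [h2]
        exact mul_mem (scal_mem_center _) (scal_mem_center _)
      refine ⟨Sum.inl (Quotient.mk _ ⟨s, hsN⟩), Subtype.ext ?_⟩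
      obtain ⟨z, hz⟩ := MulAction.orbitRel_apply.mp
        (Quotient.exact (Quotient.out_eq
          (Quotient.mk (MulAction.orbitRel (mu F r) (NonConst F r n)) ⟨s, hsN⟩)))
      simp only [Sum.elim_inl, ConjClasses.mk_eq_mk_iff_isConj]
      rw [← hz, smul_val]
      refine mk_isConj_iff.mpr ⟨(z : Fˣ) * b⁻¹, ?_⟩
      refine isConj_of_charpoly hrq (rep_pow _) (d := 1) ?_ ?_
      · rw [scal_mul_pow, hc, scal, ← map_mul, mul_pow, mul_assoc, inv_pow, inv_mul_cancel,
          mul_one, show (z : Fˣ) ^ r = 1 from z.2]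
      · rw [charpoly_rep, ← charpoly_scal_mul_rep]
        refine charpoly_eq_of_isConj ?_
        rw [show (scal ((z : Fˣ) * b⁻¹) : GL (Fin n) F) = scal (z : Fˣ) * scal b⁻¹ from
          map_mul _ _ _, mul_assoc]
        obtain ⟨u, hu⟩ := isConj_iff.mp hconj
        refine (isConj_iff.mpr ⟨u, ?_⟩).symm
        rw [← hu, ← mul_assoc u, scal_comm (z : Fˣ) u]
        simp only [mul_assoc]
    · push Not at hcH
      obtain ⟨hrn, -⟩ := charpoly_of_not_pow hr hrq hc hcH
      set x : Fˣ ⧸ (powMonoidHom r : Fˣ →* Fˣ).range := QuotientGroup.mk c with hx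
      have hx1 : x ≠ 1 := fun h => by
        rw [hx, QuotientGroup.eq_one_iff] at h
        exact hcH _ h.choose_spec
      refine ⟨Sum.inr ⟨x, hx1, hrn⟩, Subtype.ext ?_⟩
      simp only [Sum.elim_inr, ConjClasses.mk_eq_mk_iff_isConj]
      obtain ⟨a, ha⟩ : x.out⁻¹ * c ∈ (powMonoidHom r : Fˣ →* Fˣ).range :=
        QuotientGroup.eq.mp (QuotientGroup.out_eq' x)
      refine mk_isConj_iff.mpr ⟨a⁻¹, ?_⟩
      have hd : (scal a⁻¹ * g) ^ r = scal x.out := by
        rw [scal_mul_pow, hc, scal, ← map_mul, inv_pow]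
        congr 1
        simp only [powMonoidHom_apply] at ha
        rw [ha, mul_inv_rev, inv_inv, mul_comm c⁻¹, mul_assoc, inv_mul_cancel, mul_one]
      refine isConj_of_charpoly hrq (hB _) hd ?_
      rw [(charpoly_of_not_pow hr hrq (hB _) (hout _)).2,
        (charpoly_of_not_pow hr hrq hd (hout ⟨x, hx1, hrn⟩)).2]

/-- The number of classes of elements of prime order `r ∣ q - 1` in `PGL n F`. -/
theorem card_classes_eq (hr : r.Prime) (hrq : r ∣ Fintype.card F - 1) [NeZero n] :
    Nat.card {C : ConjClasses (GL (Fin n) F ⧸ Subgroup.center (GL (Fin n) F)) //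
      ∃ g : GL (Fin n) F ⧸ Subgroup.center (GL (Fin n) F), ConjClasses.mk g = C ∧ orderOf g = r} =
      (Nat.choose (n + r - 1) (r - 1) - r - (if r ∣ n then 1 else 0)) / r +
        r * (if r ∣ n then 1 else 0) := by
  rw [card_classes hr hrq]
  have h := card_orbits (F := F) (n := n) hr hrq
  set O := Nat.card (Quotient (MulAction.orbitRel (mu F r) (NonConst F r n))) with hO
  have hch : Nat.choose (r + n - 1) n = Nat.choose (n + r - 1) (r - 1) := by
    have := hr.pos
    have h2 := Nat.choose_symm (n := r + n - 1) (k := n) (by omega)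
    rw [← h2, show r + n - 1 - n = r - 1 by omega, add_comm r n]
  rw [hch] at h
  have hr2 := hr.two_le
  split_ifs with hrn
  · rw [if_pos hrn, mul_one] at h
    have hO1 : 1 ≤ O := by
      haveI : Fact r.Prime := ⟨hr⟩
      obtain ⟨z, hz⟩ : ∃ z : mu F r, z ≠ 1 := by
        haveI : Nontrivial (mu F r) :=
          Finite.one_lt_card_iff_nontrivial.mp (by rw [card_mu hrq]; omega)
        exact exists_ne 1
      have h1 := card_fixedBy (n := n) hr hrq hz
      rw [if_pos hrn, Nat.card_eq_one_iff_unique] at h1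
      obtain ⟨-, ⟨s⟩⟩ := h1
      exact Nat.card_pos_iff.mpr ⟨⟨Quotient.mk _ s.1⟩, inferInstance⟩
    have h2 : Nat.choose (n + r - 1) (r - 1) - r - 1 = (O - 1) * r := by
      obtain ⟨O', hO'⟩ : ∃ O', O = O' + 1 := ⟨O - 1, by omega⟩
      rw [hO'] at h ⊢
      rw [add_mul, one_mul] at h
      simp only [Nat.add_sub_cancel]
      omega
    rw [h2, Nat.mul_div_cancel _ hr.pos, mul_one]
    omega
  · rw [if_neg hrn, mul_zero, add_zero] at h
    have h2 : Nat.choose (n + r - 1) (r - 1) - r - 0 = O * r := by omega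
    rw [h2, Nat.mul_div_cancel _ hr.pos, mul_zero]

end CfsgLib.Classical.PGLOrderR
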