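import Cfsg.Agent.Classical.Symp.Card
import Cfsg.Agent.Classical.Symp.Blocks
import Mathlib.LinearAlgebra.Matrix.GeneralLinearGroup.Card

/-!
Pairs of complementary totally isotropic subspaces of a symplectic space: their number.
-/

set_option autoImplicit false

namespace CfsgLib.Classical.Semisimple

open CfsgLib.Classical.Symp Module

variable {F : Type*} [Field F] {d : ℕ}

local notation "V" => (Fin d ⊕ Fin d → F)
local notation "Sp" => Matrix.symplecticGroup (Fin d) F
local notation "Mat" => Matrix (Fin d ⊕ Fin d) (Fin d ⊕ Fin d) F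

/-- Ordered pairs of complementary totally isotropic subspaces. -/
abbrev PolarPair (d : ℕ) (F : Type*) [Field F] : Type _ :=
  {P : Submodule F (Fin d ⊕ Fin d → F) × Submodule F (Fin d ⊕ Fin d → F) // IsCompl P.1 P.2 ∧
    (∀ u ∈ P.1, ∀ v ∈ P.1, Cfsg.sympForm d F u v = 0) ∧
    (∀ u ∈ P.2, ∀ v ∈ P.2, Cfsg.sympForm d F u v = 0)}

/-- An element of one member orthogonal to the other member is zero. -/
theorem eq_zero_of_polar {U W : Submodule F V} (hc : IsCompl U W)
    (hW : ∀ u ∈ W, ∀ v ∈ W, Cfsg.sympForm d F u v = 0) {w : V} (hw : w ∈ W)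
    (h : ∀ u ∈ U, Cfsg.sympForm d F u w = 0) : w = 0 := by
  refine eq_zero_of_form_eq_zero fun x => ?_
  obtain ⟨u, hu, w', hw', rfl⟩ := Submodule.mem_sup.1 (hc.sup_eq_top ▸ Submodule.mem_top : x ∈ U ⊔ W)
  rw [form_add_right, hW w hw w' hw', add_zero, form_swap, h u hu, neg_zero]

/-- The two members have dimension `d`, and any independent `d`-tuple of the first has a dual tuple
in the second. -/
theorem finrank_polar {U W : Submodule F V} (hc : IsCompl U W)
    (hU : ∀ u ∈ U, ∀ v ∈ U, Cfsg.sympForm d F u v = 0)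
    (hW : ∀ u ∈ W, ∀ v ∈ W, Cfsg.sympForm d F u v = 0) : finrank F U = d ∧ finrank F W = d := by
  have key : ∀ U W : Submodule F V, IsCompl U W →
      (∀ u ∈ W, ∀ v ∈ W, Cfsg.sympForm d F u v = 0) → finrank F W ≤ finrank F U := by
    intro U W hc hW
    let φ : W →ₗ[F] Module.Dual F U :=
      { toFun := fun w =>
          { toFun := fun u => Cfsg.sympForm d F (u : V) w
            map_add' := fun a b => form_add_left _ _ _
            map_smul' := fun a b => form_smul_left _ _ _ }
        map_add' := fun a b => LinearMap.ext fun u => form_add_right _ _ _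
        map_smul' := fun a b => LinearMap.ext fun u => form_smul_right _ _ _ }
    have hinj : Function.Injective φ := by
      rw [← LinearMap.ker_eq_bot, Submodule.eq_bot_iff]
      intro w hw
      refine Subtype.ext (eq_zero_of_polar hc hW w.2 fun u hu => ?_)
      exact LinearMap.congr_fun (LinearMap.mem_ker.1 hw) ⟨u, hu⟩
    exact (LinearMap.finrank_le_finrank_of_injective hinj).trans Subspace.dual_finrank_eq.le
  have h1 := key U W hc hW
  have h2 := key W U hc.symm hU
  have h3 := Submodule.finrank_add_eq_of_isCompl hc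
  rw [finrank_fintype_fun_eq_card, Fintype.card_sum, Fintype.card_fin] at h3
  omega

/-- Existence of dual tuples. -/
theorem exists_dual_tuple {U W : Submodule F V} (hc : IsCompl U W)
    (hU : ∀ u ∈ U, ∀ v ∈ U, Cfsg.sympForm d F u v = 0)
    (hW : ∀ u ∈ W, ∀ v ∈ W, Cfsg.sympForm d F u v = 0) {v : Fin d → V} (hv : ∀ i, v i ∈ U)
    (hli : LinearIndependent F v) :
    ∃ w : Fin d → V, (∀ i, w i ∈ W) ∧
      ∀ i j, Cfsg.sympForm d F (v i) (w j) = if i = j then 1 else 0 := by
  let φ : W →ₗ[F] (Fin d → F) :=
    { toFun := fun w i => Cfsg.sympForm d F (v i) w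
      map_add' := fun a b => funext fun i => form_add_right _ _ _
      map_smul' := fun a b => funext fun i => form_smul_right _ _ _ }
  have hspan : Submodule.span F (Set.range v) = U :=
    Submodule.eq_of_le_of_finrank_eq (Submodule.span_le.2 (Set.range_subset_iff.2 hv))
      (by rw [finrank_span_eq_card hli, Fintype.card_fin, (finrank_polar hc hU hW).1])
  have hinj : Function.Injective φ := by
    rw [← LinearMap.ker_eq_bot, Submodule.eq_bot_iff]
    intro w hw
    refine Subtype.ext (eq_zero_of_polar hc hW w.2 fun u hu => ?_)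
    rw [← hspan] at hu
    induction hu using Submodule.span_induction with
    | mem x hx =>
        obtain ⟨i, rfl⟩ := hx
        exact congrFun (LinearMap.mem_ker.1 hw) i
    | zero => exact form_zero_left _
    | add x y _ _ hx hy => rw [form_add_left, hx, hy, add_zero]
    | smul a x _ hx => rw [form_smul_left, hx, mul_zero]
  have hsurj : Function.Surjective φ :=
    (LinearMap.injective_iff_surjective_of_finrank_eq_finrank
      (by rw [(finrank_polar hc hU hW).2, finrank_fintype_fun_eq_card, Fintype.card_fin])).1 hinj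
  choose w hw using fun j : Fin d => hsurj (fun i => if i = j then 1 else 0)
  exact ⟨fun j => (w j : V), fun j => (w j).2, fun i j => congrFun (hw j) i⟩

theorem vec_eq_sum (x : V) :
    x = ∑ i, x (Sum.inr i) • stdE i + ∑ i, x (Sum.inl i) • stdF i := by
  funext k
  simp only [Pi.add_apply, Finset.sum_apply, Pi.smul_apply, smul_eq_mul, stdE, stdF]
  rcases k with k | k <;> simp [Pi.single_apply]

/-- A dual pair of isotropic tuples is the image of the standard one under a symplectic matrix. -/
theorem exists_sp_of_dual_tuple {v w : Fin d → V}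
    (hvv : ∀ i j, Cfsg.sympForm d F (v i) (v j) = 0) (hww : ∀ i j, Cfsg.sympForm d F (w i) (w j) = 0)
    (hvw : ∀ i j, Cfsg.sympForm d F (v i) (w j) = if i = j then 1 else 0) :
    ∃ g : Sp, (∀ i, (g : Matrix (Fin d ⊕ Fin d) (Fin d ⊕ Fin d) F).mulVec (stdE i) = v i) ∧
      ∀ i, (g : Matrix (Fin d ⊕ Fin d) (Fin d ⊕ Fin d) F).mulVec (stdF i) = w i := by
  classical
  let M : Matrix (Fin d ⊕ Fin d) (Fin d ⊕ Fin d) F := Matrix.of fun k l => Sum.elim w v l k
  have hE : ∀ i, M.mulVec (stdE i) = v i := fun i => by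
    rw [stdE, Matrix.mulVec_single_one]; rfl
  have hF : ∀ i, M.mulVec (stdF i) = w i := fun i => by
    rw [stdF, Matrix.mulVec_single_one]; rfl
  have hwv : ∀ i j, Cfsg.sympForm d F (w i) (v j) = if i = j then -1 else 0 := fun i j => by
    rw [form_swap, hvw]; split_ifs <;> simp_all
  refine ⟨⟨M, (mem_symplecticGroup_iff_form M).2 fun x y => ?_⟩, hE, hF⟩
  have hsum : ∀ (a : V) (z : Fin d → F) (u : Fin d → V),
      Cfsg.sympForm d F a (∑ i, z i • u i) = ∑ i, z i * Cfsg.sympForm d F a (u i) := fun a z u => by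
    rw [form_sum_right]; simp only [form_smul_right]
  have hright : ∀ (a : V) (z : V), Cfsg.sympForm d F a (M.mulVec z) =
      ∑ i, z (Sum.inr i) * Cfsg.sympForm d F a (v i) + ∑ i, z (Sum.inl i) * Cfsg.sympForm d F a (w i) := by
    intro a z
    conv_lhs => rw [vec_eq_sum z]
    rw [Matrix.mulVec_add, Matrix.mulVec_sum, Matrix.mulVec_sum, form_add_right, form_sum_right,
      form_sum_right]
    simp only [Matrix.mulVec_smul, hE, hF, form_smul_right]
  have hv' : ∀ j, Cfsg.sympForm d F (M.mulVec x) (v j) = x (Sum.inl j) * (-1) := fun j => by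
    rw [form_swap, hright]
    simp [hvv, hvw]
  have hw' : ∀ j, Cfsg.sympForm d F (M.mulVec x) (w j) = x (Sum.inr j) := fun j => by
    rw [form_swap, hright]
    simp [hww, hwv]
  rw [hright]
  simp only [hv', hw']
  rw [form_apply, ← Finset.sum_add_distrib]
  refine Finset.sum_congr rfl fun i _ => ?_
  ring

/-- The number of polar pairs, multiplied by the number of bases of a member, is the order of the
symplectic group. -/
theorem card_polarPair_mul [Fintype F] :
    Nat.card (PolarPair d F) * ∏ i : Fin d, (Fintype.card F ^ d - Fintype.card F ^ (i : ℕ)) =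
      Fintype.card F ^ (d ^ 2) *
        ∏ i ∈ Finset.range d, (Fintype.card F ^ (2 * (i + 1)) - 1) := by
  classical
  rw [← card_symplecticGroup]
  have hPhi : ∀ g : Sp, IsCompl
      (Submodule.span F (Set.range fun i => (g : Mat).mulVec (stdE i)))
      (Submodule.span F (Set.range fun i => (g : Mat).mulVec (stdF i))) ∧
      (∀ u ∈ Submodule.span F (Set.range fun i => (g : Mat).mulVec (stdE i)),
        ∀ v ∈ Submodule.span F (Set.range fun i => (g : Mat).mulVec (stdE i)),
        Cfsg.sympForm d F u v = 0) ∧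
      (∀ u ∈ Submodule.span F (Set.range fun i => (g : Mat).mulVec (stdF i)),
        ∀ v ∈ Submodule.span F (Set.range fun i => (g : Mat).mulVec (stdF i)),
        Cfsg.sympForm d F u v = 0) := by
    intro g
    have iso : ∀ e : Fin d → V, (∀ i j, Cfsg.sympForm d F (e i) (e j) = 0) →
        ∀ u ∈ Submodule.span F (Set.range e), ∀ v ∈ Submodule.span F (Set.range e),
          Cfsg.sympForm d F u v = 0 := by
      intro e he u hu v hv
      induction hu using Submodule.span_induction with
      | mem x hx =>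
          obtain ⟨i, rfl⟩ := hx
          induction hv using Submodule.span_induction with
          | mem y hy => obtain ⟨j, rfl⟩ := hy; exact he i j
          | zero => exact form_zero_right _
          | add a b _ _ ha hb => rw [form_add_right, ha, hb, add_zero]
          | smul a b _ hb => rw [form_smul_right, hb, mul_zero]
      | zero => exact form_zero_left _
      | add a b _ _ ha hb => rw [form_add_left, ha, hb, add_zero]
      | smul a b _ hb => rw [form_smul_left, hb, mul_zero]
    have hE := iso (fun i => (g : Mat).mulVec (stdE i))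
      fun i j => by rw [form_mulVec, form_stdE_stdE]
    have hF := iso (fun i => (g : Mat).mulVec (stdF i))
      fun i j => by rw [form_mulVec, form_stdF_stdF]
    have htop : ∀ x : V, x ∈ Submodule.span F (Set.range fun i => (g : Mat).mulVec (stdE i)) ⊔
        Submodule.span F (Set.range fun i => (g : Mat).mulVec (stdF i)) := by
      intro x
      rw [← mulVec_inv_cancel g x, vec_eq_sum (((g⁻¹ : Sp) : Mat).mulVec x), Matrix.mulVec_add,
        Matrix.mulVec_sum, Matrix.mulVec_sum]
      refine Submodule.add_mem_sup (Submodule.sum_mem _ fun i _ => ?_)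
        (Submodule.sum_mem _ fun i _ => ?_)
      all_goals
        rw [Matrix.mulVec_smul]
        exact Submodule.smul_mem _ _ (Submodule.subset_span ⟨i, rfl⟩)
    refine ⟨⟨Submodule.disjoint_def.2 fun x hx hx' => ?_, codisjoint_iff.2 (eq_top_iff.2 fun x _ => htop x)⟩,
      hE, hF⟩
    refine eq_zero_of_form_eq_zero fun y => ?_
    obtain ⟨u, hu, w, hw, rfl⟩ := Submodule.mem_sup.1 (htop y)
    rw [form_add_right, hE x hx u hu, hF x hx' w hw, add_zero]
  let Φ : Sp → PolarPair d F := fun g =>
    ⟨(Submodule.span F (Set.range fun i => (g : Mat).mulVec (stdE i)),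
      Submodule.span F (Set.range fun i => (g : Mat).mulVec (stdF i))), hPhi g⟩
  let _ : Fintype (PolarPair d F) := Fintype.ofFinite _
  rw [← Nat.card_congr (Equiv.sigmaFiberEquiv Φ), Nat.card_sigma]
  have hfib : ∀ P : PolarPair d F, Nat.card {g : Sp // Φ g = P} =
      ∏ i : Fin d, (Fintype.card F ^ d - Fintype.card F ^ (i : ℕ)) := by
    rintro ⟨⟨U, W⟩, hc, hU, hW⟩
    dsimp only at hc hU hW
    have hdim := (finrank_polar hc hU hW).1
    have hcl : Nat.card {s : Fin d → U // LinearIndependent F s} = _ :=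
      card_linearIndependent (K := F) hdim.ge
    rw [hdim] at hcl
    rw [← hcl]
    refine Nat.card_congr (Equiv.ofBijective (fun g => ⟨fun i => ⟨(g.1 : Mat).mulVec (stdE i), ?_⟩, ?_⟩) ⟨?_, ?_⟩)
    · have : Submodule.span F (Set.range fun i => (g.1 : Mat).mulVec (stdE i)) = U :=
        congrArg (fun P : PolarPair d F => P.1.1) g.2
      exact this.le (Submodule.subset_span ⟨i, rfl⟩)
    · refine LinearIndependent.of_comp U.subtype ?_
      have hE : LinearIndependent F (fun i : Fin d => (stdE i : V)) := by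
        convert (Pi.basisFun F (Fin d ⊕ Fin d)).linearIndependent.comp Sum.inr Sum.inr_injective using 1
        funext i
        simp [stdE]
      exact hE.map' (Matrix.mulVecLin (g.1 : Mat))
        (LinearMap.ker_eq_bot.2 (mulVec_injective g.1))
    · rintro ⟨g, hg⟩ ⟨g', hg'⟩ h
      have hW1 : Submodule.span F (Set.range fun i => (g : Mat).mulVec (stdF i)) = W :=
        congrArg (fun P : PolarPair d F => P.1.2) hg
      have hW2 : Submodule.span F (Set.range fun i => (g' : Mat).mulVec (stdF i)) = W :=
        congrArg (fun P : PolarPair d F => P.1.2) hg'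
      have hU1 : Submodule.span F (Set.range fun i => (g : Mat).mulVec (stdE i)) = U :=
        congrArg (fun P : PolarPair d F => P.1.1) hg
      have hEE : ∀ i, (g : Mat).mulVec (stdE i) = (g' : Mat).mulVec (stdE i) :=
        fun i => congrArg Subtype.val (congrFun (congrArg Subtype.val h) i)
      refine Subtype.ext (symp_ext_std hEE fun j => ?_)
      rw [← sub_eq_zero]
      refine eq_zero_of_polar hc hW (W.sub_mem (hW1.le (Submodule.subset_span ⟨j, rfl⟩))
        (hW2.le (Submodule.subset_span ⟨j, rfl⟩))) fun u hu => ?_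
      rw [← hU1] at hu
      induction hu using Submodule.span_induction with
      | mem x hx =>
          obtain ⟨i, rfl⟩ := hx
          dsimp only
          rw [form_sub_right, form_mulVec, hEE, form_mulVec, sub_self]
      | zero => exact form_zero_left _
      | add x y _ _ hx hy => rw [form_add_left, hx, hy, add_zero]
      | smul a x _ hx => rw [form_smul_left, hx, mul_zero]
    · rintro ⟨v, hv⟩
      have hli : LinearIndependent F (fun i => (v i : V)) := hv.map' U.subtype U.ker_subtype
      obtain ⟨w, hw, hd⟩ := exists_dual_tuple hc hU hW (fun i => (v i).2) hli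
      obtain ⟨g, hgE, hgF⟩ := exists_sp_of_dual_tuple (fun i j => hU _ (v i).2 _ (v j).2)
        (fun i j => hW _ (hw i) _ (hw j)) hd
      have h1 : Submodule.span F (Set.range fun i => (g : Mat).mulVec (stdE i)) = U := by
        refine Submodule.eq_of_le_of_finrank_eq (Submodule.span_le.2 (Set.range_subset_iff.2 fun i => ?_)) ?_
        · rw [hgE]; exact (v i).2
        · rw [(finrank_polar (hPhi g).1 (hPhi g).2.1 (hPhi g).2.2).1, hdim]
      have h2 : Submodule.span F (Set.range fun i => (g : Mat).mulVec (stdF i)) = W := by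
        refine Submodule.eq_of_le_of_finrank_eq (Submodule.span_le.2 (Set.range_subset_iff.2 fun i => ?_)) ?_
        · rw [hgF]; exact hw i
        · rw [(finrank_polar (hPhi g).1 (hPhi g).2.1 (hPhi g).2.2).2, (finrank_polar hc hU hW).2]
      exact ⟨⟨g, Subtype.ext (Prod.ext h1 h2)⟩, Subtype.ext (funext fun i => Subtype.ext (hgE i))⟩
  rw [Finset.sum_congr rfl fun P _ => hfib P, Finset.sum_const, Finset.card_univ, smul_eq_mul,
    Nat.card_eq_fintype_card]

/-- The number of polar pairs is, up to powers of `q`, the product of the `q ^ i + 1`. -/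
theorem card_polarPair [Fintype F] :
    Nat.card (PolarPair d F) * Fintype.card F ^ (∑ i ∈ Finset.range d, i) =
      Fintype.card F ^ (d ^ 2) * ∏ i ∈ Finset.range d, (Fintype.card F ^ (i + 1) + 1) := by
  have h := card_polarPair_mul (F := F) (d := d)
  set q := Fintype.card F with hq
  have hq1 : 1 < q := Fintype.one_lt_card
  have hA : ∏ i : Fin d, (q ^ d - q ^ (i : ℕ)) =
      q ^ (∑ i ∈ Finset.range d, i) * ∏ i ∈ Finset.range d, (q ^ (i + 1) - 1) := by
    rw [Fin.prod_univ_eq_prod_range (fun i => q ^ d - q ^ i), ← Finset.prod_pow_eq_pow_sum,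
      ← Finset.prod_range_reflect (fun i => q ^ (i + 1) - 1), ← Finset.prod_mul_distrib]
    refine Finset.prod_congr rfl fun i hi => ?_
    rw [Finset.mem_range] at hi
    rw [Nat.mul_sub, mul_one, ← pow_add]
    congr 2
    omega
  have hB : ∏ i ∈ Finset.range d, (q ^ (2 * (i + 1)) - 1) =
      (∏ i ∈ Finset.range d, (q ^ (i + 1) + 1)) * ∏ i ∈ Finset.range d, (q ^ (i + 1) - 1) := by
    rw [← Finset.prod_mul_distrib]
    refine Finset.prod_congr rfl fun i _ => ?_
    rw [← Nat.sq_sub_sq, one_pow, ← pow_mul, mul_comm (i + 1) 2]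
  have hpos : 0 < ∏ i ∈ Finset.range d, (q ^ (i + 1) - 1) :=
    Finset.prod_pos fun i _ => Nat.sub_pos_of_lt (Nat.one_lt_pow (by omega) hq1)
  rw [hA, hB] at h
  refine Nat.eq_of_mul_eq_mul_right hpos ?_
  calc _ = _ := by rw [mul_assoc]
    _ = _ := h
    _ = _ := by rw [mul_assoc]

theorem even_card_polarPair [Fintype F] (hq : Odd (Fintype.card F)) (hd : 1 ≤ d) :
    Even (Nat.card (PolarPair d F)) := by
  have h := card_polarPair (F := F) (d := d)
  have h2 : 2 ∣ Nat.card (PolarPair d F) * Fintype.card F ^ (∑ i ∈ Finset.range d, i) := by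
    rw [h]
    refine Dvd.dvd.mul_left (dvd_trans ?_ (Finset.dvd_prod_of_mem _ (Finset.mem_range.2 hd))) _
    exact even_iff_two_dvd.1 (hq.pow.add_one)
  rcases (Nat.prime_two.dvd_mul).1 h2 with h' | h'
  · exact even_iff_two_dvd.2 h'
  · exact absurd (Nat.prime_two.dvd_of_dvd_pow h') (fun h'' => by
      obtain ⟨k, hk⟩ := hq; omega)

/-- A prime other than the characteristic dividing the number of polar pairs divides some
`q ^ i + 1`. -/
theorem exists_dvd_of_dvd_card_polarPair [Fintype F] {r : ℕ} (hr : r.Prime)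
    (hrq : ¬ r ∣ Fintype.card F) (h : r ∣ Nat.card (PolarPair d F)) :
    ∃ j, 1 ≤ j ∧ j ≤ d ∧ r ∣ Fintype.card F ^ j + 1 := by
  have h1 : r ∣ Fintype.card F ^ (d ^ 2) *
      ∏ i ∈ Finset.range d, (Fintype.card F ^ (i + 1) + 1) := by
    rw [← card_polarPair]; exact h.mul_right _
  rcases hr.dvd_mul.1 h1 with h2 | h2
  · exact absurd (hr.dvd_of_dvd_pow h2) hrq
  · obtain ⟨i, hi, hdvd⟩ := (Prime.dvd_finsetProd_iff hr.prime _).1 h2
    exact ⟨i + 1, by omega, Finset.mem_range.1 hi, hdvd⟩

end CfsgLib.Classical.Semisimple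

namespace CfsgLib.Classical.Semisimple

open CfsgLib.Classical.Symp Module

/-- Adjoining an identity block to a symplectic matrix of size `2 * h` keeps the moved space of
dimension at most `2 * h`. -/
theorem finrank_range_blockSp_le {F : Type*} [Field F] (h b : ℕ)
    (y : Matrix.symplecticGroup (Fin h) F) :
    finrank F (LinearMap.range
      (Matrix.toLin' ((Blocks.blockSp h b F (y, 1) : Matrix.symplecticGroup (Fin (h + b)) F) :
        Matrix (Fin (h + b) ⊕ Fin (h + b)) (Fin (h + b) ⊕ Fin (h + b)) F) -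
        (1 : F) • (1 : Module.End F (Fin (h + b) ⊕ Fin (h + b) → F)))) ≤ 2 * h := by
  have hM : ((Blocks.blockSp h b F (y, 1) : Matrix.symplecticGroup (Fin (h + b)) F) :
      Matrix (Fin (h + b) ⊕ Fin (h + b)) (Fin (h + b) ⊕ Fin (h + b)) F) - 1 =
      Matrix.reindex (Blocks.blockEquiv h b) (Blocks.blockEquiv h b)
        (Matrix.fromBlocks ((y : Matrix (Fin h ⊕ Fin h) (Fin h ⊕ Fin h) F) - 1) 0 0
          (0 : Matrix (Fin b ⊕ Fin b) (Fin b ⊕ Fin b) F)) := by
    rw [Blocks.coe_blockSp, ← map_one (Matrix.reindexAlgEquiv F F (Blocks.blockEquiv h b)), ← map_sub,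
      ← Matrix.fromBlocks_one, sub_eq_add_neg, Matrix.fromBlocks_neg, Matrix.fromBlocks_add]
    simp [sub_eq_add_neg]
  rw [one_smul, Module.End.one_eq_id, ← Matrix.toLin'_one, ← map_sub, hM, Matrix.toLin'_apply',
    ← Matrix.rank, Matrix.rank_reindex]
  have : Matrix.fromBlocks ((y : Matrix (Fin h ⊕ Fin h) (Fin h ⊕ Fin h) F) - 1) 0 0
      (0 : Matrix (Fin b ⊕ Fin b) (Fin b ⊕ Fin b) F) =
      Matrix.fromRows ((y : Matrix (Fin h ⊕ Fin h) (Fin h ⊕ Fin h) F) - 1)
          (0 : Matrix (Fin b ⊕ Fin b) (Fin h ⊕ Fin h) F) *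
        Matrix.fromCols (1 : Matrix (Fin h ⊕ Fin h) (Fin h ⊕ Fin h) F)
          (0 : Matrix (Fin h ⊕ Fin h) (Fin b ⊕ Fin b) F) := by
    rw [Matrix.fromRows_mul_fromCols]
    simp
  rw [this]
  refine (Matrix.rank_mul_le_left _ _).trans ((Matrix.rank_le_card_width _).trans ?_)
  simp [two_mul]

end CfsgLib.Classical.Semisimple
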