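import Cfsg.Agent.Eq.Def_Classical
import Cfsg.Agent.Eq.Def_GeometricClasses
import Cfsg.Agent.Eq.Def_ClassicalGeometry
import Cfsg.Agent.Classical.Semisimple.QuadCriteria
import Cfsg.Agent.Classical.Semisimple.Bridge
import Cfsg.Agent.Classical.Orth.Index
import Cfsg.Agent.Classical.Orth.Forms
import Cfsg.Agent.OrthGeo.Eichler

/-!
The passage between matrices in `Omega` of a form given as a function and isometries of the bundled
quadratic form; the types of the standard forms.
-/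

set_option autoImplicit false

namespace CfsgLib.Classical.Semisimple.QuadBridge

open Module Cfsg.Geo CfsgLib.OrthGeo QuadType QuadIsometry
open scoped Matrix MatrixGroups

variable {ι : Type} [Fintype ι] [DecidableEq ι] {F : Type*} [Field F] {Q : (ι → F) → F}
variable (hQ : IsNondegenerateQuadraticForm Q)

/-- The bundled quadratic form. -/
def qf : QuadraticForm F (ι → F) :=
  QuadraticMap.ofPolar Q (fun c x => by rw [hQ.smul, smul_eq_mul, sq])
    (fun x x' y => hQ.polar_bilinear.add_left x x' y)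
    (fun c x y => by rw [smul_eq_mul]; exact hQ.polar_bilinear.smul_left c x y)

theorem qf_apply (x : ι → F) : qf hQ x = Q x := rfl

theorem nondeg_top : NondegIn (qf hQ) ⊤ := fun x _ h => by
  by_contra hx
  obtain ⟨-, y, hy⟩ := hQ.nondegenerate x hx
  exact hy (h y trivial)

theorem nondegenerateOn_iff (W : Submodule F (ι → F)) :
    IsNondegenerateOn (QuadraticMap.polar Q) W ↔ NondegIn (qf hQ) W := by
  refine ⟨fun h x hx h0 => ?_, fun h w hw hw0 => ?_⟩
  · by_contra hx0
    obtain ⟨-, y, hy, hxy⟩ := h x hx hx0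
    exact hxy (h0 y hy)
  · have h1 : ∃ x ∈ W, QuadraticMap.polar Q w x ≠ 0 := by
      by_contra hh
      push Not at hh
      exact hw0 (h w hw hh)
    obtain ⟨x, hx, hxy⟩ := h1
    exact ⟨⟨x, hx, by rwa [QuadraticMap.polar_comm]⟩, x, hx, hxy⟩

theorem plusTypeOn_iff (W : Submodule F (ι → F)) : IsPlusTypeOn Q W ↔ Plus (qf hQ) W := Iff.rfl

theorem isometricFor_iff (W W' : Submodule F (ι → F)) :
    AreIsometricFor Q W W' ↔ AreIso (qf hQ) W (qf hQ) W' := Iff.rfl

include hQ in
theorem exists_ne_zero (hn : 1 ≤ Fintype.card ι) : ∃ v, Q v ≠ 0 := by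
  by_contra h
  push Not at h
  have h1 := two_mul_finrank_le hQ (S := ⊤) fun u _ => h u
  rw [finrank_top, finrank_fintype_fun_eq_card] at h1
  omega

include hQ in
/-- A scalar isometry is a sign. -/
theorem scalar_sq (hn : 1 ≤ Fintype.card ι) {g : GL ι F} (hg : g ∈ Cfsg.isometryGroup F Q) {z : F}
    (hz : (g : Matrix ι ι F) = z • (1 : Matrix ι ι F)) : z * z = 1 := by
  obtain ⟨v, hv⟩ := exists_ne_zero hQ hn
  have h := mem_isometryGroup.1 hg v
  rw [hz, Matrix.smul_mulVec, Matrix.one_mulVec, q_smul hQ, sq] at h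
  exact mul_right_cancel₀ hv (by rw [h, one_mul])

variable [Fintype F]

include hQ in
/-- Isometries of odd prime order lie in `Omega`. -/
theorem mem_omega_of_pow {r : ℕ} (hr : r.Prime) (hr2 : r ≠ 2) (hn : 5 ≤ Fintype.card ι) {x : GL ι F}
    (hx : x ∈ Cfsg.isometryGroup F Q) (hxr : x ^ r = 1) : x ∈ omegaGL Q := by
  have hnorm : (Cfsg.Omega F Q).Normal := inferInstance
  set y : Cfsg.isometryGroup F Q ⧸ Cfsg.Omega F Q := QuotientGroup.mk ⟨x, hx⟩ with hy
  have h4 : orderOf y ∣ 4 := by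
    have h := orderOf_dvd_natCard y
    rw [← Subgroup.index_eq_card] at h
    by_cases h2 : (2 : F) = 0
    · rw [CfsgLib.Classical.Orth.index_omega_even hQ h2 (by omega) (fun h' => by omega)] at h
      exact h.trans ⟨2, rfl⟩
    · rwa [CfsgLib.Classical.Orth.index_omega_odd hQ h2 (by omega)] at h
  have hry : orderOf y ∣ r := orderOf_dvd_of_pow_eq_one (by
    rw [hy, ← QuotientGroup.mk_pow]
    exact (QuotientGroup.eq_one_iff _).2 (by
      rw [show (⟨x, hx⟩ : Cfsg.isometryGroup F Q) ^ r = 1 from Subtype.ext hxr]; exact one_mem _))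
  have hcop : Nat.Coprime 4 r := by
    rw [show 4 = 2 ^ 2 by norm_num]
    exact ((Nat.coprime_primes Nat.prime_two hr).2 (Ne.symm hr2)).pow_left 2
  have h1 : orderOf y = 1 := Nat.eq_one_of_dvd_coprimes hcop h4 hry
  exact ⟨⟨x, hx⟩, (QuotientGroup.eq_one_iff _).1 (orderOf_eq_one_iff.1 h1), rfl⟩

variable {r : ℕ} [hr : Fact r.Prime]

omit [Fintype F] hr in
theorem setting_of_pow (hr2 : r ≠ 2) (hrF : (r : F) ≠ 0) {x : GL ι F} (hx : x ∈ Cfsg.isometryGroup F Q)
    (hxr : x ^ r = 1) : Setting (qf hQ) (Matrix.toLin' (x : Matrix ι ι F)) r :=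
  { nondeg_top := nondeg_top hQ
    isoQ := fun v => by rw [qf_apply, qf_apply, Matrix.toLin'_apply]; exact mem_isometryGroup.1 hx v
    pow := by rw [toLin'_pow, ← Units.val_pow_eq_pow_val, hxr, Units.val_one, Matrix.toLin'_one]; rfl
    odd := hr2
    ne := hrF }

/-- An isometry of odd prime order as a matrix in `Omega`. -/
theorem exists_matrix (hn : 5 ≤ Fintype.card ι) {f : Module.End F (ι → F)} (hs : Setting (qf hQ) f r) :
    ∃ x : GL ι F, x ∈ omegaGL Q ∧ x ^ r = 1 ∧ Matrix.toLin' (x : Matrix ι ι F) = f := by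
  have hmul : LinearMap.toMatrix' f * LinearMap.toMatrix' (f ^ (r - 1)) = 1 := by
    rw [← LinearMap.toMatrix'_mul, ← pow_succ', Nat.sub_add_cancel hr.out.one_le, hs.pow, LinearMap.toMatrix'_one]
  let x : GL ι F := ⟨_, _, hmul, mul_eq_one_comm.1 hmul⟩
  have hxf : Matrix.toLin' (x : Matrix ι ι F) = f := Matrix.toLin'_toMatrix' f
  have hxi : x ∈ Cfsg.isometryGroup F Q := mem_isometryGroup.2 fun v => by
    have h := hs.isoQ v
    rw [← hxf, Matrix.toLin'_apply] at h
    exact h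
  have hxr : x ^ r = 1 := Units.ext (Matrix.toLin'.injective (by
    rw [Units.val_pow_eq_pow_val, ← toLin'_pow, hxf, hs.pow, Units.val_one, Matrix.toLin'_one]; rfl))
  exact ⟨x, mem_omega_of_pow hQ hr.out hs.odd hn hxi hxr, hxr, hxf⟩

omit [Fintype F] hr in
theorem map_smul_matrix (x : Matrix ι ι F) {z : F} (hz : z ≠ 0) (W : Submodule F (ι → F)) :
    W.map (z • Matrix.toLin' x) = W.map (Matrix.toLin' x) := Submodule.map_smul _ W z hz

/-- Elements of odd prime order of `Omega` modulo scalars, as isometries. -/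
theorem forall_scalar_iff (hn : 5 ≤ Fintype.card ι) (hr2 : r ≠ 2) (hrF : (r : F) ≠ 0)
    {P : Submodule F (ι → F) → Prop} (hne : ∃ W, P W) :
    (∀ x : GL ι F, x ∈ omegaGL Q →
      (∃ z : F, ((x ^ r : GL ι F) : Matrix ι ι F) = z • (1 : Matrix ι ι F)) →
      (∀ z : F, (x : Matrix ι ι F) ≠ z • (1 : Matrix ι ι F)) →
      ∃ W, P W ∧ W.map (Matrix.toLin' (x : Matrix ι ι F)) ≤ W) ↔
    (∀ f : Module.End F (ι → F), Setting (qf hQ) f r → ∃ W, P W ∧ W.map f ≤ W) := by
  constructor
  · intro h f hs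
    obtain ⟨x, hx, hxr, hxf⟩ := exists_matrix hQ hn hs
    by_cases hsc : ∃ z : F, (x : Matrix ι ι F) = z • (1 : Matrix ι ι F)
    · obtain ⟨W, hW⟩ := hne
      obtain ⟨z, hz⟩ := hsc
      refine ⟨W, hW, map_le_of_forall_mem fun v hv => ?_⟩
      rw [← hxf, Matrix.toLin'_apply, hz, Matrix.smul_mulVec, Matrix.one_mulVec]
      exact W.smul_mem z hv
    · obtain ⟨W, hW, hWx⟩ := h x hx ⟨1, by rw [hxr, Units.val_one, one_smul]⟩ fun z hz => hsc ⟨z, hz⟩
      exact ⟨W, hW, hxf ▸ hWx⟩
  · rintro h x hx ⟨z, hz⟩ -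
    have hxi := omegaGL_le hx
    have hzz := scalar_sq hQ (by omega) (pow_mem hxi r) hz
    have hs : Setting (qf hQ) (z • Matrix.toLin' (x : Matrix ι ι F)) r :=
      { nondeg_top := nondeg_top hQ
        isoQ := fun v => by
          rw [LinearMap.smul_apply, QuadraticMap.map_smul, qf_apply, qf_apply, Matrix.toLin'_apply,
            mem_isometryGroup.1 hxi v, hzz, one_smul]
        pow := by
          rw [_root_.smul_pow, toLin'_pow, ← Units.val_pow_eq_pow_val, hz, toLin'_smul_one, smul_smul]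
          obtain ⟨k, hk⟩ := hr.out.odd_of_ne_two hr2
          rw [hk, pow_succ, pow_mul, sq, hzz, one_pow, one_mul, hzz, one_smul]
        odd := hr2
        ne := hrF }
    obtain ⟨W, hW, hWf⟩ := h _ hs
    rw [map_smul_matrix _ (left_ne_zero_of_mul (hzz.symm ▸ one_ne_zero))] at hWf
    exact ⟨W, hW, hWf⟩

/-- Elements of odd prime order of `Omega`, as isometries. -/
theorem forall_order_iff (hn : 5 ≤ Fintype.card ι) (hr2 : r ≠ 2) (hrF : (r : F) ≠ 0)
    {P : Submodule F (ι → F) → Prop} (hne : ∃ W, P W) :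
    (∀ x : GL ι F, x ∈ omegaGL Q → orderOf x = r →
      ∃ W, P W ∧ W.map (Matrix.toLin' (x : Matrix ι ι F)) ≤ W) ↔
    (∀ f : Module.End F (ι → F), Setting (qf hQ) f r → ∃ W, P W ∧ W.map f ≤ W) := by
  constructor
  · intro h f hs
    obtain ⟨x, hx, hxr, hxf⟩ := exists_matrix hQ hn hs
    by_cases h1 : x = 1
    · obtain ⟨W, hW⟩ := hne
      refine ⟨W, hW, map_le_of_forall_mem fun v hv => ?_⟩
      rwa [← hxf, h1, Units.val_one, Matrix.toLin'_one]
    · obtain ⟨W, hW, hWx⟩ := h x hx (orderOf_eq_prime hxr h1)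
      exact ⟨W, hW, hxf ▸ hWx⟩
  · exact fun h x hx hxo => h _ (setting_of_pow hQ hr2 hrF (omegaGL_le hx) (by rw [← hxo, pow_orderOf_eq_one]))

omit [Fintype F] hr in
theorem cast_ne_zero_of_ne {p : ℕ} [Fact p.Prime] [CharP F p] (hrp : r.Prime) (h : r ≠ p) : (r : F) ≠ 0 :=
  fun h0 => h ((Nat.prime_dvd_prime_iff_eq (Fact.out : p.Prime) hrp).1 ((CharP.cast_eq_zero_iff F p r).1 h0)).symm

omit hr in
/-- The subspaces of a given even dimension and type form one isometry class. -/
theorem exists_class {m : ℕ} (hme : Even m) (hmn : m < Fintype.card ι) (b : Prop) (hb : m = 0 → b) :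
    ∃ R : Submodule F (ι → F), NondegIn (qf hQ) R ∧ finrank F R = m ∧ (Plus (qf hQ) R ↔ b) ∧
      ∀ W : Submodule F (ι → F), (finrank F W = m ∧ IsNondegenerateOn (QuadraticMap.polar Q) W ∧ (IsPlusTypeOn Q W ↔ b)) ↔
        AreIso (qf hQ) R (qf hQ) W := by
  obtain ⟨h, rfl⟩ := hme
  obtain ⟨R, -, hR, hRd, hRb⟩ := exists_sub_type h (nondeg_top hQ)
    (by rw [finrank_top, finrank_fintype_fun_eq_card]; omega) b (fun h0 => hb (by omega))
  rw [two_mul] at hRd
  refine ⟨R, hR, hRd, hRb, fun W => ?_⟩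
  rw [nondegenerateOn_iff hQ, plusTypeOn_iff hQ]
  constructor
  · rintro ⟨hWd, hW, hWb⟩
    exact areIso_of_plus_iff hR hW (hRd.trans hWd.symm) (hWd ▸ ⟨h, rfl⟩) (hRb.trans hWb.symm)
  · exact fun hiso => ⟨hiso.finrank_eq.symm.trans hRd, hiso.nondeg hR, hiso.plus_iff.symm.trans hRb⟩

omit [Fintype ι] [DecidableEq ι] [Fintype F] hr in
/-- The dimension of a coordinate subspace. -/
theorem finrank_ker_funLeft {κ : Type} [Fintype κ] [Finite ι] (g : κ → ι) (hg : Function.Injective g) :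
    finrank F (LinearMap.ker (LinearMap.funLeft F F g)) = Nat.card ι - Fintype.card κ := by
  haveI := Fintype.ofFinite ι
  have h1 := LinearMap.finrank_range_add_finrank_ker (LinearMap.funLeft F F g)
  rw [LinearMap.range_eq_top.2 (LinearMap.funLeft_surjective_of_injective F F g hg), finrank_top,
    finrank_fintype_fun_eq_card, finrank_fintype_fun_eq_card] at h1
  rw [Nat.card_eq_fintype_card]
  omega

omit [Fintype F] in
/-- The hyperbolic form is of plus type. -/
theorem plus_quadFormPlus (d : ℕ) :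
    Plus (qf (CfsgLib.Classical.Orth.isNondegQF_quadFormPlus (F := F) d)) ⊤ := by
  refine ⟨LinearMap.ker (LinearMap.funLeft F F Sum.inr), le_top, fun v hv => ?_, ?_⟩
  · rw [qf_apply, Cfsg.quadFormPlus]
    refine Finset.sum_eq_zero fun j _ => ?_
    have : v (Sum.inr j) = 0 := congrFun (LinearMap.mem_ker.1 hv) j
    rw [this, mul_zero]
  · rw [finrank_ker_funLeft _ Sum.inr_injective, finrank_top, finrank_fintype_fun_eq_card, Nat.card_eq_fintype_card]
    simp only [Fintype.card_sum, Fintype.card_fin]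
    omega

/-- The form with an anisotropic binary part is of minus type. -/
theorem not_plus_quadFormMinus (m : ℕ) (a b : F)
    (hab : ∀ x y : F, x ^ 2 + a * x * y + b * y ^ 2 = 0 → x = 0 ∧ y = 0) :
    ¬ Plus (qf (CfsgLib.Classical.Orth.isNondegQF_quadFormMinus m a b hab)) ⊤ := by
  set q0 := qf (CfsgLib.Classical.Orth.isNondegQF_quadFormMinus m a b hab)
  let gA : Fin m ⊕ Fin m → (Fin m ⊕ Fin m) ⊕ Fin 2 := Sum.inl
  let gH : Fin 2 → (Fin m ⊕ Fin m) ⊕ Fin 2 := Sum.inr
  set H := LinearMap.ker (LinearMap.funLeft F F gH) with hH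
  set A := LinearMap.ker (LinearMap.funLeft F F gA) with hA
  have hHv : ∀ v ∈ H, ∀ j, v (Sum.inr j) = 0 := fun v hv j => congrFun (LinearMap.mem_ker.1 hv) j
  have hAv : ∀ v ∈ A, ∀ j, v (Sum.inl j) = 0 := fun v hv j => congrFun (LinearMap.mem_ker.1 hv) j
  have ho : A ≤ orth q0 H := fun v hv => mem_orth.2 fun u hu => by
    show QuadraticMap.polar (Cfsg.quadFormMinus m F a b) u v = 0
    simp [QuadraticMap.polar, Cfsg.quadFormMinus, hHv u hu, hAv v hv]
  have hdH : finrank F H = 2 * m := by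
    rw [hH, finrank_ker_funLeft _ Sum.inr_injective, Nat.card_eq_fintype_card]
    simp only [Fintype.card_sum, Fintype.card_fin]
    omega
  have hdA : finrank F A = 2 := by
    rw [hA, finrank_ker_funLeft _ Sum.inl_injective, Nat.card_eq_fintype_card]
    simp only [Fintype.card_sum, Fintype.card_fin]
    omega
  have hsplit : ∀ v, ∃ x ∈ H, ∃ y ∈ A, x + y = v := fun v =>
    ⟨Sum.elim (fun j => v (Sum.inl j)) 0, LinearMap.mem_ker.2 (funext fun _ => rfl),
      Sum.elim 0 (fun j => v (Sum.inr j)), LinearMap.mem_ker.2 (funext fun _ => rfl),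
      funext fun j => by cases j <;> simp⟩
  have htop : H ⊔ A = ⊤ := eq_top_iff.2 fun v _ => by
    obtain ⟨x, hx, y, hy, rfl⟩ := hsplit v
    exact Submodule.add_mem_sup hx hy
  have hnd : ∀ S T : Submodule F _, (∀ v, ∃ x ∈ S, ∃ y ∈ T, x + y = v) → T ≤ orth q0 S → NondegIn q0 S := by
    intro S T hST hTS u hu h
    refine nondeg_top (CfsgLib.Classical.Orth.isNondegQF_quadFormMinus m a b hab) u trivial fun v _ => ?_
    obtain ⟨x, hx, y, hy, rfl⟩ := hST v
    rw [QuadraticMap.polar_add_right, h x hx, mem_orth.1 (hTS hy) u hu, add_zero]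
  have hHn : NondegIn q0 H := hnd H A hsplit ho
  have hAn : NondegIn q0 A := hnd A H (fun v => by
    obtain ⟨x, hx, y, hy, rfl⟩ := hsplit v
    exact ⟨y, hy, x, hx, add_comm y x⟩) (le_orth_comm ho)
  have hHp : Plus q0 H := by
    let g : Fin m ⊕ Fin 2 → (Fin m ⊕ Fin m) ⊕ Fin 2 := Sum.map Sum.inr id
    refine ⟨LinearMap.ker (LinearMap.funLeft F F g), fun v hv => LinearMap.mem_ker.2 (funext fun j =>
      congrFun (LinearMap.mem_ker.1 hv) (Sum.inr j)), fun v hv => ?_, ?_⟩
    · have h1 : ∀ j, v (Sum.inl (Sum.inr j)) = 0 := fun j => congrFun (LinearMap.mem_ker.1 hv) (Sum.inl j)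
      have h2 : ∀ j, v (Sum.inr j) = 0 := fun j => congrFun (LinearMap.mem_ker.1 hv) (Sum.inr j)
      show Cfsg.quadFormMinus m F a b v = 0
      simp [Cfsg.quadFormMinus, h1, h2]
    · rw [hdH, finrank_ker_funLeft g (Sum.map_injective.2 ⟨Sum.inr_injective, Function.injective_id⟩),
        Nat.card_eq_fintype_card]
      simp only [Fintype.card_sum, Fintype.card_fin]
      omega
  have han : ∀ v ∈ A, q0 v = 0 → v = 0 := fun v hv h => by
    have h1 : Cfsg.quadFormMinus m F a b v = 0 := h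
    simp [Cfsg.quadFormMinus, hAv v hv] at h1
    obtain ⟨h2, h3⟩ := hab _ _ h1
    funext j
    rcases j with j | j
    · exact hAv v hv j
    · fin_cases j
      · exact h2
      · exact h3
  rw [← htop, plus_sup _ hHn hAn ho (by rw [hdH]; exact even_two_mul m) (by rw [hdA]; exact even_two) rfl, iff_true_left hHp]
  exact not_plus_of_aniso (by omega) han

end CfsgLib.Classical.Semisimple.QuadBridge
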