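import Cfsg.Agent.Classical.Semisimple.QuadCriteria

/-!
Invariant non-degenerate subspaces of involutory isometries in characteristic two.
-/

set_option autoImplicit false

namespace CfsgLib.Classical.Semisimple.QuadCharTwo

open Module QuadType

variable {F : Type*} [Field F] {V : Type*} [AddCommGroup V] [Module F V]

/-- The polar form of `f v` and `v` vanishes on `U`. -/
def Alt (Q : QuadraticForm F V) (f : Module.End F V) (U : Submodule F V) : Prop :=
  ∀ v ∈ U, QuadraticMap.polar Q (f v) v = 0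

/-- The image of `f - 1` on `U`. -/
abbrev resOn (f : Module.End F V) (U : Submodule F V) : Submodule F V := U.map (f - 1)

variable {Q : QuadraticForm F V} {f : Module.End F V}
variable (h2 : (2 : F) = 0) (hf : ∀ v, Q (f v) = Q v) (hff : ∀ v, f (f v) = v)

include h2 in
theorem polar_self_two (v : V) : QuadraticMap.polar Q v v = 0 := by
  rw [QuadraticMap.polar_self, nsmul_eq_mul, Nat.cast_ofNat, h2, zero_mul]

include h2 in
theorem neg_eq_two (v : V) : -v = v := by
  rw [← neg_one_smul F v, show (-1 : F) = 1 by linear_combination -h2, one_smul]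

include h2 in
theorem sub_eq_two (a b : V) : a - b = a + b := by rw [sub_eq_add_neg, neg_eq_two h2]

include hf in
theorem polar_map (x y : V) : QuadraticMap.polar Q (f x) (f y) = QuadraticMap.polar Q x y := by
  simp only [QuadraticMap.polar, ← map_add, hf]

include hf hff in
theorem polar_adj (x y : V) : QuadraticMap.polar Q (f x) y = QuadraticMap.polar Q x (f y) := by
  conv_lhs => rw [← hff y]
  exact polar_map hf x (f y)

include hf hff in
theorem polar_res_adj (x y : V) :
    QuadraticMap.polar Q ((f - 1) x) y = QuadraticMap.polar Q x ((f - 1) y) := by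
  simp only [LinearMap.sub_apply, Module.End.one_apply, QuadraticMap.polar_sub_left,
    QuadraticMap.polar_sub_right, polar_adj hf hff]

include h2 hff in
theorem res_res (x : V) : (f - 1) ((f - 1) x) = 0 := by
  simp only [LinearMap.sub_apply, Module.End.one_apply, map_sub, hff]
  rw [sub_eq_two h2 x, sub_eq_two h2 (f x) x, add_comm (f x) x, sub_self]

include h2 hf hff in
theorem res_isotropic (x y : V) : QuadraticMap.polar Q ((f - 1) x) ((f - 1) y) = 0 := by
  rw [polar_res_adj hf hff, res_res h2 hff, QuadraticMap.polar_zero_right]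

include h2 hf in
/-- The value of the form at `f x - x`. -/
theorem map_res (x : V) : Q ((f - 1) x) = QuadraticMap.polar Q (f x) x := by
  rw [LinearMap.sub_apply, Module.End.one_apply, sub_eq_two h2, QuadraticMap.map_add (⇑Q), hf]
  linear_combination Q x * h2

include h2 in
theorem polar_res_self (x : V) : QuadraticMap.polar Q ((f - 1) x) x = QuadraticMap.polar Q (f x) x := by
  rw [LinearMap.sub_apply, Module.End.one_apply, QuadraticMap.polar_sub_left, polar_self_two h2, sub_zero]

theorem map_le_iff_res {U : Submodule F V} : U.map f ≤ U ↔ resOn f U ≤ U := by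
  constructor
  · rintro h _ ⟨x, hx, rfl⟩
    exact U.sub_mem (h ⟨x, hx, rfl⟩) hx
  · rintro h _ ⟨x, hx, rfl⟩
    simpa using U.add_mem (h ⟨x, hx, rfl⟩) hx

theorem map_le_of_fixed {U : Submodule F V} (h : ∀ x ∈ U, (f - 1) x = 0) : U.map f ≤ U :=
  map_le_iff_res.2 (by rintro _ ⟨x, hx, rfl⟩; rw [h x hx]; exact zero_mem U)

theorem Alt.mono {U X : Submodule F V} (h : Alt Q f U) (hX : X ≤ U) : Alt Q f X := fun v hv => h v (hX hv)

theorem sup_map_le {X Y : Submodule F V} (hX : X.map f ≤ X) (hY : Y.map f ≤ Y) : (X ⊔ Y).map f ≤ X ⊔ Y := by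
  rw [Submodule.map_sup]; exact sup_le_sup hX hY

variable [FiniteDimensional F V]

include hf hff in
theorem orth_inv {X : Submodule F V} (hX : X.map f ≤ X) : (orth Q X).map f ≤ orth Q X := by
  rintro _ ⟨v, hv, rfl⟩
  refine mem_orth.2 fun x hx => ?_
  rw [← polar_adj hf hff]
  exact mem_orth.1 hv _ (hX ⟨x, hx, rfl⟩)

include hf hff in
theorem inf_orth_inv {U X : Submodule F V} (hU : U.map f ≤ U) (hX : X.map f ≤ X) :
    (U ⊓ orth Q X).map f ≤ U ⊓ orth Q X :=
  le_inf ((Submodule.map_mono inf_le_left).trans hU) ((Submodule.map_mono inf_le_right).trans (orth_inv hf hff hX))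

include h2 hf hff in
/-- The rank on a non-degenerate invariant subspace is at most half its dimension. -/
theorem rank_le {U : Submodule F V} (hi : U.map f ≤ U) : 2 * finrank F (resOn f U) ≤ finrank F U := by
  let g : U →ₗ[F] V := (f - 1).domRestrict U
  have hr : LinearMap.range g = resOn f U := LinearMap.range_domRestrict _ _
  have h1 := LinearMap.finrank_range_add_finrank_ker g
  rw [hr] at h1
  have h3 : resOn f U ≤ (LinearMap.ker g).map U.subtype := by
    rintro _ ⟨x, hx, rfl⟩
    exact ⟨⟨_, map_le_iff_res.1 hi ⟨x, hx, rfl⟩⟩, res_res h2 hff x, rfl⟩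
  have h4 := Submodule.finrank_mono h3
  rw [Submodule.finrank_map_subtype_eq] at h4
  omega

include h2 hf in
theorem singular_res {U : Submodule F V} (ha : Alt Q f U) : Singular Q (resOn f U) := by
  rintro _ ⟨x, hx, rfl⟩
  rw [map_res h2 hf, ha x hx]

include h2 hf hff in
/-- Alternating involutions have even rank. -/
theorem even_rank {U : Submodule F V} (hU : NondegIn Q U) (hi : U.map f ≤ U) (ha : Alt Q f U) :
    Even (finrank F (resOn f U)) := by
  let g : U →ₗ[F] V := (f - 1).domRestrict U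
  obtain ⟨C, hC⟩ := Submodule.exists_isCompl (LinearMap.ker g)
  let β : LinearMap.BilinForm F C := (QuadraticMap.polarBilin Q).compl₁₂ (g ∘ₗ C.subtype) (U.subtype ∘ₗ C.subtype)
  have hA : β.IsAlt := fun c => by
    show QuadraticMap.polar Q ((f - 1) ((c : U) : V)) ((c : U) : V) = 0
    rw [polar_res_self h2, ha _ (c : U).2]
  have hker : LinearMap.ker β = ⊥ := (Submodule.eq_bot_iff _).2 fun c hc => by
    have h0 : g c = 0 := hU _ (map_le_iff_res.1 hi ⟨_, (c : U).2, rfl⟩) fun y hy => by
      obtain ⟨k, hk, c', hc', hy'⟩ := Submodule.mem_sup.1 (hC.sup_eq_top ▸ Submodule.mem_top :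
        (⟨y, hy⟩ : U) ∈ LinearMap.ker g ⊔ C)
      have e : y = (k : V) + (c' : V) := (congrArg Subtype.val hy').symm
      rw [e, QuadraticMap.polar_add_right]
      have h1 : QuadraticMap.polar Q (g c) (k : V) = 0 := by
        show QuadraticMap.polar Q ((f - 1) ((c : U) : V)) (k : V) = 0
        rw [polar_res_adj hf hff]
        have hk0 : (f - 1) (k : V) = 0 := hk
        rw [hk0, QuadraticMap.polar_zero_right]
      rw [h1, zero_add]
      exact LinearMap.congr_fun hc ⟨c', hc'⟩
    exact Subtype.ext (Submodule.disjoint_def.1 hC.disjoint (c : U) h0 c.2)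
  obtain ⟨m, -, hm, -⟩ := CfsgLib.LinAlg.Witt.exists_symplectic_basis β hA hker
  have h1 := LinearMap.finrank_range_add_finrank_ker g
  have h3 := Submodule.finrank_add_eq_of_isCompl hC
  have hr : LinearMap.range g = resOn f U := LinearMap.range_domRestrict _ _
  rw [hr] at h1
  exact ⟨m, by omega⟩

include h2 hf in
/-- Full alternating rank gives plus type. -/
theorem plus_of_rank {U : Submodule F V} (hi : U.map f ≤ U) (ha : Alt Q f U)
    (hr : 2 * finrank F (resOn f U) = finrank F U) : Plus Q U :=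
  ⟨resOn f U, map_le_iff_res.1 hi, singular_res h2 hf ha, hr⟩

/-- Ranks add over invariant direct sums. -/
theorem rank_sup {X Y : Submodule F V} (hX : X.map f ≤ X) (hY : Y.map f ≤ Y) (hd : Disjoint X Y) :
    finrank F (resOn f (X ⊔ Y)) = finrank F (resOn f X) + finrank F (resOn f Y) := by
  rw [resOn, Submodule.map_sup]
  exact finrank_sup_disjoint (hd.mono (map_le_iff_res.1 hX) (map_le_iff_res.1 hY))

include h2 hf hff in
/-- The ranks on an invariant non-degenerate subspace and its orthogonal. -/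
theorem split_ranks (hV : NondegIn Q ⊤) (ha : Alt Q f ⊤) {W : Submodule F V} (hW : NondegIn Q W)
    (hi : W.map f ≤ W) : ∃ a b : ℕ, Even a ∧ Even b ∧ 2 * a ≤ finrank F W ∧ 2 * b ≤ finrank F (orth Q W) ∧
      a + b = finrank F (resOn f ⊤) ∧ (2 * a = finrank F W → Plus Q W) ∧
      (2 * b = finrank F (orth Q W) → Plus Q (orth Q W)) := by
  have hO : NondegIn Q (orth Q W) := by
    have h := (split hV hW le_top).2.1
    rwa [top_inf_eq] at h
  have hiO := orth_inv hf hff hi
  refine ⟨_, _, even_rank h2 hf hff hW hi (ha.mono le_top), even_rank h2 hf hff hO hiO (ha.mono le_top),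
    rank_le h2 hf hff hi, rank_le h2 hf hff hiO, ?_, plus_of_rank h2 hf hi (ha.mono le_top),
    plus_of_rank h2 hf hiO (ha.mono le_top)⟩
  rw [← rank_sup hi hiO (isCompl_orth hW).disjoint, (isCompl_orth hW).sup_eq_top]

omit [FiniteDimensional F V] in
theorem exists_not_singular [FiniteDimensional F V] {U : Submodule F V} (hU : NondegIn Q U) {y : V} (hy : y ∈ U)
    (hy0 : y ≠ 0) : ∃ z ∈ U, Q z ≠ 0 := by
  by_contra h
  push Not at h
  exact hy0 (hU y hy fun z hz => Singular.polar_eq (X := U) h hy hz)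

include h2 hf hff in
/-- A block of rank two. -/
theorem exists_block {U : Submodule F V} (hU : NondegIn Q U) (hi : U.map f ≤ U) (ha : Alt Q f U)
    (hne : ∃ x ∈ U, (f - 1) x ≠ 0) :
    ∃ B ≤ U, NondegIn Q B ∧ B.map f ≤ B ∧ finrank F B = 4 ∧ Plus Q B := by
  obtain ⟨x, hx, hx0⟩ := hne
  have hres : ∀ z ∈ U, (f - 1) z ∈ U := fun z hz => map_le_iff_res.1 hi ⟨z, hz, rfl⟩
  obtain ⟨y, hy, hg⟩ : ∃ y ∈ U, QuadraticMap.polar Q ((f - 1) x) y ≠ 0 := by
    by_contra h
    push Not at h
    exact hx0 (hU _ (hres x hx) h)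
  set N := f - 1 with hN
  set γ := QuadraticMap.polar Q (N x) y with hγ
  have hxx : QuadraticMap.polar Q (N x) x = 0 := by rw [hN, polar_res_self h2, ha x hx]
  have hyy : QuadraticMap.polar Q (N y) y = 0 := by rw [hN, polar_res_self h2, ha y hy]
  have hyx : QuadraticMap.polar Q (N y) x = γ := by
    rw [hγ, hN, polar_res_adj hf hff, QuadraticMap.polar_comm]
  have hiso : ∀ a b, QuadraticMap.polar Q (N a) (N b) = 0 := fun a b => res_isotropic h2 hf hff a b
  have hNN : ∀ a, N (N a) = 0 := fun a => res_res h2 hff a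
  let v : Fin 4 → V := ![x, y, N x, N y]
  have key : ∀ c : Fin 4 → F, (∀ i, QuadraticMap.polar Q (∑ j, c j • v j) (v i) = 0) → c = 0 := by
    intro c h
    have e0 := h 0
    have e1 := h 1
    have e2 := h 2
    have e3 := h 3
    simp only [Fin.sum_univ_four, v, Matrix.cons_val, QuadraticMap.polar_add_left, QuadraticMap.polar_smul_left,
      hxx, hyy, hyx, hiso, polar_self_two h2, QuadraticMap.polar_comm Q x (N x), QuadraticMap.polar_comm Q y (N x),
      QuadraticMap.polar_comm Q x (N y), QuadraticMap.polar_comm Q y (N y), ← hγ, smul_eq_mul, mul_zero, add_zero,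
      zero_add] at e0 e1 e2 e3
    have hc0 : c 0 = 0 := (mul_eq_zero.1 e3).resolve_right hg
    have hc1 : c 1 = 0 := (mul_eq_zero.1 e2).resolve_right hg
    rw [hc1, zero_mul, zero_add] at e0
    rw [hc0, zero_mul, zero_add] at e1
    have hc3 : c 3 = 0 := (mul_eq_zero.1 e0).resolve_right hg
    have hc2 : c 2 = 0 := (mul_eq_zero.1 e1).resolve_right hg
    funext i; fin_cases i <;> assumption
  have hli : LinearIndependent F v := Fintype.linearIndependent_iff.2 fun c hc => congrFun
    (key c fun i => by rw [hc, QuadraticMap.polar_zero_left])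
  set B := Submodule.span F (Set.range v) with hB
  have hvB : ∀ i, v i ∈ B := fun i => Submodule.subset_span ⟨i, rfl⟩
  have hBU : B ≤ U := Submodule.span_le.2 (by
    rintro _ ⟨i, rfl⟩
    fin_cases i
    · exact hx
    · exact hy
    · exact hres x hx
    · exact hres y hy)
  refine ⟨B, hBU, fun z hz h => ?_, ?_, ?_, ?_⟩
  · obtain ⟨c, rfl⟩ := (Submodule.mem_span_range_iff_exists_fun F).1 hz
    rw [key c fun i => h _ (hvB i)]
    simp
  · refine map_le_iff_res.2 ?_
    rw [resOn, hB, Submodule.map_span, Submodule.span_le]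
    rintro _ ⟨_, ⟨i, rfl⟩, rfl⟩
    fin_cases i
    · exact hvB 2
    · exact hvB 3
    · show N (N x) ∈ _
      rw [hNN]; exact zero_mem _
    · show N (N y) ∈ _
      rw [hNN]; exact zero_mem _
  · rw [hB, finrank_span_eq_card hli, Fintype.card_fin]
  · let w : Fin 2 → V := ![N x, N y]
    have hw : LinearIndependent F w := by
      have : w = v ∘ ![2, 3] := funext fun i => by fin_cases i <;> rfl
      rw [this]
      exact hli.comp _ (by decide)
    refine ⟨Submodule.span F (Set.range w), Submodule.span_le.2 ?_, fun z hz => ?_, ?_⟩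
    · rintro _ ⟨i, rfl⟩
      fin_cases i
      · exact hvB 2
      · exact hvB 3
    · have hle : Submodule.span F (Set.range w) ≤ resOn f U := Submodule.span_le.2 (by
        rintro _ ⟨i, rfl⟩
        fin_cases i
        · exact ⟨x, hx, rfl⟩
        · exact ⟨y, hy, rfl⟩)
      exact singular_res h2 hf ha z (hle hz)
    · rw [hB, finrank_span_eq_card hw, finrank_span_eq_card hli, Fintype.card_fin, Fintype.card_fin]

include h2 hf hff in
/-- A plane of prescribed type where `f` is not alternating. -/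
theorem exists_plane [Finite F] {U : Submodule F V} (hU : NondegIn Q U) (hi : U.map f ≤ U) (hd : 3 ≤ finrank F U)
    (hna : ¬ Alt Q f U) (b : Prop) :
    ∃ P ≤ U, NondegIn Q P ∧ P.map f ≤ P ∧ finrank F P = 2 ∧ (Plus Q P ↔ b) := by
  set N := f - 1 with hN
  have hres : ∀ z ∈ U, N z ∈ U := fun z hz => map_le_iff_res.1 hi ⟨z, hz, rfl⟩
  have hNN : ∀ a, N (N a) = 0 := fun a => res_res h2 hff a
  -- the plane through x and N x
  have hplane : ∀ x ∈ U, QuadraticMap.polar Q (N x) x ≠ 0 →
      NondegIn Q (Submodule.span F (Set.range ![x, N x])) ∧ Submodule.span F (Set.range ![x, N x]) ≤ U ∧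
        (Submodule.span F (Set.range ![x, N x])).map f ≤ Submodule.span F (Set.range ![x, N x]) ∧
        finrank F (Submodule.span F (Set.range ![x, N x])) = 2 := by
    intro x hx hb
    have key : ∀ c : Fin 2 → F, (∀ i, QuadraticMap.polar Q (∑ j, c j • ![x, N x] j) (![x, N x] i) = 0) → c = 0 := by
      intro c h
      have e0 := h 0
      have e1 := h 1
      simp only [Fin.sum_univ_two, Matrix.cons_val, QuadraticMap.polar_add_left, QuadraticMap.polar_smul_left,
        polar_self_two h2, QuadraticMap.polar_comm Q x (N x), smul_eq_mul, mul_zero, add_zero, zero_add] at e0 e1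
      have hc0 : c 0 = 0 := (mul_eq_zero.1 e1).resolve_right hb
      have hc1 : c 1 = 0 := (mul_eq_zero.1 e0).resolve_right hb
      funext i; fin_cases i <;> assumption
    refine ⟨fun z hz h => ?_, Submodule.span_le.2 (by rintro _ ⟨i, rfl⟩; fin_cases i; exacts [hx, hres x hx]), ?_, ?_⟩
    · obtain ⟨c, rfl⟩ := (Submodule.mem_span_range_iff_exists_fun F).1 hz
      rw [key c fun i => h _ (Submodule.subset_span ⟨i, rfl⟩)]
      simp
    · refine map_le_iff_res.2 ?_
      rw [resOn, Submodule.map_span, Submodule.span_le]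
      rintro _ ⟨_, ⟨i, rfl⟩, rfl⟩
      fin_cases i
      · exact Submodule.subset_span ⟨1, rfl⟩
      · show N (N x) ∈ _
        rw [hNN]; exact zero_mem _
    · rw [finrank_span_eq_card (Fintype.linearIndependent_iff.2 fun c hc => congrFun
        (key c fun i => by rw [hc, QuadraticMap.polar_zero_left])), Fintype.card_fin]
  obtain ⟨x, hx, hb⟩ : ∃ x ∈ U, QuadraticMap.polar Q (N x) x ≠ 0 := by
    simp only [Alt, not_forall] at hna
    obtain ⟨x, hx, hne⟩ := hna
    exact ⟨x, hx, by rwa [hN, polar_res_self h2]⟩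
  obtain ⟨hPn, hPU, hPi, hPd⟩ := hplane x hx hb
  obtain ⟨-, hRn, hRd⟩ := split hU hPn hPU
  set R := U ⊓ orth Q (Submodule.span F (Set.range ![x, N x])) with hR
  have hRi : R.map f ≤ R := inf_orth_inv hf hff hi hPi
  -- a vector of the complement changing the value at x but not the slope
  obtain ⟨y, hy, hy0, hQy⟩ : ∃ y ∈ R, QuadraticMap.polar Q (N y) y = 0 ∧ Q y ≠ 0 := by
    by_cases hall : ∀ y ∈ R, Q (N y) = 0
    · obtain ⟨z, hz, hz0⟩ := Submodule.exists_mem_ne_zero_of_ne_bot (show R ≠ ⊥ from fun h => by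
        rw [h, finrank_bot] at hRd; omega)
      obtain ⟨y, hy, hQy⟩ := exists_not_singular hRn hz hz0
      exact ⟨y, hy, by rw [hN, polar_res_self h2, ← map_res h2 hf]; exact hall y hy, hQy⟩
    · push Not at hall
      obtain ⟨y, hy, hQy⟩ := hall
      exact ⟨N y, map_le_iff_res.1 hRi ⟨y, hy, rfl⟩, by rw [hNN, QuadraticMap.polar_zero_left], hQy⟩
  have hyo : QuadraticMap.polar Q x y = 0 ∧ QuadraticMap.polar Q (N x) y = 0 :=
    ⟨mem_orth.1 hy.2 _ (Submodule.subset_span ⟨0, rfl⟩), mem_orth.1 hy.2 _ (Submodule.subset_span ⟨1, rfl⟩)⟩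
  have hNyx : QuadraticMap.polar Q (N y) x = 0 := by
    rw [hN, polar_res_adj hf hff, QuadraticMap.polar_comm]; exact hyo.2
  set β := QuadraticMap.polar Q (N x) x with hβ
  have hpert : ∀ t : F, ∃ x' ∈ U, Q x' = t ∧ QuadraticMap.polar Q (N x') x' = β := by
    intro t
    obtain ⟨s, hs⟩ := FiniteField.isSquare_of_char_two
      (CharP.ringChar_of_prime_eq_zero Nat.prime_two (by simpa using h2)) ((t - Q x) / Q y)
    refine ⟨x + s • y, U.add_mem hx (U.smul_mem s hy.1), ?_, ?_⟩
    · rw [QuadraticMap.map_add (⇑Q), QuadraticMap.map_smul, QuadraticMap.polar_smul_right, hyo.1, smul_eq_mul,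
        ← hs]
      field_simp
      simp
    · simp [QuadraticMap.polar_smul_left, QuadraticMap.polar_smul_right, hyo.2, hNyx, hy0,
        QuadraticMap.polar_add_left, QuadraticMap.polar_add_right, ← hβ]
  by_cases hbb : b
  · obtain ⟨x', hx', hQx', hb'⟩ := hpert 0
    obtain ⟨hPn', hPU', hPi', hPd'⟩ := hplane x' hx' (hb'.trans_ne hb)
    refine ⟨_, hPU', hPn', hPi', hPd', iff_of_true ⟨Submodule.span F {x'}, ?_, ?_, ?_⟩ hbb⟩
    · rw [Submodule.span_singleton_le_iff_mem]; exact Submodule.subset_span ⟨0, rfl⟩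
    · intro z hz
      obtain ⟨a, rfl⟩ := Submodule.mem_span_singleton.1 hz
      rw [QuadraticMap.map_smul, hQx', smul_zero]
    · rw [hPd', finrank_span_singleton (fun h => hb (by rw [← hb', h, QuadraticMap.polar_zero_right]))]
  · obtain ⟨μ, hμ⟩ := exists_no_root (F := F)
    obtain ⟨x', hx', hQx', hb'⟩ := hpert (β * μ)
    obtain ⟨hPn', hPU', hPi', hPd'⟩ := hplane x' hx' (hb'.trans_ne hb)
    refine ⟨_, hPU', hPn', hPi', hPd', iff_of_false (not_plus_of_aniso (by omega) fun z hz hQz => ?_) hbb⟩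
    obtain ⟨c, rfl⟩ := (Submodule.mem_span_range_iff_exists_fun F).1 hz
    have hQN : Q (N x') = β := by rw [hN, map_res h2 hf, ← polar_res_self h2, ← hN, hb']
    have hp : QuadraticMap.polar Q x' (N x') = β := by rw [QuadraticMap.polar_comm, hb']
    simp only [Fin.sum_univ_two, Matrix.cons_val] at hQz ⊢
    rw [QuadraticMap.map_add (⇑Q), QuadraticMap.map_smul, QuadraticMap.map_smul, QuadraticMap.polar_smul_left,
      QuadraticMap.polar_smul_right, hQN, hp, hQx'] at hQz
    simp only [smul_eq_mul] at hQz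
    by_cases hc : c 0 = 0
    · rw [hc] at hQz ⊢
      simp only [mul_zero, zero_mul, zero_add, add_zero, mul_eq_zero, hb, or_false, or_self] at hQz
      rw [hQz]; simp
    · refine absurd ?_ (hμ (c 1 / c 0))
      field_simp
      apply mul_right_cancel₀ hb
      linear_combination hQz

include h2 hf hff in
/-- An invariant subspace of plus type and dimension four. -/
theorem exists_plus_four [Finite F] {U : Submodule F V} (hU : NondegIn Q U) (hi : U.map f ≤ U) {n : ℕ}
    (hd : finrank F U = 2 * n) (hn : 3 ≤ n) :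
    ∃ X ≤ U, NondegIn Q X ∧ X.map f ≤ X ∧ finrank F X = 4 ∧ Plus Q X := by
  haveI := Fintype.ofFinite F
  by_cases ha : Alt Q f U
  · by_cases h0 : ∀ x ∈ U, (f - 1) x = 0
    · obtain ⟨X, hXU, hX, hXd, hXp⟩ := QuadIsometry.exists_sub_type 2 hU (by omega) True fun _ => trivial
      exact ⟨X, hXU, hX, map_le_of_fixed fun x hx => h0 x (hXU hx), hXd, hXp.2 trivial⟩
    · push Not at h0
      exact exists_block h2 hf hff hU hi ha h0
  obtain ⟨P, hPU, hP, hPi, hPd, hPp⟩ := exists_plane h2 hf hff hU hi (by omega) ha False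
  obtain ⟨-, hR, hRd⟩ := split hU hP hPU
  have hRi := inf_orth_inv hf hff hi hPi
  suffices h : ∀ P' ≤ U ⊓ orth Q P, NondegIn Q P' → P'.map f ≤ P' → finrank F P' = 2 → ¬ Plus Q P' →
      ∃ X ≤ U, NondegIn Q X ∧ X.map f ≤ X ∧ finrank F X = 4 ∧ Plus Q X by
    by_cases ha' : Alt Q f (U ⊓ orth Q P)
    · by_cases h0 : ∀ x ∈ U ⊓ orth Q P, (f - 1) x = 0
      · obtain ⟨X, hXU, hX, hXd, hXp⟩ :=
          QuadIsometry.exists_sub_type 1 hR (by omega) False fun h => absurd h one_ne_zero
        exact h X hXU hX (map_le_of_fixed fun x hx => h0 x (hXU hx)) hXd hXp.1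
      · push Not at h0
        obtain ⟨X, hXU, hX⟩ := exists_block h2 hf hff hR hRi ha' h0
        exact ⟨X, hXU.trans inf_le_left, hX⟩
    · obtain ⟨X, hXU, hX, hXi, hXd, hXp⟩ := exists_plane h2 hf hff hR hRi (by omega) ha' False
      exact h X hXU hX hXi hXd hXp.1
  intro P' hP'U hP' hP'i hP'd hP'p
  have ho : P' ≤ orth Q P := hP'U.trans inf_le_right
  obtain ⟨hS, hSd⟩ := nondegIn_sup hP hP' ho
  refine ⟨P ⊔ P', sup_le hPU (hP'U.trans inf_le_left), hS, sup_map_le hPi hP'i, ?_, ?_⟩
  · rw [finrank_sup_disjoint hSd, hPd, hP'd]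
  · rw [plus_sup _ hP hP' ho (hPd ▸ even_two) (hP'd ▸ even_two) rfl]
    exact iff_of_false hPp.1 hP'p

include h2 hf hff in
/-- Invariant subspaces of plus type in dimensions divisible by four. -/
theorem exists_plus_even [Finite F] : ∀ (j : ℕ) {U : Submodule F V}, NondegIn Q U → U.map f ≤ U → ∀ {n : ℕ},
    finrank F U = 2 * n → 2 * j < n → ∃ X ≤ U, NondegIn Q X ∧ X.map f ≤ X ∧ finrank F X = 4 * j ∧ Plus Q X := by
  intro j
  induction j with
  | zero =>
    intro U _ _ n _ _
    exact ⟨⊥, bot_le, nondegIn_bot, by simp, by simp, plus_of_finrank_zero (finrank_bot F V)⟩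
  | succ j ih =>
    intro U hU hi n hd hj
    obtain ⟨X, hXU, hX, hXi, hXd, hXp⟩ := exists_plus_four h2 hf hff hU hi hd (by omega)
    obtain ⟨-, hR, hRd⟩ := split hU hX hXU
    obtain ⟨Y, hYR, hY, hYi, hYd, hYp⟩ :=
      ih hR (inf_orth_inv hf hff hi hXi) (n := n - 2) (by omega) (by omega)
    have ho : Y ≤ orth Q X := hYR.trans inf_le_right
    obtain ⟨hS, hSd⟩ := nondegIn_sup hX hY ho
    refine ⟨X ⊔ Y, sup_le hXU (hYR.trans inf_le_left), hS, sup_map_le hXi hYi, ?_, ?_⟩
    · rw [finrank_sup_disjoint hSd, hXd, hYd]; ring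
    · rw [plus_sup _ hX hY ho (hXd ▸ ⟨2, rfl⟩) (hYd ▸ ⟨2 * j, by omega⟩) rfl]
      exact iff_of_true hXp hYp

include h2 hf hff in
/-- An invariant plane of plus type. -/
theorem exists_plus_plane [Finite F] : ∀ (n : ℕ) {U : Submodule F V}, NondegIn Q U → U.map f ≤ U →
    finrank F U = 2 * n → 1 ≤ n → (Plus Q U ↔ Odd n) →
    ∃ X ≤ U, NondegIn Q X ∧ X.map f ≤ X ∧ finrank F X = 2 ∧ Plus Q X := by
  haveI := Fintype.ofFinite F
  intro n
  induction n using Nat.strong_induction_on with
  | _ n ih =>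
    intro U hU hi hd hn hp
    by_cases h1 : n = 1
    · subst h1
      exact ⟨U, le_rfl, hU, hi, hd, hp.2 odd_one⟩
    by_cases ha : Alt Q f U
    · by_cases h0 : ∀ x ∈ U, (f - 1) x = 0
      · obtain ⟨X, hXU, hX, hXd, hXp⟩ := QuadIsometry.exists_sub_type 1 hU (by omega) True fun _ => trivial
        exact ⟨X, hXU, hX, map_le_of_fixed fun x hx => h0 x (hXU hx), hXd, hXp.2 trivial⟩
      · push Not at h0
        obtain ⟨B, hBU, hB, hBi, hBd, hBp⟩ := exists_block h2 hf hff hU hi ha h0
        obtain ⟨hsup, hR, hRd⟩ := split hU hB hBU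
        have hT := plus_sup _ hB hR inf_le_right (hBd ▸ ⟨2, rfl⟩)
          (show Even (finrank F ↥(U ⊓ orth Q B)) from ⟨n - 2, by omega⟩) rfl
        rw [hsup, iff_true_left hBp] at hT
        have hn2 : n ≠ 2 := fun h => by
          subst h
          exact absurd (hp.1 (hT.2 (plus_of_finrank_zero (by omega)))) (by decide)
        obtain ⟨X, hXR, hX⟩ := ih (n - 2) (by omega) hR (inf_orth_inv hf hff hi hBi) (by omega) (by omega)
          (hT.symm.trans (hp.trans (by rw [Nat.odd_iff, Nat.odd_iff]; omega)))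
        exact ⟨X, hXR.trans inf_le_left, hX⟩
    · obtain ⟨P, hPU, hP, hPi, hPd, hPp⟩ := exists_plane h2 hf hff hU hi (by omega) ha True
      exact ⟨P, hPU, hP, hPi, hPd, hPp.2 trivial⟩

include h2 hf hff in
/-- Invariant subspaces of plus type. -/
theorem exists_plus_inv [Finite F] {U : Submodule F V} (hU : NondegIn Q U) (hi : U.map f ≤ U) {n k : ℕ}
    (hd : finrank F U = 2 * n) (hk : k < n) (hc : Even k ∨ (Plus Q U ↔ Odd n)) :
    ∃ X ≤ U, NondegIn Q X ∧ X.map f ≤ X ∧ finrank F X = 2 * k ∧ Plus Q X := by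
  rcases Nat.even_or_odd k with hev | ⟨j, rfl⟩
  · obtain ⟨j, rfl⟩ := hev
    obtain ⟨X, hXU, hX, hXi, hXd, hXp⟩ := exists_plus_even h2 hf hff j hU hi hd (by omega)
    exact ⟨X, hXU, hX, hXi, by omega, hXp⟩
  · obtain ⟨P, hPU, hP, hPi, hPd, hPp⟩ := exists_plus_plane h2 hf hff n hU hi hd (by omega)
      (hc.resolve_left (Nat.not_even_iff_odd.2 ⟨j, rfl⟩))
    obtain ⟨-, hR, hRd⟩ := split hU hP hPU
    obtain ⟨Y, hYR, hY, hYi, hYd, hYp⟩ :=
      exists_plus_even h2 hf hff j hR (inf_orth_inv hf hff hi hPi) (n := n - 1) (by omega) (by omega)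
    have ho : Y ≤ orth Q P := hYR.trans inf_le_right
    obtain ⟨hS, hSd⟩ := nondegIn_sup hP hY ho
    refine ⟨P ⊔ Y, sup_le hPU (hYR.trans inf_le_left), hS, sup_map_le hPi hYi, ?_, ?_⟩
    · rw [finrank_sup_disjoint hSd, hPd, hYd]; omega
    · rw [plus_sup _ hP hY ho (hPd ▸ even_two) (hYd ▸ ⟨2 * j, by omega⟩) rfl]
      exact iff_of_true hPp hYp

include h2 in
/-- An alternating involution with a given singular image. -/
theorem exists_alt_elem (hV : NondegIn Q ⊤) {L : Submodule F V} (hL : Singular Q L) {s : ℕ}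
    (hLd : finrank F L = s + s) :
    ∃ g : Module.End F V, (∀ v, Q (g v) = Q v) ∧ (∀ v, g (g v) = v) ∧ Alt Q g ⊤ ∧ resOn g ⊤ = L := by
  classical
  let e : Basis (Fin s ⊕ Fin s) F L :=
    (Module.finBasisOfFinrankEq F L hLd).reindex finSumFinEquiv.symm
  let φ : V →ₗ[F] (Fin s ⊕ Fin s → F) := LinearMap.pi fun i => (QuadraticMap.polarBilin Q).flip (e i : V)
  let ψ : (Fin s ⊕ Fin s → F) →ₗ[F] V :=
    Fintype.linearCombination F fun i => (e (Sum.swap i) : V)
  have hψ : ∀ c, ψ c = ∑ i, c i • (e (Sum.swap i) : V) := fun c => Fintype.linearCombination_apply _ _ c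
  have hψL : ∀ c, ψ c ∈ L := fun c => by
    rw [hψ]; exact L.sum_mem fun i _ => L.smul_mem _ (e _).2
  have hφψ : ∀ c, φ (ψ c) = 0 := fun c => funext fun i => hL.polar_eq (hψL c) (e i).2
  have halt : ∀ v, QuadraticMap.polar Q (ψ (φ v)) v = 0 := fun v => by
    rw [hψ, ← QuadraticMap.polarBilin_apply_apply, map_sum, LinearMap.sum_apply, Fintype.sum_sum_type,
      ← Finset.sum_add_distrib]
    refine Finset.sum_eq_zero fun i _ => ?_
    simp only [φ, map_smul, LinearMap.smul_apply, LinearMap.pi_apply, LinearMap.flip_apply, Sum.swap_inl,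
      Sum.swap_inr, QuadraticMap.polarBilin_apply_apply, smul_eq_mul,
      QuadraticMap.polar_comm Q v]
    linear_combination (QuadraticMap.polar Q (e (Sum.inl i) : V) v) * (QuadraticMap.polar Q (e (Sum.inr i) : V) v) * h2
  have hsurj : Function.Surjective φ := by
    intro c
    let Φ : V →ₗ[F] Module.Dual F V := QuadraticMap.polarBilin Q
    have hΦ : Function.Injective Φ := LinearMap.ker_eq_bot.1 ((Submodule.eq_bot_iff _).2 fun x hx =>
      hV x trivial fun y _ => LinearMap.congr_fun hx y)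
    obtain ⟨θ, hθ⟩ := LinearMap.exists_extend (e.constr F c)
    obtain ⟨v, hv⟩ := (LinearMap.injective_iff_surjective_of_finrank_eq_finrank
      Subspace.dual_finrank_eq.symm).1 hΦ θ
    refine ⟨v, funext fun i => ?_⟩
    show Φ v (e i : V) = c i
    rw [hv, ← Submodule.subtype_apply, ← LinearMap.comp_apply, hθ, Basis.constr_basis]
  let g : Module.End F V := 1 + ψ ∘ₗ φ
  have hg : ∀ v, g v = v + ψ (φ v) := fun v => rfl
  refine ⟨g, fun v => ?_, fun v => ?_, fun v _ => ?_, ?_⟩
  · rw [hg, QuadraticMap.map_add (⇑Q), hL _ (hψL _), QuadraticMap.polar_comm, halt]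
    simp
  · rw [hg, hg, map_add, map_add, hφψ, map_zero, add_zero, add_assoc, ← sub_eq_two h2 (ψ (φ v)), sub_self, add_zero]
  · rw [hg, QuadraticMap.polar_add_left, polar_self_two h2, halt, add_zero]
  · refine le_antisymm ?_ fun y hy => ?_
    · rintro _ ⟨v, -, rfl⟩
      simpa [g] using hψL (φ v)
    · obtain ⟨v, hv⟩ := hsurj fun i => e.repr ⟨y, hy⟩ (Sum.swap i)
      refine ⟨v, trivial, ?_⟩
      rw [LinearMap.sub_apply, Module.End.one_apply, hg, add_sub_cancel_left, hv, hψ]
      have h := congrArg Subtype.val (e.sum_repr ⟨y, hy⟩)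
      rw [Submodule.coe_sum] at h
      simp only [Submodule.coe_smul] at h
      refine Eq.trans ?_ h
      exact Equiv.sum_comp (Equiv.sumComm (Fin s) (Fin s)) fun i => e.repr ⟨y, hy⟩ i • (e i : V)

end CfsgLib.Classical.Semisimple.QuadCharTwo
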