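import Cfsg.Agent.Classical.Semisimple.QuadBridge
import Cfsg.Agent.Classical.Semisimple.QuadCharTwo
import Cfsg.Agent.OrthGeo.InvolutionTwo

/-!
Elements of order two modulo scalars of `Omega` in characteristic two and their invariant subspaces.
-/

set_option autoImplicit false

namespace CfsgLib.Classical.Semisimple.QuadCharTwo

open Module QuadType QuadBridge Cfsg.Geo CfsgLib.OrthGeo
open scoped Matrix MatrixGroups

variable {ι : Type} [Fintype ι] [DecidableEq ι] {F : Type*} [Field F] [Fintype F] {Q : (ι → F) → F}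
variable (hQ : IsNondegenerateQuadraticForm Q)
include hQ

omit [Fintype F] in
/-- An element with scalar square is an involution. -/
theorem involution_of_scalar (h2 : (2 : F) = 0) (hn : 1 ≤ Fintype.card ι) {x : GL ι F} (hx : x ∈ omegaGL Q)
    (hz : ∃ z : F, ((x ^ 2 : GL ι F) : Matrix ι ι F) = z • (1 : Matrix ι ι F)) :
    (∀ v, qf hQ (Matrix.toLin' (x : Matrix ι ι F) v) = qf hQ v) ∧
      ∀ v, Matrix.toLin' (x : Matrix ι ι F) (Matrix.toLin' (x : Matrix ι ι F) v) = v := by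
  have hxi := omegaGL_le hx
  obtain ⟨z, hz⟩ := hz
  have hzz := scalar_sq hQ hn (pow_mem hxi 2) hz
  have hz1 : z = 1 := sub_eq_zero.1 (mul_self_eq_zero.1 (by linear_combination hzz + (1 - z) * h2))
  refine ⟨fun v => by rw [qf_apply, qf_apply, Matrix.toLin'_apply]; exact mem_isometryGroup.1 hxi v, fun v => ?_⟩
  rw [Matrix.toLin'_apply, Matrix.toLin'_apply, Matrix.mulVec_mulVec, ← Units.val_mul, ← sq, hz, hz1, one_smul,
    Matrix.one_mulVec]

/-- An alternating involution of the largest rank. -/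
theorem exists_alt_derangement (h2 : (2 : F) = 0) {d : ℕ} (hn : Fintype.card ι = 2 * d) (hd4 : 4 ≤ d)
    (hplus : Even d → Plus (qf hQ) ⊤) :
    ∃ x : GL ι F, x ∈ omegaGL Q ∧ (∃ z : F, ((x ^ 2 : GL ι F) : Matrix ι ι F) = z • (1 : Matrix ι ι F)) ∧
      (∀ z : F, (x : Matrix ι ι F) ≠ z • (1 : Matrix ι ι F)) ∧
      ∀ W : Submodule F (ι → F), NondegIn (qf hQ) W → W.map (Matrix.toLin' (x : Matrix ι ι F)) ≤ W →
        ∃ a b : ℕ, Even a ∧ Even b ∧ 2 * a ≤ finrank F W ∧ 2 * b ≤ finrank F (orth (qf hQ) W) ∧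
          a + b = d / 2 + d / 2 ∧ (2 * a = finrank F W → Plus (qf hQ) W) ∧
          (2 * b = finrank F (orth (qf hQ) W) → Plus (qf hQ) (orth (qf hQ) W)) := by
  classical
  haveI : CharP F 2 := by
    have := CharP.ringChar_of_prime_eq_zero Nat.prime_two (by simpa using h2 : ((2 : ℕ) : F) = 0)
    exact this ▸ ringChar.charP F
  have hV : NondegIn (qf hQ) ⊤ := nondeg_top hQ
  have hfr : finrank F (ι → F) = 2 * d := by rw [finrank_fintype_fun_eq_card, hn]
  obtain ⟨L, -, hL, hLd⟩ := (exists_singular_iff _ hV rfl (d / 2 + d / 2)).2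
    ⟨by rw [finrank_top, hfr]; omega, fun h => hplus ⟨d / 2, by rw [finrank_top, hfr] at h; omega⟩⟩
  obtain ⟨g, hg, hgg, halt, hres⟩ := exists_alt_elem h2 hV hL hLd
  have hmul : LinearMap.toMatrix' g * LinearMap.toMatrix' g = 1 := by
    rw [← LinearMap.toMatrix'_mul, show g * g = 1 from LinearMap.ext hgg, LinearMap.toMatrix'_one]
  let x : GL ι F := ⟨_, _, hmul, hmul⟩
  have hxg : Matrix.toLin' (x : Matrix ι ι F) = g := Matrix.toLin'_toMatrix' g
  have hxi : x ∈ Cfsg.isometryGroup F Q := mem_isometryGroup.2 fun v => by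
    have h := hg v
    rw [← hxg, Matrix.toLin'_apply] at h
    exact h
  have hrank : ((x : Matrix ι ι F) - 1).rank = d / 2 + d / 2 := by
    show finrank F (LinearMap.range ((x : Matrix ι ι F) - 1).mulVecLin) = _
    rw [← Matrix.toLin'_apply', map_sub, hxg, Matrix.toLin'_one, ← hLd, ← hres, resOn, Submodule.map_top]
    rfl
  have hmem : (⟨x, hxi⟩ : Cfsg.isometryGroup F Q) ∈ Cfsg.Omega F Q :=
    (involution_mem_omega_iff hQ (fun h => by omega) _).2 ⟨d / 2, hrank⟩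
  refine ⟨x, ⟨_, hmem, rfl⟩, ⟨1, by rw [one_smul, sq, Units.val_mul]; exact hmul⟩, fun z hz => ?_, fun W hW hWx => ?_⟩
  · have h1 : z * z = 1 := scalar_sq hQ (by omega) hxi hz
    have hz1 : z = 1 := sub_eq_zero.1 (mul_self_eq_zero.1 (by linear_combination h1 + (1 - z) * h2))
    rw [hz, hz1, one_smul, sub_self, Matrix.rank_zero] at hrank
    omega
  · rw [hxg] at hWx
    obtain ⟨a, b, ha, hb, ha2, hb2, hab, hpa, hpb⟩ := split_ranks h2 hg hgg hV halt hW hWx
    rw [hres, hLd] at hab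
    exact ⟨a, b, ha, hb, ha2, hb2, hab, hpa, hpb⟩

/-- The criterion for the subspaces of the type of the whole space in characteristic two. -/
theorem two_type_iff (h2 : (2 : F) = 0) {d h : ℕ} (hn : Fintype.card ι = 2 * d) (hd4 : 4 ≤ d) (hh : 1 ≤ h)
    (hhd : h + 1 ≤ d) :
    (∀ x : GL ι F, x ∈ omegaGL Q → (∃ z : F, ((x ^ 2 : GL ι F) : Matrix ι ι F) = z • (1 : Matrix ι ι F)) →
      (∀ z : F, (x : Matrix ι ι F) ≠ z • (1 : Matrix ι ι F)) →
      ∃ W : Submodule F (ι → F), (finrank F W = 2 * h ∧ IsNondegenerateOn (QuadraticMap.polar Q) W ∧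
        (IsPlusTypeOn Q W ↔ Plus (qf hQ) ⊤)) ∧ W.map (Matrix.toLin' (x : Matrix ι ι F)) ≤ W) ↔
      ((Plus (qf hQ) ⊤ ∧ (Odd d ∨ Even h)) ∨ (¬ Plus (qf hQ) ⊤ ∧ (Even d ∨ Odd h))) := by
  have hV : NondegIn (qf hQ) ⊤ := nondeg_top hQ
  have hfr : finrank F (ι → F) = 2 * d := by rw [finrank_fintype_fun_eq_card, hn]
  have htd : finrank F (⊤ : Submodule F (ι → F)) = 2 * d := by rw [finrank_top, hfr]
  constructor
  · intro hfix
    by_contra hcon
    obtain ⟨x, hx, hz, hns, hder⟩ := exists_alt_derangement hQ h2 hn hd4 (fun hde => by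
      by_contra hp
      exact hcon (Or.inr ⟨hp, Or.inl hde⟩))
    obtain ⟨W, ⟨hWd, hWn, hWb⟩, hWf⟩ := hfix x hx hz hns
    have hW := (nondegenerateOn_iff hQ W).1 hWn
    have hs := Submodule.finrank_add_eq_of_isCompl (isCompl_orth (Q := qf hQ) hW)
    obtain ⟨a, b, ⟨a', ha⟩, ⟨b', hb⟩, ha2, hb2, hab, hpa, -⟩ := hder W hW hWf
    by_cases hp : Plus (qf hQ) ⊤
    · have : ¬ (Odd d ∨ Even h) := fun h' => hcon (Or.inl ⟨hp, h'⟩)
      push Not at this
      obtain ⟨hd, hh'⟩ := this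
      obtain ⟨d', hd'⟩ := Nat.not_odd_iff_even.1 hd
      obtain ⟨h', hh''⟩ := Nat.not_even_iff_odd.1 hh'
      omega
    · have : ¬ (Even d ∨ Odd h) := fun h' => hcon (Or.inr ⟨hp, h'⟩)
      push Not at this
      obtain ⟨hd, hh'⟩ := this
      obtain ⟨d', hd'⟩ := Nat.not_even_iff_odd.1 hd
      obtain ⟨h', hh''⟩ := Nat.not_odd_iff_even.1 hh'
      have hane : 2 * a ≠ finrank F W := fun h => hp (hWb.1 ((plusTypeOn_iff hQ W).2 (hpa h)))
      omega
  · intro hcond x hx hz hns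
    obtain ⟨hf, hff⟩ := involution_of_scalar hQ h2 (by omega) hx hz
    have hi : (⊤ : Submodule F (ι → F)).map (Matrix.toLin' (x : Matrix ι ι F)) ≤ ⊤ := le_top
    by_cases hp : Plus (qf hQ) ⊤
    · obtain ⟨X, -, hX, hXi, hXd, hXp⟩ := exists_plus_inv h2 hf hff hV hi htd (k := h) (by omega) (by
        rcases hcond with ⟨-, hd | hh'⟩ | ⟨hnp, -⟩
        · exact Or.inr (iff_of_true hp hd)
        · exact Or.inl hh'
        · exact absurd hp hnp)
      exact ⟨X, ⟨hXd, (nondegenerateOn_iff hQ X).2 hX, iff_of_true ((plusTypeOn_iff hQ X).2 hXp) hp⟩, hXi⟩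
    · obtain ⟨X, -, hX, hXi, hXd, hXp⟩ := exists_plus_inv h2 hf hff hV hi htd (k := d - h) (by omega) (by
        rcases hcond with ⟨hp', -⟩ | ⟨-, hd | hh'⟩
        · exact absurd hp' hp
        · exact Or.inr (iff_of_false hp (Nat.not_odd_iff_even.2 hd))
        · rcases Nat.even_or_odd d with hd | hd
          · exact Or.inr (iff_of_false hp (Nat.not_odd_iff_even.2 hd))
          · exact Or.inl (Nat.Odd.sub_odd hd hh'))
      obtain ⟨hsup, hO, hOd⟩ := split hV hX le_top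
      rw [top_inf_eq] at hO hOd hsup
      have hT := plus_sup _ hX hO le_rfl (hXd ▸ even_two_mul _)
        (show Even (finrank F ↥(orth (qf hQ) X)) from ⟨h, by omega⟩) rfl
      rw [hsup, iff_true_left hXp] at hT
      exact ⟨orth (qf hQ) X, ⟨by omega, (nondegenerateOn_iff hQ _).2 hO, (plusTypeOn_iff hQ _).trans hT.symm⟩,
        orth_inv hf hff hXi⟩

/-- In characteristic two some element fixes no subspace of minus type of a space of plus type. -/
theorem exists_minus_derangement (h2 : (2 : F) = 0) {d : ℕ} (hn : Fintype.card ι = 2 * d) (hd4 : 4 ≤ d)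
    (hplus : Plus (qf hQ) ⊤) :
    ∃ x : GL ι F, x ∈ omegaGL Q ∧ (∃ z : F, ((x ^ 2 : GL ι F) : Matrix ι ι F) = z • (1 : Matrix ι ι F)) ∧
      (∀ z : F, (x : Matrix ι ι F) ≠ z • (1 : Matrix ι ι F)) ∧
      ∀ W : Submodule F (ι → F), NondegIn (qf hQ) W → Even (finrank F W) →
        W.map (Matrix.toLin' (x : Matrix ι ι F)) ≤ W → Plus (qf hQ) W := by
  obtain ⟨x, hx, hz, hns, hder⟩ := exists_alt_derangement hQ h2 hn hd4 fun _ => hplus
  refine ⟨x, hx, hz, hns, fun W hW ⟨k, hk⟩ hWf => ?_⟩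
  have hV : NondegIn (qf hQ) ⊤ := nondeg_top hQ
  obtain ⟨hsup, hO, hOd⟩ := split hV hW le_top
  rw [top_inf_eq] at hO hOd hsup
  rw [finrank_top, finrank_fintype_fun_eq_card, hn] at hOd
  have hT := plus_sup _ hW hO le_rfl ⟨k, hk⟩ (show Even (finrank F ↥(orth (qf hQ) W)) from ⟨d - k, by omega⟩) rfl
  rw [hsup] at hT
  obtain ⟨a, b, ⟨a', ha⟩, ⟨b', hb⟩, ha2, hb2, hab, hpa, hpb⟩ := hder W hW hWf
  by_cases hak : a = k
  · exact hpa (by omega)
  · exact (hT.1 hplus).2 (hpb (by omega))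

end CfsgLib.Classical.Semisimple.QuadCharTwo
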