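import Cfsg.Agent.Classical.Semisimple.QuadCriteria

/-!
When the largest number of pieces leaves a whole piece, subspaces smaller than a piece are no elusive targets.
-/

set_option autoImplicit false

namespace CfsgLib.Classical.Semisimple.QuadIsometry

open Module QuadType

variable {F : Type*} [Field F] [Fintype F] {V : Type*} [AddCommGroup V] [Module F V] [FiniteDimensional F V]
  {Q : QuadraticForm F V} {r : ℕ} [hr : Fact r.Prime]

/-- If `r` divides the number of copies of `R` and the type does not match a whole number of pieces, a piece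
fits into `R`. -/
theorem pieceDim_le_of_mismatch (hV : NondegIn Q ⊤) (hr2 : r ≠ 2) (hrF : (r : F) ≠ 0) {R : Submodule F V}
    (hR : NondegIn Q R) {m : ℕ} (hm : finrank F R = m)
    (hdvd : r ∣ Nat.card {W : Submodule F V // AreIso Q R Q W}) (hk : finrank F V % pieceDim F r = 0)
    (hmis : ¬ (Plus Q ⊤ ↔ PieceSign F r (finrank F V / pieceDim F r))) : pieceDim F r ≤ m := by
  by_contra hcm
  have hA : maxPieces F r (finrank F V) (Plus Q ⊤) = finrank F V / pieceDim F r - 1 := by
    unfold maxPieces; rw [if_pos ⟨hk, hmis⟩]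
  obtain ⟨f, hs, hf⟩ := exists_max_elem hV hr2 hrF
  obtain ⟨a, had, -, haf, -, -, -⟩ := hs.moved_feasible
  have ha : a = finrank F V / pieceDim F r - 1 :=
    hA ▸ Nat.eq_of_mul_eq_mul_right hs.pieceDim_pos (had.symm.trans hf)
  have hn1 := Nat.mod_add_div (finrank F V) (pieceDim F r)
  rw [hk, zero_add, mul_comm] at hn1
  have h1 : 1 ≤ finrank F V / pieceDim F r := Nat.pos_of_ne_zero fun h0 => by
    refine hmis ?_
    rw [h0]
    exact iff_of_true (plus_of_finrank_zero (by rw [finrank_top, ← hn1, h0, zero_mul])) (pieceSign_zero F r)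
  have h2 := Nat.mul_le_mul_right (pieceDim F r) h1
  rw [ha, Nat.sub_mul, one_mul] at haf
  obtain ⟨X, hXK, hiso⟩ := exists_iso_sub m hR hs.nondeg_fixed hm (Or.inl (by omega))
  refine hs.not_dvd_card hf (fun W => AreIso Q R Q W) (fun W W' h h' => h'.trans h)
    (fun W W' h h' => h.symm.trans h') ⟨X, hiso, hXK⟩ (fun W hRW hWf => ?_) hdvd
  obtain ⟨l, W0, W1, -, -, hW0, -, -, -, -, hsup, hW1d, hdim, -⟩ := hs.nondeg_profile (hRW.nondeg hR) hWf
  have hl : l = 0 := Nat.eq_zero_of_not_pos fun hl => by
    have := Nat.le_mul_of_pos_right (pieceDim F r) hl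
    rw [← hRW.finrank_eq, hm] at hdim
    omega
  rw [hl, mul_zero] at hW1d
  rw [← hsup, Submodule.finrank_eq_zero.1 hW1d, sup_bot_eq]
  exact hW0

end CfsgLib.Classical.Semisimple.QuadIsometry
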