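import Cfsg.Agent.Classical.Semisimple.QuadProfile
import Cfsg.Agent.Classical.Semisimple.Exist
import Cfsg.Agent.Classical.Semisimple.Singer
import Mathlib.LinearAlgebra.QuadraticForm.Dual

/-!
Isometries of odd prime order with prescribed moved space and prescribed orbits of eigenvalues.
-/

set_option autoImplicit false

namespace CfsgLib.Classical.Semisimple.QuadIsometry

open Module Polynomial QuadType

variable {F : Type*} [Field F] [Fintype F] {V : Type*} [AddCommGroup V] [Module F V] [FiniteDimensional F V]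
  {Q : QuadraticForm F V} {r : ℕ} [hr : Fact r.Prime]

/-- The source piece. -/
theorem exists_piece_source (hr2 : r ≠ 2) (hrF : (r : F) ≠ 0) :
    ∃ (W : Submodule F (Dual F (Fin (ordq F r) → F) × (Fin (ordq F r) → F))) (g : Module.End F W),
      NondegIn (QuadraticForm.dualProd F (Fin (ordq F r) → F)) W ∧ finrank F W = pieceDim F r ∧
      (Plus (QuadraticForm.dualProd F (Fin (ordq F r) → F)) W ↔ PieceSign F r 1) ∧
      (∀ x : W, QuadraticForm.dualProd F (Fin (ordq F r) → F) (g x : Dual F (Fin (ordq F r) → F) × (Fin (ordq F r) → F)) =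
        QuadraticForm.dualProd F (Fin (ordq F r) → F) (x : Dual F (Fin (ordq F r) → F) × (Fin (ordq F r) → F))) ∧
      g ^ r = 1 ∧ ∀ x, g x = x → x = 0 := by
  classical
  set i := ordq F r with hi
  have hipos : 0 < i := orderOf_card_pos hrF
  set Q0 := QuadraticForm.dualProd F (Fin i → F)
  obtain ⟨g0, hg0, hker, -⟩ := exists_pow_eq_one_finrank_ker_aeval (r := r) hrF (l := 1) (n := i) (one_mul i).le
  have hfix0 : ∀ x, g0 x = x → x = 0 := fun x hx => by
    have h1 : LinearMap.ker (g0 - (1 : F) • 1) = ⊥ := Submodule.finrank_eq_zero.1 (hker.trans (show i - 1 * i = 0 by omega))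
    exact (Submodule.eq_bot_iff _).1 h1 x (by simp [LinearMap.mem_ker, hx])
  let G : Module.End F (Dual F (Fin i → F) × (Fin i → F)) :=
    LinearMap.prodMap (g0 ^ (r - 1)).dualMap g0
  have hinv : ∀ x, (g0 ^ (r - 1)) (g0 x) = x := fun x => by
    rw [← Module.End.mul_apply, ← pow_succ, Nat.sub_add_cancel hr.out.one_le, hg0]; rfl
  have hGpow : ∀ j, G ^ j = LinearMap.prodMap ((g0 ^ (r - 1)) ^ j).dualMap (g0 ^ j) := by
    intro j
    induction j with
    | zero => ext <;> simp
    | succ j ih =>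
      rw [pow_succ', ih, pow_succ (g0 ^ (r - 1)), pow_succ' g0]
      rfl
  have hs : Setting Q0 G r :=
    { nondeg_top := fun x _ h => by
        refine Prod.ext (LinearMap.ext fun v => ?_) (Module.forall_dual_apply_eq_zero_iff F x.2 |>.1 fun φ => ?_)
        · simpa [Q0, QuadraticMap.polar] using h (0, v) trivial
        · simpa [Q0, QuadraticMap.polar] using h (φ, 0) trivial
      isoQ := fun x => by
        show x.1 ((g0 ^ (r - 1)) (g0 x.2)) = x.1 x.2
        rw [hinv]
      pow := by rw [hGpow, ← pow_mul, mul_comm, pow_mul, hg0, one_pow]; ext <;> simp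
      odd := hr2
      ne := hrF }
  have hfixed : fixed G = ⊥ := (Submodule.eq_bot_iff _).2 fun x hx => by
    rw [mem_fixed] at hx
    have h2 : g0 x.2 = x.2 := congrArg Prod.snd hx
    have h1 : x.1.comp (g0 ^ (r - 1)) = x.1 := congrArg Prod.fst hx
    refine Prod.ext ?_ (hfix0 _ h2)
    have hsurj : Function.Surjective (g0 ^ (r - 1) - 1 : Module.End F (Fin i → F)) :=
      LinearMap.injective_iff_surjective.1 (LinearMap.ker_eq_bot.1 ((Submodule.eq_bot_iff _).2 fun v hv => by
        have h3 : (g0 ^ (r - 1)) v = v := sub_eq_zero.1 (LinearMap.mem_ker.1 hv)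
        refine hfix0 v ?_
        conv_lhs => rw [← h3]
        rw [← Module.End.mul_apply, ← pow_succ', Nat.sub_add_cancel hr.out.one_le, hg0]; rfl))
    refine LinearMap.ext fun v => ?_
    obtain ⟨w, rfl⟩ := hsurj v
    rw [LinearMap.sub_apply, map_sub, Module.End.one_apply, ← LinearMap.comp_apply, h1, sub_self]
    rfl
  have htop : moved G = ⊤ := by
    have h1 := hs.isCompl.sup_eq_top
    rwa [hfixed, bot_sup_eq] at h1
  haveI : Nonempty (Fin i) := ⟨⟨0, hipos⟩⟩
  have hne : (⊤ : Submodule F (Dual F (Fin i → F) × (Fin i → F))) ≠ ⊥ := fun h => by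
    have h1 := congrArg (fun W : Submodule F (Dual F (Fin i → F) × (Fin i → F)) => finrank F W) h
    simp only [finrank_top, finrank_bot, Module.finrank_prod, Subspace.dual_finrank_eq, Module.finrank_fin_fun] at h1
    omega
  obtain ⟨W, -, hW, hWf, hWd, -⟩ := hs.exists_piece (U := ⊤) hs.nondeg_top (by simp) htop.ge hne (c := pieceDim F r) rfl
  obtain ⟨l, hl, hlp⟩ := hs.moved_type _ hW hWf (htop ▸ le_top) hWd
  have hl1 : l = 1 := by
    have hpos := hs.pieceDim_pos
    exact (Nat.eq_of_mul_eq_mul_left hpos (by omega : pieceDim F r * l = pieceDim F r * 1))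
  subst hl1
  refine ⟨W, res G hWf, hW, hWd, hlp, fun x => hs.isoQ _, LinearMap.ext fun x => Subtype.ext ?_, fun x hx =>
    Subtype.ext ((Submodule.eq_bot_iff _).1 hfixed _ (mem_fixed.2 (congrArg Subtype.val hx)))⟩
  have := coe_aeval_res G hWf (X ^ r : F[X]) x
  simp only [map_pow, aeval_X, hs.pow] at this
  simpa using this

omit [Fintype F] hr [FiniteDimensional F V] in
/-- Transport along an isometry of subspaces. -/
theorem transport_elem {V' : Type*} [AddCommGroup V'] [Module F V'] {Q' : QuadraticForm F V'}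
    {U : Submodule F V} {W : Submodule F V'} (h : AreIso Q U Q' W) {g : Module.End F W}
    (hgQ : ∀ x : W, Q' (g x : V') = Q' (x : V')) (hgr : g ^ r = 1) (hgf : ∀ x, g x = x → x = 0) :
    ∃ g' : Module.End F U, (∀ x : U, Q (g' x : V) = Q (x : V)) ∧ g' ^ r = 1 ∧ (∀ x, g' x = x → x = 0) ∧
      ∀ P : F[X], aeval g P = 0 → aeval g' P = 0 := by
  obtain ⟨e, he⟩ := h
  have hap : ∀ P : F[X], aeval (e.symm.conjAlgEquiv F g) P = e.symm.conjAlgEquiv F (aeval g P) := fun P =>
    AlgHom.congr_fun (Polynomial.aeval_algEquiv (e.symm.conjAlgEquiv F) g) P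
  refine ⟨e.symm.conjAlgEquiv F g, fun x => ?_, by rw [← map_pow, hgr, map_one], fun x hx => ?_,
    fun P hP => by rw [hap, hP, map_zero]⟩
  · have h1 := he (e.symm (g (e x)))
    rw [LinearEquiv.apply_symm_apply] at h1
    rw [show (e.symm.conjAlgEquiv F g) x = e.symm (g (e x)) by simp, ← h1, hgQ, he]
  · have h1 : g (e x) = e x := by
      have h2 : e.symm (g (e x)) = x := by simpa using hx
      rw [← LinearEquiv.apply_symm_apply e (g (e x)), h2]
    simpa using hgf _ h1

/-- An element without fixed vectors on a space of the type of one piece. -/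
theorem exists_piece_elem (hr2 : r ≠ 2) (hrF : (r : F) ≠ 0) {U : Submodule F V} (hU : NondegIn Q U)
    (hd : finrank F U = pieceDim F r) (hp : Plus Q U ↔ PieceSign F r 1) :
    ∃ g : Module.End F U, (∀ x : U, Q (g x : V) = Q (x : V)) ∧ g ^ r = 1 ∧ ∀ x, g x = x → x = 0 := by
  obtain ⟨W, g, hW, hWd, hWp, hgQ, hgr, hgf⟩ := exists_piece_source (F := F) hr2 hrF
  obtain ⟨g', h1, h2, h3, -⟩ := transport_elem
    (areIso_of_plus_iff hU hW (hd.trans hWd.symm) (hWd ▸ even_pieceDim F r) (hp.trans hWp.symm)) hgQ hgr hgf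
  exact ⟨g', h1, h2, h3⟩

/-- Powers of a fixed-point-free element meet every orbit of eigenvalues. -/
theorem exists_orbit_powers {W : Type*} [AddCommGroup W] [Module F W] [FiniteDimensional F W]
    (hrF : (r : F) ≠ 0) (hd : finrank F W = ordq F r) {y : Module.End F W} (hy : y ^ r = 1)
    (hfix : ∀ a, y a = a → a = 0) {t : ℕ} (ht : t * ordq F r = r - 1) :
    ∃ (e : Fin t → ℕ) (P : Fin t → F[X]), Function.Injective P ∧
      ∀ s, (∀ a, (y ^ e s) a = a → a = 0) ∧
        Irreducible (P s) ∧ (P s).Monic ∧ (P s).natDegree = ordq F r ∧ aeval (y ^ e s) (P s) = 0 := by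
  classical
  have hipos : 0 < ordq F r := orderOf_card_pos hrF
  haveI : Nontrivial W := Module.nontrivial_of_finrank_pos (R := F) (by omega)
  obtain ⟨w0, hw0⟩ := exists_ne (0 : W)
  have hpf : ∀ e, ¬ r ∣ e → ∀ a, (y ^ e) a = a → a = 0 := by
    intro e he a ha
    obtain ⟨u, hu⟩ := Nat.exists_mul_mod_eq_one_of_coprime
      ((Nat.Prime.coprime_iff_not_dvd hr.out).2 he).symm hr.out.one_lt
    have hy' : (y ^ e) ^ u = y := by
      rw [← pow_mul, pow_eq_pow_mod _ hy, hu.2, pow_one]
    refine hfix a ?_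
    have key : ∀ m : ℕ, ((y ^ e) ^ m) a = a := by
      intro m
      induction m with
      | zero => rfl
      | succ m ih => rw [pow_succ, Module.End.mul_apply, ha, ih]
    rw [← hy']
    exact key u
  have hy1 : y ≠ 1 := fun h => hw0 (hfix _ (by rw [h]; rfl))
  have hirr : ∀ e, ¬ r ∣ e → ∃ P : F[X], Irreducible P ∧ P.Monic ∧ P.natDegree = ordq F r ∧
      aeval (y ^ e) P = 0 := by
    intro e he
    obtain ⟨P, h1, h2, h3, h4⟩ := exists_irreducible_aeval_eq_zero_of_orderOf_eq (r := r) hrF
      (f := y ^ e) hd.symm (by rw [← pow_mul, mul_comm, pow_mul, hy, one_pow])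
      (fun h1 => hw0 (hpf e he w0 (by rw [h1]; rfl)))
    exact ⟨P, h1, h2, h3.trans hd, h4⟩
  choose! P hP using hirr
  have hnd : ∀ e ∈ Finset.Ico 1 r, ¬ r ∣ e := fun e he hd' => by
    rw [Finset.mem_Ico] at he
    have := Nat.le_of_dvd (by omega) hd'
    omega
  obtain ⟨P1, hP1, -, -, hP1y⟩ := show ∃ P : F[X], Irreducible P ∧ P.Monic ∧ P.natDegree = ordq F r ∧
      aeval y P = 0 from ⟨P 1, by simpa using hP 1 hr.out.not_dvd_one⟩
  have := Fact.mk hP1
  haveI : Nontrivial (Module.End F W) := ⟨⟨y, 1, hy1⟩⟩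
  let ψ : AdjoinRoot P1 →ₐ[F] Module.End F W :=
    { Ideal.Quotient.lift _ (aeval y).toRingHom (by
        intro a ha
        obtain ⟨b, rfl⟩ := Ideal.mem_span_singleton'.1 ha
        simp [hP1y]) with
      commutes' := fun a => by
        show (aeval y) (C a) = _
        rw [aeval_C] }
  have hψmk : ∀ Q, ψ (AdjoinRoot.mk P1 Q) = aeval y Q := fun Q => rfl
  have hψi : Function.Injective ψ := RingHom.injective ψ.toRingHom
  have hψ : ∀ e : ℕ, ψ (AdjoinRoot.root P1 ^ e) = y ^ e := fun e => by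
    rw [map_pow, ← AdjoinRoot.mk_X, hψmk, aeval_X]
  have hfib : ∀ R ∈ (Finset.Ico 1 r).image P,
      ((Finset.Ico 1 r).filter fun e => P e = R).card ≤ ordq F r := by
    intro R hR
    obtain ⟨e0, he0, rfl⟩ := Finset.mem_image.1 hR
    obtain ⟨hQi, -, hQd, -⟩ := hP e0 (hnd e0 he0)
    have hord : orderOf y = r := orderOf_eq_prime hy hy1
    have hinj : Set.InjOn (fun e : ℕ => AdjoinRoot.root P1 ^ e)
        ((Finset.Ico 1 r).filter fun e => P e = P e0) := by
      intro a ha b hb hab
      rw [Finset.mem_coe, Finset.mem_filter, Finset.mem_Ico] at ha hb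
      have h1 : y ^ a = y ^ b := by rw [← hψ, ← hψ]; exact congrArg ψ hab
      exact pow_injOn_Iio_orderOf (hord.symm ▸ Set.mem_Iio.2 ha.1.2) (hord.symm ▸ Set.mem_Iio.2 hb.1.2) h1
    rw [← Finset.card_image_of_injOn hinj, ← hQd,
      ← natDegree_map (f := algebraMap F (AdjoinRoot P1)) (p := P e0)]
    refine (Finset.card_le_card (fun x hx => ?_)).trans ((Multiset.toFinset_card_le _).trans (card_roots' _))
    obtain ⟨e, he, rfl⟩ := Finset.mem_image.1 hx
    rw [Finset.mem_filter] at he
    rw [Multiset.mem_toFinset, mem_roots (Polynomial.map_ne_zero hQi.ne_zero), IsRoot, eval_map_algebraMap]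
    refine hψi ?_
    rw [← aeval_algHom_apply, hψ, map_zero, ← he.2]
    exact (hP e (hnd e he.1)).2.2.2
  have hcard := Finset.card_le_mul_card_image (Finset.Ico 1 r) (ordq F r) hfib
  rw [Nat.card_Ico, ← ht, mul_comm t] at hcard
  obtain ⟨S, hS, hScard⟩ := Finset.exists_subset_card_eq (Nat.le_of_mul_le_mul_left hcard hipos)
  let en : Fin t ≃ S := (Fintype.equivFinOfCardEq (by rw [Fintype.card_coe, hScard])).symm
  have hex : ∀ s, ∃ e ∈ Finset.Ico 1 r, P e = en s := fun s => Finset.mem_image.1 (hS (en s).2)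
  choose e he hPe using hex
  refine ⟨e, fun s => P (e s), fun a b hab => en.injective (Subtype.ext ?_), fun s => ?_⟩
  · simpa [hPe] using hab
  · exact ⟨hpf _ (hnd _ (he s)), hP _ (hnd _ (he s))⟩

/-- Orthogonal families of pieces. -/
theorem exists_pieces (hr2 : r ≠ 2) (hrF : (r : F) ≠ 0) : ∀ (a : ℕ) {U : Submodule F V}, NondegIn Q U →
    Feasible F r a (finrank F U) (Plus Q U) →
    ∃ D : Fin a → Submodule F V, (∀ j, D j ≤ U ∧ NondegIn Q (D j) ∧ finrank F (D j) = pieceDim F r ∧
        (Plus Q (D j) ↔ PieceSign F r 1)) ∧ (∀ j j', j ≠ j' → D j' ≤ orth Q (D j)) := by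
  intro a
  induction a with
  | zero => intro U _ _; exact ⟨Fin.elim0, fun j => j.elim0, fun j => j.elim0⟩
  | succ a ih =>
    intro U hU hf
    obtain ⟨W, -, hW, hWd, hWp, -⟩ := exists_piece_source (F := F) hr2 hrF
    have hle : pieceDim F r ≤ finrank F U ∧ (pieceDim F r = finrank F U → a = 0) := by
      unfold Feasible at hf
      rw [Nat.succ_mul] at hf
      have hpos : 0 < pieceDim F r := by
        have : 0 < ordq F r := orderOf_card_pos hrF
        unfold pieceDim; split_ifs <;> omega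
      refine ⟨by omega, fun h => ?_⟩
      rcases Nat.eq_zero_or_pos a with ha | ha
      · exact ha
      · have := Nat.le_mul_of_pos_left (pieceDim F r) ha
        omega
    obtain ⟨X, hXU, hXiso⟩ := exists_iso_sub (finrank F W) hW hU rfl (by
      rw [hWd]
      rcases lt_or_eq_of_le hle.1 with h | h
      · exact Or.inl h
      · refine Or.inr ⟨h, even_pieceDim F r, hWp.trans ?_⟩
        have ha := hle.2 h
        subst ha
        rcases hf with hf | ⟨-, hf⟩
        · rw [Nat.zero_add, one_mul] at hf; omega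
        · exact hf.symm)
    have hX := hXiso.nondeg hW
    have hXd : finrank F X = pieceDim F r := hXiso.finrank_eq.symm.trans hWd
    have hXp : Plus Q X ↔ PieceSign F r 1 := hXiso.plus_iff.symm.trans hWp
    obtain ⟨hsup, hR, hdim⟩ := QuadType.split hU hX hXU
    obtain ⟨D, hD, hDo⟩ := ih hR (by
      unfold Feasible at hf ⊢
      rw [Nat.succ_mul] at hf
      rcases hf with hf | ⟨hf, hfp⟩
      · left; omega
      · refine Or.inr ⟨by omega, ?_⟩
        have h := plus_sup _ hX hR inf_le_right (hXd ▸ even_pieceDim F r)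
          ((show finrank F ↥(U ⊓ orth Q X) = a * pieceDim F r by omega) ▸ (even_pieceDim F r).mul_left a) rfl
        rw [hsup, hXp, hfp, pieceSign_add] at h
        by_cases h1 : PieceSign F r 1 <;> by_cases h2 : PieceSign F r a <;>
          by_cases h3 : Plus Q (U ⊓ orth Q X) <;> simp [h1, h2, h3] at h ⊢)
    refine ⟨(Fin.cons X D : Fin (a + 1) → Submodule F V), fun j => ?_, fun j j' hjj => ?_⟩
    · refine Fin.cases ⟨hXU, hX, hXd, hXp⟩ (fun b => ?_) j
      exact ⟨(hD b).1.trans inf_le_left, (hD b).2⟩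
    · induction j using Fin.cases with
      | zero =>
        induction j' using Fin.cases with
        | zero => exact absurd rfl hjj
        | succ b => exact (hD b).1.trans inf_le_right
      | succ b =>
        induction j' using Fin.cases with
        | zero => exact le_orth_comm ((hD b).1.trans inf_le_right)
        | succ b' => exact hDo b b' fun h => hjj (by rw [h])

/-- Gluing isometries of orthogonal pieces. -/
theorem exists_glue (hV : NondegIn Q ⊤) (hr2 : r ≠ 2) (hrF : (r : F) ≠ 0) {a : ℕ} (D : Fin a → Submodule F V)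
    (hD : ∀ j, NondegIn Q (D j)) (ho : ∀ j j', j ≠ j' → D j' ≤ orth Q (D j))
    (g : ∀ j, Module.End F (D j)) (hgQ : ∀ j (x : D j), Q (g j x : V) = Q (x : V)) (hgr : ∀ j, g j ^ r = 1)
    (hgf : ∀ j x, g j x = x → x = 0) :
    ∃ f : Module.End F V, Setting Q f r ∧ (∀ j (x : D j), f (x : V) = (g j x : V)) ∧
      (∀ v, v ∈ fixed f ↔ ∀ j, v ∈ orth Q (D j)) ∧
      (∀ j, D j ≤ moved f) ∧ finrank F (moved f) = ∑ j, finrank F (D j) := by
  classical
  have hc := fun j => QuadType.isCompl_orth (hD j)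
  let π : ∀ j, V →ₗ[F] D j := fun j => (D j).projectionOnto (orth Q (D j)) (hc j)
  have hπl : ∀ j (x : D j), π j (x : V) = x := fun j x => Submodule.projectionOnto_apply_left (hc j) x
  have hπr : ∀ j v, v ∈ orth Q (D j) → π j v = 0 := fun j v hv =>
    (Submodule.projectionOnto_apply_eq_zero_iff (hc j)).2 hv
  have hπk : ∀ j v, π j v = 0 → v ∈ orth Q (D j) := fun j v hv =>
    (Submodule.projectionOnto_apply_eq_zero_iff (hc j)).1 hv
  have hπo : ∀ j v, v - π j v ∈ orth Q (D j) := fun j v => hπk j _ (by rw [map_sub, hπl, sub_self])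
  let f : Module.End F V := 1 + ∑ j, (D j).subtype ∘ₗ (g j ∘ₗ π j - π j)
  have hf : ∀ v, f v = v + ∑ j, ((g j (π j v) : V) - (π j v : V)) := fun v => by
    simp [f, LinearMap.sum_apply]
  have hπD : ∀ j j' (x : D j'), π j (x : V) = if h : j' = j then (h ▸ x) else 0 := fun j j' x => by
    split_ifs with h
    · subst h; exact hπl _ x
    · exact hπr j _ (ho j j' (Ne.symm h) x.2)
  have hπf : ∀ j v, π j (f v) = g j (π j v) := fun j v => by
    rw [hf, map_add, map_sum, Finset.sum_eq_single j]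
    · rw [map_sub, hπl, hπl]; abel
    · intro j' _ hne
      rw [map_sub, hπD, hπD, dif_neg hne, dif_neg hne, sub_zero]
    · exact fun h => absurd (Finset.mem_univ j) h
  have hfo : ∀ v, (∀ j, v ∈ orth Q (D j)) → f v = v := fun v hv => by
    rw [hf, Finset.sum_eq_zero (fun j _ => by simp [hπr j v (hv j)]), add_zero]
  have hfD : ∀ j (x : D j), f (x : V) = (g j x : V) := fun j x => by
    rw [hf, Finset.sum_eq_single j]
    · rw [hπl]; abel
    · intro j' _ hne; rw [hπD, dif_neg hne.symm]; simp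
    · exact fun h => absurd (Finset.mem_univ j) h
  -- the value of the form
  have hQsum : ∀ (s : Finset (Fin a)) (x : ∀ j, D j), Q (∑ j ∈ s, (x j : V)) = ∑ j ∈ s, Q (x j : V) := by
    intro s x
    induction s using Finset.induction_on with
    | empty => simp
    | insert j s hj ih =>
      have h0 : QuadraticMap.polar Q (x j : V) (∑ k ∈ s, (x k : V)) = 0 := mem_orth.1
        ((orth Q (D j)).sum_mem fun k hk => ho j k (fun h => hj (h ▸ hk)) (x k).2) _ (x j).2
      rw [Finset.sum_insert hj, Finset.sum_insert hj, QuadraticMap.map_add (⇑Q), ih, h0, add_zero]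
  have hdec : ∀ v : V, ∀ j, v - ∑ k, (π k v : V) ∈ orth Q (D j) := fun v j => hπk j _ (by
    rw [map_sub, map_sum, Finset.sum_eq_single j (fun k _ hk => by rw [hπD, dif_neg hk])
      (fun h => absurd (Finset.mem_univ j) h), hπl, sub_self])
  have hortho : ∀ (v : V) (x : ∀ j, D j), (∀ j, v ∈ orth Q (D j)) →
      Q (v + ∑ j, (x j : V)) = Q v + ∑ j, Q (x j : V) := fun v x hv => by
    have h0 : QuadraticMap.polar Q v (∑ j, (x j : V)) = 0 := by
      rw [← QuadraticMap.polarBilin_apply_apply, map_sum]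
      refine Finset.sum_eq_zero fun j _ => ?_
      rw [QuadraticMap.polarBilin_apply_apply, QuadraticMap.polar_comm]
      exact mem_orth.1 (hv j) _ (x j).2
    rw [QuadraticMap.map_add (⇑Q), hQsum, h0, add_zero]
  have hiso : ∀ v, Q (f v) = Q v := fun v => by
    have e1 : f v = (v - ∑ k, (π k v : V)) + ∑ k, (g k (π k v) : V) := by
      rw [hf, Finset.sum_sub_distrib]; abel
    rw [e1, hortho _ _ (hdec v), Finset.sum_congr rfl (fun k _ => hgQ k _)]
    conv_rhs => rw [← sub_add_cancel v (∑ k, (π k v : V)), hortho _ _ (hdec v)]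
  have hpow : ∀ (m : ℕ) v, (f ^ m) v = (v - ∑ k, (π k v : V)) + ∑ k, ((g k ^ m) (π k v) : V) := by
    intro m
    induction m with
    | zero => intro v; simp
    | succ m ih =>
      intro v
      rw [pow_succ', Module.End.mul_apply, ih, map_add, hfo _ (hdec v), map_sum]
      congr 1
      refine Finset.sum_congr rfl fun k _ => ?_
      rw [hfD, pow_succ', Module.End.mul_apply]
  have hs : Setting Q f r :=
    { nondeg_top := hV
      isoQ := hiso
      pow := LinearMap.ext fun v => by rw [hpow]; simp [hgr]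
      odd := hr2
      ne := hrF }
  have hfixed : ∀ v, v ∈ fixed f ↔ ∀ j, v ∈ orth Q (D j) := by
    intro v
    rw [mem_fixed]
    refine ⟨fun h j => hπk j v (hgf j _ ?_), hfo v⟩
    rw [← hπf, h]
  have hDm : ∀ j, D j ≤ moved f := fun j x hx => by
    have hinj : Function.Injective (g j - 1 : Module.End F (D j)) := LinearMap.ker_eq_bot.1
      ((Submodule.eq_bot_iff _).2 fun w hw => hgf j w (sub_eq_zero.1 (LinearMap.mem_ker.1 hw)))
    obtain ⟨w, hw⟩ := LinearMap.injective_iff_surjective.1 hinj ⟨x, hx⟩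
    refine ⟨w, ?_⟩
    have := congrArg Subtype.val hw
    simpa [hfD] using this
  refine ⟨f, hs, hfD, hfixed, hDm, ?_⟩
  let Φ : V →ₗ[F] (∀ j, D j) := LinearMap.pi π
  have hker : LinearMap.ker Φ = fixed f := by
    ext v
    rw [hfixed, LinearMap.mem_ker, funext_iff]
    exact ⟨fun h j => hπk j v (h j), fun h j => hπr j v (h j)⟩
  have hsurj : Function.Surjective Φ := fun x => ⟨∑ j, (x j : V), funext fun j => by
    show π j (∑ k, (x k : V)) = x j
    rw [map_sum, Finset.sum_eq_single j (fun k _ hk => by rw [hπD, dif_neg hk])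
      (fun h => absurd (Finset.mem_univ j) h), hπl]⟩
  have h1 := LinearMap.finrank_range_add_finrank_ker Φ
  rw [LinearMap.range_eq_top.2 hsurj, finrank_top, hker, Module.finrank_pi_fintype] at h1
  have h2 := Submodule.finrank_add_eq_of_isCompl hs.isCompl
  omega

/-- An element with `a` pieces. -/
theorem exists_elem (hV : NondegIn Q ⊤) (hr2 : r ≠ 2) (hrF : (r : F) ≠ 0) {a : ℕ}
    (ha : Feasible F r a (finrank F V) (Plus Q ⊤)) :
    ∃ f : Module.End F V, Setting Q f r ∧ finrank F (moved f) = pieceDim F r * a := by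
  rw [← finrank_top] at ha
  obtain ⟨D, hD, ho⟩ := exists_pieces hr2 hrF a hV ha
  have hg := fun j => exists_piece_elem hr2 hrF (hD j).2.1 (hD j).2.2.1 (hD j).2.2.2
  choose g hgQ hgr hgf using hg
  obtain ⟨f, hs, -, -, -, hd⟩ := exists_glue hV hr2 hrF D (fun j => (hD j).2.1) ho g hgQ hgr hgf
  refine ⟨f, hs, ?_⟩
  rw [hd, Finset.sum_congr rfl (fun j _ => (hD j).2.2.1), Finset.sum_const, Finset.card_univ, Fintype.card_fin,
    smul_eq_mul, mul_comm]

/-- An element with `a` pieces of which `t - 1` have unrepeated polynomials: it has no large invariant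
totally singular subspace without fixed vectors. -/
theorem exists_elem_orbits (hV : NondegIn Q ⊤) (hr2 : r ≠ 2) (hrF : (r : F) ≠ 0)
    (hev : Even (ordq F r)) {t : ℕ} (ht : t * ordq F r = r - 1) {a : ℕ}
    (ha : Feasible F r a (finrank F V) (Plus Q ⊤)) :
    ∃ f : Module.End F V, Setting Q f r ∧ finrank F (moved f) = pieceDim F r * a ∧
      ∀ Y : Submodule F V, Singular Q Y → Y.map f ≤ Y →
        2 * finrank F ↥(Y ⊓ moved f) ≤ ordq F r * (a + 1 - t) ∧
        (a ≤ t → Y ⊓ moved f = ⊥) := by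
  classical
  rw [← finrank_top] at ha
  obtain ⟨D, hD, ho⟩ := exists_pieces hr2 hrF a hV ha
  have hipos : 0 < ordq F r := orderOf_card_pos hrF
  have hc : pieceDim F r = ordq F r := if_pos hev
  have ht1 : 0 < t := Nat.pos_of_ne_zero fun h => by
    have := hr.out.two_le; rw [h, zero_mul] at ht; omega
  let cls : Fin a → Fin t := fun j => ⟨min j (t - 1), by omega⟩
  obtain ⟨W, gW, hW, hWd, hWp, hWQ, hWr, hWf⟩ := exists_piece_source (F := F) hr2 hrF
  obtain ⟨e, P, hPinj, hPs⟩ := exists_orbit_powers (W := ↥W) (y := gW) hrF (hWd.trans hc) hWr hWf ht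
  have hex : ∀ j, ∃ g : Module.End F (D j), (∀ x : D j, Q (g x : V) = Q (x : V)) ∧ g ^ r = 1 ∧
      (∀ x, g x = x → x = 0) ∧ aeval g (P (cls j)) = 0 := by
    intro j
    have hpowQ : ∀ (m : ℕ) (x : W), QuadraticForm.dualProd F (Fin (ordq F r) → F)
        ((gW ^ m) x : Dual F (Fin (ordq F r) → F) × (Fin (ordq F r) → F)) =
        QuadraticForm.dualProd F (Fin (ordq F r) → F) (x : Dual F (Fin (ordq F r) → F) × (Fin (ordq F r) → F)) := by
      intro m
      induction m with
      | zero => intro x; rfl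
      | succ m ih => intro x; rw [pow_succ', Module.End.mul_apply, hWQ, ih]
    obtain ⟨g', h1, h2, h3, h4⟩ := transport_elem
      (areIso_of_plus_iff (hD j).2.1 hW ((hD j).2.2.1.trans hWd.symm) (hWd ▸ even_pieceDim F r)
        ((hD j).2.2.2.trans hWp.symm)) (g := gW ^ e (cls j)) (hpowQ _)
      (by rw [← pow_mul, mul_comm, pow_mul, hWr, one_pow]) (hPs (cls j)).1
    exact ⟨g', h1, h2, h3, h4 _ (hPs (cls j)).2.2.2.2⟩
  choose g hgQ hgr hgf hPg using hex
  obtain ⟨f, hs, hfD, hfixed, hDm, hd⟩ := exists_glue hV hr2 hrF D (fun j => (hD j).2.1) ho g hgQ hgr hgf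
  have hmd : finrank F (moved f) = pieceDim F r * a := by
    rw [hd, Finset.sum_congr rfl (fun j _ => (hD j).2.2.1), Finset.sum_const, Finset.card_univ, Fintype.card_fin,
      smul_eq_mul, mul_comm]
  have hCo := fun j => QuadType.isCompl_orth (hD j).2.1
  let π : ∀ j, V →ₗ[F] D j := fun j => (D j).projectionOnto (orth Q (D j)) (hCo j)
  have hπl : ∀ j (x : D j), π j (x : V) = x := fun j x => Submodule.projectionOnto_apply_left (hCo j) x
  have hπ0 : ∀ j v, π j v = 0 ↔ v ∈ orth Q (D j) := fun j v => Submodule.projectionOnto_apply_eq_zero_iff (hCo j)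
  have hres : ∀ v, v - ∑ k, (π k v : V) ∈ fixed f := fun v => (hfixed _).2 fun j => (hπ0 j _).1 (by
    rw [map_sub, map_sum, Finset.sum_eq_single j
      (fun k _ hk => (hπ0 j _).2 (ho j k hk.symm (π k v).2))
      (fun h => absurd (Finset.mem_univ j) h), hπl, sub_self])
  have hexp : ∀ y ∈ moved f, y = ∑ k, (π k y : V) := fun y hy => sub_eq_zero.1
    (Submodule.disjoint_def.1 hs.isCompl.disjoint _ (hres y)
      ((moved f).sub_mem hy ((moved f).sum_mem fun k _ => hDm k (π k y).2)))
  have hι : ∀ (R : F[X]) k (x : D k), aeval f R (x : V) = (aeval (g k) R x : V) := by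
    intro R k
    induction R using Polynomial.induction_on with
    | C c => intro x; simp [Module.algebraMap_end_apply]
    | add p q hp hq => intro x; simp [hp, hq]
    | monomial n c h =>
      intro x
      rw [pow_succ, ← mul_assoc, map_mul (aeval f), map_mul (aeval (g k)), aeval_X, aeval_X,
        Module.End.mul_apply, Module.End.mul_apply, hfD, h]
  have havoid : ∀ (Y : Submodule F V), Singular Q Y → Y.map f ≤ Y → ∀ j0 : Fin a,
      (∀ j, j ≠ j0 → cls j ≠ cls j0) → ∀ y ∈ Y, y ∈ orth Q (D j0) := by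
    intro Y hY hinv j0 hj0 y hy
    set Qp : F[X] := (X - 1) * ∏ j ∈ Finset.univ.erase j0, P (cls j) with hQp
    have hP0 := hPs (cls j0)
    have hcop : IsCoprime Qp (P (cls j0)) := by
      refine IsCoprime.mul_left ?_ (IsCoprime.prod_left fun k hk => ?_)
      · refine (hP0.2.1.coprime_iff_not_dvd.2 fun hdv => ?_).symm
        have h1 := natDegree_le_of_dvd hdv (by rw [← C_1]; exact X_sub_C_ne_zero 1)
        rw [← C_1, natDegree_X_sub_C, hP0.2.2.2.1] at h1
        have h2 : ordq F r ≠ 1 := fun h3 => by rw [h3] at hev; exact absurd hev (by decide)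
        omega
      · refine (hPs (cls k)).2.1.coprime_iff_not_dvd.2 fun hdv =>
          hj0 k (Finset.ne_of_mem_erase hk) (hPinj ?_)
        exact (eq_of_monic_of_dvd_of_natDegree_le (hPs (cls k)).2.2.1 hP0.2.2.1 hdv
          (by rw [(hPs (cls k)).2.2.2.1, hP0.2.2.2.1])).symm
    have hkill : ∀ u ∈ fixed f, aeval f Qp u = 0 := fun u hu => by
      rw [hQp, mul_comm, map_mul, Module.End.mul_apply, map_sub, aeval_X, map_one, LinearMap.sub_apply,
        mem_fixed.1 hu]
      simp
    have hQv : ∀ v, aeval f Qp v = (aeval (g j0) Qp (π j0 v) : V) := fun v => by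
      have h1 := hkill _ (hres v)
      rw [map_sub, sub_eq_zero, map_sum] at h1
      rw [h1, Finset.sum_eq_single j0 (fun k _ hk => ?_) (fun h => absurd (Finset.mem_univ _) h), hι]
      rw [hι, hQp, ← Finset.mul_prod_erase (Finset.univ.erase j0) (fun k => P (cls k))
        (Finset.mem_erase.2 ⟨hk, Finset.mem_univ k⟩)]
      rw [show (X - 1 : F[X]) * (P (cls k) * ∏ x ∈ (Finset.univ.erase j0).erase k, P (cls x)) =
        ((X - 1) * ∏ x ∈ (Finset.univ.erase j0).erase k, P (cls x)) * P (cls k) by ring, map_mul,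
        Module.End.mul_apply, hPg, LinearMap.zero_apply, map_zero, Submodule.coe_zero]
    let A : Submodule F V := Y.map (aeval f Qp)
    have hAY : A ≤ Y := fun z ⟨w, hw, e⟩ => e ▸ aeval_mem hinv Qp hw
    have hAD : A ≤ D j0 := fun z ⟨w, hw, e⟩ => e ▸ (hQv w).symm ▸ (aeval (g j0) Qp (π j0 w)).2
    have hAf : A.map f ≤ A := by
      refine map_le_of_forall_mem ?_
      rintro _ ⟨w, hw, rfl⟩
      refine ⟨f w, hinv ⟨w, hw, rfl⟩, ?_⟩
      rw [← Module.End.mul_apply, ← Module.End.mul_apply]
      congr 1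
      have := congrArg (aeval f) (mul_comm Qp X)
      simpa using this
    have hA : A = ⊥ := by
      by_contra hne
      obtain ⟨l, hl⟩ := hs.dvd_finrank hAf (hAD.trans (hDm j0))
      have hl0 : 1 ≤ l := Nat.pos_of_ne_zero fun h => hne (Submodule.finrank_eq_zero.1 (by rw [hl, h, mul_zero]))
      have hAeq : A = D j0 := Submodule.eq_of_le_of_finrank_le hAD (by
        rw [hl, (hD j0).2.2.1, hc]; exact Nat.le_mul_of_pos_right _ hl0)
      obtain ⟨z, hz, hz0⟩ := Submodule.exists_mem_ne_zero_of_ne_bot hne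
      refine hz0 ((hD j0).2.1 z (hAD hz) fun w hw => ?_)
      exact hY.polar_eq (hAY hz) (hAY (hAeq ▸ hw))
    obtain ⟨u, v, huv⟩ := hcop
    have h1 : aeval (g j0) Qp (π j0 y) = 0 := Subtype.ext (by
      rw [← hQv]
      exact (Submodule.eq_bot_iff _).1 hA _ ⟨y, hy, rfl⟩)
    have h2 := congrArg (fun R => aeval (g j0) R (π j0 y)) huv
    simp only [map_add, map_mul, map_one, LinearMap.add_apply, Module.End.mul_apply, h1, map_zero,
      hPg, LinearMap.zero_apply, add_zero, Module.End.one_apply] at h2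
    exact (hπ0 j0 y).1 h2.symm
  refine ⟨f, hs, hmd, fun Y hY hinv => ?_⟩
  let rep : Finset (Fin a) := Finset.univ.filter fun j => ∃ k, k ≠ j ∧ cls k = cls j
  let T : Submodule F V := moved f ⊓ ⨅ j ∈ (Finset.univ \ rep : Finset (Fin a)), orth Q (D j)
  have hYT : Y ⊓ moved f ≤ T := fun y hy => ⟨hy.2, by
    simp only [SetLike.mem_coe, Submodule.mem_iInf]
    intro j hj
    refine havoid Y hY hinv j (fun k hk h => ?_) y hy.1
    simp only [rep, Finset.mem_sdiff, Finset.mem_univ, Finset.mem_filter, true_and] at hj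
    exact hj ⟨k, hk, h⟩⟩
  have hTexp : ∀ x ∈ T, x = ∑ k ∈ rep, (π k x : V) := fun x hx => by
    conv_lhs => rw [hexp x hx.1]
    refine (Finset.sum_subset (Finset.subset_univ rep) fun k _ hk => ?_).symm
    have h := hx.2
    simp only [SetLike.mem_coe, Submodule.mem_iInf] at h
    rw [(hπ0 k x).2 (h k (Finset.mem_sdiff.2 ⟨Finset.mem_univ k, hk⟩)), Submodule.coe_zero]
  have hDT : ∀ k ∈ rep, D k ≤ T := fun k hk x hx => ⟨hDm k hx, by
    simp only [SetLike.mem_coe, Submodule.mem_iInf]
    exact fun j hj => ho j k (fun h => (Finset.mem_sdiff.1 hj).2 (h ▸ hk)) hx⟩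
  have hTn : NondegIn Q T := fun x hx h => by
    rw [hTexp x hx]
    refine Finset.sum_eq_zero fun k hk => (hD k).2.1 _ (π k x).2 fun w hw => ?_
    have h1 := h w (hDT k hk hw)
    rw [hTexp x hx, ← QuadraticMap.polarBilin_apply_apply, map_sum, LinearMap.sum_apply] at h1
    simp only [QuadraticMap.polarBilin_apply_apply] at h1
    rw [Finset.sum_eq_single k (fun j _ hj => mem_orth.1 (ho j k hj hw) _ (π j x).2)
        (fun h => absurd hk h)] at h1
    exact h1
  have hTd : finrank F T ≤ ordq F r * rep.card := by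
    let Ψ : T →ₗ[F] (∀ k : rep, D k.1) := LinearMap.pi fun k => (π k.1) ∘ₗ T.subtype
    have hΨ : Function.Injective Ψ := LinearMap.ker_eq_bot.1 ((Submodule.eq_bot_iff _).2 fun x hx =>
      Subtype.ext ((hTexp x x.2).trans (Finset.sum_eq_zero fun k hk => by
        have h1 : π k (x : V) = 0 := congrFun (LinearMap.mem_ker.1 hx) ⟨k, hk⟩
        rw [h1, Submodule.coe_zero])))
    refine (LinearMap.finrank_le_finrank_of_injective hΨ).trans ?_
    rw [Module.finrank_pi_fintype, Finset.sum_congr rfl (fun k _ => (hD k.1).2.2.1.trans hc),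
      Finset.sum_const, Finset.card_univ, Fintype.card_coe, smul_eq_mul, mul_comm]
  have hrep : rep.card ≤ a + 1 - t ∧ (a ≤ t → rep = ∅) := by
    have hmem : ∀ j ∈ rep, t - 1 ≤ j.1 ∧ t < a := by
      intro j hj
      obtain ⟨k, hk, he⟩ := (Finset.mem_filter.1 hj).2
      have h1 : min k.1 (t - 1) = min j.1 (t - 1) := congrArg Fin.val he
      have h2 : k.1 ≠ j.1 := fun h => hk (Fin.ext h)
      have h3 := k.2
      have h4 := j.2
      omega
    refine ⟨?_, fun hat => Finset.eq_empty_of_forall_notMem fun j hj => by have := hmem j hj; omega⟩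
    have h1 : (rep.image Fin.val).card ≤ (Finset.Ico (t - 1) a).card := Finset.card_le_card fun m hm => by
      obtain ⟨j, hj, rfl⟩ := Finset.mem_image.1 hm
      exact Finset.mem_Ico.2 ⟨(hmem j hj).1, j.2⟩
    rw [Finset.card_image_of_injective _ Fin.val_injective, Nat.card_Ico] at h1
    omega
  have hle := ((QuadType.exists_singular_iff _ hTn rfl _).1
    ⟨Y ⊓ moved f, hYT, fun x hx => hY x hx.1, rfl⟩).1
  refine ⟨?_, fun hat => ?_⟩
  · calc 2 * finrank F ↥(Y ⊓ moved f) ≤ finrank F T := hle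
      _ ≤ ordq F r * rep.card := hTd
      _ ≤ ordq F r * (a + 1 - t) := Nat.mul_le_mul_left _ hrep.1
  · rw [hrep.2 hat, Finset.card_empty, mul_zero] at hTd
    exact Submodule.finrank_eq_zero.1 (by omega)

end CfsgLib.Classical.Semisimple.QuadIsometry
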