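import Cfsg.Agent.Classical.Semisimple.QuadCriteria

/-!
Involutory isometries of quadratic spaces in odd characteristic and their invariant subspaces.
-/

set_option autoImplicit false

namespace CfsgLib.Classical.Semisimple.QuadInvolution

open Module QuadType QuadIsometry

variable {F : Type*} [Field F] {V : Type*} [AddCommGroup V] [Module F V] [FiniteDimensional F V]
  {Q : QuadraticForm F V}

omit [FiniteDimensional F V] in
theorem polar_map {f : Module.End F V} (hf : ∀ v, Q (f v) = Q v) (u v : V) :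
    QuadraticMap.polar Q (f u) (f v) = QuadraticMap.polar Q u v := by
  simp only [QuadraticMap.polar, ← map_add, hf]

/-- The eigenspaces of an involutory isometry. -/
theorem eigen_decomp (hV : NondegIn Q ⊤) (h2 : (2 : F) ≠ 0) {f : Module.End F V} (hf : ∀ v, Q (f v) = Q v)
    (hff : f * f = 1) :
    ∃ P M : Submodule F V, (∀ v, v ∈ P ↔ f v = v) ∧ (∀ v, v ∈ M ↔ f v = -v) ∧ NondegIn Q P ∧ NondegIn Q M ∧
      M ≤ orth Q P ∧ P ⊔ M = ⊤ ∧ finrank F P + finrank F M = finrank F V := by
  have hP : ∀ v, v ∈ LinearMap.ker (f - 1) ↔ f v = v := fun v => by simp [LinearMap.mem_ker, sub_eq_zero]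
  have hM : ∀ v, v ∈ LinearMap.ker (f + 1) ↔ f v = -v := fun v => by
    simp [LinearMap.mem_ker, add_eq_zero_iff_eq_neg]
  have hff' : ∀ v, f (f v) = v := fun v => LinearMap.congr_fun hff v
  have horth : LinearMap.ker (f + 1) ≤ orth Q (LinearMap.ker (f - 1)) := fun v hv => mem_orth.2 fun u hu => by
    have h := polar_map hf u v
    rw [(hP u).1 hu, (hM v).1 hv, QuadraticMap.polar_neg_right] at h
    exact (mul_eq_zero.1 (show (2 : F) * QuadraticMap.polar Q u v = 0 by linear_combination -h)).resolve_left h2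
  have hsplit : ∀ v, ∃ a ∈ LinearMap.ker (f - 1), ∃ b ∈ LinearMap.ker (f + 1), a + b = v := fun v => by
    refine ⟨(2 : F)⁻¹ • (v + f v), (hP _).2 ?_, (2 : F)⁻¹ • (v - f v), (hM _).2 ?_, ?_⟩
    · rw [map_smul, map_add, hff', add_comm]
    · rw [map_smul, map_sub, hff', ← smul_neg, neg_sub]
    · rw [← smul_add, show v + f v + (v - f v) = (2 : F) • v by rw [two_smul]; abel, smul_smul,
        inv_mul_cancel₀ h2, one_smul]
  have htop : LinearMap.ker (f - 1) ⊔ LinearMap.ker (f + 1) = ⊤ := eq_top_iff.2 fun v _ => by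
    obtain ⟨a, ha, b, hb, rfl⟩ := hsplit v
    exact Submodule.add_mem_sup ha hb
  have hnP : NondegIn Q (LinearMap.ker (f - 1)) := fun x hx h => hV x trivial fun y _ => by
    obtain ⟨a, ha, b, hb, rfl⟩ := hsplit y
    rw [QuadraticMap.polar_add_right, h a ha, mem_orth.1 (horth hb) x hx, add_zero]
  have hnM : NondegIn Q (LinearMap.ker (f + 1)) := fun x hx h => hV x trivial fun y _ => by
    obtain ⟨a, ha, b, hb, rfl⟩ := hsplit y
    rw [QuadraticMap.polar_add_right, h b hb, QuadraticMap.polar_comm, mem_orth.1 (horth hx) a ha, add_zero]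
  refine ⟨_, _, hP, hM, hnP, hnM, horth, htop, ?_⟩
  rw [← finrank_sup_disjoint (nondegIn_sup hnP hnM horth).2, htop, finrank_top]

omit [FiniteDimensional F V] in
/-- A subspace spanned by eigenvectors is invariant. -/
theorem map_le_of_eigen {f : Module.End F V} {X Y : Submodule F V} {s t : F} (hX : ∀ v ∈ X, f v = s • v)
    (hY : ∀ v ∈ Y, f v = t • v) : (X ⊔ Y).map f ≤ X ⊔ Y := by
  rw [Submodule.map_sup]
  refine sup_le_sup ?_ ?_
  · rintro _ ⟨v, hv, rfl⟩; rw [hX v hv]; exact X.smul_mem s hv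
  · rintro _ ⟨v, hv, rfl⟩; rw [hY v hv]; exact Y.smul_mem t hv

variable [Fintype F]

/-- Subspaces of both types that split along an even and an odd orthogonal summand. -/
theorem exists_split_sub (hV : NondegIn Q ⊤) (h2 : (2 : F) ≠ 0) {V1 V2 : Submodule F V} (h1 : NondegIn Q V1)
    (h2' : NondegIn Q V2) (ho : V2 ≤ orth Q V1) (hsum : finrank F V1 + finrank F V2 = finrank F V)
    (heven : Even (finrank F V1)) (hodd : Odd (finrank F V2)) {h : ℕ} (hpos : 0 < h)
    (hlt : 2 * h < finrank F V) (b : Prop) :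
    ∃ X Y : Submodule F V, X ≤ V1 ∧ Y ≤ V2 ∧ NondegIn Q (X ⊔ Y) ∧ finrank F ↥(X ⊔ Y) = 2 * h ∧
      (Plus Q (X ⊔ Y) ↔ b) := by
  classical
  obtain ⟨a, ha⟩ := heven
  obtain ⟨k, hk⟩ := hodd
  rcases Nat.eq_zero_or_pos k with hk0 | hkpos
  · rcases Nat.lt_or_ge h a with hha | hha
    · obtain ⟨X, hX, hXn, hXd, hXb⟩ := exists_sub_type h h1 (by omega) b (fun h0 => by omega)
      exact ⟨X, ⊥, hX, bot_le, by rwa [sup_bot_eq], by rwa [sup_bot_eq], by rwa [sup_bot_eq]⟩
    -- the orthogonal space of a vector of the even summand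
    obtain ⟨W0, -, hW0, hW0d, hW0b⟩ := exists_sub_type h hV (by rw [finrank_top]; omega) b (fun h0 => by omega)
    have hc := QuadType.isCompl_orth hW0
    have hd0 : finrank F (orth Q W0) = 1 := by
      have := Submodule.finrank_add_eq_of_isCompl hc
      omega
    obtain ⟨u0, hu0, hu00⟩ := Submodule.exists_mem_ne_zero_of_ne_bot
      (show orth Q W0 ≠ ⊥ from fun h' => by rw [h', finrank_bot] at hd0; omega)
    have hspan0 : Submodule.span F {u0} = orth Q W0 := Submodule.eq_of_le_of_finrank_eq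
      ((Submodule.span_singleton_le_iff_mem _ _).2 hu0) (by rw [finrank_span_singleton hu00, hd0])
    have hn0 : NondegIn Q (orth Q W0) := by
      have := (QuadType.split hV hW0 le_top).2.1
      rwa [top_inf_eq] at this
    have hQu0 : Q u0 ≠ 0 := fun hz => hu00 (hn0 u0 hu0 fun y hy => by
      obtain ⟨c, rfl⟩ := Submodule.mem_span_singleton.1 (hspan0.symm ▸ hy)
      rw [QuadraticMap.polar_smul_right, QuadraticMap.polar_self, hz, smul_zero, smul_zero])
    obtain ⟨u, hu, hQu⟩ := exists_value h1 (by omega) (Q u0)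
    have hu_ne : u ≠ 0 := fun h0 => by rw [h0, QuadraticMap.map_zero] at hQu; exact hQu0 hQu.symm
    have hnu : NondegIn Q (Submodule.span F {u}) := fun x hx hx0 => by
      obtain ⟨c, rfl⟩ := Submodule.mem_span_singleton.1 hx
      have h3 := hx0 u (Submodule.mem_span_singleton_self u)
      rw [QuadraticMap.polar_smul_left, QuadraticMap.polar_self, hQu] at h3
      simp only [smul_eq_mul, nsmul_eq_mul, Nat.cast_ofNat] at h3
      rcases mul_eq_zero.1 h3 with h4 | h4
      · rw [h4, zero_smul]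
      · exact absurd ((mul_eq_zero.1 h4).resolve_left h2) hQu0
    have hle : Submodule.span F {u} ≤ V1 := (Submodule.span_singleton_le_iff_mem _ _).2 hu
    obtain ⟨-, hR, hRd⟩ := QuadType.split h1 hnu hle
    rw [finrank_span_singleton hu_ne] at hRd
    have hoR : V2 ≤ orth Q (V1 ⊓ orth Q (Submodule.span F {u})) :=
      fun v hv => mem_orth.2 fun w hw => mem_orth.1 (ho hv) w hw.1
    obtain ⟨hS, hSd⟩ := nondegIn_sup hR h2' hoR
    have hSdim : finrank F ↥(V1 ⊓ orth Q (Submodule.span F {u}) ⊔ V2) = 2 * h := by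
      rw [finrank_sup_disjoint hSd]; omega
    refine ⟨V1 ⊓ orth Q (Submodule.span F {u}), V2, inf_le_left, le_rfl, hS, hSdim, ?_⟩
    have hiso : AreIso Q (orth Q W0) Q (Submodule.span F {u}) := by
      rw [← hspan0]
      refine ⟨(LinearEquiv.toSpanNonzeroSingleton F V u0 hu00).symm.trans
        (LinearEquiv.toSpanNonzeroSingleton F V u hu_ne), fun z => ?_⟩
      obtain ⟨c, rfl⟩ := (LinearEquiv.toSpanNonzeroSingleton F V u0 hu00).surjective z
      rw [LinearEquiv.trans_apply, LinearEquiv.symm_apply_apply]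
      simp [QuadraticMap.map_smul, hQu]
    have hcancel := cancel hV hn0 le_top le_top hiso
    rw [top_inf_eq, top_inf_eq] at hcancel
    have hW0eq : W0 = orth Q (orth Q W0) := Submodule.eq_of_le_of_finrank_eq (le_orth_comm le_rfl) (by
      have := Submodule.finrank_add_eq_of_isCompl (QuadType.isCompl_orth hn0)
      omega)
    have hSeq : V1 ⊓ orth Q (Submodule.span F {u}) ⊔ V2 = orth Q (Submodule.span F {u}) :=
      Submodule.eq_of_le_of_finrank_eq
        (sup_le inf_le_right fun v hv => mem_orth.2 fun w hw => mem_orth.1 (ho hv) w (hle hw)) (by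
        have := Submodule.finrank_add_eq_of_isCompl (QuadType.isCompl_orth hnu)
        rw [finrank_span_singleton hu_ne] at this
        omega)
    rw [hSeq, ← hcancel.plus_iff, ← hW0eq, hW0b]
  · -- both summands contribute an even dimension
    set e := min h k with he
    obtain ⟨X, τ, hX, hXn, hXd, hXb⟩ : ∃ (X : Submodule F V) (τ : Prop), X ≤ V1 ∧ NondegIn Q X ∧
        finrank F X = 2 * (h - e) ∧ (Plus Q X ↔ τ) := by
      rcases Nat.lt_or_ge (h - e) a with hlt' | hge
      · obtain ⟨X, hX, hXn, hXd, hXb⟩ := exists_sub_type (h - e) h1 (by omega) True fun _ => trivial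
        exact ⟨X, True, hX, hXn, hXd, hXb⟩
      · exact ⟨V1, _, le_rfl, h1, by omega, Iff.rfl⟩
    obtain ⟨Y, hY, hYn, hYd, hYb⟩ := exists_sub_type e h2' (by omega) (τ ↔ b) fun h0 => by omega
    have hoXY : Y ≤ orth Q X := fun v hv => mem_orth.2 fun w hw => mem_orth.1 (ho (hY hv)) w (hX hw)
    obtain ⟨hS, hSd⟩ := nondegIn_sup hXn hYn hoXY
    refine ⟨X, Y, hX, hY, hS, by rw [finrank_sup_disjoint hSd, hXd, hYd]; omega, ?_⟩
    rw [plus_sup _ hXn hYn hoXY (hXd ▸ even_two_mul _) (hYd ▸ even_two_mul _) rfl, hXb, hYb]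
    by_cases hτ : τ <;> simp [hτ]

/-- In odd dimension every involutory isometry fixes subspaces of both types of every even dimension. -/
theorem exists_fixed_sub (hV : NondegIn Q ⊤) (h2 : (2 : F) ≠ 0) (hn : Odd (finrank F V)) {f : Module.End F V}
    (hf : ∀ v, Q (f v) = Q v) (hff : f * f = 1) {h : ℕ} (hpos : 0 < h) (hlt : 2 * h < finrank F V) (b : Prop) :
    ∃ W : Submodule F V, W.map f ≤ W ∧ NondegIn Q W ∧ finrank F W = 2 * h ∧ (Plus Q W ↔ b) := by
  obtain ⟨P, M, hP, hM, hPn, hMn, ho, -, hsum⟩ := eigen_decomp hV h2 hf hff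
  rcases Nat.even_or_odd (finrank F P) with hev | hod
  · obtain ⟨X, Y, hX, hY, hW⟩ := exists_split_sub hV h2 hPn hMn ho hsum hev (by
      rw [Nat.odd_iff] at hn ⊢; rw [Nat.even_iff] at hev; omega) hpos hlt b
    exact ⟨X ⊔ Y, map_le_of_eigen (s := 1) (t := -1) (fun v hv => by rw [one_smul, (hP v).1 (hX hv)])
      (fun v hv => by rw [neg_one_smul, (hM v).1 (hY hv)]), hW⟩
  · obtain ⟨X, Y, hX, hY, hW⟩ := exists_split_sub hV h2 hMn hPn (le_orth_comm ho) (by omega) (by
      rw [Nat.odd_iff] at hn hod; rw [Nat.even_iff]; omega) hod hpos hlt b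
    exact ⟨X ⊔ Y, map_le_of_eigen (s := -1) (t := 1) (fun v hv => by rw [neg_one_smul, (hM v).1 (hX hv)])
      (fun v hv => by rw [one_smul, (hP v).1 (hY hv)]), hW⟩

end CfsgLib.Classical.Semisimple.QuadInvolution
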