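import Cfsg.Agent.Classical.Semisimple.QuadType
import Cfsg.Agent.Classical.Semisimple.AltIsometry
import Cfsg.Agent.QuadCount.Zeros

/-!
Isometries of odd prime order of a non-degenerate quadratic form: invariant non-degenerate and
totally singular subspaces.
-/

set_option autoImplicit false

namespace CfsgLib.Classical.Semisimple.QuadIsometry

open Module Polynomial QuadType

attribute [-simp] QuadraticMap.polarBilin_apply_apply

variable {F : Type*} [Field F] {V : Type*} [AddCommGroup V] [Module F V] {Q : QuadraticForm F V}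

/-- The polar form vanishes on `U`. -/
def Isotropic (Q : QuadraticForm F V) (U : Submodule F V) : Prop :=
  ∀ x ∈ U, ∀ y ∈ U, QuadraticMap.polarBilin Q x y = 0

theorem flip_eq (x y : V) : QuadraticMap.polarBilin Q y x = QuadraticMap.polarBilin Q x y := by
  simp only [QuadraticMap.polarBilin_apply_apply]; exact QuadraticMap.polar_comm _ y x

theorem comm_zero {x y : V} (h : QuadraticMap.polarBilin Q x y = 0) : QuadraticMap.polarBilin Q y x = 0 := by
  rw [flip_eq]; exact h

theorem isotropic_bot : Isotropic Q (⊥ : Submodule F V) := fun x hx y _ => by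
  rw [(Submodule.mem_bot F).1 hx]; simp

theorem isotropic_sup {X Y : Submodule F V} (hX : Isotropic Q X) (hY : Isotropic Q Y)
    (ho : Y ≤ orth Q X) : Isotropic Q (X ⊔ Y) := by
  intro x hx y hy
  obtain ⟨a, ha, b, hb, rfl⟩ := Submodule.mem_sup.1 hx
  obtain ⟨a', ha', b', hb', rfl⟩ := Submodule.mem_sup.1 hy
  simp only [map_add, LinearMap.add_apply]
  rw [hX a ha a' ha', hY b hb b' hb',
    show QuadraticMap.polarBilin Q a b' = 0 from mem_orth.1 (ho hb') a ha,
    comm_zero (show QuadraticMap.polarBilin Q a' b = 0 from mem_orth.1 (ho hb) a' ha')]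
  simp

variable [FiniteDimensional F V]

/-- An isometry of odd prime order `r` of a non-degenerate quadratic form. -/
structure Setting (Q : QuadraticForm F V) (f : Module.End F V) (r : ℕ) : Prop where
  nondeg_top : NondegIn Q ⊤
  isoQ : ∀ x, Q (f x) = Q x
  pow : f ^ r = 1
  odd : r ≠ 2
  ne : (r : F) ≠ 0

variable [Fintype F] {f : Module.End F V} {r : ℕ} [hr : Fact r.Prime]

/-- The moved space. -/
def moved (f : Module.End F V) : Submodule F V := LinearMap.range (f - (1 : F) • 1)

/-- The fixed space. -/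
def fixed (f : Module.End F V) : Submodule F V := LinearMap.ker (f - (1 : F) • 1)

omit [FiniteDimensional F V] [Fintype F] in
theorem mem_fixed {v : V} : v ∈ fixed f ↔ f v = v := by
  simp [fixed, LinearMap.mem_ker, sub_eq_zero]

omit [FiniteDimensional F V] [Fintype F] in
theorem fixed_map_le {U : Submodule F V} (hU : U ≤ fixed f) : U.map f ≤ U :=
  map_le_of_forall_mem fun x hx => by rwa [mem_fixed.1 (hU hx)]

theorem moved_map_le : (moved f).map f ≤ moved f := by
  refine map_le_of_forall_mem ?_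
  rintro _ ⟨v, rfl⟩
  exact ⟨f v, by simp⟩

namespace Setting

variable (hs : Setting Q f r)
include hs

omit [FiniteDimensional F V] [Fintype F] hr in
theorem iso (x y : V) :
    QuadraticMap.polarBilin Q (f x) (f y) = QuadraticMap.polarBilin Q x y := by
  simp only [QuadraticMap.polarBilin_apply_apply, QuadraticMap.polar, ← map_add, hs.isoQ]

omit [FiniteDimensional F V] [Fintype F] in
theorem inv_apply (x : V) : (f ^ (r - 1)) (f x) = x := by
  rw [← Module.End.mul_apply, ← pow_succ, Nat.sub_add_cancel hr.out.one_le, hs.pow]; rfl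

omit [FiniteDimensional F V] [Fintype F] in
theorem adjoint (x y : V) : (QuadraticMap.polarBilin Q) (f x) y = (QuadraticMap.polarBilin Q) x ((f ^ (r - 1)) y) := by
  conv_lhs => rw [show y = f ((f ^ (r - 1)) y) by
    rw [← Module.End.mul_apply, ← pow_succ', Nat.sub_add_cancel hr.out.one_le, hs.pow]; rfl]
  exact hs.iso _ _

omit [FiniteDimensional F V] [Fintype F] in
theorem injective : Function.Injective f := fun x y h => by
  rw [← hs.inv_apply x, h, hs.inv_apply]

theorem semisimple : f.IsSemisimple := isSemisimple_of_pow_eq_one hs.ne hs.pow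

theorem isCompl : IsCompl (fixed f) (moved f) := isCompl_ker_range hs.semisimple 1

theorem orth_map_le {W : Submodule F V} (hW : W.map f ≤ W) :
    (orth Q W).map f ≤ orth Q W := by
  refine map_le_of_forall_mem fun x hx w hw => ?_
  have heq : W.map f = W := Submodule.eq_of_le_of_finrank_eq hW
    (Submodule.equivMapOfInjective f hs.injective W).finrank_eq.symm
  obtain ⟨w', hw', rfl⟩ := (heq.symm ▸ hw : w ∈ W.map f)
  rw [hs.iso]
  exact hx w' hw'

theorem fixed_moved {k v : V} (hk : k ∈ fixed f) (hv : v ∈ moved f) : (QuadraticMap.polarBilin Q) k v = 0 := by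
  obtain ⟨u, rfl⟩ := hv
  have h := hs.iso k u
  rw [mem_fixed.1 hk] at h
  simp [h]

theorem fixed_le_orth : fixed f ≤ orth Q (moved f) := fun _ hk v hv =>
  comm_zero (hs.fixed_moved hk hv)

theorem nondegIn_inter {U : Submodule F V} (hU : NondegIn Q U) (hinv : U.map f ≤ U) :
    NondegIn Q (U ⊓ moved f) ∧ NondegIn Q (U ⊓ fixed f) ∧
      finrank F U = finrank F ↥(U ⊓ fixed f) + finrank F ↥(U ⊓ moved f) := by
  have h3 := finrank_eq_inf_ker_add_inf_range hs.semisimple 1 hinv
  have hdec : ∀ y ∈ U, ∃ a ∈ U ⊓ fixed f, ∃ b ∈ U ⊓ moved f, a + b = y := by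
    intro y hy
    have hsup : (U ⊓ fixed f) ⊔ (U ⊓ moved f) = U := by
      refine Submodule.eq_of_le_of_finrank_eq (sup_le inf_le_left inf_le_left) ?_
      rw [finrank_sup_disjoint ((hs.isCompl.disjoint).mono inf_le_right inf_le_right)]
      exact h3.symm
    exact Submodule.mem_sup.1 (hsup.symm ▸ hy)
  refine ⟨fun x hx h => hU x hx.1 fun y hy => ?_, fun x hx h => hU x hx.1 fun y hy => ?_, h3⟩
  · obtain ⟨a, ha, b, hb, rfl⟩ := hdec y hy
    rw [← QuadraticMap.polarBilin_apply_apply, map_add, comm_zero (hs.fixed_moved ha.2 hx.2), QuadraticMap.polarBilin_apply_apply, h b hb, add_zero]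
  · obtain ⟨a, ha, b, hb, rfl⟩ := hdec y hy
    rw [← QuadraticMap.polarBilin_apply_apply, map_add, QuadraticMap.polarBilin_apply_apply Q x a, h a ha, hs.fixed_moved hx.2 hb.2, add_zero]

theorem nondeg (x : V) (h : ∀ y, QuadraticMap.polarBilin Q x y = 0) : x = 0 :=
  hs.nondeg_top x trivial fun y _ => h y

theorem nondeg_moved : NondegIn Q (moved f) := by
  simpa using (hs.nondegIn_inter hs.nondeg_top le_top).1

theorem nondeg_fixed : NondegIn Q (fixed f) := by
  simpa using (hs.nondegIn_inter hs.nondeg_top le_top).2.1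

theorem order_pos : 0 < orderOf (Fintype.card F : ZMod r) := orderOf_card_pos hs.ne

theorem dvd_finrank {U : Submodule F V} (hU : U.map f ≤ U) (hle : U ≤ moved f) :
    orderOf (Fintype.card F : ZMod r) ∣ finrank F U :=
  ((pieces_of_pow_eq_one hs.ne hs.pow).mono hle).dvd_finrank hs.semisimple hs.order_pos hU

theorem exists_irred {U : Submodule F V} (hU : U.map f ≤ U) (hle : U ≤ moved f) (hne : U ≠ ⊥) :
    ∃ (W : Submodule F V) (P : F[X]), W ≤ U ∧ W.map f ≤ W ∧
      finrank F W = orderOf (Fintype.card F : ZMod r) ∧ Irreducible P ∧ P ∣ cyclotomic r F ∧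
      (∀ w ∈ W, aeval f P w = 0) := by
  obtain ⟨v, hvU, hv⟩ := Submodule.exists_mem_ne_zero_of_ne_bot hne
  have h0 : aeval f (cyclotomic r F) v = 0 := by
    obtain ⟨y, rfl⟩ := hle hvU
    have hX : f - (1 : F) • 1 = aeval f (X - 1 : F[X]) := by simp
    rw [hX, ← Module.End.mul_apply, ← map_mul, cyclotomic_prime_mul_X_sub_one]
    simp [hs.pow]
  obtain ⟨P, hP, hPd, w, hwU, hw, hPw⟩ :=
    exists_irreducible_factor_apply_eq_zero hU (cyclotomic_ne_zero r F) hvU hv h0
  obtain ⟨W, h1, -, h3, h4, h5⟩ := exists_invariant_of_aeval_apply_eq_zero hP hw hPw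
  exact ⟨W, P, h4 U hU hwU, h1, h3.trans (natDegree_of_dvd_cyclotomic hs.ne hP hPd), hP, hPd,
    fun w hw => h5 hw⟩

theorem minimal {W Y : Submodule F V} (hle : W ≤ moved f)
    (hW : finrank F W = orderOf (Fintype.card F : ZMod r)) (hY : Y.map f ≤ Y) (hYW : Y ≤ W) :
    Y = ⊥ ∨ Y = W := by
  rcases Nat.eq_zero_or_pos (finrank F Y) with h | h
  · exact Or.inl (Submodule.finrank_eq_zero.1 h)
  · refine Or.inr (Submodule.eq_of_le_of_finrank_eq hYW (le_antisymm (Submodule.finrank_mono hYW) ?_))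
    rw [hW]
    exact Nat.le_of_dvd h (hs.dvd_finrank hY (hYW.trans hle))

theorem dichotomy {W : Submodule F V} (hinv : W.map f ≤ W) (hle : W ≤ moved f)
    (hW : finrank F W = orderOf (Fintype.card F : ZMod r)) : NondegIn Q W ∨ Isotropic Q W := by
  rcases hs.minimal hle hW (inf_map_le hinv (hs.orth_map_le hinv)) inf_le_left with h | h
  · exact Or.inl fun x hx hx0 =>
      (Submodule.eq_bot_iff _).1 h x ⟨hx, fun w hw => comm_zero (hx0 w hw)⟩
  · exact Or.inr fun x hx y hy => ((h.symm ▸ hy : y ∈ W ⊓ orth Q W)).2 x hx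

theorem even_finrank_moved {W : Submodule F V} (hW : NondegIn Q W) (hinv : W.map f ≤ W)
    (hle : W ≤ moved f) : Even (finrank F W) := by
  classical
  by_cases h2 : (2 : F) = 0
  · exact QuadType.even_finrank_of_two h2 _ hW rfl
  by_contra hodd
  rw [Nat.not_even_iff_odd] at hodd
  let β : LinearMap.BilinForm F W := (QuadraticMap.polarBilin Q).compl₁₂ W.subtype W.subtype
  let b := Module.finBasis F W
  set A : Matrix (Fin (finrank F W)) (Fin (finrank F W)) F := LinearMap.toMatrix b b (res f hinv)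
  set G := CfsgLib.LinAlg.Witt.gram β b
  have hG : A.transpose * G * A = G := by
    have h1 := CfsgLib.LinAlg.Witt.gram_change β b fun i => res f hinv (b i)
    have h3 : b.toMatrix (fun i => res f hinv (b i)) = A := by
      ext i j; simp [A, Basis.toMatrix_apply, LinearMap.toMatrix_apply]
    rw [h3] at h1
    rw [← h1]
    ext i j
    exact hs.iso _ _
  have hGne : G.det ≠ 0 :=
    CfsgLib.LinAlg.Witt.gram_det_ne_zero β b (LinearMap.ker_eq_bot'.2 fun x hx =>
      Subtype.ext (hW x x.2 fun y hy => LinearMap.congr_fun hx ⟨y, hy⟩))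
  have hAr : A ^ r = 1 := by
    rw [LinearMap.toMatrix_pow]
    rw [show (res f hinv) ^ r = 1 from LinearMap.ext fun w => Subtype.ext (by
      have h1 := coe_aeval_res f hinv (X ^ r : F[X]) w
      simp only [map_pow, aeval_X, hs.pow] at h1
      simpa using h1)]
    exact LinearMap.toMatrix_one b
  have hA1 : A.det = 1 := by
    have h1 : A.det * A.det = 1 := by
      have h := congrArg Matrix.det hG
      rw [Matrix.det_mul, Matrix.det_mul, Matrix.det_transpose] at h
      exact mul_right_cancel₀ hGne (by linear_combination h)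
    obtain ⟨k, hk⟩ := hr.out.odd_of_ne_two hs.odd
    have h2 := congrArg Matrix.det hAr
    rw [Matrix.det_pow, Matrix.det_one, hk, pow_succ, pow_mul, sq, h1, one_pow, one_mul] at h2
    exact h2
  have hN : (A - 1).det ≠ 0 := by
    rw [show A - 1 = LinearMap.toMatrix b b (res f hinv - 1) by rw [map_sub, LinearMap.toMatrix_one],
      LinearMap.det_toMatrix, ← isUnit_iff_ne_zero, ← LinearMap.isUnit_iff_isUnit_det,
      Module.End.isUnit_iff]
    have hinj : Function.Injective (res f hinv - 1 : Module.End F W) := LinearMap.ker_eq_bot.1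
      ((Submodule.eq_bot_iff _).2 fun w hw => Subtype.ext (Submodule.disjoint_def.1 hs.isCompl.disjoint w
        (mem_fixed.2 (sub_eq_zero.1 (congrArg Subtype.val (LinearMap.mem_ker.1 hw)))) (hle w.2)))
    exact ⟨hinj, LinearMap.injective_iff_surjective.1 hinj⟩
  have hkey : (A - 1).transpose * G * A = -(G * (A - 1)) := by
    rw [Matrix.transpose_sub, Matrix.transpose_one, sub_mul, one_mul, sub_mul, hG, mul_sub, mul_one, neg_sub]
  have h := congrArg Matrix.det hkey
  rw [Matrix.det_mul, Matrix.det_mul, Matrix.det_transpose, hA1, mul_one, Matrix.det_neg, Matrix.det_mul,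
    Fintype.card_fin, hodd.neg_one_pow] at h
  exact h2 ((mul_eq_zero.1 (show (2 : F) * ((A - 1).det * G.det) = 0 by linear_combination h)).resolve_right
    (mul_ne_zero hN hGne))

theorem even_of_nondeg {W : Submodule F V} (hW : NondegIn Q W) (hinv : W.map f ≤ W) (hle : W ≤ moved f)
    (hd : finrank F W = orderOf (Fintype.card F : ZMod r)) : Even (orderOf (Fintype.card F : ZMod r)) :=
  hd ▸ hs.even_finrank_moved hW hinv hle

/-- Invariant isotropic subspaces without fixed vectors are totally singular. -/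
theorem singular_of_isotropic {Y : Submodule F V} (hY : Isotropic Q Y) (hinv : Y.map f ≤ Y)
    (hle : Y ≤ moved f) : Singular Q Y := by
  have hinj : Function.Injective (res f hinv - 1 : Module.End F Y) := LinearMap.ker_eq_bot.1
    ((Submodule.eq_bot_iff _).2 fun w hw => Subtype.ext (Submodule.disjoint_def.1 hs.isCompl.disjoint w
      (mem_fixed.2 (sub_eq_zero.1 (congrArg Subtype.val (LinearMap.mem_ker.1 hw)))) (hle w.2)))
  intro x hx
  obtain ⟨y, hy⟩ := LinearMap.injective_iff_surjective.1 hinj ⟨x, hx⟩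
  have hxy : x = f y - y := (congrArg Subtype.val hy).symm
  have h1 : Q (f y - y : V) + QuadraticMap.polarBilin Q (f (y : V) - y) y + Q (y : V) = Q (f (y : V)) := by
    conv_rhs => rw [← sub_add_cancel (f (y : V)) y, QuadraticMap.map_add (⇑Q)]
    rw [QuadraticMap.polarBilin_apply_apply]; ring
  rw [hxy]
  have h2 := hY _ (hxy ▸ hx : f (y : V) - y ∈ Y) y y.2
  rw [h2, hs.isoQ] at h1
  linear_combination h1

theorem aeval_adjoint (P : F[X]) : ∀ x y, (QuadraticMap.polarBilin Q) (aeval f P x) y = (QuadraticMap.polarBilin Q) x (aeval (f ^ (r - 1)) P y) := by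
  induction P using Polynomial.induction_on with
  | C a => intro x y; simp [Module.algebraMap_end_apply]
  | add p q hp hq => intro x y; simp [hp, hq]
  | monomial n a h =>
    intro x y
    have h1 := h (f x) y
    rw [hs.adjoint] at h1
    have e1 : aeval f (C a * X ^ (n + 1)) = aeval f (C a * X ^ n) * f := by
      rw [show C a * X ^ (n + 1) = C a * X ^ n * X by ring, map_mul (aeval f), aeval_X]
    have e2 : aeval (f ^ (r - 1)) (C a * X ^ (n + 1)) =
        f ^ (r - 1) * aeval (f ^ (r - 1)) (C a * X ^ n) := by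
      rw [show C a * X ^ (n + 1) = X * (C a * X ^ n) by ring, map_mul (aeval (f ^ (r - 1))), aeval_X]
    rw [e1, e2, Module.End.mul_apply, Module.End.mul_apply, h1]

/-- For an orbit of eigenvalues closed under inversion, `f⁻¹` is a Frobenius power of `f`. -/
theorem exists_pow_inverse (hev : Even (orderOf (Fintype.card F : ZMod r))) :
    ∃ j : ℕ, ∀ P : F[X], aeval (f ^ (r - 1)) P = (aeval f P) ^ (Fintype.card F ^ j) := by
  obtain ⟨j, hj⟩ := hev
  refine ⟨j, fun P => ?_⟩
  have hz : (Fintype.card F : ZMod r) ^ j = -1 := by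
    have h2 : ((Fintype.card F : ZMod r) ^ j) ^ 2 = 1 := by
      rw [← pow_mul, show j * 2 = orderOf (Fintype.card F : ZMod r) by omega, pow_orderOf_eq_one]
    refine (sq_eq_one_iff.1 h2).resolve_left fun h => ?_
    have := orderOf_dvd_of_pow_eq_one h
    have hpos := hs.order_pos
    have := Nat.le_of_dvd (by omega) this
    omega
  have hmod : Fintype.card F ^ j ≡ r - 1 [MOD r] := by
    rw [← ZMod.natCast_eq_natCast_iff, Nat.cast_pow, hz, Nat.cast_sub hr.out.one_le, ZMod.natCast_self]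
    simp
  have hg : f ^ (r - 1) = f ^ (Fintype.card F ^ j) := by
    rw [pow_eq_pow_mod (r - 1) hs.pow, pow_eq_pow_mod (Fintype.card F ^ j) hs.pow, hmod]
  rw [hg]
  clear hz hmod hg hj
  induction j generalizing P with
  | zero => simp
  | succ j ih =>
    rw [pow_succ, pow_mul, pow_mul, ← ih, ← map_pow, ← FiniteField.expand_card, expand_aeval]

omit hs in
/-- The graph of a map between disjoint invariant subspaces. -/
theorem graph_spec {W C : Submodule F V} (hd : Disjoint W C) (hW : W.map f ≤ W) (ψ : W →ₗ[F] V)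
    (hψC : ∀ w, ψ w ∈ C) (hψ : ∀ w : W, ψ ⟨f w, hW ⟨w, w.2, rfl⟩⟩ = f (ψ w)) :
    (LinearMap.range (W.subtype + ψ)).map f ≤ LinearMap.range (W.subtype + ψ) ∧
      finrank F (LinearMap.range (W.subtype + ψ)) = finrank F W := by
  refine ⟨map_le_of_forall_mem ?_, LinearMap.finrank_range_of_inj (LinearMap.ker_eq_bot.1
    ((Submodule.eq_bot_iff _).2 fun w hw => ?_))⟩
  · rintro _ ⟨w, rfl⟩
    exact ⟨⟨f w, hW ⟨w, w.2, rfl⟩⟩, by simp [hψ]⟩
  · have h : (w : V) + ψ w = 0 := hw
    refine Subtype.ext (Submodule.disjoint_def.1 hd w w.2 ?_)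
    rw [eq_neg_of_add_eq_zero_left h]
    exact C.neg_mem (hψC w)

/-- A non-degenerate piece of the least possible dimension. -/
theorem exists_piece {U : Submodule F V} (hU : NondegIn Q U) (hinv : U.map f ≤ U) (hle : U ≤ moved f)
    (hne : U ≠ ⊥) {c : ℕ}
    (hc : c = if Even (orderOf (Fintype.card F : ZMod r)) then orderOf (Fintype.card F : ZMod r)
      else 2 * orderOf (Fintype.card F : ZMod r)) :
    ∃ W ≤ U, NondegIn Q W ∧ W.map f ≤ W ∧ finrank F W = c ∧
      (Odd (orderOf (Fintype.card F : ZMod r)) → ∃ Y ≤ W, Isotropic Q Y ∧ Y.map f ≤ Y ∧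
        finrank F Y = orderOf (Fintype.card F : ZMod r)) := by
  set i := orderOf (Fintype.card F : ZMod r) with hi
  obtain ⟨W0, P, hW0U, hW0, hd0, hP, hPd, hPW⟩ := hs.exists_irred hinv hle hne
  have hnd_case : ∀ W ≤ U, NondegIn Q W → W.map f ≤ W → finrank F W = i →
      ∃ W ≤ U, NondegIn Q W ∧ W.map f ≤ W ∧ finrank F W = c ∧
        (Odd i → ∃ Y ≤ W, Isotropic Q Y ∧ Y.map f ≤ Y ∧ finrank F Y = i) := by
    intro W hWU hW hWf hd
    have hev : Even i := hi ▸ hs.even_of_nondeg hW hWf (hWU.trans hle) hd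
    exact ⟨W, hWU, hW, hWf, by rw [hc, if_pos hev, hd],
      fun ho => absurd hev (Nat.not_even_iff_odd.2 ho)⟩
  rcases hs.dichotomy hW0 (hW0U.trans hle) hd0 with h | h0
  · exact hnd_case W0 hW0U h hW0 hd0
  set Y := U ⊓ orth Q W0 with hY
  have hW0Y : W0 ≤ Y := le_inf hW0U fun x hx w hw => h0 w hw x hx
  obtain ⟨C, hCU, hC, hsup, hdisj⟩ :=
    exists_invariant_compl_in hs.semisimple (inf_map_le hinv (hs.orth_map_le hW0)) hinv inf_le_left
  -- the pairing of `W0` and `C`
  have hpair : ∀ w ∈ W0, (∀ x ∈ C, (QuadraticMap.polarBilin Q) w x = 0) → w = 0 := by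
    intro w hw h
    refine hU w (hW0U hw) fun u hu => ?_
    obtain ⟨a, ha, x, hx, rfl⟩ := Submodule.mem_sup.1 (hsup.symm ▸ hu : u ∈ Y ⊔ C)
    rw [← QuadraticMap.polarBilin_apply_apply, map_add, show (QuadraticMap.polarBilin Q) w a = 0 from ha.2 w hw, h x hx, add_zero]
  have hpair' : ∀ x ∈ C, (∀ w ∈ W0, (QuadraticMap.polarBilin Q) w x = 0) → x = 0 := fun x hx h =>
    Submodule.disjoint_def.1 hdisj x ⟨hCU hx, h⟩ hx
  have hdC : finrank F C = i := by
    let φ : W0 →ₗ[F] Dual F C := (QuadraticMap.polarBilin Q).compl₁₂ W0.subtype C.subtype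
    let φ' : C →ₗ[F] Dual F W0 := φ.flip
    have h1 : Function.Injective φ := LinearMap.ker_eq_bot.1 ((Submodule.eq_bot_iff _).2 fun w hw =>
      Subtype.ext (hpair w w.2 fun x hx => LinearMap.congr_fun (LinearMap.mem_ker.1 hw) ⟨x, hx⟩))
    have h2 : Function.Injective φ' := LinearMap.ker_eq_bot.1 ((Submodule.eq_bot_iff _).2 fun x hx =>
      Subtype.ext (hpair' x x.2 fun w hw => LinearMap.congr_fun (LinearMap.mem_ker.1 hx) ⟨w, hw⟩))
    have h3 := (LinearMap.finrank_le_finrank_of_injective h1).trans Subspace.dual_finrank_eq.le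
    have h4 := (LinearMap.finrank_le_finrank_of_injective h2).trans Subspace.dual_finrank_eq.le
    omega
  rcases hs.dichotomy hC (hCU.trans hle) hdC with h | hC0
  · exact hnd_case C hCU h hC hdC
  have hWC : Disjoint W0 C := hdisj.mono_left hW0Y
  have hS : NondegIn Q (W0 ⊔ C) := by
    intro x hx h
    obtain ⟨a, ha, b, hb, rfl⟩ := Submodule.mem_sup.1 hx
    have hb0 : b = 0 := hpair' b hb fun w hw => by
      have h1 := h w (Submodule.mem_sup_left hw)
      rw [← QuadraticMap.polarBilin_apply_apply, map_add, LinearMap.add_apply, h0 a ha w hw, zero_add] at h1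
      exact comm_zero h1
    rw [hb0, add_zero] at h ⊢
    exact hpair a ha fun x hx => h x (Submodule.mem_sup_right hx)
  by_cases hev : Even i
  swap
  · refine ⟨W0 ⊔ C, sup_le hW0U hCU, hS, sup_map_le hW0 hC, ?_, fun _ => ⟨W0, le_sup_left, h0, hW0, hd0⟩⟩
    rw [finrank_sup_disjoint hWC, hd0, hdC, hc, if_neg hev]; omega
  -- the same polynomial kills `C`
  obtain ⟨j, hj⟩ := hs.exists_pow_inverse hev
  have hPC : ∀ x ∈ C, aeval f P x = 0 := by
    have hN : ∀ x ∈ C, ((aeval f P) ^ (Fintype.card F ^ j)) x = 0 := by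
      intro x hx
      rw [← hj]
      refine hpair' _ (aeval_mem ?_ P hx) fun w hw => ?_
      · refine map_le_of_forall_mem fun y hy => ?_
        have := aeval_mem hC (X ^ (r - 1) : F[X]) hy
        simpa using this
      · rw [← hs.aeval_adjoint, hPW w hw, map_zero, LinearMap.zero_apply]
    intro x hx
    rcases hs.minimal (hCU.trans hle) hdC (inf_map_le hC (ker_map_le f P))
      (inf_le_left (b := LinearMap.ker (aeval f P))) with h | h
    · have hinj : ∀ y ∈ C, aeval f P y = 0 → y = 0 := fun y hy h' =>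
        (Submodule.eq_bot_iff _).1 h y ⟨hy, h'⟩
      have key : ∀ m, ∀ y ∈ C, ((aeval f P) ^ m) y = 0 → y = 0 := by
        intro m
        induction m with
        | zero => intro y _ h'; simpa using h'
        | succ m ih =>
          intro y hy h'
          rw [pow_succ, Module.End.mul_apply] at h'
          exact hinj y hy (ih _ (aeval_mem hC P hy) h')
      rw [key _ x hx (hN x hx), map_zero]
    · exact (h.symm ▸ hx : x ∈ C ⊓ LinearMap.ker (aeval f P)).2
  have hres : ∀ {W : Submodule F V} (hW : W.map f ≤ W), (∀ w ∈ W, aeval f P w = 0) →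
      aeval (res f hW) P = 0 := fun hW h =>
    LinearMap.ext fun w => Subtype.ext (by rw [coe_aeval_res, h _ w.2]; rfl)
  obtain ⟨e, he⟩ := exists_equiv_of_irreducible hP (hres hW0 hPW) (hres hC hPC) (hd0.trans hdC.symm)
  let φ : W0 →ₗ[F] V := C.subtype ∘ₗ e.toLinearMap
  have hφ : ∀ w : W0, φ ⟨f w, hW0 ⟨w, w.2, rfl⟩⟩ = f (φ w) := fun w => by
    show ((e (res f hW0 w) : C) : V) = _
    rw [he]; rfl
  let fW : W0 →ₗ[F] W0 := res f hW0
  by_contra hcon
  have hiso : ∀ ψ : W0 →ₗ[F] V, (∀ w, ψ w ∈ C) →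
      (∀ w : W0, ψ ⟨f w, hW0 ⟨w, w.2, rfl⟩⟩ = f (ψ w)) → ∀ u v : W0, (QuadraticMap.polarBilin Q) u (ψ v) = -(QuadraticMap.polarBilin Q) v (ψ u) := by
    intro ψ hψC hψ u v
    obtain ⟨h1, h2⟩ := graph_spec hWC hW0 ψ hψC hψ
    have hGU : LinearMap.range (W0.subtype + ψ) ≤ U := by
      rintro _ ⟨w, rfl⟩; exact U.add_mem (hW0U w.2) (hCU (hψC w))
    rcases hs.dichotomy h1 (hGU.trans hle) (h2.trans hd0) with h | h
    · exact absurd (hnd_case _ hGU h h1 (h2.trans hd0)) hcon
    · have h3 := h _ ⟨u, rfl⟩ _ ⟨v, rfl⟩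
      simp only [LinearMap.add_apply, Submodule.subtype_apply, map_add] at h3
      rw [h0 _ u.2 _ v.2, hC0 _ (hψC u) _ (hψC v)] at h3
      rw [flip_eq (v : V) (ψ u)] at h3
      linear_combination h3
  have hs1 := hiso φ (fun w => (e w).2) hφ
  have hs2 := hiso (φ ∘ₗ fW) (fun w => (e _).2) (fun w => by
    show φ (fW _) = f (φ (fW w))
    exact hφ (fW w))
  obtain ⟨w, hw, hw0⟩ := Submodule.exists_mem_ne_zero_of_ne_bot
    (fun h : W0 = ⊥ => by rw [h, finrank_bot] at hd0; exact absurd hd0.symm hs.order_pos.ne')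
  let v : W0 := ⟨w, hw⟩
  -- `f` and `f⁻¹` agree on `w`
  let gW : W0 →ₗ[F] W0 := fW ^ (r - 1)
  have hgW : ∀ v : W0, (gW v : V) = (f ^ (r - 1)) v := fun v => by
    have := coe_aeval_res f hW0 (X ^ (r - 1) : F[X]) v
    simpa [gW, fW] using this
  have hφg : ∀ v : W0, φ (gW v) = (f ^ (r - 1)) (φ v) := by
    have : ∀ (m : ℕ) (v : W0), φ ((fW ^ m) v) = (f ^ m) (φ v) := by
      intro m
      induction m with
      | zero => intro v; simp
      | succ m ih =>
        intro v
        rw [pow_succ, pow_succ, Module.End.mul_apply, Module.End.mul_apply, ih, ← hφ]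
        rfl
    exact this _
  have hkey : φ (fW v) = φ (gW v) := by
    refine sub_eq_zero.1 (hpair' _ (C.sub_mem (e _).2 (e _).2) fun u hu => ?_)
    have h1 : (QuadraticMap.polarBilin Q) u (φ (fW v)) = -(QuadraticMap.polarBilin Q) (v : V) (φ (fW ⟨u, hu⟩)) := hs2 ⟨u, hu⟩ v
    have h2 : -(QuadraticMap.polarBilin Q) (v : V) (φ (fW ⟨u, hu⟩)) = (QuadraticMap.polarBilin Q) (fW ⟨u, hu⟩ : V) (φ v) := (hs1 _ _).symm
    have h3 : (QuadraticMap.polarBilin Q) (fW ⟨u, hu⟩ : V) (φ v) = (QuadraticMap.polarBilin Q) u (φ (gW v)) := by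
      rw [hφg]; exact hs.adjoint u (φ v)
    rw [map_sub, h1, h2, h3, sub_self]
  have hfg : f w = (f ^ (r - 1)) w := by
    have h1 := congrArg (fun x : W0 => (x : V)) (e.injective (Subtype.ext hkey))
    simpa [fW, hgW, coe_res, v] using h1
  have h2 : (f ^ 2) w = w := by
    have := congrArg f hfg
    rw [← Module.End.mul_apply f (f ^ (r - 1)), ← pow_succ', Nat.sub_add_cancel hr.out.one_le, hs.pow] at this
    simpa [sq] using this
  have hfw : f w = w := by
    obtain ⟨k, hk⟩ := hr.out.odd_of_ne_two hs.odd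
    have hk2 : ((f ^ 2) ^ k) w = w := by
      clear hk
      induction k with
      | zero => simp
      | succ k ih => rw [pow_succ, Module.End.mul_apply, h2, ih]
    have h3 := congrArg (fun g : Module.End F V => g w) hs.pow
    simp only [hk, pow_succ', Module.End.mul_apply, pow_mul, hk2, Module.End.one_apply] at h3
    exact h3
  exact hw0 (Submodule.disjoint_def.1 hs.isCompl.disjoint w (mem_fixed.2 hfw) (hle (hW0U hw)))

/-- Pieces add up. -/
theorem exists_nondeg_sub {U : Submodule F V} (hU : NondegIn Q U) (hinv : U.map f ≤ U) (hle : U ≤ moved f)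
    {c : ℕ} (hc : c = if Even (orderOf (Fintype.card F : ZMod r)) then orderOf (Fintype.card F : ZMod r)
      else 2 * orderOf (Fintype.card F : ZMod r)) :
    c ∣ finrank F U ∧ ∀ l, c * l ≤ finrank F U →
      ∃ W ≤ U, NondegIn Q W ∧ W.map f ≤ W ∧ finrank F W = c * l ∧
        (Odd (orderOf (Fintype.card F : ZMod r)) → ∃ Y ≤ W, Isotropic Q Y ∧ Y.map f ≤ Y ∧
          finrank F Y = orderOf (Fintype.card F : ZMod r) * l) := by
  have hcpos : 0 < c := by
    have := hs.order_pos
    rw [hc]; split_ifs <;> omega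
  induction hN : finrank F U using Nat.strong_induction_on generalizing U with
  | _ N ih =>
  subst hN
  by_cases hne : U = ⊥
  · subst hne
    rw [finrank_bot]
    refine ⟨dvd_zero _, fun l hl => ⟨⊥, le_rfl, nondegIn_bot, by simp, ?_, fun _ => ⟨⊥, le_rfl, isotropic_bot, by simp, ?_⟩⟩⟩
    · rw [finrank_bot]; omega
    · have : l = 0 := by
        by_contra h
        have := Nat.mul_pos hcpos (Nat.pos_of_ne_zero h)
        omega
      simp [this]
  obtain ⟨W, hWU, hW, hWf, hWd, hWY⟩ := hs.exists_piece hU hinv hle hne hc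
  obtain ⟨hsplit, hU', hdim⟩ := QuadType.split hU hW hWU
  have hinv' : (U ⊓ orth Q W).map f ≤ U ⊓ orth Q W := inf_map_le hinv (hs.orth_map_le hWf)
  obtain ⟨hdvd, hsub⟩ := ih (finrank F ↥(U ⊓ orth Q W)) (by omega) hU' hinv' (inf_le_left.trans hle) rfl
  refine ⟨by rw [← hdim, hWd]; exact dvd_add dvd_rfl hdvd, fun l hl => ?_⟩
  rcases l with _ | l
  · exact ⟨⊥, bot_le, nondegIn_bot, by simp, by simp, fun _ => ⟨⊥, le_rfl, isotropic_bot, by simp, by simp⟩⟩
  obtain ⟨W', hW'U, hW', hW'f, hW'd, hW'Y⟩ := hsub l (by rw [Nat.mul_succ] at hl; omega)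
  obtain ⟨hnd, hdj⟩ := nondegIn_sup hW hW' (hW'U.trans inf_le_right)
  refine ⟨W ⊔ W', sup_le hWU (hW'U.trans inf_le_left), hnd, sup_map_le hWf hW'f, ?_, fun ho => ?_⟩
  · rw [finrank_sup_disjoint hdj, hWd, hW'd, Nat.mul_succ, add_comm]
  · obtain ⟨Y, hYW, hY, hYf, hYd⟩ := hWY ho
    obtain ⟨Y', hY'W, hY', hY'f, hY'd⟩ := hW'Y ho
    refine ⟨Y ⊔ Y', sup_le_sup hYW hY'W, isotropic_sup hY hY' fun x hx y hy =>
      ((hY'W.trans hW'U) hx).2 y (hYW hy), sup_map_le hYf hY'f, ?_⟩
    rw [finrank_sup_disjoint (hdj.mono hYW hY'W), hYd, hY'd, Nat.mul_succ, add_comm]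

/-- Two pieces with the same polynomial contain an isotropic invariant subspace. -/
theorem exists_isotropic_of_two {U₁ U₂ : Submodule F V} (h1 : NondegIn Q U₁) (h2 : NondegIn Q U₂)
    (ho : U₂ ≤ orth Q U₁) (hf1 : U₁.map f ≤ U₁) (hf2 : U₂.map f ≤ U₂) (hle : U₁ ≤ moved f)
    {P : F[X]} (hP : Irreducible P) (hP1 : ∀ w ∈ U₁, aeval f P w = 0) (hP2 : ∀ w ∈ U₂, aeval f P w = 0)
    (hd : finrank F U₁ = finrank F U₂) :
    ∃ Y ≤ U₁ ⊔ U₂, Isotropic Q Y ∧ Y.map f ≤ Y ∧ finrank F Y = finrank F U₁ := by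
  obtain ⟨hdisj⟩ := Nonempty.intro (nondegIn_sup h1 h2 ho).2
  have hres : ∀ {W : Submodule F V} (hW : W.map f ≤ W), (∀ w ∈ W, aeval f P w = 0) →
      aeval (res f hW) P = 0 := fun hW h =>
    LinearMap.ext fun w => Subtype.ext (by rw [coe_aeval_res, h _ w.2]; rfl)
  obtain ⟨e, he⟩ := exists_equiv_of_irreducible hP (hres hf1 hP1) (hres hf2 hP2) hd
  have hinjA : Function.Injective (res f hf1) := fun a b h =>
    Subtype.ext (hs.injective (congrArg Subtype.val h))
  let A : U₁ ≃ₗ[F] U₁ := LinearEquiv.ofBijective (res f hf1) ⟨hinjA, LinearMap.injective_iff_surjective.1 hinjA⟩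
  let β : LinearMap.BilinForm F U₁ := -((QuadraticMap.polarBilin Q).compl₁₂ U₁.subtype U₁.subtype)
  let β' : LinearMap.BilinForm F U₁ :=
    (QuadraticMap.polarBilin Q).compl₁₂ (U₂.subtype ∘ₗ e.toLinearMap) (U₂.subtype ∘ₗ e.toLinearMap)
  have hAv : ∀ u : U₁, ((A u : U₁) : V) = f u := fun u => rfl
  have heA : ∀ u : U₁, ((e (A u) : U₂) : V) = f (e u) := fun u => by
    show ((e (res f hf1 u) : U₂) : V) = _
    rw [he]; rfl
  obtain ⟨Y, hY, hYB⟩ := CfsgLib.Classical.Orth.exists_centralizer_map_form β β' 1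
    (fun u v => by simp [β, flip_eq (v : V) (u : V)])
    (fun u v => by simp [β', flip_eq ((e v : U₂) : V) ((e u : U₂) : V)])
    (fun u h => Subtype.ext (h1 u u.2 fun v hv => by simpa [β, QuadraticMap.polarBilin_apply_apply] using h ⟨v, hv⟩))
    (fun u h => e.map_eq_zero_iff.1 (Subtype.ext (h2 _ (e u).2 fun v hv => by
      simpa [β', QuadraticMap.polarBilin_apply_apply] using h (e.symm ⟨v, hv⟩))))
    A (fun u v => by simp [β, hAv, hs.iso]) (fun u v => by simp [β', heA, hs.iso]) (fun u hu => by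
      have h3 : f (f u) = u := by
        have := congrArg (fun x : U₁ => (x : V)) (congrArg A hu)
        rwa [A.apply_symm_apply, hAv, hAv] at this
      have hfu : f u = u := by
        obtain ⟨k, hk⟩ := hr.out.odd_of_ne_two hs.odd
        have hk2 : ((f ^ 2) ^ k) (u : V) = u := by
          clear hk
          induction k with
          | zero => simp
          | succ k ih => rw [pow_succ, Module.End.mul_apply, show (f ^ 2) (u : V) = u by rw [sq, Module.End.mul_apply, h3], ih]
        have h4 := congrArg (fun g : Module.End F V => g (u : V)) hs.pow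
        simp only [hk, pow_succ', Module.End.mul_apply, pow_mul, hk2, Module.End.one_apply] at h4
        exact h4
      exact Subtype.ext (Submodule.disjoint_def.1 hs.isCompl.disjoint _ (mem_fixed.2 hfu) (hle u.2)))
  let ψ : U₁ →ₗ[F] V := U₂.subtype ∘ₗ e.toLinearMap ∘ₗ Y.toLinearMap
  obtain ⟨g1, g2⟩ := graph_spec (f := f) hdisj hf1 ψ (fun w => (e _).2) (fun w => by
    show ((e (Y (A w)) : U₂) : V) = f (e (Y w))
    rw [hY, heA])
  refine ⟨_, ?_, ?_, g1, g2⟩
  · rintro _ ⟨w, rfl⟩
    exact Submodule.add_mem_sup w.2 (e _).2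
  · rintro _ ⟨u, rfl⟩ _ ⟨v, rfl⟩
    have h3 : (QuadraticMap.polarBilin Q) (ψ u) (ψ v) = -(QuadraticMap.polarBilin Q) (u : V) v := hYB u v
    simp only [LinearMap.add_apply, Submodule.subtype_apply, map_add]
    rw [h3, show (QuadraticMap.polarBilin Q) (u : V) (ψ v) = 0 from ho (e _).2 u u.2,
      comm_zero (show (QuadraticMap.polarBilin Q) (v : V) (ψ u) = 0 from ho (e _).2 v v.2)]
    ring

theorem card_factors_le [DecidableEq F] {t : ℕ} (ht : t * orderOf (Fintype.card F : ZMod r) = r - 1) :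
    (UniqueFactorizationMonoid.normalizedFactors (cyclotomic r F)).toFinset.card ≤ t := by
  classical
  set s := UniqueFactorizationMonoid.normalizedFactors (cyclotomic r F)
  have h1 : s.prod.natDegree = r - 1 := by
    rw [natDegree_eq_of_degree_eq (degree_eq_degree_of_associated
      (UniqueFactorizationMonoid.prod_normalizedFactors (cyclotomic_ne_zero r F))),
      natDegree_cyclotomic, Nat.totient_prime hr.out]
  have h2 : ∀ P ∈ s, P.natDegree = orderOf (Fintype.card F : ZMod r) := fun P hP =>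
    natDegree_of_dvd_cyclotomic hs.ne (UniqueFactorizationMonoid.irreducible_of_normalized_factor P hP)
      (UniqueFactorizationMonoid.dvd_of_mem_normalizedFactors hP)
  rw [natDegree_multiset_prod _ (UniqueFactorizationMonoid.zero_notMem_normalizedFactors _),
    Multiset.map_congr rfl h2, Multiset.map_const', Multiset.sum_replicate, smul_eq_mul, ← ht] at h1
  exact (Multiset.toFinset_card_le s).trans (Nat.eq_of_mul_eq_mul_right hs.order_pos h1).le

/-- Isotropic invariant subspaces when the eigenvalue orbits are closed under inversion. -/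
theorem exists_isotropic_sub (hev : Even (orderOf (Fintype.card F : ZMod r))) {t : ℕ}
    (ht : t * orderOf (Fintype.card F : ZMod r) = r - 1) (l : ℕ) :
    ∀ (L : ℕ) {U : Submodule F V}, NondegIn Q U → U.map f ≤ U → U ≤ moved f →
      finrank F U = orderOf (Fintype.card F : ZMod r) * L → (l = 0 ∨ 2 * l + t ≤ L + 1) →
      ∃ Y ≤ U, Isotropic Q Y ∧ Y.map f ≤ Y ∧ finrank F Y = orderOf (Fintype.card F : ZMod r) * l := by
  classical
  induction l with
  | zero => intros; exact ⟨⊥, bot_le, isotropic_bot, by simp, by simp⟩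
  | succ l ih =>
    intro L U hU hinv hle hd hL
    set i := orderOf (Fintype.card F : ZMod r) with hi
    have hL' : 2 * (l + 1) + t ≤ L + 1 := hL.resolve_left (by omega)
    have hchain : ∀ s, s ≤ L → ∃ (W : Fin s → Submodule F V) (P : Fin s → F[X]) (R : Submodule F V),
        (∀ a, W a ≤ U ∧ NondegIn Q (W a) ∧ (W a).map f ≤ W a ∧ finrank F (W a) = i ∧
          P a ∈ UniqueFactorizationMonoid.normalizedFactors (cyclotomic r F) ∧
          (∀ w ∈ W a, aeval f (P a) w = 0) ∧ R ≤ orth Q (W a)) ∧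
        (∀ a b, a ≠ b → W b ≤ orth Q (W a)) ∧
        R ≤ U ∧ NondegIn Q R ∧ R.map f ≤ R ∧ finrank F R + i * s = finrank F U := by
      intro s
      induction s with
      | zero => intro; exact ⟨Fin.elim0, Fin.elim0, U, fun a => a.elim0, fun a => a.elim0, le_rfl, hU, hinv, by simp⟩
      | succ s ihs =>
        intro hsL
        obtain ⟨W, P, R, hW, hWo, hRU, hR, hRf, hRd⟩ := ihs (by omega)
        have hRne : R ≠ ⊥ := fun h => by
          rw [h, finrank_bot, hd, zero_add] at hRd
          have := Nat.eq_of_mul_eq_mul_left hs.order_pos hRd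
          omega
        obtain ⟨W1, hW1R, hW1, hW1f, hW1d, -⟩ := hs.exists_piece hR hRf (hRU.trans hle) hRne
          (c := i) (by rw [if_pos hev])
        obtain ⟨W2, P0, hW2, hW2f, hW2d, hP0, hP0d, hPW2⟩ :=
          hs.exists_irred hW1f (hW1R.trans (hRU.trans hle)) (fun h => by
            rw [h, finrank_bot] at hW1d; exact absurd hW1d.symm hs.order_pos.ne')
        obtain rfl : W2 = W1 := Submodule.eq_of_le_of_finrank_eq hW2 (hW2d.trans hW1d.symm)
        obtain ⟨P1, hP1, hassoc⟩ :=
          UniqueFactorizationMonoid.exists_mem_normalizedFactors_of_dvd (cyclotomic_ne_zero r F) hP0 hP0d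
        obtain ⟨-, hR', hdim⟩ := QuadType.split hR hW1 hW1R
        refine ⟨(Fin.cons W2 W : Fin (s + 1) → Submodule F V), (Fin.cons P1 P : Fin (s + 1) → F[X]),
          R ⊓ orth Q W2, ?_, ?_, inf_le_left.trans hRU, hR', inf_map_le hRf (hs.orth_map_le hW1f), ?_⟩
        · intro a
          refine Fin.cases ?_ (fun b => ?_) a
          · refine ⟨hW1R.trans hRU, hW1, hW1f, hW1d, hP1, fun w hw => ?_, inf_le_right⟩
            obtain ⟨u, hu⟩ := hassoc
            show aeval f P1 w = 0
            rw [← hu, mul_comm, map_mul, Module.End.mul_apply, hPW2 w hw, map_zero]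
          · obtain ⟨a1, a2, a3, a4, a5, a6, a7⟩ := hW b
            exact ⟨a1, a2, a3, a4, a5, a6, inf_le_left.trans a7⟩
        · intro a b
          refine Fin.cases ?_ (fun a' => ?_) a <;> refine Fin.cases ?_ (fun b' => ?_) b
          · exact fun h => absurd rfl h
          · exact fun _ x hx y hy => comm_zero ((hW b').2.2.2.2.2.2 (hW1R hy) x hx)
          · exact fun _ => hW1R.trans (hW a').2.2.2.2.2.2
          · exact fun h => hWo a' b' fun h' => h (by rw [h'])
        · rw [Nat.mul_succ]; omega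
    obtain ⟨W, P, R, hW, hWo, -⟩ := hchain (t + 1) (by omega)
    obtain ⟨a, -, b, -, hab, hPab⟩ := Finset.exists_ne_map_eq_of_card_lt_of_maps_to
      (s := (Finset.univ : Finset (Fin (t + 1))))
      (t := (UniqueFactorizationMonoid.normalizedFactors (cyclotomic r F)).toFinset)
      (by rw [Finset.card_univ, Fintype.card_fin]; exact Nat.lt_succ_of_le (hs.card_factors_le ht))
      (f := P) (fun a _ => Multiset.mem_toFinset.2 (hW a).2.2.2.2.1)
    obtain ⟨a1, a2, a3, a4, a5, a6, -⟩ := hW a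
    obtain ⟨b1, b2, b3, b4, -, b6, -⟩ := hW b
    rw [← hPab] at b6
    obtain ⟨Y, hYle, hY, hYf, hYd⟩ := hs.exists_isotropic_of_two a2 b2 (hWo a b hab) a3 b3
      (a1.trans hle) (UniqueFactorizationMonoid.irreducible_of_normalized_factor _ a5) a6 b6 (a4.trans b4.symm)
    obtain ⟨hS, hSd⟩ := nondegIn_sup a2 b2 (hWo a b hab)
    obtain ⟨-, hU', hdim⟩ := QuadType.split hU hS (sup_le a1 b1)
    have h2L : finrank F ↥(U ⊓ orth Q (W a ⊔ W b)) = i * (L - 2) := by
      have h1 := finrank_sup_disjoint hSd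
      rw [Nat.mul_sub]; omega
    obtain ⟨Y', hY'U, hY', hY'f, hY'd⟩ := ih (L - 2) hU'
      (inf_map_le hinv (hs.orth_map_le (sup_map_le a3 b3))) (inf_le_left.trans hle) h2L (by omega)
    have ho : Y' ≤ orth Q Y := fun x hx y hy => (hY'U hx).2 y (hYle hy)
    refine ⟨Y ⊔ Y', sup_le (hYle.trans (sup_le a1 b1)) (hY'U.trans inf_le_left),
      isotropic_sup hY hY' ho, sup_map_le hYf hY'f, ?_⟩
    have hdis : Disjoint (W a ⊔ W b) (U ⊓ orth Q (W a ⊔ W b)) :=
      (isCompl_orth hS).disjoint.mono_right inf_le_right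
    rw [finrank_sup_disjoint (hdis.mono hYle hY'U), hYd, a4, hY'd, Nat.mul_succ, add_comm]

end Setting

end CfsgLib.Classical.Semisimple.QuadIsometry
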