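import Cfsg.Agent.Classical.Semisimple.QuadIsometry

/-!
Types of invariant subspaces of an isometry of odd prime order of a quadratic space.
-/

set_option autoImplicit false

namespace CfsgLib.Classical.Semisimple.QuadIsometry

open Module Polynomial QuadType

variable {F : Type*} [Field F] {V : Type*} [AddCommGroup V] [Module F V] {Q : QuadraticForm F V}

/-- The multiplicative order of `q` modulo `r`. -/
noncomputable abbrev ordq (F : Type*) [Fintype F] (r : ℕ) : ℕ := orderOf (Fintype.card F : ZMod r)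

/-- The dimension of an indecomposable piece. -/
noncomputable def pieceDim (F : Type*) [Fintype F] (r : ℕ) : ℕ :=
  if Even (ordq F r) then ordq F r else 2 * ordq F r

/-- The type of a sum of `a` pieces. -/
def PieceSign (F : Type*) [Fintype F] (r a : ℕ) : Prop := Odd (ordq F r) ∨ Even a

/-- `a` pieces fit in a space of dimension `N` and type `p`. -/
def Feasible (F : Type*) [Fintype F] (r a N : ℕ) (p : Prop) : Prop :=
  a * pieceDim F r < N ∨ (a * pieceDim F r = N ∧ (p ↔ PieceSign F r a))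

theorem pieceSign_zero (F : Type*) [Fintype F] (r : ℕ) : PieceSign F r 0 := Or.inr ⟨0, rfl⟩

theorem pieceSign_add (F : Type*) [Fintype F] (r a b : ℕ) :
    PieceSign F r (a + b) ↔ (PieceSign F r a ↔ PieceSign F r b) := by
  unfold PieceSign
  rcases Nat.even_or_odd (ordq F r) with h | h
  · simp [Nat.not_odd_iff_even.2 h, Nat.even_add]
  · simp [h]

theorem even_pieceDim (F : Type*) [Fintype F] (r : ℕ) : Even (pieceDim F r) := by
  unfold pieceDim; split_ifs with h
  · exact h
  · exact even_two_mul _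

variable [FiniteDimensional F V] [Fintype F]

/-- The zeros on a space of plus type. -/
theorem card_zeros_of_plus : ∀ (h : ℕ) {U : Submodule F V}, NondegIn Q U → finrank F U = 2 * h → Plus Q U →
    Fintype.card F * Nat.card {u : U // Q (u : V) = 0} + Fintype.card F ^ h =
      Fintype.card F ^ (2 * h) + Fintype.card F ^ (h + 1) := by
  intro h
  induction h with
  | zero =>
    intro U _ hd _
    have : Subsingleton U := Module.finrank_zero_iff.1 hd
    haveI : Unique {u : U // Q (u : V) = 0} :=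
      ⟨⟨⟨0, by simp⟩⟩, fun u => Subtype.ext (Subsingleton.elim _ _)⟩
    simp [Nat.card_unique, add_comm]
  | succ h ih =>
    intro U hU hd hp
    obtain ⟨L, hL, hLs, hLd⟩ := hp
    obtain ⟨x, hx, hx0⟩ := Submodule.exists_mem_ne_zero_of_ne_bot (show L ≠ ⊥ from fun h' => by
      rw [h', finrank_bot] at hLd; omega)
    obtain ⟨y, hy, hQy, hxy⟩ := exists_pair hU (hL hx) hx0 (hLs x hx)
    obtain ⟨hR, hRd, hRs, hRp⟩ := peel hU (hL hx) hy (hLs x hx) hQy hxy _ rfl
    have h1 := ih hR (by omega) (hRp.1 ⟨L, hL, hLs, hLd⟩)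
    set H := Submodule.span F ({x, y} : Set V) with hH
    set R := U ⊓ orth Q H with hRdef
    haveI : Finite V := Module.finite_of_finite F
    haveI : Fintype R := Fintype.ofFinite _
    obtain ⟨e, he⟩ := plane_param (hLs x hx) hQy hxy
    have hdis : Disjoint H R :=
      (isCompl_orth (plane_spec (hLs x hx) hQy hxy).1).disjoint.mono_right inf_le_right
    have hHU : H ≤ U := hRs ▸ le_sup_left
    let Φ : (F × F) × R → U := fun p => ⟨(e ![p.1.1, p.1.2] : V) + p.2, U.add_mem (hHU (e _).2) p.2.2.1⟩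
    have hΦ : Function.Bijective Φ := by
      refine ⟨fun p p' hpp => ?_, fun u => ?_⟩
      · have h2 : (e ![p.1.1, p.1.2] : V) - e ![p'.1.1, p'.1.2] = (p'.2 : V) - p.2 := by
          have h3 : (e ![p.1.1, p.1.2] : V) + p.2 = e ![p'.1.1, p'.1.2] + p'.2 := congrArg Subtype.val hpp
          rw [sub_eq_sub_iff_add_eq_add, h3, add_comm]
        have h4 := Submodule.disjoint_def.1 hdis _ (H.sub_mem (e _).2 (e _).2) (h2 ▸ R.sub_mem p'.2.2 p.2.2)
        have h5 := e.injective (Subtype.ext (sub_eq_zero.1 h4))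
        rw [h4, eq_comm, sub_eq_zero] at h2
        exact Prod.ext (Prod.ext (by simpa using congrFun h5 0) (by simpa using congrFun h5 1)) (Subtype.ext h2.symm)
      · obtain ⟨a, ha, b, hb, hab⟩ := Submodule.mem_sup.1 (hRs.symm ▸ u.2 : (u : V) ∈ H ⊔ R)
        refine ⟨((e.symm ⟨a, ha⟩ 0, e.symm ⟨a, ha⟩ 1), ⟨b, hb⟩), Subtype.ext ?_⟩
        show (e ![e.symm ⟨a, ha⟩ 0, e.symm ⟨a, ha⟩ 1] : V) + b = u
        have h2 : (![e.symm ⟨a, ha⟩ 0, e.symm ⟨a, ha⟩ 1] : Fin 2 → F) = e.symm ⟨a, ha⟩ := by
          funext j; fin_cases j <;> rfl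
        rw [h2, LinearEquiv.apply_symm_apply, hab]
    have hval : ∀ p, Q (Φ p : V) = p.1.1 * p.1.2 + Q (p.2 : V) := fun p => by
      show Q ((e ![p.1.1, p.1.2] : V) + p.2) = _
      rw [QuadraticMap.map_add (⇑Q), he, mem_orth.1 p.2.2.2 _ (e _).2]
      simp
    rw [← Nat.card_congr ((Equiv.ofBijective Φ hΦ).subtypeEquiv fun p => by
        rw [Equiv.ofBijective_apply, hval] : {p : (F × F) × R // p.1.1 * p.1.2 + Q (p.2 : V) = 0} ≃ _),
      CfsgLib.QuadZeros.card_zeros_pair (fun w : R => Q (w : V)), Nat.card_eq_fintype_card (α := R),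
      Module.card_eq_pow_finrank (K := F) (V := R), show finrank F R = 2 * h by omega]
    obtain ⟨k, hk⟩ : ∃ k, Fintype.card F = k + 1 :=
      ⟨Fintype.card F - 1, (Nat.sub_add_cancel Fintype.card_pos).symm⟩
    rw [hk] at h1 ⊢
    rw [Nat.add_sub_cancel]
    linear_combination (k + 1) * h1

variable {f : Module.End F V} {r : ℕ} [hr : Fact r.Prime]

theorem Setting.pieceDim_pos (hs : Setting Q f r) : 0 < pieceDim F r := by
  have : 0 < ordq F r := hs.order_pos
  unfold pieceDim; split_ifs <;> omega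

namespace Setting

variable (hs : Setting Q f r)
include hs

/-- An irreducible non-degenerate invariant subspace is of minus type. -/
theorem not_plus_of_irred {W : Submodule F V} (hW : NondegIn Q W) (hinv : W.map f ≤ W) (hle : W ≤ moved f)
    (hd : finrank F W = ordq F r) : ¬ Plus Q W := by
  intro hp
  classical
  obtain ⟨h, hh⟩ := hs.even_of_nondeg hW hinv hle hd
  have hpos : 0 < ordq F r := hs.order_pos
  replace hh : ordq F r = h + h := hh
  haveI : Finite V := Module.finite_of_finite F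
  let S := {u : W // Q (u : V) = 0}
  haveI : Fintype S := Fintype.ofFinite _
  let φ : Function.End S := fun u => ⟨⟨f (u.1 : V), mem_of_map_le hinv u.1.2⟩, by
    show Q (f (u.1 : V)) = 0
    rw [hs.isoQ]; exact u.2⟩
  have hφ : φ ^ r ^ 1 = 1 := by
    have key : ∀ j u, (((φ ^ j) u).1 : V) = (f ^ j) (u.1 : V) := by
      intro j
      induction j with
      | zero => intro u; rfl
      | succ j ih =>
        intro u
        rw [pow_succ', pow_succ', Module.End.mul_apply, ← ih]
        rfl
    refine funext fun u => Subtype.ext (Subtype.ext ?_)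
    rw [pow_one, key, hs.pow]; rfl
  have hfix : Fintype.card φ.fixedPoints = 1 := Fintype.card_eq_one_iff.2
    ⟨⟨⟨0, by simp⟩, Subtype.ext (Subtype.ext (map_zero f))⟩, fun u => Subtype.ext (Subtype.ext (Subtype.ext
      (Submodule.disjoint_def.1 hs.isCompl.disjoint _
        (mem_fixed.2 (congrArg (fun z : S => (z.1 : V)) u.2)) (hle u.1.1.2))))⟩
  have h1 := Equiv.Perm.card_fixedPoints_modEq hφ
  rw [hfix] at h1
  have h2 := card_zeros_of_plus h hW (by rw [hd]; omega) hp
  rw [show Nat.card {u : W // Q (u : V) = 0} = Fintype.card S from Nat.card_eq_fintype_card] at h2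
  have h3 := congrArg (fun m : ℕ => (m : ZMod r)) h2
  simp only [Nat.cast_add, Nat.cast_mul, Nat.cast_pow] at h3
  rw [(ZMod.natCast_eq_natCast_iff _ _ _).2 h1, Nat.cast_one, mul_one] at h3
  set u := (Fintype.card F : ZMod r) with hu
  have hh2 : u ^ h = -1 := by
    have h4 : (u ^ h) ^ 2 = 1 := by
      rw [← pow_mul, show h * 2 = ordq F r by omega]; exact pow_orderOf_eq_one _
    refine (sq_eq_one_iff.1 h4).resolve_left fun h5 => ?_
    have h6 : ordq F r ≤ h := Nat.le_of_dvd (by omega) (orderOf_dvd_of_pow_eq_one h5)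
    omega
  rw [mul_comm 2 h, pow_mul, pow_succ u h, hh2] at h3
  have h5 : (2 : ZMod r) * (u - 1) = 0 := by linear_combination h3
  have h20 : (2 : ZMod r) ≠ 0 := fun h6 => hs.odd ((Nat.prime_dvd_prime_iff_eq hr.out Nat.prime_two).1
    ((ZMod.natCast_eq_zero_iff 2 r).1 (by exact_mod_cast h6)))
  have h7 : ordq F r = 1 := orderOf_eq_one_iff.2 (sub_eq_zero.1 ((mul_eq_zero.1 h5).resolve_left h20))
  omega

/-- The type of an invariant non-degenerate subspace without fixed vectors. -/
theorem moved_type : ∀ (N : ℕ) {U : Submodule F V}, NondegIn Q U → U.map f ≤ U → U ≤ moved f → finrank F U = N →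
    ∃ l, N = pieceDim F r * l ∧ (Plus Q U ↔ PieceSign F r l) := by
  intro N
  induction N using Nat.strong_induction_on with
  | _ N ih =>
    intro U hU hinv hle hd
    by_cases hne : U = ⊥
    · subst hne
      rw [finrank_bot] at hd
      exact ⟨0, by omega, iff_of_true (plus_of_finrank_zero (finrank_bot F V)) (pieceSign_zero F r)⟩
    obtain ⟨W, hWU, hW, hWf, hWd, hWY⟩ := hs.exists_piece hU hinv hle hne (c := pieceDim F r) rfl
    obtain ⟨hsup, hR, hdim⟩ := QuadType.split hU hW hWU
    have hpos := hs.pieceDim_pos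
    obtain ⟨l, hl, hlp⟩ := ih (N - pieceDim F r) (by omega) hR (inf_map_le hinv (hs.orth_map_le hWf))
      (inf_le_left.trans hle) (by omega)
    refine ⟨l + 1, by rw [Nat.mul_succ]; omega, ?_⟩
    have hW1 : Plus Q W ↔ PieceSign F r 1 := by
      unfold PieceSign
      rcases Nat.even_or_odd (ordq F r) with he | ho
      · refine iff_of_false (hs.not_plus_of_irred hW hWf (hWU.trans hle) (by rw [hWd, pieceDim, if_pos he])) ?_
        simp [Nat.not_odd_iff_even.2 he]
      · obtain ⟨Y, hYW, hY, hYf, hYd⟩ := hWY ho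
        refine iff_of_true ⟨Y, hYW, hs.singular_of_isotropic hY hYf (hYW.trans (hWU.trans hle)), ?_⟩ (Or.inl ho)
        rw [hYd, hWd, pieceDim, if_neg (Nat.not_even_iff_odd.2 ho)]
    have h := plus_sup _ hW hR inf_le_right (hWd ▸ even_pieceDim F r)
      ((show finrank F ↥(U ⊓ orth Q W) = pieceDim F r * l by omega) ▸ (even_pieceDim F r).mul_right l) rfl
    rw [hsup] at h
    rw [h, pieceSign_add, hW1, hlp, Iff.comm (a := PieceSign F r l)]

/-- The decomposition of an invariant non-degenerate subspace. -/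
theorem nondeg_profile {W : Submodule F V} (hW : NondegIn Q W) (hinv : W.map f ≤ W) :
    ∃ (l : ℕ) (W0 W1 : Submodule F V), W0 ≤ W ∧ W1 ≤ W ∧ W0 ≤ fixed f ∧ W1 ≤ moved f ∧ NondegIn Q W0 ∧
      NondegIn Q W1 ∧ W1 ≤ orth Q W0 ∧ W0 ⊔ W1 = W ∧ finrank F W1 = pieceDim F r * l ∧
      finrank F W = finrank F W0 + finrank F W1 ∧ (Plus Q W1 ↔ PieceSign F r l) := by
  obtain ⟨hM, hK, hsum⟩ := hs.nondegIn_inter hW hinv
  obtain ⟨l, hl, hlp⟩ := hs.moved_type _ hM (inf_map_le hinv moved_map_le) inf_le_right rfl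
  have ho : W ⊓ moved f ≤ orth Q (W ⊓ fixed f) := fun x hx => mem_orth.2 fun y hy => hs.fixed_moved hy.2 hx.2
  refine ⟨l, W ⊓ fixed f, W ⊓ moved f, inf_le_left, inf_le_left, inf_le_right, inf_le_right, hK, hM, ho, ?_, hl,
    hsum, hlp⟩
  refine Submodule.eq_of_le_of_finrank_eq (sup_le inf_le_left inf_le_left) ?_
  rw [finrank_sup_disjoint (hs.isCompl.disjoint.mono inf_le_right inf_le_right)]
  exact hsum.symm

/-- The decomposition of an invariant totally singular subspace. -/
theorem singular_profile {Y : Submodule F V} (hY : Singular Q Y) (hinv : Y.map f ≤ Y) :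
    ∃ l, finrank F ↥(Y ⊓ moved f) = ordq F r * l ∧
      finrank F Y = finrank F ↥(Y ⊓ fixed f) + finrank F ↥(Y ⊓ moved f) ∧
      2 * finrank F ↥(Y ⊓ moved f) ≤ finrank F (moved f) := by
  obtain ⟨l, hl⟩ := hs.dvd_finrank (inf_map_le hinv moved_map_le) (inf_le_right (a := Y))
  refine ⟨l, hl, finrank_eq_inf_ker_add_inf_range hs.semisimple 1 hinv, ?_⟩
  exact ((QuadType.exists_singular_iff _ hs.nondeg_moved rfl _).1
    ⟨Y ⊓ moved f, inf_le_right, fun x hx => hY x hx.1, rfl⟩).1

end Setting

end CfsgLib.Classical.Semisimple.QuadIsometry
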