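import Cfsg.Agent.Classical.Semisimple.QuadProfile

/-!
The number of totally singular subspaces below the Witt index is congruent to one modulo the characteristic.
-/

set_option autoImplicit false

namespace CfsgLib.Classical.Semisimple.QuadSingularCount

open Module QuadType

variable {F : Type*} [Field F] [Fintype F] {V : Type*} [AddCommGroup V] [Module F V] [FiniteDimensional F V]
  {Q : QuadraticForm F V} {p : ℕ}

omit [Fintype F] [FiniteDimensional F V] in
theorem sup_inf_orth {W : Submodule F V} (hW : Singular Q W) {x y : V} (hx : x ∈ W) (hxy : QuadraticMap.polar Q x y = 1) :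
    Submodule.span F {x} ⊔ W ⊓ orth Q (Submodule.span F {x, y}) = W := by
  refine le_antisymm (sup_le ((Submodule.span_singleton_le_iff_mem x W).2 hx) inf_le_left) fun z hz => ?_
  refine Submodule.mem_sup.2 ⟨QuadraticMap.polar Q y z • x, Submodule.smul_mem _ _ (Submodule.subset_span rfl),
    z - QuadraticMap.polar Q y z • x, ⟨W.sub_mem hz (W.smul_mem _ hx), mem_orth.2 fun u hu => ?_⟩, by abel⟩
  obtain ⟨a, b, rfl⟩ := Submodule.mem_span_pair.1 hu
  simp only [QuadraticMap.polar_add_left, QuadraticMap.polar_smul_left, QuadraticMap.polar_sub_right,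
    QuadraticMap.polar_smul_right, hW.polar_eq hx hz, hW.polar_eq hx hx, QuadraticMap.polar_comm (⇑Q) y x,
    hxy, smul_eq_mul]
  ring

theorem cast_card_eq_zero [CharP F p] : ((Fintype.card F : ℕ) : ZMod p) = 0 := by
  rw [ZMod.natCast_eq_zero_iff, ← CharP.cast_eq_zero_iff F p, FiniteField.cast_card_eq_zero]

/-- The number of zeros of a non-degenerate form in at least three variables. -/
theorem cast_card_zeros [CharP F p] {U : Submodule F V} (hU : NondegIn Q U) (hd : 3 ≤ finrank F U) :
    ((Nat.card {u : U // Q (u : V) = 0} : ℕ) : ZMod p) = 0 := by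
  classical
  obtain ⟨x, hx, hx0, hQx⟩ := exists_singular_vector (Q := Q) hd
  obtain ⟨y, hy, hQy, hxy⟩ := exists_pair hU hx hx0 hQx
  obtain ⟨hR, hRd, hRs, -⟩ := peel hU hx hy hQx hQy hxy _ rfl
  set H := Submodule.span F ({x, y} : Set V)
  set R := U ⊓ orth Q H
  haveI : Finite V := Module.finite_of_finite F
  haveI : Fintype R := Fintype.ofFinite _
  obtain ⟨e, he⟩ := plane_param hQx hQy hxy
  have hdis : Disjoint H R := (isCompl_orth (plane_spec hQx hQy hxy).1).disjoint.mono_right inf_le_right
  have hHU : H ≤ U := hRs ▸ le_sup_left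
  let Φ : (F × F) × R → U := fun z => ⟨(e ![z.1.1, z.1.2] : V) + z.2, U.add_mem (hHU (e _).2) z.2.2.1⟩
  have hΦ : Function.Bijective Φ := by
    refine ⟨fun z z' hzz => ?_, fun u => ?_⟩
    · have h2 : (e ![z.1.1, z.1.2] : V) - e ![z'.1.1, z'.1.2] = (z'.2 : V) - z.2 := by
        have h3 : (e ![z.1.1, z.1.2] : V) + z.2 = e ![z'.1.1, z'.1.2] + z'.2 := congrArg Subtype.val hzz
        rw [sub_eq_sub_iff_add_eq_add, h3, add_comm]
      have h4 := Submodule.disjoint_def.1 hdis _ (H.sub_mem (e _).2 (e _).2) (h2 ▸ R.sub_mem z'.2.2 z.2.2)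
      have h5 := e.injective (Subtype.ext (sub_eq_zero.1 h4))
      rw [h4, eq_comm, sub_eq_zero] at h2
      exact Prod.ext (Prod.ext (by simpa using congrFun h5 0) (by simpa using congrFun h5 1)) (Subtype.ext h2.symm)
    · obtain ⟨a, ha, b, hb, hab⟩ := Submodule.mem_sup.1 (hRs.symm ▸ u.2 : (u : V) ∈ H ⊔ R)
      refine ⟨((e.symm ⟨a, ha⟩ 0, e.symm ⟨a, ha⟩ 1), ⟨b, hb⟩), Subtype.ext ?_⟩
      show (e ![e.symm ⟨a, ha⟩ 0, e.symm ⟨a, ha⟩ 1] : V) + b = u
      have h2 : (![e.symm ⟨a, ha⟩ 0, e.symm ⟨a, ha⟩ 1] : Fin 2 → F) = e.symm ⟨a, ha⟩ := by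
        funext j; fin_cases j <;> rfl
      rw [h2, LinearEquiv.apply_symm_apply, hab]
  have hval : ∀ z, Q (Φ z : V) = z.1.1 * z.1.2 + Q (z.2 : V) := fun z => by
    show Q ((e ![z.1.1, z.1.2] : V) + z.2) = _
    rw [QuadraticMap.map_add (⇑Q), he, mem_orth.1 z.2.2.2 _ (e _).2]
    simp
  rw [← Nat.card_congr ((Equiv.ofBijective Φ hΦ).subtypeEquiv fun z => by
      rw [Equiv.ofBijective_apply, hval] : {z : (F × F) × R // z.1.1 * z.1.2 + Q (z.2 : V) = 0} ≃ _),
    CfsgLib.QuadZeros.card_zeros_pair (fun w : R => Q (w : V)), Nat.card_eq_fintype_card (α := R),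
    Module.card_eq_pow_finrank (K := F) (V := R)]
  simp only [Nat.cast_add, Nat.cast_mul, Nat.cast_pow, cast_card_eq_zero, zero_mul, add_zero,
    zero_pow (show finrank F R ≠ 0 by omega), mul_zero]

/-- The number of totally singular subspaces below the Witt index, modulo the characteristic. -/
theorem cast_card_singular [CharP F p] : ∀ (m : ℕ) {U : Submodule F V}, NondegIn Q U → 2 * m < finrank F U →
    ((Nat.card {W : Submodule F V // W ≤ U ∧ Singular Q W ∧ finrank F W = m} : ℕ) : ZMod p) = 1 := by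
  classical
  intro m
  induction m with
  | zero =>
    intro U _ _
    haveI : Unique {W : Submodule F V // W ≤ U ∧ Singular Q W ∧ finrank F W = 0} :=
      ⟨⟨⟨⊥, bot_le, singular_bot, finrank_bot F V⟩⟩, fun W => Subtype.ext (Submodule.finrank_eq_zero.1 W.2.2.2)⟩
    rw [Nat.card_unique, Nat.cast_one]
  | succ m ih =>
    intro U hU hd
    haveI : Finite V := Module.finite_of_finite F
    let S := {W : Submodule F V // W ≤ U ∧ Singular Q W ∧ finrank F W = m + 1}
    let Z := {u : U // Q (u : V) = 0}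
    let pts := {u : Z // u ≠ ⟨0, by simp⟩}
    haveI : Fintype S := Fintype.ofFinite _
    haveI : Fintype Z := Fintype.ofFinite _
    have hpts : ((Nat.card pts : ℕ) : ZMod p) = -1 := by
      have h1 := cast_card_zeros (p := p) hU (show 3 ≤ finrank F U by omega)
      have h2 : Nat.card pts + 1 = Nat.card Z := by
        rw [Nat.card_eq_fintype_card, Nat.card_eq_fintype_card, Fintype.card_subtype_compl, Fintype.card_subtype_eq]
        exact Nat.sub_add_cancel (Fintype.card_pos_iff.2 ⟨⟨0, by simp⟩⟩)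
      have h3 := congrArg (fun k : ℕ => (k : ZMod p)) h2
      simp only [Nat.cast_add, Nat.cast_one] at h3
      rw [h1] at h3
      linear_combination h3
    have hv : ∀ u : pts, ((u.1.1 : U) : V) ≠ 0 := fun u h =>
      u.2 (Subtype.ext (Subtype.ext h))
    -- flags of a subspace and a point in it
    have hfib : ∀ u : pts, ((Nat.card {W : S // ((u.1.1 : U) : V) ∈ W.1} : ℕ) : ZMod p) = 1 := by
      intro u
      set x := ((u.1.1 : U) : V) with hxdef
      obtain ⟨y, hy, hQy, hxy⟩ := exists_pair hU u.1.1.2 (hv u) u.1.2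
      obtain ⟨hR, hRd, -, -⟩ := peel hU u.1.1.2 hy u.1.2 hQy hxy _ rfl
      set H := Submodule.span F ({x, y} : Set V)
      have hdim : ∀ W : Submodule F V, Singular Q W → x ∈ W →
          finrank F ↥(W ⊓ orth Q H) + 1 = finrank F W := fun W hW hxW => by
        have h := finrank_sup_disjoint (X := Submodule.span F {x}) (Y := W ⊓ orth Q H)
          ((isCompl_orth (plane_spec u.1.2 hQy hxy).1).disjoint.mono (Submodule.span_mono (Set.singleton_subset_iff.2 (Set.mem_insert _ _))) inf_le_right)
        rw [sup_inf_orth hW hxW hxy, finrank_span_singleton (hv u)] at h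
        omega
      have hsing : ∀ W' : Submodule F V, W' ≤ U ⊓ orth Q H → Singular Q W' → Singular Q (Submodule.span F {x} ⊔ W') :=
        fun W' hW' hs => singular_sup (fun z hz => by
          obtain ⟨a, rfl⟩ := Submodule.mem_span_singleton.1 hz
          rw [QuadraticMap.map_smul, u.1.2, smul_zero]) hs fun z hz => mem_orth.2 fun w hw =>
            mem_orth.1 (hW' hz).2 w (Submodule.span_mono (Set.singleton_subset_iff.2 (Set.mem_insert _ _)) hw)
      have hsup : ∀ W' : Submodule F V, W' ≤ U ⊓ orth Q H →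
          finrank F ↥(Submodule.span F {x} ⊔ W') = finrank F W' + 1 := fun W' hW' => by
        rw [finrank_sup_disjoint ((isCompl_orth (plane_spec u.1.2 hQy hxy).1).disjoint.mono
          (Submodule.span_mono (Set.singleton_subset_iff.2 (Set.mem_insert _ _))) (hW'.trans inf_le_right)), finrank_span_singleton (hv u), add_comm]
      let e : {W : S // x ∈ W.1} ≃ {W' : Submodule F V // W' ≤ U ⊓ orth Q H ∧ Singular Q W' ∧ finrank F W' = m} :=
        { toFun := fun W => ⟨W.1.1 ⊓ orth Q H, inf_le_inf_right _ W.1.2.1, fun z hz => W.1.2.2.1 z hz.1, by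
            have := hdim W.1.1 W.1.2.2.1 W.2
            have := W.1.2.2.2
            omega⟩
          invFun := fun W' => ⟨⟨Submodule.span F {x} ⊔ W'.1, sup_le
              ((Submodule.span_singleton_le_iff_mem x U).2 u.1.1.2) (W'.2.1.trans inf_le_left),
              hsing _ W'.2.1 W'.2.2.1, by rw [hsup _ W'.2.1, W'.2.2.2]⟩,
            Submodule.mem_sup_left (Submodule.mem_span_singleton_self x)⟩
          left_inv := fun W => Subtype.ext (Subtype.ext (sup_inf_orth W.1.2.2.1 W.2 hxy))
          right_inv := fun W' => Subtype.ext (Submodule.eq_of_le_of_finrank_eq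
            (le_inf le_sup_right (W'.2.1.trans inf_le_right)) (by
              have := hdim _ (hsing _ W'.2.1 W'.2.2.1) (Submodule.mem_sup_left (Submodule.mem_span_singleton_self x))
              have := hsup _ W'.2.1
              show finrank F W'.1 = finrank F ↥((Submodule.span F {x} ⊔ W'.1) ⊓ orth Q H)
              omega)).symm }
      rw [Nat.card_congr e]
      exact ih hR (by omega)
    let flags : (Σ W : S, {z : W.1 // z ≠ 0}) ≃ (Σ u : pts, {W : S // ((u.1.1 : U) : V) ∈ W.1}) :=
      { toFun := fun s => ⟨⟨⟨⟨(s.2.1 : V), s.1.2.1 s.2.1.2⟩, s.1.2.2.1 _ s.2.1.2⟩, fun h => s.2.2 (Subtype.ext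
          (congrArg (fun w : Z => ((w.1 : U) : V)) h))⟩, ⟨s.1, s.2.1.2⟩⟩
        invFun := fun s => ⟨s.2.1, ⟨⟨_, s.2.2⟩, fun h => hv s.1 (congrArg (fun w : s.2.1.1 => (w : V)) h)⟩⟩
        left_inv := fun _ => rfl
        right_inv := fun _ => rfl }
    have h1 := Nat.card_congr flags
    haveI : Fintype pts := Fintype.ofFinite _
    rw [Nat.card_sigma, Nat.card_sigma] at h1
    have h2 := congrArg (fun k : ℕ => (k : ZMod p)) h1
    simp only [Nat.cast_sum] at h2
    rw [Finset.sum_congr rfl (fun u _ => hfib u), Finset.sum_const, Finset.card_univ, nsmul_one,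
      ← Nat.card_eq_fintype_card, hpts] at h2
    have hW : ∀ W : S, ((Nat.card {z : W.1 // z ≠ 0} : ℕ) : ZMod p) = -1 := fun W => by
      haveI : Fintype W.1 := Fintype.ofFinite _
      rw [Nat.card_eq_fintype_card, Fintype.card_subtype_compl, Fintype.card_subtype_eq,
        Module.card_eq_pow_finrank (K := F), W.2.2.2, Nat.cast_sub (Nat.one_le_pow _ _ Fintype.card_pos),
        Nat.cast_pow, cast_card_eq_zero, zero_pow (Nat.succ_ne_zero m), Nat.cast_one, zero_sub]
    rw [Finset.sum_congr rfl (fun W _ => hW W), Finset.sum_const, Finset.card_univ, nsmul_eq_mul, mul_neg, mul_one,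
      neg_inj, ← Nat.card_eq_fintype_card] at h2
    exact h2

/-- The characteristic does not divide the number of totally singular `m`-spaces. -/
theorem not_dvd_card [CharP F p] [hp : Fact p.Prime] (hV : NondegIn Q ⊤) {m : ℕ} (hm : 2 * m < finrank F V) :
    ¬ p ∣ Nat.card {W : Submodule F V // Singular Q W ∧ finrank F W = m} := by
  intro h
  have h1 := cast_card_singular (p := p) m hV (by rwa [finrank_top])
  rw [Nat.card_congr (Equiv.subtypeEquivRight (fun W => by simp) :
    {W : Submodule F V // W ≤ (⊤ : Submodule F V) ∧ Singular Q W ∧ finrank F W = m} ≃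
      {W : Submodule F V // Singular Q W ∧ finrank F W = m}), (ZMod.natCast_eq_zero_iff _ _).2 h] at h1
  exact zero_ne_one h1

end CfsgLib.Classical.Semisimple.QuadSingularCount
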