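import Cfsg.Agent.Classical.Semisimple.QuadBridge
import Cfsg.Agent.Classical.Semisimple.QuadInvolution
import Mathlib.NumberTheory.LegendreSymbol.QuadraticChar.GaussSum

/-!
Elements of order two modulo scalars of orthogonal groups in odd characteristic: spinor norms, types
and invariant subspaces.
-/

set_option autoImplicit false

namespace CfsgLib.Classical.Semisimple.QuadTwo

open Module Cfsg.Geo CfsgLib.OrthGeo QuadType QuadBridge
open scoped Matrix MatrixGroups

variable {ι : Type} [Fintype ι] [DecidableEq ι] {F : Type*} [Field F] {Q : (ι → F) → F}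
variable (hQ : IsNondegenerateQuadraticForm Q)

/-- The product of the reflections at the vectors of a list. -/
noncomputable abbrev act (Q : (ι → F) → F) (L : List (ι → F)) : Module.End F (ι → F) :=
  Matrix.toLin' (L.map fun v => Cfsg.reflectionMatrix Q v).prod

include hQ

theorem refl_apply {v : ι → F} (hv : Q v ≠ 0) (z : ι → F) :
    Cfsg.reflectionMatrix Q v *ᵥ z = z - ((Q v)⁻¹ * QuadraticMap.polar Q v z) • v :=
  reflection_mulVec hQ hv z

omit hQ in
theorem act_nil (z : ι → F) : act Q [] z = z := by simp [act]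

omit hQ in
theorem act_append (L L' : List (ι → F)) (z : ι → F) : act Q (L ++ L') z = act Q L (act Q L' z) := by
  rw [act, List.map_append, List.prod_append, Matrix.toLin'_mul, LinearMap.comp_apply]

omit hQ in
theorem act_cons (v : ι → F) (L : List (ι → F)) (z : ι → F) :
    act Q (v :: L) z = Cfsg.reflectionMatrix Q v *ᵥ act Q L z := by
  rw [act, List.map_cons, List.prod_cons, Matrix.toLin'_mul, LinearMap.comp_apply, Matrix.toLin'_apply]

theorem act_fix : ∀ {L : List (ι → F)} {z : ι → F}, (∀ v ∈ L, Q v ≠ 0 ∧ QuadraticMap.polar Q v z = 0) →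
    act Q L z = z := by
  intro L
  induction L with
  | nil => intro z _; exact act_nil z
  | cons v L ih =>
    intro z h
    obtain ⟨hv, hvz⟩ := h v (List.mem_cons_self ..)
    rw [act_cons, ih fun w hw => h w (List.mem_cons_of_mem _ hw), refl_apply hQ hv, hvz, mul_zero, zero_smul, sub_zero]

theorem act_isometry : ∀ {L : List (ι → F)}, (∀ v ∈ L, Q v ≠ 0) → ∀ z, Q (act Q L z) = Q z := by
  intro L
  induction L with
  | nil => intro _ z; rw [act_nil]
  | cons v L ih =>
    intro h z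
    have hv := h v (List.mem_cons_self ..)
    rw [act_cons, ← ih (fun w hw => h w (List.mem_cons_of_mem _ hw)) z]
    exact mem_isometryGroup.1 (reflection_mem hQ hv) _

/-- A non-zero non-degenerate subspace has an anisotropic vector. -/
theorem exists_aniso {U : Submodule F (ι → F)} (hU : NondegIn (qf hQ) U) (hpos : 0 < finrank F U) :
    ∃ v ∈ U, Q v ≠ 0 := by
  by_contra h
  push Not at h
  obtain ⟨v, hv, hv0⟩ := Submodule.exists_mem_ne_zero_of_ne_bot (show U ≠ ⊥ from fun h' => by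
    rw [h', finrank_bot] at hpos; omega)
  exact hv0 (hU v hv fun w hw => Singular.polar_eq (Q := qf hQ) (X := U) h hv hw)

theorem line_nondeg (h2 : (2 : F) ≠ 0) {v : ι → F} (hv : Q v ≠ 0) :
    NondegIn (qf hQ) (Submodule.span F {v}) ∧ finrank F (Submodule.span F ({v} : Set (ι → F))) = 1 := by
  refine ⟨fun x hx h => ?_, finrank_span_singleton fun h => hv (by rw [h, q_zero hQ])⟩
  obtain ⟨c, rfl⟩ := Submodule.mem_span_singleton.1 hx
  have h1 := h v (Submodule.mem_span_singleton_self v)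
  rw [QuadraticMap.polar_smul_left, QuadraticMap.polar_self, qf_apply, smul_eq_mul, nsmul_eq_mul] at h1
  push_cast at h1
  rw [(mul_eq_zero.1 h1).resolve_right (mul_ne_zero h2 hv), zero_smul]

/-- Two orthogonal anisotropic vectors in a non-degenerate subspace. -/
theorem exists_two (h2 : (2 : F) ≠ 0) {U : Submodule F (ι → F)} (hU : NondegIn (qf hQ) U) (hd : 2 ≤ finrank F U) :
    ∃ v ∈ U, ∃ w ∈ U, Q v ≠ 0 ∧ Q w ≠ 0 ∧ QuadraticMap.polar Q v w = 0 := by
  obtain ⟨v, hv, hQv⟩ := exists_aniso hQ hU (by omega)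
  obtain ⟨hl, hl1⟩ := line_nondeg hQ h2 hQv
  obtain ⟨-, hR, hdim⟩ := QuadType.split hU hl ((Submodule.span_singleton_le_iff_mem _ _).2 hv)
  obtain ⟨w, hw, hQw⟩ := exists_aniso hQ hR (by omega)
  exact ⟨v, hv, w, hw.1, hQv, hQw, mem_orth.1 hw.2 v (Submodule.mem_span_singleton_self v)⟩

/-- The plane on two orthogonal anisotropic vectors. -/
theorem plane (h2 : (2 : F) ≠ 0) {v w : ι → F} (hv : Q v ≠ 0) (hw : Q w ≠ 0)
    (hvw : QuadraticMap.polar Q v w = 0) :
    NondegIn (qf hQ) (Submodule.span F {v, w}) ∧ finrank F (Submodule.span F ({v, w} : Set (ι → F))) = 2 ∧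
      (Plus (qf hQ) (Submodule.span F {v, w}) ↔ IsSquare (-(Q v * Q w))) := by
  obtain ⟨hlv, hlv1⟩ := line_nondeg hQ h2 hv
  obtain ⟨hlw, hlw1⟩ := line_nondeg hQ h2 hw
  have ho : Submodule.span F {w} ≤ orth (qf hQ) (Submodule.span F {v}) := fun z hz => mem_orth.2 fun y hy => by
    obtain ⟨a, rfl⟩ := Submodule.mem_span_singleton.1 hy
    obtain ⟨b, rfl⟩ := Submodule.mem_span_singleton.1 hz
    rw [QuadraticMap.polar_smul_left, QuadraticMap.polar_smul_right]
    show a • b • QuadraticMap.polar Q v w = 0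
    rw [hvw, smul_zero, smul_zero]
  obtain ⟨hP, hPd⟩ := nondegIn_sup hlv hlw ho
  have hspan : Submodule.span F ({v, w} : Set (ι → F)) = Submodule.span F {v} ⊔ Submodule.span F {w} :=
    Submodule.span_insert v {w}
  have hd : finrank F (Submodule.span F ({v, w} : Set (ι → F))) = 2 := by
    rw [hspan, finrank_sup_disjoint hPd, hlv1, hlw1]
  have hval : ∀ a b : F, Q (a • v + b • w) = a ^ 2 * Q v + b ^ 2 * Q w := fun a b => by
    rw [q_add hQ, q_smul hQ, q_smul hQ, bform_apply]
    rw [show QuadraticMap.polar Q (a • v) (b • w) = a • b • QuadraticMap.polar Q v w by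
      show QuadraticMap.polar (qf hQ) (a • v) (b • w) = _
      rw [QuadraticMap.polar_smul_left, QuadraticMap.polar_smul_right]; rfl]
    rw [hvw, smul_zero, smul_zero, add_zero]
  refine ⟨hspan ▸ hP, hd, ?_, ?_⟩
  · rintro ⟨L, hL, hLs, hLd⟩
    obtain ⟨z, hz, hz0⟩ := Submodule.exists_mem_ne_zero_of_ne_bot (show L ≠ ⊥ from fun h => by
      rw [h, finrank_bot] at hLd; omega)
    obtain ⟨a, b, rfl⟩ := Submodule.mem_span_pair.1 (hL hz)
    have h1 : Q (a • v + b • w) = 0 := hLs _ hz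
    rw [hval] at h1
    have hb : b ≠ 0 := by
      rintro rfl
      have ha : a = 0 := by simpa [hv] using h1
      simp [ha] at hz0
    refine ⟨a * Q v / b, ?_⟩
    rw [div_mul_div_comm, eq_div_iff (mul_ne_zero hb hb)]
    linear_combination (-(Q v)) * h1
  · rintro ⟨s, hs⟩
    refine ⟨Submodule.span F {s • v + Q v • w}, ?_, fun z hz => ?_, ?_⟩
    · rw [Submodule.span_singleton_le_iff_mem]
      exact Submodule.mem_span_pair.2 ⟨s, Q v, rfl⟩
    · obtain ⟨c, rfl⟩ := Submodule.mem_span_singleton.1 hz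
      rw [qf_apply, q_smul hQ, hval]
      linear_combination (-(c ^ 2) * Q v) * hs
    · rw [finrank_span_singleton, hd]
      intro h0
      have h1 : Q v • w = -(s • v) := eq_neg_of_add_eq_zero_right h0
      have h3 := congrArg (fun z => QuadraticMap.polar (qf hQ) w z) h1
      simp only [QuadraticMap.polar_smul_right, QuadraticMap.polar_self, QuadraticMap.polar_neg_right, qf_apply,
        smul_eq_mul, nsmul_eq_mul] at h3
      rw [show QuadraticMap.polar (qf hQ) w v = 0 from (QuadraticMap.polar_comm _ w v).trans hvw, mul_zero, neg_zero] at h3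
      push_cast at h3
      exact mul_ne_zero hv (mul_ne_zero h2 hw) h3

variable [Fintype F]

omit hQ [Fintype ι] [DecidableEq ι] in
theorem sq_mul_iff {x y : F} (hx : x ≠ 0) (hy : y ≠ 0) : IsSquare (x * y) ↔ (IsSquare x ↔ IsSquare y) :=
  CfsgLib.Classical.Orth.isSquare_mul_iff hx hy

omit hQ [Fintype ι] [DecidableEq ι] in
theorem sq_neg_one_pow (a : ℕ) : IsSquare ((-1 : F) ^ a) ↔ (IsSquare (-1 : F) ∨ Even a) := by
  rcases Nat.even_or_odd a with h | h
  · simp [h, h.neg_one_pow]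
  · simp [h.neg_one_pow, Nat.not_even_iff_odd.2 h]

omit hQ [Fintype ι] [DecidableEq ι] in
theorem sq_two_pow (a : ℕ) : IsSquare ((2 : F) ^ a) ↔ (IsSquare (2 : F) ∨ Even a) := by
  rcases Nat.even_or_odd a with h | h
  · exact iff_of_true (h.isSquare_pow _) (Or.inr h)
  · obtain ⟨k, rfl⟩ := h
    simp only [Nat.not_even_iff_odd.2 (odd_two_mul_add_one k), or_false]
    refine ⟨fun hh => ?_, fun hh => hh.pow _⟩
    by_cases h2 : (2 : F) = 0
    · rw [h2]; exact IsSquare.zero
    · rw [pow_succ, sq_mul_iff (pow_ne_zero _ h2) h2] at hh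
      exact hh.1 ((even_two_mul k).isSquare_pow _)

/-- The reflection list of minus the identity on a subspace of even dimension. -/
theorem exists_neg_list (h2 : (2 : F) ≠ 0) : ∀ (a : ℕ) {U : Submodule F (ι → F)}, NondegIn (qf hQ) U →
    finrank F U = 2 * a → ∃ L : List (ι → F), (∀ v ∈ L, v ∈ U ∧ Q v ≠ 0) ∧ L.length = 2 * a ∧
      (∀ z ∈ U, act Q L z = -z) ∧ (IsSquare (L.map Q).prod ↔ (Plus (qf hQ) U ↔ IsSquare ((-1 : F) ^ a))) := by
  intro a
  induction a with
  | zero =>
    intro U _ hd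
    refine ⟨[], by simp, rfl, fun z hz => ?_, ?_⟩
    · rw [(Submodule.mem_bot F).1 ((Submodule.finrank_eq_zero.1 hd) ▸ hz : z ∈ (⊥ : Submodule F (ι → F)))]
      simp
    · simp [plus_of_finrank_zero (Q := qf hQ) hd]
  | succ a ih =>
    intro U hU hd
    obtain ⟨v, hv, w, hw, hQv, hQw, hvw⟩ := exists_two hQ h2 hU (by omega)
    obtain ⟨hP, hPd, hPp⟩ := plane hQ h2 hQv hQw hvw
    have hPU : Submodule.span F {v, w} ≤ U := Submodule.span_le.2 (by rintro z (rfl | rfl) <;> assumption)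
    obtain ⟨hsup, hR, hdim⟩ := QuadType.split hU hP hPU
    obtain ⟨L, hL, hLl, hLact, hLsq⟩ := ih hR (by omega)
    have hvP : v ∈ Submodule.span F ({v, w} : Set (ι → F)) := Submodule.subset_span (by simp)
    have hwP : w ∈ Submodule.span F ({v, w} : Set (ι → F)) := Submodule.subset_span (by simp)
    have hfixL : ∀ z ∈ Submodule.span F ({v, w} : Set (ι → F)), act Q L z = z := fun z hz =>
      act_fix hQ fun u hu => ⟨(hL u hu).2, by
        rw [QuadraticMap.polar_comm]; exact mem_orth.1 (hL u hu).1.2 z hz⟩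
    have hPact : ∀ z ∈ Submodule.span F ({v, w} : Set (ι → F)), act Q [v, w] z = -z := fun z hz => by
      obtain ⟨c, e, rfl⟩ := Submodule.mem_span_pair.1 hz
      rw [act_cons, act_cons, act_nil, Matrix.mulVec_add, Matrix.mulVec_smul, Matrix.mulVec_smul,
        refl_apply hQ hQw v, refl_apply hQ hQw w, QuadraticMap.polar_comm Q w v, hvw, mul_zero, zero_smul, sub_zero,
        show QuadraticMap.polar Q w w = 2 * Q w by rw [← bform_apply hQ, b_self hQ],
        show (Q w)⁻¹ * (2 * Q w) = 2 by field_simp, Matrix.mulVec_add, Matrix.mulVec_smul, Matrix.mulVec_smul,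
        Matrix.mulVec_sub, Matrix.mulVec_smul, refl_apply hQ hQv v, refl_apply hQ hQv w, hvw, mul_zero, zero_smul,
        sub_zero, show QuadraticMap.polar Q v v = 2 * Q v by rw [← bform_apply hQ, b_self hQ],
        show (Q v)⁻¹ * (2 * Q v) = 2 by field_simp]
      module
    refine ⟨[v, w] ++ L, fun u hu => ?_, by simp [hLl]; omega, fun z hz => ?_, ?_⟩
    · rcases List.mem_append.1 hu with hu | hu
      · simp only [List.mem_cons, List.not_mem_nil, or_false] at hu
        rcases hu with rfl | rfl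
        · exact ⟨hv, hQv⟩
        · exact ⟨hw, hQw⟩
      · exact ⟨(hL u hu).1.1, (hL u hu).2⟩
    · obtain ⟨p, hp, q, hq, rfl⟩ := Submodule.mem_sup.1 (hsup.symm ▸ hz : z ∈ _ ⊔ _)
      rw [act_append, map_add, hfixL p hp, hLact q hq, map_add, hPact p hp, map_neg,
        act_fix hQ (L := [v, w]) (z := q) (fun u hu => by
          simp only [List.mem_cons, List.not_mem_nil, or_false] at hu
          rcases hu with rfl | rfl
          · exact ⟨hQv, mem_orth.1 hq.2 _ hvP⟩
          · exact ⟨hQw, mem_orth.1 hq.2 _ hwP⟩)]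
      abel
    · have hne : (L.map Q).prod ≠ 0 := List.prod_ne_zero fun h0 => by
        obtain ⟨u, hu, hu0⟩ := List.mem_map.1 h0; exact (hL u hu).2 hu0
      have hU' := plus_sup _ hP hR inf_le_right (hPd ▸ even_two) (by rw [Nat.even_iff]; omega) rfl
      rw [hsup] at hU'
      rw [List.map_append, List.prod_append, show ([v, w].map Q).prod = Q v * Q w by simp,
        sq_mul_iff (mul_ne_zero hQv hQw) hne, hLsq, hU', hPp,
        show -(Q v * Q w) = (-1) * (Q v * Q w) by ring, sq_mul_iff (neg_ne_zero.2 one_ne_zero) (mul_ne_zero hQv hQw),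
        pow_succ', sq_mul_iff (x := (-1 : F)) (y := (-1 : F) ^ a) (neg_ne_zero.2 one_ne_zero) (pow_ne_zero _ (neg_ne_zero.2 one_ne_zero))]
      by_cases h1 : IsSquare (Q v * Q w) <;> by_cases h3 : IsSquare (-1 : F) <;>
        by_cases h4 : IsSquare ((-1 : F) ^ a) <;> by_cases h5 : Plus (qf hQ) (U ⊓ orth (qf hQ) (Submodule.span F {v, w})) <;>
        simp [h1, h3, h4, h5]

/-- The reflection list of minus the identity on a subspace of odd dimension. -/
theorem exists_neg_list_odd (h2 : (2 : F) ≠ 0) {a : ℕ} {U : Submodule F (ι → F)} (hU : NondegIn (qf hQ) U)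
    (hd : finrank F U = 2 * a + 1) : ∃ L : List (ι → F), (∀ v ∈ L, v ∈ U ∧ Q v ≠ 0) ∧ Odd L.length ∧
      ∀ z ∈ U, act Q L z = -z := by
  obtain ⟨v, hv, hQv⟩ := exists_aniso hQ hU (by omega)
  obtain ⟨hl, hl1⟩ := line_nondeg hQ h2 hQv
  obtain ⟨hsup, hR, hdim⟩ := QuadType.split hU hl ((Submodule.span_singleton_le_iff_mem _ _).2 hv)
  obtain ⟨L, hL, hLl, hLact, -⟩ := exists_neg_list hQ h2 a hR (by omega)
  refine ⟨v :: L, fun u hu => ?_, ⟨a, by simp [hLl]⟩, fun z hz => ?_⟩
  · rcases List.mem_cons.1 hu with rfl | hu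
    · exact ⟨hv, hQv⟩
    · exact ⟨(hL u hu).1.1, (hL u hu).2⟩
  · obtain ⟨p, hp, q, hq, rfl⟩ := Submodule.mem_sup.1 (hsup.symm ▸ hz : z ∈ _ ⊔ _)
    obtain ⟨c, rfl⟩ := Submodule.mem_span_singleton.1 hp
    rw [act_cons, map_add, hLact q hq, act_fix hQ (fun u hu => ⟨(hL u hu).2, by
        rw [QuadraticMap.polar_comm]; exact mem_orth.1 (hL u hu).1.2 _ hp⟩), Matrix.mulVec_add,
      Matrix.mulVec_smul, refl_apply hQ hQv v, refl_apply hQ hQv (-q),
      show QuadraticMap.polar Q v (-q) = 0 from mem_orth.1 (Submodule.neg_mem _ hq.2) v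
        (Submodule.mem_span_singleton_self v),
      show QuadraticMap.polar Q v v = 2 * Q v by rw [← bform_apply hQ, b_self hQ],
      show (Q v)⁻¹ * (2 * Q v) = 2 by field_simp, mul_zero, zero_smul, sub_zero]
    module

/-- Membership in `Omega` of an isometry given by a reflection list. -/
theorem mem_omega_iff_list (h2 : (2 : F) ≠ 0) {x : GL ι F} (hx : x ∈ Cfsg.isometryGroup F Q) {L : List (ι → F)}
    (hL : ∀ v ∈ L, Q v ≠ 0) (h : ∀ z, act Q L z = (x : Matrix ι ι F) *ᵥ z) :
    x ∈ omegaGL Q ↔ Even L.length ∧ IsSquare (L.map Q).prod := by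
  have key := CfsgLib.Classical.Orth.mem_omega_iff_of_prod hQ
    (CfsgLib.Classical.Orth.not_exc_of_two_ne_zero h2) ⟨x, hx⟩ L hL
    (Matrix.toLin'.injective (LinearMap.ext fun z => by rw [Matrix.toLin'_apply (x : Matrix ι ι F)]; exact (h z).symm))
  rw [← key]
  refine ⟨?_, fun hm => ⟨⟨x, hx⟩, hm, rfl⟩⟩
  rintro ⟨g, hg, rfl⟩
  exact hg

/-- Every isometry with a reflection list, as a matrix. -/
theorem exists_matrix_list {L : List (ι → F)} (hL : ∀ v ∈ L, Q v ≠ 0) (hinv : ∀ z, act Q L (act Q L (act Q L (act Q L z))) = z) :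
    ∃ x : GL ι F, x ∈ Cfsg.isometryGroup F Q ∧ ∀ z, act Q L z = (x : Matrix ι ι F) *ᵥ z := by
  let M : Matrix ι ι F := (L.map fun v => Cfsg.reflectionMatrix Q v).prod
  have hM : M * (M * M * M) = 1 := Matrix.toLin'.injective (LinearMap.ext fun z => by
    rw [Matrix.toLin'_mul, Matrix.toLin'_mul, Matrix.toLin'_mul, Matrix.toLin'_one]
    exact hinv z)
  let x : GL ι F := ⟨M, M * M * M, hM, mul_eq_one_comm.1 hM⟩
  exact ⟨x, mem_isometryGroup.2 fun v => by
    rw [← act_isometry hQ hL v, act, Matrix.toLin'_apply], fun z => by rw [act, Matrix.toLin'_apply]⟩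

/-- The criterion for an involution. -/
theorem involution_mem_iff (h2 : (2 : F) ≠ 0) {x : GL ι F} (hx : x ∈ Cfsg.isometryGroup F Q)
    {U : Submodule F (ι → F)} (hU : NondegIn (qf hQ) U) {a : ℕ} (hd : finrank F U = 2 * a)
    (hneg : ∀ z ∈ U, (x : Matrix ι ι F) *ᵥ z = -z)
    (hfix : ∀ z ∈ orth (qf hQ) U, (x : Matrix ι ι F) *ᵥ z = z) :
    x ∈ omegaGL Q ↔ (Plus (qf hQ) U ↔ IsSquare ((-1 : F) ^ a)) := by
  obtain ⟨L, hL, hLl, hLact, hLsq⟩ := exists_neg_list hQ h2 a hU hd
  rw [mem_omega_iff_list hQ h2 hx (fun v hv => (hL v hv).2) fun z => ?_, hLl, hLsq]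
  · simp
  · obtain ⟨p, hp, q, hq, rfl⟩ := Submodule.mem_sup.1
      ((QuadType.isCompl_orth hU).sup_eq_top.symm ▸ Submodule.mem_top : z ∈ _ ⊔ _)
    rw [map_add, hLact p hp, act_fix hQ (fun u hu => ⟨(hL u hu).2, mem_orth.1 hq u (hL u hu).1⟩),
      Matrix.mulVec_add, hneg p hp, hfix q hq]

/-- The eigenspaces of an involution of `Omega`. -/
theorem involution_type (h2 : (2 : F) ≠ 0) {x : GL ι F} (hx : x ∈ omegaGL Q) (hxx : x * x = 1) :
    ∃ (P M : Submodule F (ι → F)) (a : ℕ), (∀ v, v ∈ P ↔ (x : Matrix ι ι F) *ᵥ v = v) ∧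
      (∀ v, v ∈ M ↔ (x : Matrix ι ι F) *ᵥ v = -v) ∧ NondegIn (qf hQ) P ∧ NondegIn (qf hQ) M ∧
      M ≤ orth (qf hQ) P ∧ P ⊔ M = ⊤ ∧ finrank F P + finrank F M = Fintype.card ι ∧ finrank F M = 2 * a ∧
      (Plus (qf hQ) M ↔ IsSquare ((-1 : F) ^ a)) := by
  have hxi := omegaGL_le hx
  obtain ⟨P, M, hP, hM, hPn, hMn, ho, hsup, hsum⟩ := QuadInvolution.eigen_decomp (nondeg_top hQ) h2
    (f := Matrix.toLin' (x : Matrix ι ι F)) (fun v => mem_isometryGroup.1 hxi v)
    (by
      have := congrArg (fun g : GL ι F => Matrix.toLin' (g : Matrix ι ι F)) hxx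
      simp only [Units.val_mul, Matrix.toLin'_mul, Units.val_one, Matrix.toLin'_one] at this
      exact this)
  simp only [Matrix.toLin'_apply] at hP hM
  rw [finrank_fintype_fun_eq_card] at hsum
  have hfix : ∀ z ∈ orth (qf hQ) M, (x : Matrix ι ι F) *ᵥ z = z := by
    have : orth (qf hQ) M = P := (Submodule.eq_of_le_of_finrank_eq (le_orth_comm ho) (by
      have := Submodule.finrank_add_eq_of_isCompl (QuadType.isCompl_orth hMn)
      rw [finrank_fintype_fun_eq_card] at this
      omega)).symm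
    rw [this]
    exact fun z hz => (hP z).1 hz
  rcases Nat.even_or_odd' (finrank F M) with ⟨a, ha | ha⟩
  · exact ⟨P, M, a, hP, hM, hPn, hMn, ho, hsup, hsum, ha,
      (involution_mem_iff hQ h2 hxi hMn ha (fun z hz => (hM z).1 hz) hfix).1 hx⟩
  · obtain ⟨L, hL, hLl, hLact⟩ := exists_neg_list_odd hQ h2 hMn ha
    have h := (mem_omega_iff_list hQ h2 hxi (fun v hv => (hL v hv).2) fun z => ?_).1 hx
    · exact absurd h.1 (Nat.not_even_iff_odd.2 hLl)
    · obtain ⟨p, hp, q, hq, rfl⟩ := Submodule.mem_sup.1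
        ((QuadType.isCompl_orth hMn).sup_eq_top.symm ▸ Submodule.mem_top : z ∈ _ ⊔ _)
      rw [map_add, hLact p hp, act_fix hQ (fun u hu => ⟨(hL u hu).2, mem_orth.1 hq u (hL u hu).1⟩),
        Matrix.mulVec_add, (hM p).1 hp, hfix q hq]

/-- An involution of `Omega` with prescribed minus eigenspace. -/
theorem exists_involution (h2 : (2 : F) ≠ 0) {U : Submodule F (ι → F)} (hU : NondegIn (qf hQ) U) {a : ℕ}
    (hd : finrank F U = 2 * a) (hp : Plus (qf hQ) U ↔ IsSquare ((-1 : F) ^ a)) :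
    ∃ x : GL ι F, x ∈ omegaGL Q ∧ x * x = 1 ∧ (∀ z ∈ U, (x : Matrix ι ι F) *ᵥ z = -z) ∧
      ∀ z ∈ orth (qf hQ) U, (x : Matrix ι ι F) *ᵥ z = z := by
  obtain ⟨L, hL, hLl, hLact, hLsq⟩ := exists_neg_list hQ h2 a hU hd
  have hfix : ∀ z ∈ orth (qf hQ) U, act Q L z = z := fun z hz =>
    act_fix hQ fun u hu => ⟨(hL u hu).2, mem_orth.1 hz u (hL u hu).1⟩
  have hsq : ∀ z, act Q L (act Q L z) = z := fun z => by
    obtain ⟨p, hp, q, hq, rfl⟩ := Submodule.mem_sup.1
      ((QuadType.isCompl_orth hU).sup_eq_top.symm ▸ Submodule.mem_top : z ∈ _ ⊔ _)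
    rw [map_add, hLact p hp, hfix q hq, map_add, map_neg, hLact p hp, hfix q hq, neg_neg]
  obtain ⟨x, hx, hxz⟩ := exists_matrix_list hQ (fun v hv => (hL v hv).2) fun z => by rw [hsq, hsq]
  refine ⟨x, (mem_omega_iff_list hQ h2 hx (fun v hv => (hL v hv).2) hxz).2
      ⟨hLl ▸ even_two_mul a, hLsq.2 hp⟩, Units.ext (Matrix.toLin'.injective (LinearMap.ext fun z => ?_)),
    fun z hz => by rw [← hxz, hLact z hz], fun z hz => by rw [← hxz, hfix z hz]⟩
  rw [Units.val_mul, Matrix.toLin'_mul, LinearMap.comp_apply, Matrix.toLin'_apply, Matrix.toLin'_apply, ← hxz,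
    ← hxz, hsq, Units.val_one, Matrix.toLin'_one]
  rfl

/-- The planes of an element with square minus one. -/
theorem sq_neg_plane (h2 : (2 : F) ≠ 0) {f : Module.End F (ι → F)} (hf : ∀ v, Q (f v) = Q v)
    (hff : ∀ v, f (f v) = -v) {v : ι → F} (hv : Q v ≠ 0) :
    QuadraticMap.polar Q v (f v) = 0 ∧ Q (v - f v) = 2 * Q v ∧
      (Submodule.span F ({v, f v} : Set (ι → F))).map f ≤ Submodule.span F {v, f v} := by
  have h1 : QuadraticMap.polar Q v (f v) = 0 := by
    have h := QuadInvolution.polar_map (Q := qf hQ) hf v (f v)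
    rw [hff, QuadraticMap.polar_neg_right, QuadraticMap.polar_comm] at h
    exact (mul_eq_zero.1 (show (2 : F) * QuadraticMap.polar Q v (f v) = 0 by
      rw [show QuadraticMap.polar Q v (f v) = QuadraticMap.polar (qf hQ) v (f v) from rfl]
      linear_combination -h)).resolve_left h2
  refine ⟨h1, by rw [q_sub hQ, hf, bform_apply, h1]; ring, ?_⟩
  rintro _ ⟨z, hz, rfl⟩
  obtain ⟨a, b, rfl⟩ := Submodule.mem_span_pair.1 hz
  exact Submodule.mem_span_pair.2 ⟨-b, a, by rw [map_add, map_smul, map_smul, hff]; module⟩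

/-- The structure of an element with square minus one: dimension, type, spinor class, and invariant
non-degenerate subspaces of every even dimension. -/
theorem sq_neg_struct (h2 : (2 : F) ≠ 0) {f : Module.End F (ι → F)} (hf : ∀ v, Q (f v) = Q v)
    (hff : ∀ v, f (f v) = -v) : ∀ (N : ℕ) {U : Submodule F (ι → F)}, NondegIn (qf hQ) U → U.map f ≤ U →
    finrank F U = N → ∃ k, N = 2 * k ∧ (Plus (qf hQ) U ↔ IsSquare ((-1 : F) ^ k)) ∧
      (∃ L : List (ι → F), (∀ v ∈ L, v ∈ U ∧ Q v ≠ 0) ∧ Even L.length ∧ (∀ z ∈ U, act Q L z = f z) ∧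
        (IsSquare (L.map Q).prod ↔ IsSquare ((2 : F) ^ k))) ∧
      ∀ j ≤ k, ∃ W ≤ U, NondegIn (qf hQ) W ∧ W.map f ≤ W ∧ finrank F W = 2 * j := by
  intro N
  induction N using Nat.strong_induction_on with
  | _ N ih =>
    intro U hU hinv hd
    rcases Nat.eq_zero_or_pos N with rfl | hpos
    · refine ⟨0, rfl, by simp [plus_of_finrank_zero (Q := qf hQ) hd], ⟨[], by simp, by simp, fun z hz => ?_, by simp⟩,
        fun j hj => ⟨⊥, bot_le, nondegIn_bot, by simp, by simp; omega⟩⟩
      rw [(Submodule.mem_bot F).1 ((Submodule.finrank_eq_zero.1 hd) ▸ hz : z ∈ (⊥ : Submodule F (ι → F)))]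
      simp
    obtain ⟨v, hv, hQv⟩ := exists_aniso hQ hU (by omega)
    obtain ⟨hvw, hQd, hPinv⟩ := sq_neg_plane hQ h2 hf hff hQv
    have hQfv : Q (f v) ≠ 0 := by rw [hf]; exact hQv
    obtain ⟨hP, hPd, hPp⟩ := plane hQ h2 hQv hQfv hvw
    have hfv : f v ∈ U := hinv ⟨v, hv, rfl⟩
    have hPU : Submodule.span F {v, f v} ≤ U := Submodule.span_le.2 (by rintro z (rfl | rfl) <;> assumption)
    obtain ⟨hsup, hR, hdim⟩ := QuadType.split hU hP hPU
    have hRinv : (U ⊓ orth (qf hQ) (Submodule.span F {v, f v})).map f ≤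
        U ⊓ orth (qf hQ) (Submodule.span F {v, f v}) := inf_map_le hinv (map_le_of_forall_mem fun z hz => mem_orth.2 fun y hy => by
      have h3 := QuadInvolution.polar_map (Q := qf hQ) hf (-(f y)) z
      rw [map_neg, hff, neg_neg] at h3
      rw [h3]
      exact mem_orth.1 hz _ (Submodule.neg_mem _ (hPinv ⟨y, hy, rfl⟩)))
    obtain ⟨k, hk, hkp, ⟨L, hL, hLe, hLact, hLsq⟩, hksub⟩ := ih (N - 2) (by omega) hR hRinv (by omega)
    have hvP : v ∈ Submodule.span F ({v, f v} : Set (ι → F)) := Submodule.subset_span (by simp)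
    have hwP : f v ∈ Submodule.span F ({v, f v} : Set (ι → F)) := Submodule.subset_span (by simp)
    have hQd' : Q (v - f v) ≠ 0 := by rw [hQd]; exact mul_ne_zero h2 hQv
    refine ⟨k + 1, by omega, ?_, ⟨[v, v - f v] ++ L, fun u hu => ?_, by simp [Nat.even_add, hLe],
      fun z hz => ?_, ?_⟩, fun j hj => ?_⟩
    · have hU' := plus_sup _ hP hR inf_le_right (hPd ▸ even_two) (by rw [Nat.even_iff]; omega) rfl
      rw [hsup, hPp, hf, hkp] at hU'
      rw [hU', pow_succ', sq_mul_iff (neg_ne_zero.2 one_ne_zero) (pow_ne_zero _ (neg_ne_zero.2 one_ne_zero)),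
        show -(Q v * Q v) = -1 * (Q v * Q v) by ring, sq_mul_iff (neg_ne_zero.2 one_ne_zero) (mul_ne_zero hQv hQv),
        iff_true_right (IsSquare.mul_self (Q v))]
    · rcases List.mem_append.1 hu with hu | hu
      · simp only [List.mem_cons, List.not_mem_nil, or_false] at hu
        rcases hu with rfl | rfl
        · exact ⟨hv, hQv⟩
        · exact ⟨U.sub_mem hv hfv, hQd'⟩
      · exact ⟨(hL u hu).1.1, (hL u hu).2⟩
    · obtain ⟨p, hp, q, hq, rfl⟩ := Submodule.mem_sup.1 (hsup.symm ▸ hz : z ∈ _ ⊔ _)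
      have hfq := hRinv ⟨q, hq, rfl⟩
      rw [act_append, map_add, act_fix hQ (L := L) (z := p) (fun u hu => ⟨(hL u hu).2, by
          rw [QuadraticMap.polar_comm]; exact mem_orth.1 (hL u hu).1.2 p hp⟩), hLact q hq, map_add,
        act_fix hQ (L := [v, v - f v]) (z := f q) (fun u hu => by
          simp only [List.mem_cons, List.not_mem_nil, or_false] at hu
          rcases hu with rfl | rfl
          · exact ⟨hQv, mem_orth.1 hfq.2 _ hvP⟩
          · exact ⟨hQd', mem_orth.1 hfq.2 _ (Submodule.sub_mem _ hvP hwP)⟩), map_add]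
      congr 1
      obtain ⟨c, e, rfl⟩ := Submodule.mem_span_pair.1 hp
      have hvv : QuadraticMap.polar Q v v = 2 * Q v := by rw [← bform_apply hQ, b_self hQ]
      have e1 : QuadraticMap.polar Q (v - f v) v = 2 * Q v := by
        rw [← bform_apply hQ, map_sub, LinearMap.sub_apply, bform_apply, bform_apply, hvv,
          QuadraticMap.polar_comm Q (f v), hvw, sub_zero]
      have e2 : QuadraticMap.polar Q (v - f v) (f v) = -(2 * Q v) := by
        rw [← bform_apply hQ, map_sub, LinearMap.sub_apply, b_self hQ, hf, bform_apply, hvw, zero_sub]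
      have r1 : Cfsg.reflectionMatrix Q (v - f v) *ᵥ v = f v := by
        rw [refl_apply hQ hQd', e1, hQd, inv_mul_cancel₀ (mul_ne_zero h2 hQv), one_smul, sub_sub_cancel]
      have r2 : Cfsg.reflectionMatrix Q (v - f v) *ᵥ f v = v := by
        rw [refl_apply hQ hQd', e2, hQd, mul_neg, inv_mul_cancel₀ (mul_ne_zero h2 hQv), neg_smul, one_smul]
        abel
      have r3 : Cfsg.reflectionMatrix Q v *ᵥ v = -v := by
        rw [refl_apply hQ hQv, hvv, show (Q v)⁻¹ * (2 * Q v) = 2 by field_simp, two_smul]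
        abel
      have r4 : Cfsg.reflectionMatrix Q v *ᵥ f v = f v := by
        rw [refl_apply hQ hQv, hvw, mul_zero, zero_smul, sub_zero]
      rw [act_cons, act_cons, act_nil, Matrix.mulVec_add, Matrix.mulVec_smul, Matrix.mulVec_smul, r1, r2,
        Matrix.mulVec_add, Matrix.mulVec_smul, Matrix.mulVec_smul, r3, r4, map_add, map_smul, map_smul, hff]
    · have hne : (L.map Q).prod ≠ 0 := List.prod_ne_zero fun h0 => by
        obtain ⟨u, hu, hu0⟩ := List.mem_map.1 h0; exact (hL u hu).2 hu0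
      rw [List.map_append, List.prod_append, show ([v, v - f v].map Q).prod = Q v * Q v * 2 by simp [hQd]; ring,
        sq_mul_iff (mul_ne_zero (mul_ne_zero hQv hQv) h2) hne, hLsq, sq_mul_iff (mul_ne_zero hQv hQv) h2,
        iff_true_left (IsSquare.mul_self (Q v)), pow_succ', sq_mul_iff h2 (pow_ne_zero _ h2)]
    · rcases Nat.eq_zero_or_pos j with rfl | hj0
      · exact ⟨⊥, bot_le, nondegIn_bot, by simp, by simp⟩
      obtain ⟨W, hWR, hW, hWf, hWd⟩ := hksub (j - 1) (by omega)
      have ho : W ≤ orth (qf hQ) (Submodule.span F {v, f v}) := hWR.trans inf_le_right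
      obtain ⟨hS, hSd⟩ := nondegIn_sup hP hW ho
      exact ⟨_, sup_le hPU (hWR.trans inf_le_left), hS, sup_map_le hPinv hWf, by
        rw [finrank_sup_disjoint hSd, hPd, hWd]; omega⟩

/-- An element with square minus one exists exactly for one type. -/
theorem exists_sq_neg_list (h2 : (2 : F) ≠ 0) : ∀ (k : ℕ) {U : Submodule F (ι → F)}, NondegIn (qf hQ) U →
    finrank F U = 2 * k → (Plus (qf hQ) U ↔ IsSquare ((-1 : F) ^ k)) →
    ∃ L : List (ι → F), (∀ v ∈ L, v ∈ U ∧ Q v ≠ 0) ∧ Even L.length ∧ (∀ z ∈ U, act Q L (act Q L z) = -z) ∧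
      (IsSquare (L.map Q).prod ↔ IsSquare ((2 : F) ^ k)) := by
  intro k
  induction k with
  | zero =>
    intro U _ hd _
    refine ⟨[], by simp, by simp, fun z hz => ?_, by simp⟩
    rw [(Submodule.mem_bot F).1 ((Submodule.finrank_eq_zero.1 hd) ▸ hz : z ∈ (⊥ : Submodule F (ι → F)))]
    simp
  | succ k ih =>
    intro U hU hd hp
    obtain ⟨v, hv, hv1⟩ := exists_value hU (by omega) (1 : F)
    have hQv : Q v = 1 := hv1
    obtain ⟨hl, hl1⟩ := line_nondeg hQ h2 (v := v) (by rw [hQv]; exact one_ne_zero)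
    obtain ⟨hsupl, hR0, hdim0⟩ := QuadType.split hU hl ((Submodule.span_singleton_le_iff_mem _ _).2 hv)
    obtain ⟨w, hw, hw1⟩ : ∃ w ∈ U ⊓ orth (qf hQ) (Submodule.span F {v}), Q w = 1 := by
      rcases Nat.eq_zero_or_pos k with rfl | hk
      · obtain ⟨w0, hw0, hQw0⟩ := exists_aniso hQ hR0 (by omega)
        have hvw0 : QuadraticMap.polar Q v w0 = 0 := mem_orth.1 hw0.2 v (Submodule.mem_span_singleton_self v)
        obtain ⟨hP, hPd, hPp⟩ := plane hQ h2 (by rw [hQv]; exact one_ne_zero) hQw0 hvw0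
        have hPeq : Submodule.span F {v, w0} = U := Submodule.eq_of_le_of_finrank_eq
          (Submodule.span_le.2 (by rintro z (rfl | rfl); exacts [hv, hw0.1])) (by omega)
        rw [hPeq, hp, hQv, one_mul, show -(Q w0) = -1 * Q w0 by ring, sq_mul_iff (neg_ne_zero.2 one_ne_zero) hQw0,
          zero_add, pow_one] at hPp
        obtain ⟨s, hs⟩ : IsSquare (Q w0) := by tauto
        have hs0 : s ≠ 0 := fun h => hQw0 (by rw [hs, h, zero_mul])
        refine ⟨s⁻¹ • w0, Submodule.smul_mem _ _ hw0, ?_⟩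
        rw [q_smul hQ, hs]; field_simp
      · obtain ⟨w, hw, hw1⟩ := exists_value hR0 (by omega) (1 : F)
        exact ⟨w, hw, hw1⟩
    have hvw : QuadraticMap.polar Q v w = 0 := mem_orth.1 hw.2 v (Submodule.mem_span_singleton_self v)
    obtain ⟨hP, hPd, hPp⟩ := plane hQ h2 (v := v) (w := w) (by rw [hQv]; exact one_ne_zero)
      (by rw [hw1]; exact one_ne_zero) hvw
    have hPU : Submodule.span F {v, w} ≤ U := Submodule.span_le.2 (by
      rintro z (rfl | rfl); exacts [hv, hw.1])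
    obtain ⟨hsup, hR, hdim⟩ := QuadType.split hU hP hPU
    have hU' := plus_sup _ hP hR inf_le_right (hPd ▸ even_two) (by rw [Nat.even_iff]; omega) rfl
    rw [hsup, hPp, hp, hQv, hw1, mul_one, pow_succ',
      sq_mul_iff (neg_ne_zero.2 one_ne_zero) (pow_ne_zero _ (neg_ne_zero.2 one_ne_zero))] at hU'
    obtain ⟨L, hL, hLe, hLact, hLsq⟩ := ih hR (by omega) (by
      by_cases h3 : IsSquare (-1 : F) <;> by_cases h4 : IsSquare ((-1 : F) ^ k) <;>
        by_cases h5 : Plus (qf hQ) (U ⊓ orth (qf hQ) (Submodule.span F {v, w})) <;> simp [h3, h4, h5] at hU' ⊢)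
    have hvP : v ∈ Submodule.span F ({v, w} : Set (ι → F)) := Submodule.subset_span (by simp)
    have hwP : w ∈ Submodule.span F ({v, w} : Set (ι → F)) := Submodule.subset_span (by simp)
    have hQd : Q (v - w) = 2 := by rw [q_sub hQ, bform_apply, hvw, hQv, hw1]; norm_num
    have hQd' : Q (v - w) ≠ 0 := by rw [hQd]; exact h2
    have hQv' : Q v ≠ 0 := by rw [hQv]; exact one_ne_zero
    have hpair : ∀ q ∈ orth (qf hQ) (Submodule.span F {v, w}), act Q [v, v - w] q = q := fun q hq =>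
      act_fix hQ fun u hu => by
        simp only [List.mem_cons, List.not_mem_nil, or_false] at hu
        rcases hu with rfl | rfl
        · exact ⟨hQv', mem_orth.1 hq _ hvP⟩
        · exact ⟨hQd', mem_orth.1 hq _ (Submodule.sub_mem _ hvP hwP)⟩
    have hLP : ∀ p ∈ Submodule.span F ({v, w} : Set (ι → F)), act Q L p = p := fun p hp =>
      act_fix hQ fun u hu => ⟨(hL u hu).2, by
        rw [QuadraticMap.polar_comm]; exact mem_orth.1 (hL u hu).1.2 p hp⟩
    have hvv : QuadraticMap.polar Q v v = 2 := by rw [← bform_apply hQ, b_self hQ, hQv, mul_one]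
    have hww : QuadraticMap.polar Q w w = 2 := by rw [← bform_apply hQ, b_self hQ, hw1, mul_one]
    have e1 : QuadraticMap.polar Q (v - w) v = 2 := by
      rw [← bform_apply hQ, map_sub, LinearMap.sub_apply, bform_apply, bform_apply, hvv,
        QuadraticMap.polar_comm Q w, hvw, sub_zero]
    have e2 : QuadraticMap.polar Q (v - w) w = -2 := by
      rw [← bform_apply hQ, map_sub, LinearMap.sub_apply, bform_apply, bform_apply, hww, hvw, zero_sub]
    have a1 : act Q [v, v - w] v = w := by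
      rw [act_cons, act_cons, act_nil, refl_apply hQ hQd', e1, hQd, inv_mul_cancel₀ h2, one_smul, sub_sub_cancel,
        refl_apply hQ hQv', hvw, mul_zero, zero_smul, sub_zero]
    have a2 : act Q [v, v - w] w = -v := by
      rw [act_cons, act_cons, act_nil, refl_apply hQ hQd', e2, hQd, mul_neg, inv_mul_cancel₀ h2, neg_smul, one_smul,
        sub_neg_eq_add, add_sub_cancel, refl_apply hQ hQv', hvv, hQv, inv_one, one_mul, two_smul]
      abel
    refine ⟨[v, v - w] ++ L, fun u hu => ?_, by simp [Nat.even_add, hLe], fun z hz => ?_, ?_⟩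
    · rcases List.mem_append.1 hu with hu | hu
      · simp only [List.mem_cons, List.not_mem_nil, or_false] at hu
        rcases hu with rfl | rfl
        · exact ⟨hv, hQv'⟩
        · exact ⟨U.sub_mem hv hw.1, hQd'⟩
      · exact ⟨(hL u hu).1.1, (hL u hu).2⟩
    · obtain ⟨p, hp', q, hq, rfl⟩ := Submodule.mem_sup.1 (hsup.symm ▸ hz : z ∈ _ ⊔ _)
      obtain ⟨c, e, rfl⟩ := Submodule.mem_span_pair.1 hp'
      have horth : ∀ q ∈ orth (qf hQ) (Submodule.span F {v, w}),
          act Q L q ∈ orth (qf hQ) (Submodule.span F {v, w}) := fun q hq => mem_orth.2 fun y hy => by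
        have h3 := QuadInvolution.polar_map (Q := qf hQ) (f := act Q L)
          (act_isometry hQ fun u hu => (hL u hu).2) y q
        rw [hLP y hy] at h3
        rw [h3]
        exact mem_orth.1 hq y hy
      have key : ∀ p ∈ Submodule.span F ({v, w} : Set (ι → F)), ∀ q ∈ orth (qf hQ) (Submodule.span F {v, w}),
          act Q ([v, v - w] ++ L) (p + q) = act Q [v, v - w] p + act Q L q := fun p hp q hq => by
        rw [act_append, map_add (act Q L), map_add, hLP p hp, hpair _ (horth q hq)]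
      have himg : act Q [v, v - w] (c • v + e • w) = c • w - e • v := by
        rw [map_add, map_smul, map_smul, a1, a2]; module
      have himg2 : act Q [v, v - w] (c • w - e • v) = -(c • v + e • w) := by
        rw [map_sub, map_smul, map_smul, a1, a2]; module
      rw [key _ hp' _ hq.2, himg,
        key _ (Submodule.sub_mem _ (Submodule.smul_mem _ _ hwP) (Submodule.smul_mem _ _ hvP)) _ (horth q hq.2),
        himg2, hLact q hq]
      module
    · have hne : (L.map Q).prod ≠ 0 := List.prod_ne_zero fun h0 => by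
        obtain ⟨u, hu, hu0⟩ := List.mem_map.1 h0; exact (hL u hu).2 hu0
      rw [List.map_append, List.prod_append, show ([v, v - w].map Q).prod = 2 by simp [hQd, hQv],
        sq_mul_iff h2 hne, hLsq, pow_succ', sq_mul_iff h2 (pow_ne_zero _ h2)]

/-- An element of `Omega` with square minus one: when it exists, and the criterion. -/
theorem sq_neg_mem_iff (h2 : (2 : F) ≠ 0) {d : ℕ} (hn : Fintype.card ι = 2 * d) :
    (∃ x : GL ι F, x ∈ omegaGL Q ∧ (∀ v, (x : Matrix ι ι F) *ᵥ ((x : Matrix ι ι F) *ᵥ v) = -v)) ↔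
      ((Plus (qf hQ) ⊤ ↔ IsSquare ((-1 : F) ^ d)) ∧ IsSquare ((2 : F) ^ d)) := by
  have hfr : finrank F (⊤ : Submodule F (ι → F)) = 2 * d := by rw [finrank_top, finrank_fintype_fun_eq_card, hn]
  constructor
  · rintro ⟨x, hx, hxx⟩
    have hxi := omegaGL_le hx
    obtain ⟨k, hk, hkp, ⟨L, hL, -, hLact, hLsq⟩, -⟩ := sq_neg_struct hQ h2 (f := Matrix.toLin' (x : Matrix ι ι F))
      (fun v => mem_isometryGroup.1 hxi v) (fun v => hxx v) _ (nondeg_top hQ) le_top hfr
    obtain rfl : k = d := by omega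
    have h := (mem_omega_iff_list hQ h2 hxi (fun v hv => (hL v hv).2) fun z => hLact z trivial).1 hx
    exact ⟨hkp, hLsq.1 h.2⟩
  · rintro ⟨hp, h2d⟩
    obtain ⟨L, hL, hLe, hLact, hLsq⟩ := exists_sq_neg_list hQ h2 d (nondeg_top hQ) hfr hp
    obtain ⟨x, hx, hxz⟩ := exists_matrix_list hQ (fun v hv => (hL v hv).2) fun z => by
      rw [hLact z trivial, map_neg, map_neg, hLact z trivial, neg_neg]
    exact ⟨x, (mem_omega_iff_list hQ h2 hx (fun v hv => (hL v hv).2) hxz).2 ⟨hLe, hLsq.2 h2d⟩,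
      fun v => by rw [← hxz, ← hxz, hLact v trivial]⟩

end CfsgLib.Classical.Semisimple.QuadTwo
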