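import Cfsg.Agent.Classical.Semisimple.QuadTwoSub

/-!
Every element of order two modulo scalars of `Omega` in even dimension and odd characteristic fixes a
non-degenerate subspace of a given kind: the criteria.
-/

set_option autoImplicit false

namespace CfsgLib.Classical.Semisimple.QuadTwo

open Module Cfsg.Geo CfsgLib.OrthGeo QuadType QuadBridge
open scoped Matrix MatrixGroups

variable {ι : Type} [Fintype ι] [DecidableEq ι] {F : Type*} [Field F] [Fintype F] {Q : (ι → F) → F}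
variable (hQ : IsNondegenerateQuadraticForm Q)
include hQ

/-- The proper involutions. -/
theorem involution_proper (h2 : (2 : F) ≠ 0) {d : ℕ} (hn : Fintype.card ι = 2 * d) {x : GL ι F}
    (hx : x ∈ omegaGL Q) (hxx : x * x = 1) (hns : ∀ z : F, (x : Matrix ι ι F) ≠ z • (1 : Matrix ι ι F)) :
    ∃ (P M : Submodule F (ι → F)) (a c : ℕ), (∀ v, v ∈ P ↔ (x : Matrix ι ι F) *ᵥ v = v) ∧
      (∀ v, v ∈ M ↔ (x : Matrix ι ι F) *ᵥ v = -v) ∧ NondegIn (qf hQ) P ∧ NondegIn (qf hQ) M ∧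
      M ≤ orth (qf hQ) P ∧ finrank F P = 2 * c ∧ finrank F M = 2 * a ∧ 1 ≤ a ∧ 1 ≤ c ∧ a + c = d := by
  obtain ⟨P, M, a, hPm, hMm, hPn, hMn, ho, hsup, hsum, hMd, -⟩ := involution_type hQ h2 hx hxx
  refine ⟨P, M, a, d - a, hPm, hMm, hPn, hMn, ho, by omega, hMd, ?_, ?_, by omega⟩
  · refine Nat.pos_of_ne_zero fun ha => hns 1 (Matrix.toLin'.injective (LinearMap.ext fun v => ?_))
    have hv : v ∈ P := by
      rw [Submodule.finrank_eq_zero.1 (by omega : finrank F M = 0), sup_bot_eq] at hsup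
      rw [hsup]; trivial
    rw [Matrix.toLin'_apply, (hPm v).1 hv, one_smul, Matrix.toLin'_one]; rfl
  · refine Nat.pos_of_ne_zero fun ha => hns (-1) (Matrix.toLin'.injective (LinearMap.ext fun v => ?_))
    have hv : v ∈ M := by
      rw [Submodule.finrank_eq_zero.1 (by omega : finrank F P = 0), bot_sup_eq] at hsup
      rw [hsup]; trivial
    rw [Matrix.toLin'_apply, (hMm v).1 hv, Matrix.toLin'_apply, neg_one_smul, Matrix.neg_mulVec, Matrix.one_mulVec]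

omit [Fintype F] in
/-- An element with square minus one is not a scalar. -/
theorem sq_neg_not_scalar (h2 : (2 : F) ≠ 0) (hn : 1 ≤ Fintype.card ι) {x : GL ι F} (hx : x ∈ omegaGL Q)
    (hxx : ∀ v, (x : Matrix ι ι F) *ᵥ ((x : Matrix ι ι F) *ᵥ v) = -v) :
    (∃ z : F, ((x ^ 2 : GL ι F) : Matrix ι ι F) = z • (1 : Matrix ι ι F)) ∧
      ∀ z : F, (x : Matrix ι ι F) ≠ z • (1 : Matrix ι ι F) := by
  refine ⟨⟨-1, Matrix.toLin'.injective (LinearMap.ext fun v => ?_)⟩, fun z hz => ?_⟩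
  · rw [sq, Units.val_mul, Matrix.toLin'_mul, LinearMap.comp_apply, Matrix.toLin'_apply, Matrix.toLin'_apply,
      hxx, Matrix.toLin'_apply, Matrix.smul_mulVec, Matrix.one_mulVec, neg_one_smul]
  · obtain ⟨v, hv⟩ := exists_ne_zero hQ hn
    have h1 := hxx v
    rw [hz, Matrix.smul_mulVec, Matrix.one_mulVec, Matrix.smul_mulVec, Matrix.one_mulVec, smul_smul,
      scalar_sq hQ hn (omegaGL_le hx) hz, one_smul] at h1
    have h3 : (2 : F) • v = 0 := by rw [two_smul]; nth_rewrite 1 [h1]; exact neg_add_cancel v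
    exact hv (by rw [(smul_eq_zero.1 h3).resolve_left h2, q_zero hQ])

/-- The criterion for subspaces of even dimension and given type. -/
theorem two_nondeg_iff (h2 : (2 : F) ≠ 0) {d h : ℕ} (hn : Fintype.card ι = 2 * d) (hh : 1 ≤ h) (hhd : h + 1 ≤ d)
    (b : Prop) :
    (∀ x : GL ι F, x ∈ omegaGL Q → (∃ z : F, ((x ^ 2 : GL ι F) : Matrix ι ι F) = z • (1 : Matrix ι ι F)) →
      (∀ z : F, (x : Matrix ι ι F) ≠ z • (1 : Matrix ι ι F)) →
      ∃ W : Submodule F (ι → F), (finrank F W = 2 * h ∧ IsNondegenerateOn (QuadraticMap.polar Q) W ∧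
        (IsPlusTypeOn Q W ↔ b)) ∧ W.map (Matrix.toLin' (x : Matrix ι ι F)) ≤ W) ↔
      (((Plus (qf hQ) ⊤ ↔ IsSquare ((-1 : F) ^ d)) ∧ IsSquare ((2 : F) ^ d)) → (b ↔ IsSquare ((-1 : F) ^ h))) := by
  constructor
  · intro hfix hex
    obtain ⟨x, hx, hxx⟩ := (sq_neg_mem_iff hQ h2 hn).2 hex
    obtain ⟨hz, hns⟩ := sq_neg_not_scalar hQ h2 (by omega) hx hxx
    obtain ⟨W, ⟨hWd, hWn, hWb⟩, hWf⟩ := hfix x hx hz hns
    obtain ⟨k, hk, hkp, -, -⟩ := sq_neg_struct hQ h2 (f := Matrix.toLin' (x : Matrix ι ι F))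
      (fun v => mem_isometryGroup.1 (omegaGL_le hx) v) (fun v => hxx v) _ ((nondegenerateOn_iff hQ W).1 hWn) hWf hWd
    obtain rfl : k = h := by omega
    exact hWb.symm.trans hkp
  · intro hcond x hx hz hns
    rcases sq_cases hQ (by omega) hx hz with hxx | hxx
    · obtain ⟨P, M, a, c, hPm, hMm, hPn, hMn, ho, hPd, hMd, ha, hc, hac⟩ := involution_proper hQ h2 hn hx hxx hns
      obtain ⟨W, hWf, hWn, hWd, hWb⟩ := exists_plane_split hQ h2 hPn hMn ho hPm hMm hPd hMd ha hc hh (by omega) b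
      exact ⟨W, ⟨hWd, (nondegenerateOn_iff hQ W).2 hWn, hWb⟩, hWf⟩
    · have hf : ∀ v, Q (Matrix.toLin' (x : Matrix ι ι F) v) = Q v := fun v => mem_isometryGroup.1 (omegaGL_le hx) v
      obtain ⟨k, hk, -, -, hsub⟩ := sq_neg_struct hQ h2 hf (fun v => hxx v) _ (nondeg_top hQ) le_top
        (by rw [finrank_top, finrank_fintype_fun_eq_card, hn])
      obtain ⟨W, -, hWn, hWf, hWd⟩ := hsub h (by omega)
      obtain ⟨k', hk', hkp, -, -⟩ := sq_neg_struct hQ h2 hf (fun v => hxx v) _ hWn hWf hWd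
      obtain rfl : k' = h := by omega
      exact ⟨W, ⟨hWd, (nondegenerateOn_iff hQ W).2 hWn,
        hkp.trans (hcond ((sq_neg_mem_iff hQ h2 hn).1 ⟨x, hx, hxx⟩)).symm⟩, hWf⟩

/-- The criterion for subspaces of odd dimension in one class. -/
theorem two_odd_iff (h2 : (2 : F) ≠ 0) {d h : ℕ} (hn : Fintype.card ι = 2 * d) {W₀ : Submodule F (ι → F)}
    (hW₀ : NondegIn (qf hQ) W₀) (hd0 : finrank F W₀ = 2 * h + 1) (hhd : h + 2 ≤ d) :
    (∀ x : GL ι F, x ∈ omegaGL Q → (∃ z : F, ((x ^ 2 : GL ι F) : Matrix ι ι F) = z • (1 : Matrix ι ι F)) →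
      (∀ z : F, (x : Matrix ι ι F) ≠ z • (1 : Matrix ι ι F)) →
      ∃ W : Submodule F (ι → F), AreIso (qf hQ) W₀ (qf hQ) W ∧
        W.map (Matrix.toLin' (x : Matrix ι ι F)) ≤ W) ↔
      ¬ ((Plus (qf hQ) ⊤ ↔ IsSquare ((-1 : F) ^ d)) ∧ IsSquare ((2 : F) ^ d)) := by
  constructor
  · intro hfix hex
    obtain ⟨x, hx, hxx⟩ := (sq_neg_mem_iff hQ h2 hn).2 hex
    obtain ⟨hz, hns⟩ := sq_neg_not_scalar hQ h2 (by omega) hx hxx
    obtain ⟨W, hW, hWf⟩ := hfix x hx hz hns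
    obtain ⟨k, hk, -⟩ := sq_neg_struct hQ h2 (f := Matrix.toLin' (x : Matrix ι ι F))
      (fun v => mem_isometryGroup.1 (omegaGL_le hx) v) (fun v => hxx v) _ (hW.nondeg hW₀) hWf rfl
    rw [← hW.finrank_eq, hd0] at hk
    omega
  · intro hcond x hx hz hns
    rcases sq_cases hQ (by omega) hx hz with hxx | hxx
    · obtain ⟨P, M, a, c, hPm, hMm, hPn, hMn, ho, hPd, hMd, ha, hc, hac⟩ := involution_proper hQ h2 hn hx hxx hns
      exact exists_odd_split hQ h2 hPn hMn ho hPm hMm hPd hMd ha hc hW₀ hd0 (by omega)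
    · exact absurd ((sq_neg_mem_iff hQ h2 hn).1 ⟨x, hx, hxx⟩) hcond

end CfsgLib.Classical.Semisimple.QuadTwo
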