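import Cfsg.Agent.Classical.Semisimple.QuadTwo

/-!
Invariant totally singular and non-degenerate subspaces of the elements of order two modulo scalars.
-/

set_option autoImplicit false

namespace CfsgLib.Classical.Semisimple.QuadTwo

open Module Cfsg.Geo CfsgLib.OrthGeo QuadType QuadBridge
open scoped Matrix MatrixGroups

variable {ι : Type} [Fintype ι] [DecidableEq ι] {F : Type*} [Field F] {Q : (ι → F) → F}
variable (hQ : IsNondegenerateQuadraticForm Q)

omit [DecidableEq ι] in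
theorem exists_sub_finrank (E : Submodule F (ι → F)) {j : ℕ} (hj : j ≤ finrank F E) :
    ∃ W ≤ E, finrank F W = j := by
  obtain ⟨b, hb⟩ := exists_linearIndependent_of_le_finrank (R := F) (M := E) hj
  exact ⟨(Submodule.span F (Set.range b)).map E.subtype, Submodule.map_subtype_le _ _,
    by rw [Submodule.finrank_map_subtype_eq, finrank_span_eq_card hb, Fintype.card_fin]⟩

include hQ

/-- Elements with scalar square. -/
theorem sq_cases (hn : 1 ≤ Fintype.card ι) {x : GL ι F} (hx : x ∈ omegaGL Q)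
    (hz : ∃ z : F, ((x ^ 2 : GL ι F) : Matrix ι ι F) = z • (1 : Matrix ι ι F)) :
    x * x = 1 ∨ ∀ v, (x : Matrix ι ι F) *ᵥ ((x : Matrix ι ι F) *ᵥ v) = -v := by
  obtain ⟨z, hz⟩ := hz
  rcases mul_self_eq_one_iff.1 (scalar_sq hQ hn (pow_mem (omegaGL_le hx) 2) hz) with rfl | rfl
  · left
    rw [← sq]
    exact Units.ext (by rw [hz, one_smul, Units.val_one])
  · right
    intro v
    rw [Matrix.mulVec_mulVec, ← Units.val_mul, ← sq, hz, Matrix.smul_mulVec, Matrix.one_mulVec, neg_one_smul]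

/-- The eigenspace decomposition of an invariant subspace. -/
theorem inv_split (h2 : (2 : F) ≠ 0) {x : GL ι F} {P M W : Submodule F (ι → F)}
    (hP : ∀ v, v ∈ P ↔ (x : Matrix ι ι F) *ᵥ v = v) (hM : ∀ v, v ∈ M ↔ (x : Matrix ι ι F) *ᵥ v = -v)
    (hxx : x * x = 1) (hW : W.map (Matrix.toLin' (x : Matrix ι ι F)) ≤ W) :
    W = W ⊓ P ⊔ W ⊓ M ∧ finrank F W = finrank F ↥(W ⊓ P) + finrank F ↥(W ⊓ M) := by
  have hxv : ∀ v, (x : Matrix ι ι F) *ᵥ ((x : Matrix ι ι F) *ᵥ v) = v := fun v => by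
    rw [Matrix.mulVec_mulVec, ← Units.val_mul, hxx, Units.val_one, Matrix.one_mulVec]
  have hd : Disjoint (W ⊓ P) (W ⊓ M) := Submodule.disjoint_def.2 fun v hvP hvM => by
    have h := ((hP v).1 hvP.2).symm.trans ((hM v).1 hvM.2)
    have h' : (2 : F) • v = 0 := by rw [two_smul]; nth_rewrite 1 [h]; exact neg_add_cancel v
    exact (smul_eq_zero.1 h').resolve_left h2
  have heq : W = W ⊓ P ⊔ W ⊓ M := le_antisymm (fun v hv => by
    have hxW : (x : Matrix ι ι F) *ᵥ v ∈ W := hW ⟨v, hv, Matrix.toLin'_apply _ _⟩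
    refine Submodule.mem_sup.2 ⟨(2 : F)⁻¹ • (v + (x : Matrix ι ι F) *ᵥ v),
      ⟨W.smul_mem _ (W.add_mem hv hxW), (hP _).2 ?_⟩, (2 : F)⁻¹ • (v - (x : Matrix ι ι F) *ᵥ v),
      ⟨W.smul_mem _ (W.sub_mem hv hxW), (hM _).2 ?_⟩, ?_⟩
    · rw [Matrix.mulVec_smul, Matrix.mulVec_add, hxv, add_comm]
    · rw [Matrix.mulVec_smul, Matrix.mulVec_sub, hxv, ← smul_neg, neg_sub]
    · rw [← smul_add, show v + (x : Matrix ι ι F) *ᵥ v + (v - (x : Matrix ι ι F) *ᵥ v) = (2 : F) • v by
        rw [two_smul]; abel, smul_smul, inv_mul_cancel₀ h2, one_smul]) (sup_le inf_le_left inf_le_left)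
  refine ⟨heq, ?_⟩
  conv_lhs => rw [heq]
  exact finrank_sup_disjoint hd

variable [Fintype F]

/-- An involution fixes a totally singular subspace assembled from its eigenspaces. -/
theorem exists_singular_of_split {x : GL ι F} {P M : Submodule F (ι → F)} (hPn : NondegIn (qf hQ) P)
    (hMn : NondegIn (qf hQ) M) (ho : M ≤ orth (qf hQ) P)
    (hP : ∀ v, v ∈ P ↔ (x : Matrix ι ι F) *ᵥ v = v) (hM : ∀ v, v ∈ M ↔ (x : Matrix ι ι F) *ᵥ v = -v)
    {j k : ℕ} (hj : 2 * j ≤ finrank F P ∧ (2 * j = finrank F P → Plus (qf hQ) P))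
    (hk : 2 * k ≤ finrank F M ∧ (2 * k = finrank F M → Plus (qf hQ) M)) :
    ∃ W : Submodule F (ι → F), finrank F W = j + k ∧ (∀ w ∈ W, Q w = 0) ∧
      W.map (Matrix.toLin' (x : Matrix ι ι F)) ≤ W := by
  obtain ⟨X, hX, hXs, hXd⟩ := (QuadType.exists_singular_iff _ hPn rfl j).2 hj
  obtain ⟨Y, hY, hYs, hYd⟩ := (QuadType.exists_singular_iff _ hMn rfl k).2 hk
  refine ⟨X ⊔ Y, ?_, singular_sup hXs hYs fun v hv => mem_orth.2 fun u hu => mem_orth.1 (ho (hY hv)) u (hX hu),
    QuadInvolution.map_le_of_eigen (s := 1) (t := -1) (fun v hv => by rw [Matrix.toLin'_apply, one_smul, (hP v).1 (hX hv)])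
      (fun v hv => by rw [Matrix.toLin'_apply, neg_one_smul, (hM v).1 (hY hv)])⟩
  rw [finrank_sup_disjoint ((nondegIn_sup hPn hMn ho).2.mono hX hY), hXd, hYd]

/-- The bounds for a totally singular subspace fixed by an involution. -/
theorem singular_split_bound (h2 : (2 : F) ≠ 0) {x : GL ι F} {P M W : Submodule F (ι → F)}
    (hPn : NondegIn (qf hQ) P) (hMn : NondegIn (qf hQ) M)
    (hP : ∀ v, v ∈ P ↔ (x : Matrix ι ι F) *ᵥ v = v) (hM : ∀ v, v ∈ M ↔ (x : Matrix ι ι F) *ᵥ v = -v)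
    (hxx : x * x = 1) (hW : W.map (Matrix.toLin' (x : Matrix ι ι F)) ≤ W) (hWs : ∀ w ∈ W, Q w = 0) :
    ∃ j k, finrank F W = j + k ∧ (2 * j ≤ finrank F P ∧ (2 * j = finrank F P → Plus (qf hQ) P)) ∧
      (2 * k ≤ finrank F M ∧ (2 * k = finrank F M → Plus (qf hQ) M)) :=
  ⟨_, _, (inv_split hQ h2 hP hM hxx hW).2,
    (QuadType.exists_singular_iff _ hPn rfl _).1 ⟨W ⊓ P, inf_le_right, fun v hv => hWs v hv.1, rfl⟩,
    (QuadType.exists_singular_iff _ hMn rfl _).1 ⟨W ⊓ M, inf_le_right, fun v hv => hWs v hv.1, rfl⟩⟩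

omit hQ in
/-- An element with square minus one has invariant subspaces of even dimension only, unless minus one is a
square. -/
theorem even_of_sq_neg (hns : ¬ IsSquare (-1 : F)) {f : Module.End F (ι → F)} (hff : ∀ v, f (f v) = -v)
    {W : Submodule F (ι → F)} (hW : W.map f ≤ W) : Even (finrank F W) := by
  let g : Module.End F W := LinearMap.codRestrict W (f ∘ₗ W.subtype) fun w => hW ⟨w, w.2, rfl⟩
  have hgg : g * g = (-1 : F) • 1 := LinearMap.ext fun w => Subtype.ext (by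
    show f (f (w : ι → F)) = (-1 : F) • (w : ι → F)
    rw [hff, neg_one_smul])
  have h := congrArg LinearMap.det hgg
  rw [map_mul, LinearMap.det_smul, map_one, mul_one] at h
  by_contra hodd
  rw [Nat.not_even_iff_odd] at hodd
  rw [hodd.neg_one_pow] at h
  exact hns ⟨_, h.symm⟩

/-- When minus one is a square, an element with square minus one fixes maximal totally singular subspaces. -/
theorem exists_singular_of_sqrt (h2 : (2 : F) ≠ 0) (hsq : IsSquare (-1 : F)) {f : Module.End F (ι → F)}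
    (hf : ∀ v, Q (f v) = Q v) (hff : ∀ v, f (f v) = -v) {d : ℕ} (hn : Fintype.card ι = 2 * d) {j : ℕ} (hj : j ≤ d) :
    ∃ W : Submodule F (ι → F), finrank F W = j ∧ (∀ w ∈ W, Q w = 0) ∧ W.map f ≤ W := by
  obtain ⟨s, hs⟩ := hsq
  have hs0 : s ≠ 0 := fun h => by rw [h, mul_zero] at hs; exact neg_ne_zero.2 one_ne_zero hs
  have hsing : ∀ c : F, c * c = -1 → ∀ v, f v = c • v → Q v = 0 := fun c hc v hv => by
    have h := hf v
    rw [hv, q_smul hQ, sq, hc] at h
    exact (mul_eq_zero.1 (show (2 : F) * Q v = 0 by linear_combination -h)).resolve_left h2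
  let E : F → Submodule F (ι → F) := fun c => LinearMap.ker (f - c • 1)
  have hE : ∀ c v, v ∈ E c ↔ f v = c • v := fun c v => by simp [E, LinearMap.mem_ker, sub_eq_zero]
  have hbound : ∀ c, c * c = -1 → finrank F (E c) ≤ d := fun c hc => by
    have h := ((QuadType.exists_singular_iff _ (nondeg_top hQ) rfl _).1
      ⟨E c, le_top, fun v hv => hsing c hc v ((hE c v).1 hv), rfl⟩).1
    rw [finrank_top, finrank_fintype_fun_eq_card, hn] at h
    omega
  have hns : (-s) * (-s) = -1 := by rw [neg_mul_neg, ← hs]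
  have htop : (⊤ : Submodule F (ι → F)) ≤ E s ⊔ E (-s) := fun v _ => by
    refine Submodule.mem_sup.2 ⟨(2 : F)⁻¹ • (v - s • f v), (hE _ _).2 ?_, (2 : F)⁻¹ • (v + s • f v), (hE _ _).2 ?_, ?_⟩
    · rw [map_smul, map_sub, map_smul, hff, smul_comm s, smul_sub s, smul_smul, ← hs]
      module
    · rw [map_smul, map_add, map_smul, hff, smul_comm (-s), smul_add (-s), smul_smul, neg_mul, ← hs]
      module
    · rw [← smul_add, show v - s • f v + (v + s • f v) = (2 : F) • v by rw [two_smul]; abel, smul_smul,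
        inv_mul_cancel₀ h2, one_smul]
  have h1 := (Submodule.finrank_mono htop).trans (Submodule.finrank_add_le_finrank_add_finrank _ _)
  rw [finrank_top, finrank_fintype_fun_eq_card, hn] at h1
  have h3 := hbound (-s) hns
  obtain ⟨W, hW, hWd⟩ := exists_sub_finrank (E s) (j := j) (by omega)
  refine ⟨W, hWd, fun w hw => hsing s hs.symm w ((hE s w).1 (hW hw)), map_le_of_forall_mem fun w hw => ?_⟩
  rw [(hE s w).1 (hW hw)]
  exact W.smul_mem s hw

/-- Invariant totally singular subspaces of even dimension of an element with square minus one. -/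
theorem exists_singular_even (h2 : (2 : F) ≠ 0) (hns : ¬ IsSquare (-1 : F)) {f : Module.End F (ι → F)}
    (hf : ∀ v, Q (f v) = Q v) (hff : ∀ v, f (f v) = -v) : ∀ (s : ℕ) {U : Submodule F (ι → F)}, NondegIn (qf hQ) U →
    U.map f ≤ U → 4 * s ≤ finrank F U →
    ∃ W ≤ U, finrank F W = 2 * s ∧ (∀ w ∈ W, Q w = 0) ∧ W.map f ≤ W := by
  intro s
  induction s with
  | zero => exact fun _ _ _ => ⟨⊥, bot_le, finrank_bot F _, fun w hw => by
      rw [(Submodule.mem_bot F).1 hw, q_zero hQ], by simp⟩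
  | succ s ih =>
    intro U hU hinv hd
    obtain ⟨v, hv, hQv⟩ := exists_aniso hQ hU (by omega)
    obtain ⟨hvv, -, hPinv⟩ := sq_neg_plane hQ h2 hf hff hQv
    obtain ⟨hP, hPd, -⟩ := plane hQ h2 hQv (by rw [hf]; exact hQv) hvv
    have hPU : Submodule.span F {v, f v} ≤ U := Submodule.span_le.2 (by
      rintro z (rfl | rfl); exacts [hv, hinv ⟨v, hv, rfl⟩])
    have hinvO : ∀ X : Submodule F (ι → F), X.map f ≤ X → (orth (qf hQ) X).map f ≤ orth (qf hQ) X := fun X hX =>
      map_le_of_forall_mem fun z hz => mem_orth.2 fun y hy => by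
        have h3 := QuadInvolution.polar_map (Q := qf hQ) hf (-(f y)) z
        rw [map_neg, hff, neg_neg] at h3
        rw [h3]
        exact mem_orth.1 hz _ (Submodule.neg_mem _ (hX ⟨y, hy, rfl⟩))
    obtain ⟨hsup, hR, hdim⟩ := QuadType.split hU hP hPU
    obtain ⟨w, hw, hQw⟩ := exists_value hR (by omega) (-Q v)
    have hQw0 : Q w ≠ 0 := by rw [show Q w = -Q v from hQw]; exact neg_ne_zero.2 hQv
    obtain ⟨hww, -, hP2inv⟩ := sq_neg_plane hQ h2 hf hff hQw0
    obtain ⟨hP2, hP2d, -⟩ := plane hQ h2 hQw0 (by rw [hf]; exact hQw0) hww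
    have hRinv := inf_map_le hinv (hinvO _ hPinv)
    have hP2R : Submodule.span F {w, f w} ≤ U ⊓ orth (qf hQ) (Submodule.span F {v, f v}) :=
      Submodule.span_le.2 (by rintro z (rfl | rfl); exacts [hw, hRinv ⟨w, hw, rfl⟩])
    obtain ⟨hsup2, hR2, hdim2⟩ := QuadType.split hR hP2 hP2R
    obtain ⟨W, hWR, hWd, hWs, hWf⟩ := ih hR2 (inf_map_le hRinv (hinvO _ hP2inv)) (by omega)
    set z := v + w
    have hpol : ∀ a ∈ Submodule.span F ({v, f v} : Set (ι → F)), ∀ b ∈ Submodule.span F ({w, f w} : Set (ι → F)),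
        QuadraticMap.polar Q a b = 0 := fun a ha b hb => mem_orth.1 (hP2R hb).2 a ha
    have hm1 : v ∈ Submodule.span F ({v, f v} : Set (ι → F)) := Submodule.subset_span (by simp)
    have hm2 : f v ∈ Submodule.span F ({v, f v} : Set (ι → F)) := Submodule.subset_span (by simp)
    have hm3 : w ∈ Submodule.span F ({w, f w} : Set (ι → F)) := Submodule.subset_span (by simp)
    have hm4 : f w ∈ Submodule.span F ({w, f w} : Set (ι → F)) := Submodule.subset_span (by simp)
    have hQz : ∀ a b : F, Q (a • z + b • f z) = 0 := fun a b => by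
      have e : a • z + b • f z = (a • v + b • f v) + (a • w + b • f w) := by rw [map_add]; module
      rw [e, q_add hQ, bform_apply, hpol _ (Submodule.add_mem _ (Submodule.smul_mem _ _ hm1) (Submodule.smul_mem _ _ hm2))
        _ (Submodule.add_mem _ (Submodule.smul_mem _ _ hm3) (Submodule.smul_mem _ _ hm4)), add_zero]
      have hval : ∀ u, QuadraticMap.polar Q u (f u) = 0 → Q (a • u + b • f u) = (a ^ 2 + b ^ 2) * Q u := fun u hu => by
        rw [q_add hQ, q_smul hQ, q_smul hQ, hf, map_smul, map_smul, LinearMap.smul_apply, bform_apply, hu,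
          smul_zero, smul_zero]
        ring
      rw [hval v hvv, hval w hww, show Q w = -Q v from hQw]
      ring
    have hXP : Submodule.span F {z, f z} ≤ Submodule.span F {v, f v} ⊔ Submodule.span F {w, f w} :=
      Submodule.span_le.2 (by
        rintro y (rfl | rfl)
        · exact Submodule.add_mem_sup hm1 hm3
        · rw [SetLike.mem_coe, map_add]; exact Submodule.add_mem_sup hm2 hm4)
    have hXd : finrank F (Submodule.span F ({z, f z} : Set (ι → F))) = 2 := by
      have hz0 : z ≠ 0 := fun h0 => by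
        have hv2 : v ∈ Submodule.span F ({w, f w} : Set (ι → F)) := by
          rw [eq_neg_of_add_eq_zero_left h0]; exact Submodule.neg_mem _ hm3
        exact hQv (by rw [Submodule.disjoint_def.1 ((QuadType.isCompl_orth hP).disjoint.mono_right
          (hP2R.trans inf_le_right)) v hm1 hv2, q_zero hQ])
      have hinvX : (Submodule.span F ({z, f z} : Set (ι → F))).map f ≤ Submodule.span F {z, f z} := by
        rintro _ ⟨y, hy, rfl⟩
        obtain ⟨a, b, rfl⟩ := Submodule.mem_span_pair.1 hy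
        exact Submodule.mem_span_pair.2 ⟨-b, a, by rw [map_add f (a • z), map_smul, map_smul, hff]; module⟩
      obtain ⟨k, hk⟩ := even_of_sq_neg hns hff hinvX
      have h1 : 0 < finrank F (Submodule.span F ({z, f z} : Set (ι → F))) := Nat.pos_of_ne_zero fun h0 => hz0 (by
        have := Submodule.finrank_eq_zero.1 h0
        exact (Submodule.mem_bot F).1 (this ▸ Submodule.subset_span (by simp)))
      classical
      have h3 := finrank_span_finset_le_card (R := F) ({z, f z} : Finset (ι → F))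
      rw [Finset.coe_insert, Finset.coe_singleton] at h3
      have h4 : Set.finrank F ({z, f z} : Set (ι → F)) ≤ 2 := h3.trans Finset.card_le_two
      rw [Set.finrank] at h4
      omega
    have ho : W ≤ orth (qf hQ) (Submodule.span F {z, f z}) := fun y hy => mem_orth.2 fun u hu => by
      obtain ⟨a, ha, b, hb, rfl⟩ := Submodule.mem_sup.1 (hXP hu)
      rw [QuadraticMap.polar_add_left, mem_orth.1 (hWR hy).1.2 a ha, mem_orth.1 (hWR hy).2 b hb, add_zero]
    refine ⟨Submodule.span F {z, f z} ⊔ W, sup_le (hXP.trans (sup_le hPU (hP2R.trans inf_le_left)))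
        (hWR.trans (inf_le_left.trans inf_le_left)), ?_,
      singular_sup (Q := qf hQ) (fun y hy => by
        obtain ⟨a, b, rfl⟩ := Submodule.mem_span_pair.1 hy
        exact hQz a b) hWs ho, sup_map_le ?_ hWf⟩
    · have hd1 : Disjoint (Submodule.span F ({v, f v} : Set (ι → F)) ⊔ Submodule.span F {w, f w}) W := by
        have hS := nondegIn_sup hP hP2 (hP2R.trans inf_le_right)
        refine (QuadType.isCompl_orth hS.1).disjoint.mono_right fun y hy => mem_orth.2 fun u hu => ?_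
        obtain ⟨a, ha, b, hb, rfl⟩ := Submodule.mem_sup.1 hu
        rw [QuadraticMap.polar_add_left, mem_orth.1 (hWR hy).1.2 a ha, mem_orth.1 (hWR hy).2 b hb, add_zero]
      rw [finrank_sup_disjoint (hd1.mono_left hXP), hXd, hWd]
      omega
    · rintro _ ⟨y, hy, rfl⟩
      obtain ⟨a, b, rfl⟩ := Submodule.mem_span_pair.1 hy
      exact Submodule.mem_span_pair.2 ⟨-b, a, by rw [map_add f (a • z), map_smul, map_smul, hff]; module⟩

/-- An involution with both eigenspaces non-zero fixes non-degenerate subspaces of both types in every even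
dimension up to `n - 2`. -/
theorem exists_plane_split (h2 : (2 : F) ≠ 0) {x : GL ι F} {P M : Submodule F (ι → F)} (hPn : NondegIn (qf hQ) P)
    (hMn : NondegIn (qf hQ) M) (ho : M ≤ orth (qf hQ) P)
    (hP : ∀ v, v ∈ P ↔ (x : Matrix ι ι F) *ᵥ v = v) (hM : ∀ v, v ∈ M ↔ (x : Matrix ι ι F) *ᵥ v = -v)
    {a c : ℕ} (hPd : finrank F P = 2 * c) (hMd : finrank F M = 2 * a) (ha : 1 ≤ a) (hc : 1 ≤ c)
    {h : ℕ} (hh : 1 ≤ h) (hhn : h + 1 ≤ a + c) (b : Prop) :
    ∃ W : Submodule F (ι → F), W.map (Matrix.toLin' (x : Matrix ι ι F)) ≤ W ∧ NondegIn (qf hQ) W ∧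
      finrank F W = 2 * h ∧ (Plus (qf hQ) W ↔ b) := by
  classical
  obtain ⟨ns, hns⟩ := CfsgLib.Classical.Orth.exists_not_isSquare (F := F) h2
  set γ : F := if b then -1 else -ns with hγ
  have hγ0 : γ ≠ 0 := by
    rw [hγ]; split_ifs
    · exact neg_ne_zero.2 one_ne_zero
    · exact neg_ne_zero.2 fun h0 => hns (h0 ▸ IsSquare.zero)
  obtain ⟨u, hu, hQu⟩ := exists_value hMn (by omega) (1 : F)
  obtain ⟨w, hw, hQw⟩ := exists_value hPn (by omega) γ
  have hu0 : Q u ≠ 0 := by rw [show Q u = 1 from hQu]; exact one_ne_zero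
  have hw0 : Q w ≠ 0 := by rw [show Q w = γ from hQw]; exact hγ0
  have huw : QuadraticMap.polar Q u w = 0 := by
    rw [QuadraticMap.polar_comm]; exact mem_orth.1 (ho hu) w hw
  obtain ⟨hPl, hPld, hPlp⟩ := plane hQ h2 hu0 hw0 huw
  have hPlb : Plus (qf hQ) (Submodule.span F {u, w}) ↔ b := by
    rw [hPlp, show Q u = 1 from hQu, show Q w = γ from hQw, one_mul, hγ]
    split_ifs with hb
    · simp [hb]
    · simp [hb, hns]
  obtain ⟨hlu, hlu1⟩ := line_nondeg hQ h2 hu0
  obtain ⟨hlw, hlw1⟩ := line_nondeg hQ h2 hw0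
  obtain ⟨-, hM', hM'd⟩ := QuadType.split hMn hlu ((Submodule.span_singleton_le_iff_mem _ _).2 hu)
  obtain ⟨-, hP', hP'd⟩ := QuadType.split hPn hlw ((Submodule.span_singleton_le_iff_mem _ _).2 hw)
  obtain ⟨X, hX, hXn, hXd, hXp⟩ := QuadIsometry.exists_sub_type (min (h - 1) (a - 1)) hM' (by omega) True fun _ => trivial
  obtain ⟨Y, hY, hYn, hYd, hYp⟩ := QuadIsometry.exists_sub_type (h - 1 - min (h - 1) (a - 1)) hP' (by omega) True fun _ => trivial
  have hoXY : Y ≤ orth (qf hQ) X := fun v hv => mem_orth.2 fun z hz => by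
    rw [QuadraticMap.polar_comm]; exact mem_orth.1 (ho (hX hz).1) v (hY hv).1
  obtain ⟨hXY, hXYd⟩ := nondegIn_sup hXn hYn hoXY
  have hoS : X ⊔ Y ≤ orth (qf hQ) (Submodule.span F {u, w}) := fun v hv => mem_orth.2 fun z hz => by
    obtain ⟨p, hp, q, hq, rfl⟩ := Submodule.mem_sup.1 hv
    obtain ⟨s, t, rfl⟩ := Submodule.mem_span_pair.1 hz
    have e1 : QuadraticMap.polar Q u p = 0 := mem_orth.1 (hX hp).2 u (Submodule.mem_span_singleton_self u)
    have e2 : QuadraticMap.polar Q w q = 0 := mem_orth.1 (hY hq).2 w (Submodule.mem_span_singleton_self w)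
    have e3 : QuadraticMap.polar Q u q = 0 := by
      rw [QuadraticMap.polar_comm]; exact mem_orth.1 (ho hu) q (hY hq).1
    have e4 : QuadraticMap.polar Q w p = 0 := mem_orth.1 (ho (hX hp).1) w hw
    rw [QuadraticMap.polar_add_left, QuadraticMap.polar_add_right, QuadraticMap.polar_add_right,
      QuadraticMap.polar_smul_left, QuadraticMap.polar_smul_left, QuadraticMap.polar_smul_left,
      QuadraticMap.polar_smul_left]
    show s • QuadraticMap.polar Q u p + s • QuadraticMap.polar Q u q +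
      (t • QuadraticMap.polar Q w p + t • QuadraticMap.polar Q w q) = 0
    rw [e1, e2, e3, e4]; simp
  obtain ⟨hS, hSd⟩ := nondegIn_sup hPl hXY hoS
  refine ⟨Submodule.span F {u, w} ⊔ (X ⊔ Y), ?_, hS, ?_, ?_⟩
  · refine map_le_of_forall_mem fun v hv => ?_
    obtain ⟨p, hp, q, hq, rfl⟩ := Submodule.mem_sup.1 hv
    obtain ⟨s, t, rfl⟩ := Submodule.mem_span_pair.1 hp
    obtain ⟨q1, hq1, q2, hq2, rfl⟩ := Submodule.mem_sup.1 hq
    rw [Matrix.toLin'_apply, Matrix.mulVec_add, Matrix.mulVec_add, Matrix.mulVec_add, Matrix.mulVec_smul,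
      Matrix.mulVec_smul, (hM u).1 hu, (hP w).1 hw, (hM q1).1 (hX hq1).1, (hP q2).1 (hY hq2).1]
    exact Submodule.add_mem_sup (Submodule.mem_span_pair.2 ⟨-s, t, by module⟩)
      (Submodule.add_mem_sup (X.neg_mem hq1) hq2)
  · rw [finrank_sup_disjoint hSd, finrank_sup_disjoint hXYd, hPld, hXd, hYd]; omega
  · rw [plus_sup _ hPl hXY hoS (hPld ▸ even_two)
      (by rw [finrank_sup_disjoint hXYd, hXd, hYd]; exact (even_two_mul _).add (even_two_mul _)) rfl,
      plus_sup _ hXn hYn hoXY (hXd ▸ even_two_mul _) (hYd ▸ even_two_mul _) rfl, hPlb, hXp, hYp]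
    simp

/-- An involution with both eigenspaces non-zero fixes subspaces isometric to a given one of odd dimension. -/
theorem exists_odd_split (h2 : (2 : F) ≠ 0) {x : GL ι F} {P M : Submodule F (ι → F)} (hPn : NondegIn (qf hQ) P)
    (hMn : NondegIn (qf hQ) M) (ho : M ≤ orth (qf hQ) P)
    (hP : ∀ v, v ∈ P ↔ (x : Matrix ι ι F) *ᵥ v = v) (hM : ∀ v, v ∈ M ↔ (x : Matrix ι ι F) *ᵥ v = -v)
    {a c : ℕ} (hPd : finrank F P = 2 * c) (hMd : finrank F M = 2 * a) (ha : 1 ≤ a) (hc : 1 ≤ c)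
    {W₀ : Submodule F (ι → F)} (hW₀ : NondegIn (qf hQ) W₀) {h : ℕ} (hWd : finrank F W₀ = 2 * h + 1)
    (hhn : h + 2 ≤ a + c) :
    ∃ W : Submodule F (ι → F), AreIso (qf hQ) W₀ (qf hQ) W ∧ W.map (Matrix.toLin' (x : Matrix ι ι F)) ≤ W := by
  -- a vector plus a hyperbolic part
  obtain ⟨Y0, hY0, hY0n, hY0d, hY0p⟩ := QuadIsometry.exists_sub_type h hW₀ (by omega) True fun _ => trivial
  obtain ⟨hsup0, hR0, hdim0⟩ := QuadType.split hW₀ hY0n hY0
  obtain ⟨w0, hw0, hQw0⟩ := exists_aniso hQ hR0 (by omega)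
  have hspan0 : Submodule.span F {w0} = W₀ ⊓ orth (qf hQ) Y0 := Submodule.eq_of_le_of_finrank_eq
    ((Submodule.span_singleton_le_iff_mem _ _).2 hw0) (by
      rw [(line_nondeg hQ h2 hQw0).2]; omega)
  obtain ⟨u, hu, hQu⟩ := exists_value hMn (by omega) (Q w0)
  have hu0 : Q u ≠ 0 := by rw [show Q u = Q w0 from hQu]; exact hQw0
  obtain ⟨hlu, hlu1⟩ := line_nondeg hQ h2 hu0
  obtain ⟨-, hM', hM'd⟩ := QuadType.split hMn hlu ((Submodule.span_singleton_le_iff_mem _ _).2 hu)
  obtain ⟨X, hX, hXn, hXd, hXp⟩ := QuadIsometry.exists_sub_type (min h (a - 1)) hM' (by omega) True fun _ => trivial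
  obtain ⟨Y, hY, hYn, hYd, hYp⟩ := QuadIsometry.exists_sub_type (h - min h (a - 1)) hPn (by omega) True fun _ => trivial
  have hoXY : Y ≤ orth (qf hQ) X := fun v hv => mem_orth.2 fun z hz => by
    rw [QuadraticMap.polar_comm]; exact mem_orth.1 (ho (hX hz).1) v (hY hv)
  obtain ⟨hXY, hXYd⟩ := nondegIn_sup hXn hYn hoXY
  have hou : Submodule.span F {u} ≤ orth (qf hQ) (X ⊔ Y) := fun v hv => mem_orth.2 fun z hz => by
    obtain ⟨t, rfl⟩ := Submodule.mem_span_singleton.1 hv
    obtain ⟨p, hp, q, hq, rfl⟩ := Submodule.mem_sup.1 hz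
    rw [QuadraticMap.polar_smul_right, QuadraticMap.polar_add_left]
    have e1 : QuadraticMap.polar (qf hQ) p u = 0 := by
      rw [QuadraticMap.polar_comm]; exact mem_orth.1 (hX hp).2 u (Submodule.mem_span_singleton_self u)
    have e2 : QuadraticMap.polar (qf hQ) q u = 0 := mem_orth.1 (ho hu) q (hY hq)
    rw [e1, e2, add_zero, smul_zero]
  obtain ⟨hS, hSd⟩ := nondegIn_sup hXY hlu hou
  have hXYdim : finrank F ↥(X ⊔ Y) = 2 * h := by rw [finrank_sup_disjoint hXYd, hXd, hYd]; omega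
  have hiso1 : AreIso (qf hQ) Y0 (qf hQ) (X ⊔ Y) := areIso_of_plus_iff hY0n hXY (hY0d.trans hXYdim.symm)
    (hXYdim ▸ even_two_mul h) (by
      rw [plus_sup _ hXn hYn hoXY (hXd ▸ even_two_mul _) (hYd ▸ even_two_mul _) rfl, hY0p, hXp, hYp]; simp)
  have hu_ne : u ≠ 0 := fun h0 => hu0 (by rw [h0, q_zero hQ])
  have hw_ne : w0 ≠ 0 := fun h0 => hQw0 (by rw [h0, q_zero hQ])
  have hiso2 : AreIso (qf hQ) (W₀ ⊓ orth (qf hQ) Y0) (qf hQ) (Submodule.span F {u}) := by
    rw [← hspan0]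
    refine ⟨(LinearEquiv.toSpanNonzeroSingleton F (ι → F) w0 hw_ne).symm.trans
      (LinearEquiv.toSpanNonzeroSingleton F (ι → F) u hu_ne), fun z => ?_⟩
    obtain ⟨t, rfl⟩ := (LinearEquiv.toSpanNonzeroSingleton F (ι → F) w0 hw_ne).surjective z
    rw [LinearEquiv.trans_apply, LinearEquiv.symm_apply_apply]
    show Q (t • u) = Q (t • w0)
    rw [q_smul hQ, q_smul hQ, show Q u = Q w0 from hQu]
  have hiso := hiso1.sup hiso2 inf_le_right hou ((QuadType.isCompl_orth hY0n).disjoint.mono_right inf_le_right) hSd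
  rw [hsup0] at hiso
  refine ⟨_, hiso, ?_⟩
  refine map_le_of_forall_mem fun v hv => ?_
  obtain ⟨p, hp, q, hq, rfl⟩ := Submodule.mem_sup.1 hv
  obtain ⟨q1, hq1, q2, hq2, rfl⟩ := Submodule.mem_sup.1 hp
  obtain ⟨t, rfl⟩ := Submodule.mem_span_singleton.1 hq
  rw [Matrix.toLin'_apply, Matrix.mulVec_add, Matrix.mulVec_add, Matrix.mulVec_smul, (hM u).1 hu,
    (hM q1).1 (hX hq1).1, (hP q2).1 (hY hq2)]
  exact Submodule.add_mem_sup (Submodule.add_mem_sup (X.neg_mem hq1) hq2)
    (Submodule.mem_span_singleton.2 ⟨-t, by module⟩)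

end CfsgLib.Classical.Semisimple.QuadTwo
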