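import Cfsg.Agent.LinAlg.Witt.Decomp
import Cfsg.Agent.LinAlg.Witt.Forms

/-!
Types of non-degenerate subspaces of a quadratic space over a finite field: plus type, isometry
between subspaces, embedding of smaller spaces, multiplicativity of the type.
-/

set_option autoImplicit false

namespace CfsgLib.Classical.Semisimple.QuadType

open Module

variable {F : Type*} [Field F]
variable {V : Type*} [AddCommGroup V] [Module F V] {Q : QuadraticForm F V}
variable {V' : Type*} [AddCommGroup V'] [Module F V'] {Q' : QuadraticForm F V'}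
variable {V'' : Type*} [AddCommGroup V''] [Module F V''] {Q'' : QuadraticForm F V''}

local notation "pol" => QuadraticMap.polar

/-- The polar form restricted to `U` has trivial radical. -/
def NondegIn (Q : QuadraticForm F V) (U : Submodule F V) : Prop :=
  ∀ x ∈ U, (∀ y ∈ U, QuadraticMap.polar Q x y = 0) → x = 0

/-- `Q` vanishes on `U`. -/
def Singular (Q : QuadraticForm F V) (U : Submodule F V) : Prop := ∀ x ∈ U, Q x = 0

/-- `U` has a singular subspace of half its dimension. -/
def Plus (Q : QuadraticForm F V) (U : Submodule F V) : Prop :=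
  ∃ L ≤ U, Singular Q L ∧ 2 * finrank F L = finrank F U

/-- The two subspaces are isometric. -/
def AreIso (Q : QuadraticForm F V) (U : Submodule F V) (Q' : QuadraticForm F V') (U' : Submodule F V') :
    Prop :=
  ∃ e : U ≃ₗ[F] U', ∀ u : U, Q' ((e u : U') : V') = Q (u : V)

/-- The orthogonal space. -/
abbrev orth (Q : QuadraticForm F V) (U : Submodule F V) : Submodule F V :=
  LinearMap.BilinForm.orthogonal (QuadraticMap.polarBilin Q) U

theorem mem_orth {U : Submodule F V} {x : V} : x ∈ orth Q U ↔ ∀ y ∈ U, pol Q y x = 0 :=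
  LinearMap.BilinForm.mem_orthogonal_iff

theorem isRefl : LinearMap.BilinForm.IsRefl (QuadraticMap.polarBilin Q) := fun x y h => by
  rw [QuadraticMap.polarBilin_apply_apply, QuadraticMap.polar_comm]; exact h

theorem le_orth_comm {X Y : Submodule F V} (h : Y ≤ orth Q X) : X ≤ orth Q Y := fun x hx =>
  mem_orth.2 fun y hy => by rw [QuadraticMap.polar_comm]; exact mem_orth.1 (h hy) x hx

theorem singular_bot : Singular Q (⊥ : Submodule F V) := fun x hx => by
  rw [(Submodule.mem_bot F).1 hx, QuadraticMap.map_zero]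

theorem nondegIn_bot : NondegIn Q (⊥ : Submodule F V) := fun x hx _ => (Submodule.mem_bot F).1 hx

theorem Singular.polar_eq {X : Submodule F V} (h : Singular Q X) {x y : V} (hx : x ∈ X) (hy : y ∈ X) :
    pol Q x y = 0 := by
  simp [QuadraticMap.polar, h _ (X.add_mem hx hy), h x hx, h y hy]

theorem singular_sup {X Y : Submodule F V} (hX : Singular Q X) (hY : Singular Q Y) (ho : Y ≤ orth Q X) :
    Singular Q (X ⊔ Y) := by
  intro z hz
  obtain ⟨a, ha, b, hb, rfl⟩ := Submodule.mem_sup.1 hz
  rw [QuadraticMap.map_add (⇑Q), hX a ha, hY b hb, mem_orth.1 (ho hb) a ha]; simp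

theorem nondegIn_sup {X Y : Submodule F V} (hX : NondegIn Q X) (hY : NondegIn Q Y) (ho : Y ≤ orth Q X) :
    NondegIn Q (X ⊔ Y) ∧ Disjoint X Y := by
  refine ⟨fun z hz h => ?_, Submodule.disjoint_def.2 fun x hx hxY => hX x hx fun a ha => ?_⟩
  · obtain ⟨a, ha, b, hb, rfl⟩ := Submodule.mem_sup.1 hz
    have h1 : a = 0 := hX a ha fun a' ha' => by
      have h2 := h a' (Submodule.mem_sup_left ha')
      rwa [QuadraticMap.polar_add_left, QuadraticMap.polar_comm (⇑Q) b, mem_orth.1 (ho hb) a' ha', add_zero] at h2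
    rw [h1, zero_add]
    refine hY b hb fun b' hb' => ?_
    have h2 := h b' (Submodule.mem_sup_right hb')
    rwa [h1, zero_add] at h2
  · rw [QuadraticMap.polar_comm]; exact mem_orth.1 (ho hxY) a ha

theorem AreIso.refl (U : Submodule F V) : AreIso Q U Q U := ⟨LinearEquiv.refl F U, fun _ => rfl⟩

theorem AreIso.symm {U : Submodule F V} {U' : Submodule F V'} (h : AreIso Q U Q' U') : AreIso Q' U' Q U := by
  obtain ⟨e, he⟩ := h
  exact ⟨e.symm, fun u => by rw [← he, LinearEquiv.apply_symm_apply]⟩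

theorem AreIso.trans {U : Submodule F V} {U' : Submodule F V'} {U'' : Submodule F V''}
    (h : AreIso Q U Q' U') (h' : AreIso Q' U' Q'' U'') : AreIso Q U Q'' U'' := by
  obtain ⟨e, he⟩ := h
  obtain ⟨e', he'⟩ := h'
  exact ⟨e.trans e', fun u => by rw [LinearEquiv.trans_apply, he', he]⟩

theorem AreIso.finrank_eq {U : Submodule F V} {U' : Submodule F V'} (h : AreIso Q U Q' U') :
    finrank F U = finrank F U' := by
  obtain ⟨e, -⟩ := h; exact e.finrank_eq

theorem polar_of_iso {U : Submodule F V} {U' : Submodule F V'} (e : U ≃ₗ[F] U')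
    (he : ∀ u : U, Q' ((e u : U') : V') = Q (u : V)) (u v : U) :
    pol Q' (e u : V') (e v : V') = pol Q (u : V) (v : V) := by
  simp only [QuadraticMap.polar]
  rw [← Submodule.coe_add, ← map_add, he, he, he, Submodule.coe_add]

theorem AreIso.nondeg {U : Submodule F V} {U' : Submodule F V'} (h : AreIso Q U Q' U') (hU : NondegIn Q U) :
    NondegIn Q' U' := by
  obtain ⟨e, he⟩ := h
  intro x hx h0
  have : e.symm ⟨x, hx⟩ = 0 := Subtype.ext (hU _ (e.symm ⟨x, hx⟩).2 fun y hy => by
    have h1 := polar_of_iso e he (e.symm ⟨x, hx⟩) ⟨y, hy⟩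
    rw [LinearEquiv.apply_symm_apply, h0 _ (e ⟨y, hy⟩).2] at h1
    exact h1.symm)
  simpa using congrArg (fun z => ((e z : U') : V')) this

/-- The image of a subspace under an isometry of subspaces. -/
theorem AreIso.map_le {U X : Submodule F V} {U' : Submodule F V'} (h : AreIso Q U Q' U') (hX : X ≤ U) :
    ∃ X' ≤ U', AreIso Q X Q' X' := by
  obtain ⟨e, he⟩ := h
  let g : X →ₗ[F] V' := U'.subtype ∘ₗ e.toLinearMap ∘ₗ Submodule.inclusion hX
  have hg : Function.Injective g := fun a b hab => by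
    have h1 := e.injective (Subtype.ext hab)
    exact Subtype.ext (congrArg (fun z : U => (z : V)) h1)
  refine ⟨LinearMap.range g, ?_, LinearEquiv.ofInjective g hg, fun u => ?_⟩
  · rintro _ ⟨u, rfl⟩; exact (e _).2
  · exact he _

theorem AreIso.plus {U : Submodule F V} {U' : Submodule F V'} (h : AreIso Q U Q' U') (hp : Plus Q U) :
    Plus Q' U' := by
  obtain ⟨L, hL, hLs, hLd⟩ := hp
  obtain ⟨L', hL', f, hf⟩ := h.map_le hL
  refine ⟨L', hL', fun x hx => ?_, ?_⟩
  · have := hf (f.symm ⟨x, hx⟩)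
    rw [LinearEquiv.apply_symm_apply, hLs _ (f.symm ⟨x, hx⟩).2] at this
    exact this
  · rw [← f.finrank_eq, ← h.finrank_eq, hLd]

theorem AreIso.plus_iff {U : Submodule F V} {U' : Submodule F V'} (h : AreIso Q U Q' U') :
    Plus Q U ↔ Plus Q' U' := ⟨h.plus, h.symm.plus⟩

/-- Gluing isometries along orthogonal sums. -/
theorem AreIso.sup {X Y : Submodule F V} {X' Y' : Submodule F V'} (hX : AreIso Q X Q' X')
    (hY : AreIso Q Y Q' Y') (ho : Y ≤ orth Q X) (ho' : Y' ≤ orth Q' X') (hd : Disjoint X Y)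
    (hd' : Disjoint X' Y') : AreIso Q (X ⊔ Y) Q' (X' ⊔ Y') := by
  obtain ⟨e, he⟩ := hX
  obtain ⟨f, hf⟩ := hY
  let p : (X × Y) →ₗ[F] V := X.subtype.coprod Y.subtype
  let p' : (X × Y) →ₗ[F] V' := (X'.subtype ∘ₗ e.toLinearMap).coprod (Y'.subtype ∘ₗ f.toLinearMap)
  have hp : Function.Injective p := LinearMap.ker_eq_bot.1 ((Submodule.eq_bot_iff _).2 fun z hz => by
    have h0 : (z.1 : V) + z.2 = 0 := hz
    have h1 : (z.1 : V) = 0 := Submodule.disjoint_def.1 hd _ z.1.2 (by
      rw [eq_neg_of_add_eq_zero_left h0]; exact Y.neg_mem z.2.2)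
    rw [h1, zero_add] at h0
    exact Prod.ext (Subtype.ext h1) (Subtype.ext h0))
  have hp' : Function.Injective p' := LinearMap.ker_eq_bot.1 ((Submodule.eq_bot_iff _).2 fun z hz => by
    have h0 : ((e z.1 : X') : V') + (f z.2 : Y') = 0 := hz
    have h1 : ((e z.1 : X') : V') = 0 := Submodule.disjoint_def.1 hd' _ (e z.1).2 (by
      rw [eq_neg_of_add_eq_zero_left h0]; exact Y'.neg_mem (f z.2).2)
    rw [h1, zero_add] at h0
    exact Prod.ext (e.map_eq_zero_iff.1 (Subtype.ext h1)) (f.map_eq_zero_iff.1 (Subtype.ext h0)))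
  have hr : LinearMap.range p = X ⊔ Y := by
    rw [LinearMap.range_coprod, Submodule.range_subtype, Submodule.range_subtype]
  have hr' : LinearMap.range p' = X' ⊔ Y' := by
    rw [LinearMap.range_coprod, LinearMap.range_comp, LinearMap.range_comp, LinearEquiv.range,
      LinearEquiv.range, Submodule.map_top, Submodule.map_top, Submodule.range_subtype, Submodule.range_subtype]
  refine ⟨((LinearEquiv.ofEq _ _ hr).symm.trans (LinearEquiv.ofInjective p hp).symm).trans
    ((LinearEquiv.ofInjective p' hp').trans (LinearEquiv.ofEq _ _ hr')), fun u => ?_⟩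
  obtain ⟨z, hz⟩ : (u : V) ∈ LinearMap.range p := hr.symm ▸ u.2
  have hzu : (LinearEquiv.ofInjective p hp).symm ((LinearEquiv.ofEq _ _ hr).symm u) = z := by
    rw [LinearEquiv.symm_apply_eq]; exact Subtype.ext hz.symm
  rw [LinearEquiv.trans_apply, LinearEquiv.trans_apply, LinearEquiv.trans_apply, hzu, ← hz]
  show Q' (((e z.1 : X') : V') + (f z.2 : Y')) = Q ((z.1 : V) + z.2)
  rw [QuadraticMap.map_add (⇑Q'), QuadraticMap.map_add (⇑Q), he, hf, mem_orth.1 (ho z.2.2) _ z.1.2,
    mem_orth.1 (ho' (f z.2).2) _ (e z.1).2]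

variable [FiniteDimensional F V]

theorem isCompl_orth {W : Submodule F V} (hW : NondegIn Q W) : IsCompl W (orth Q W) :=
  LinearMap.BilinForm.isCompl_orthogonal_of_restrict_nondegenerate isRefl
    ⟨fun x h => Subtype.ext (hW x x.2 fun y hy => h ⟨y, hy⟩),
      fun x h => Subtype.ext (hW x x.2 fun y hy => by
        rw [QuadraticMap.polar_comm]; exact h ⟨y, hy⟩)⟩

/-- Splitting off a non-degenerate subspace. -/
theorem split {U W : Submodule F V} (hU : NondegIn Q U) (hW : NondegIn Q W) (hle : W ≤ U) :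
    W ⊔ U ⊓ orth Q W = U ∧ NondegIn Q (U ⊓ orth Q W) ∧
      finrank F W + finrank F ↥(U ⊓ orth Q W) = finrank F U := by
  have hc := isCompl_orth hW
  have h1 : W ⊔ U ⊓ orth Q W = U := by
    refine le_antisymm (sup_le hle inf_le_left) fun x hx => ?_
    obtain ⟨w, hw, o, ho, rfl⟩ := Submodule.mem_sup.1 (hc.sup_eq_top ▸ Submodule.mem_top : x ∈ W ⊔ orth Q W)
    exact Submodule.add_mem_sup hw ⟨by simpa using U.sub_mem hx (hle hw), ho⟩
  refine ⟨h1, fun x hx h => hU x hx.1 fun y hy => ?_, ?_⟩
  · obtain ⟨w, hw, o, ho, rfl⟩ := Submodule.mem_sup.1 (h1.symm ▸ hy : y ∈ W ⊔ U ⊓ orth Q W)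
    rw [QuadraticMap.polar_add_right, h o ho, QuadraticMap.polar_comm, mem_orth.1 hx.2 w hw, add_zero]
  · rw [← finrank_add_of_disjoint' (hc.disjoint.mono_right inf_le_right), h1]
where
  finrank_add_of_disjoint' {X Y : Submodule F V} (h : Disjoint X Y) :
      finrank F ↥(X ⊔ Y) = finrank F X + finrank F Y := by
    have h1 := Submodule.finrank_sup_add_finrank_inf_eq X Y
    rw [h.eq_bot, finrank_bot] at h1
    omega

theorem finrank_sup_disjoint {X Y : Submodule F V} (h : Disjoint X Y) :
    finrank F ↥(X ⊔ Y) = finrank F X + finrank F Y := by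
  have h1 := Submodule.finrank_sup_add_finrank_inf_eq X Y
  rw [h.eq_bot, finrank_bot] at h1
  omega

/-- Witt cancellation inside a non-degenerate subspace. -/
theorem cancel {U X X' : Submodule F V} (hU : NondegIn Q U) (hX : NondegIn Q X) (hXU : X ≤ U)
    (hX'U : X' ≤ U) (h : AreIso Q X Q X') : AreIso Q (U ⊓ orth Q X) Q (U ⊓ orth Q X') := by
  obtain ⟨e, he⟩ := h
  let QU : QuadraticForm F U := Q.comp U.subtype
  have hker : LinearMap.ker (QuadraticMap.polarBilin QU) = ⊥ :=
    LinearMap.ker_eq_bot'.2 fun x hx => Subtype.ext (hU x x.2 fun y hy => LinearMap.congr_fun hx ⟨y, hy⟩)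
  let φ : X.comap U.subtype →ₗ[F] U :=
    LinearMap.codRestrict U (X'.subtype ∘ₗ e.toLinearMap ∘ₗ
      LinearMap.codRestrict X (U.subtype ∘ₗ (X.comap U.subtype).subtype) fun z => z.2) fun z => hX'U (e _).2
  have hφ : Function.Injective φ := fun a b hab => by
    have h1 := congrArg (fun z : U => (z : V)) hab
    have h2 := congrArg (fun z : X => (z : V)) (e.injective (Subtype.ext h1))
    exact Subtype.ext (Subtype.ext h2)
  obtain ⟨g, hg, hgx⟩ := CfsgLib.LinAlg.Witt.witt_quadratic QU hker _ φ hφ fun x => he _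
  have hgX : ∀ x (hx : x ∈ X), (g ⟨x, hXU hx⟩ : V) = e ⟨x, hx⟩ := fun x hx => by
    have h1 := congrArg (fun z : U => (z : V)) (hgx ⟨⟨x, hXU hx⟩, hx⟩)
    exact h1
  have hgp : ∀ u v : U, pol Q (g u : V) (g v : V) = pol Q (u : V) (v : V) := fun u v => by
    have h1 : ∀ w : U, Q (g w : V) = Q (w : V) := hg
    simp only [QuadraticMap.polar, ← Submodule.coe_add, ← map_add, h1]
  let ψ : ↥(U ⊓ orth Q X) →ₗ[F] ↥(U ⊓ orth Q X') := LinearMap.codRestrict _
    (U.subtype ∘ₗ g.toLinearMap ∘ₗ Submodule.inclusion inf_le_left) fun u => ⟨(g _).2, mem_orth.2 fun y hy => by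
      obtain ⟨x, hx⟩ : ∃ x : X, (e x : V) = y := ⟨e.symm ⟨y, hy⟩, by simp⟩
      rw [← hx, ← hgX x.1 x.2]
      show pol Q (g ⟨x, hXU x.2⟩ : V) (g _ : V) = 0
      rw [hgp]
      exact mem_orth.1 u.2.2 x x.2⟩
  have hψ : Function.Bijective ψ := by
    refine ⟨fun a b hab => ?_, fun w => ?_⟩
    · have h1 := congrArg (fun z : ↥(U ⊓ orth Q X') => (z : V)) hab
      exact Subtype.ext (congrArg (fun z : U => (z : V)) (g.injective (Subtype.ext h1)))
    · have hmem : ((g.symm ⟨w, w.2.1⟩ : U) : V) ∈ U ⊓ orth Q X := ⟨(g.symm _).2, mem_orth.2 fun y hy => by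
        have h1 := hgp ⟨y, hXU hy⟩ (g.symm ⟨w, w.2.1⟩)
        rw [LinearEquiv.apply_symm_apply, hgX y hy, mem_orth.1 w.2.2 _ (e _).2] at h1
        exact h1.symm⟩
      exact ⟨⟨_, hmem⟩, Subtype.ext (congrArg (fun z : U => (z : V)) (g.apply_symm_apply ⟨w, w.2.1⟩))⟩
  exact ⟨LinearEquiv.ofBijective ψ hψ, fun u => hg _⟩

/-- A singular vector in a non-degenerate subspace lies in a hyperbolic plane. -/
theorem exists_pair {U : Submodule F V} (hU : NondegIn Q U) {x : V} (hx : x ∈ U) (hx0 : x ≠ 0)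
    (hQx : Q x = 0) : ∃ y ∈ U, Q y = 0 ∧ pol Q x y = 1 := by
  obtain ⟨z, hz, hxz⟩ : ∃ z ∈ U, pol Q x z ≠ 0 := by
    by_contra h
    push Not at h
    exact hx0 (hU x hx h)
  obtain ⟨z', hz'U, hz'⟩ : ∃ z' ∈ U, pol Q x z' = 1 :=
    ⟨(pol Q x z)⁻¹ • z, U.smul_mem _ hz, by
      rw [QuadraticMap.polar_smul_right, smul_eq_mul, inv_mul_cancel₀ hxz]⟩
  refine ⟨z' - Q z' • x, U.sub_mem hz'U (U.smul_mem _ hx), ?_, ?_⟩
  · rw [sub_eq_add_neg, ← neg_smul, QuadraticMap.map_add (⇑Q), QuadraticMap.map_smul, hQx,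
      QuadraticMap.polar_smul_right, QuadraticMap.polar_comm (⇑Q) z' x, hz']
    simp
  · rw [QuadraticMap.polar_sub_right, QuadraticMap.polar_smul_right, QuadraticMap.polar_self, hQx, hz']
    simp

omit [FiniteDimensional F V] in
theorem plane_spec {x y : V} (hQx : Q x = 0) (hQy : Q y = 0) (hxy : pol Q x y = 1) :
    NondegIn Q (Submodule.span F {x, y}) ∧ finrank F ↥(Submodule.span F ({x, y} : Set V)) = 2 ∧
      Plus Q (Submodule.span F {x, y}) := by
  have hxx : pol Q x x = 0 := by rw [QuadraticMap.polar_self, hQx, smul_zero]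
  have hyy : pol Q y y = 0 := by rw [QuadraticMap.polar_self, hQy, smul_zero]
  have hyx : pol Q y x = 1 := by rw [QuadraticMap.polar_comm, hxy]
  have hli : LinearIndependent F ![x, y] := by
    rw [LinearIndependent.pair_iff]
    intro s t hst
    have h1 := congrArg (fun z => pol Q x z) hst
    have h2 := congrArg (fun z => pol Q y z) hst
    simp [QuadraticMap.polar_add_right, QuadraticMap.polar_smul_right, hxx, hxy, hyy, hyx] at h1 h2
    exact ⟨h2, h1⟩
  have hd : finrank F ↥(Submodule.span F ({x, y} : Set V)) = 2 := by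
    have h := finrank_span_eq_card hli
    rwa [Fintype.card_fin, Matrix.range_cons_cons_empty] at h
  refine ⟨fun z hz h => ?_, hd, Submodule.span F {x}, Submodule.span_mono (by simp), fun z hz => ?_, ?_⟩
  · obtain ⟨a, b, rfl⟩ := Submodule.mem_span_pair.1 hz
    have h1 := h x (Submodule.subset_span (by simp))
    have h2 := h y (Submodule.subset_span (by simp))
    simp [QuadraticMap.polar_add_left, QuadraticMap.polar_smul_left, hxx, hxy, hyy, hyx] at h1 h2
    simp [h1, h2]
  · obtain ⟨a, rfl⟩ := Submodule.mem_span_singleton.1 hz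
    rw [QuadraticMap.map_smul, hQx, smul_zero]
  · rw [finrank_span_singleton (show x ≠ 0 from fun h => by simp [h] at hxy), hd]

omit [FiniteDimensional F V] in
theorem plane_param {x y : V} (hQx : Q x = 0) (hQy : Q y = 0) (hxy : pol Q x y = 1) :
    ∃ e : (Fin 2 → F) ≃ₗ[F] ↥(Submodule.span F ({x, y} : Set V)), ∀ c, Q (e c : V) = c 0 * c 1 := by
  let p : (Fin 2 → F) →ₗ[F] V := (LinearMap.proj 0).smulRight x + (LinearMap.proj 1).smulRight y
  have hp : Function.Injective p := LinearMap.ker_eq_bot.1 ((Submodule.eq_bot_iff _).2 fun c hc => by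
    have hc' : c 0 • x + c 1 • y = 0 := hc
    have h1 := congrArg (fun z => pol Q x z) hc'
    have h2 := congrArg (fun z => pol Q y z) hc'
    simp [QuadraticMap.polar_add_right, QuadraticMap.polar_smul_right, QuadraticMap.polar_self, hQx, hQy, hxy,
      QuadraticMap.polar_comm (⇑Q) y x] at h1 h2
    funext j; fin_cases j <;> simp [h1, h2])
  have hr : LinearMap.range p = Submodule.span F {x, y} := by
    ext z
    rw [Submodule.mem_span_pair, LinearMap.mem_range]
    exact ⟨fun ⟨c, hc⟩ => ⟨c 0, c 1, hc⟩, fun ⟨s, t, h⟩ => ⟨![s, t], h⟩⟩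
  refine ⟨(LinearEquiv.ofInjective p hp).trans (LinearEquiv.ofEq _ _ hr), fun c => ?_⟩
  show Q (c 0 • x + c 1 • y) = c 0 * c 1
  rw [QuadraticMap.map_add (⇑Q), QuadraticMap.map_smul, QuadraticMap.map_smul, hQx, hQy,
    QuadraticMap.polar_smul_left, QuadraticMap.polar_smul_right, hxy]
  simp

omit [FiniteDimensional F V] in
theorem plane_iso {x y : V} (hQx : Q x = 0) (hQy : Q y = 0) (hxy : pol Q x y = 1) {x' y' : V'}
    (hQx' : Q' x' = 0) (hQy' : Q' y' = 0) (hxy' : pol Q' x' y' = 1) :
    AreIso Q (Submodule.span F {x, y}) Q' (Submodule.span F {x', y'}) := by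
  obtain ⟨e, he⟩ := plane_param hQx hQy hxy
  obtain ⟨e', he'⟩ := plane_param hQx' hQy' hxy'
  exact ⟨e.symm.trans e', fun u => by rw [LinearEquiv.trans_apply, he', ← he, LinearEquiv.apply_symm_apply]⟩

/-- Removing a hyperbolic plane keeps the type. -/
theorem peel {U : Submodule F V} (hU : NondegIn Q U) {x y : V} (hx : x ∈ U) (hy : y ∈ U)
    (hQx : Q x = 0) (hQy : Q y = 0) (hxy : pol Q x y = 1) :
    ∀ R : Submodule F V, R = U ⊓ orth Q (Submodule.span F {x, y}) →
      NondegIn Q R ∧ finrank F R + 2 = finrank F U ∧ Submodule.span F {x, y} ⊔ R = U ∧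
        (Plus Q U ↔ Plus Q R) := by
  rintro R rfl
  obtain ⟨hH, hHd, ⟨L1, hL1, hL1s, hL1d⟩⟩ := plane_spec hQx hQy hxy
  have hHU : Submodule.span F {x, y} ≤ U := Submodule.span_le.2 (by rintro z (rfl | rfl) <;> assumption)
  obtain ⟨hsup, hR, hdim⟩ := split hU hH hHU
  refine ⟨hR, by omega, hsup, ?_, ?_⟩
  swap
  · rintro ⟨L, hL, hLs, hLd⟩
    refine ⟨L1 ⊔ L, sup_le (hL1.trans hHU) (hL.trans inf_le_left), singular_sup hL1s hLs ?_, ?_⟩
    · exact fun z hz => mem_orth.2 fun w hw => mem_orth.1 (hL hz).2 w (hL1 hw)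
    · rw [finrank_sup_disjoint ((isCompl_orth hH).disjoint.mono hL1 (hL.trans inf_le_right))]
      omega
  rintro ⟨L, hL, hLs, hLd⟩
  obtain ⟨v, hv, hv0⟩ := Submodule.exists_mem_ne_zero_of_ne_bot (show L ≠ ⊥ from fun h => by
    rw [h, finrank_bot] at hLd; omega)
  obtain ⟨w, hw, hQw, hvw⟩ := exists_pair hU (hL hv) hv0 (hLs v hv)
  have hH'U : Submodule.span F {v, w} ≤ U := Submodule.span_le.2 (by
    rintro z (rfl | rfl)
    · exact hL hv
    · exact hw)
  obtain ⟨hH', hH'd, -⟩ := plane_spec (hLs v hv) hQw hvw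
  have hp : Plus Q (U ⊓ orth Q (Submodule.span F {v, w})) := by
    refine ⟨L ⊓ orth Q (Submodule.span F {v, w}), inf_le_inf_right _ hL, fun z hz => hLs z hz.1, ?_⟩
    obtain ⟨-, -, hdim'⟩ := split hU hH' hH'U
    -- `L` is `span v` plus the part orthogonal to `w`
    have hsupL : Submodule.span F {v} ⊔ (L ⊓ orth Q (Submodule.span F {v, w})) = L := by
      refine le_antisymm (sup_le ((Submodule.span_singleton_le_iff_mem v L).2 hv) inf_le_left) fun z hz => ?_
      refine Submodule.mem_sup.2 ⟨pol Q w z • v, Submodule.smul_mem _ _ (Submodule.subset_span rfl),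
        z - pol Q w z • v, ⟨L.sub_mem hz (L.smul_mem _ hv), mem_orth.2 fun u hu => ?_⟩, by abel⟩
      obtain ⟨a, b, rfl⟩ := Submodule.mem_span_pair.1 hu
      simp only [QuadraticMap.polar_add_left, QuadraticMap.polar_smul_left, QuadraticMap.polar_sub_right,
        QuadraticMap.polar_smul_right, hLs.polar_eq hv hz, hLs.polar_eq hv hv, QuadraticMap.polar_comm (⇑Q) w v,
        hvw, smul_eq_mul]
      ring
    have h1 := finrank_sup_disjoint (X := Submodule.span F {v}) (Y := L ⊓ orth Q (Submodule.span F {v, w}))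
      ((isCompl_orth hH').disjoint.mono (Submodule.span_mono (by simp)) inf_le_right)
    rw [hsupL, finrank_span_singleton hv0] at h1
    omega
  exact (cancel hU hH' hH'U hHU (plane_iso (hLs v hv) hQw hvw hQx hQy hxy)).plus hp

variable [Finite F]

theorem exists_singular_vector {U : Submodule F V} (hd : 3 ≤ finrank F U) :
    ∃ x ∈ U, x ≠ 0 ∧ Q x = 0 := by
  by_contra h
  push Not at h
  have := CfsgLib.LinAlg.Witt.finrank_le_two_of_aniso Q U fun w hw hQ => by
    by_contra h0; exact h w hw h0 hQ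
  omega

omit [Finite F] in
theorem plus_of_finrank_zero {U : Submodule F V} (h : finrank F U = 0) : Plus Q U :=
  ⟨⊥, bot_le, singular_bot, by rw [finrank_bot, h]⟩

omit [Finite F] in
theorem not_plus_of_odd {U : Submodule F V} (h : Odd (finrank F U)) : ¬ Plus Q U := fun ⟨L, _, _, hL⟩ => by
  rw [← hL] at h; exact absurd (even_two_mul _) (Nat.not_even_iff_odd.2 h)

omit [Finite F] in
theorem not_plus_of_aniso {U : Submodule F V} (hd : 0 < finrank F U) (han : ∀ w ∈ U, Q w = 0 → w = 0) :
    ¬ Plus Q U := fun ⟨L, hL, hLs, hLd⟩ => by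
  rw [(Submodule.eq_bot_iff L).2 fun x hx => han x (hL hx) (hLs x hx), finrank_bot] at hLd
  omega

omit [Finite F] in
/-- A plane which is not of plus type is anisotropic. -/
theorem aniso_of_not_plus {U : Submodule F V} (hd : finrank F U = 2) (h : ¬ Plus Q U) :
    ∀ w ∈ U, Q w = 0 → w = 0 := fun w hw hQ => by
  by_contra h0
  refine h ⟨Submodule.span F {w}, (Submodule.span_singleton_le_iff_mem w U).2 hw, fun z hz => ?_, by
    rw [finrank_span_singleton h0, hd]⟩
  obtain ⟨a, rfl⟩ := Submodule.mem_span_singleton.1 hz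
  rw [QuadraticMap.map_smul, hQ, smul_zero]

/-- The dimension of a non-degenerate subspace is even in characteristic two. -/
theorem even_finrank_of_two (h2 : (2 : F) = 0) :
    ∀ (N : ℕ) {U : Submodule F V}, NondegIn Q U → finrank F U = N → Even N := by
  intro N
  induction N using Nat.strong_induction_on with
  | _ N ih =>
    intro U hU hd
    rcases (show N = 0 ∨ N = 1 ∨ N = 2 ∨ 3 ≤ N by omega) with rfl | rfl | rfl | h3
    · exact Even.zero
    · exfalso
      obtain ⟨x, hx, hx0⟩ := Submodule.exists_mem_ne_zero_of_ne_bot (show U ≠ ⊥ from fun h => by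
        rw [h, finrank_bot] at hd; omega)
      refine hx0 (hU x hx fun y hy => ?_)
      obtain ⟨c, hc⟩ := exists_smul_eq_of_finrank_eq_one hd (x := (⟨x, hx⟩ : U))
        (fun h => hx0 (congrArg Subtype.val h)) ⟨y, hy⟩
      have hc' : c • x = y := congrArg Subtype.val hc
      rw [← hc', QuadraticMap.polar_smul_right, QuadraticMap.polar_self, two_nsmul,
        show Q x + Q x = 2 * Q x by ring, h2, zero_mul, smul_zero]
    · exact even_two
    · obtain ⟨x, hx, hx0, hQx⟩ := exists_singular_vector (Q := Q) (show 3 ≤ finrank F U by omega)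
      obtain ⟨y, hy, hQy, hxy⟩ := exists_pair hU hx hx0 hQx
      obtain ⟨hR, hRd, -, -⟩ := peel hU hx hy hQx hQy hxy _ rfl
      have h := ih (N - 2) (by omega) hR (by omega)
      rw [show N = N - 2 + 2 by omega]
      exact h.add even_two

theorem exists_no_root : ∃ μ : F, ∀ t : F, t ^ 2 + t + μ ≠ 0 := by
  have hni : ¬ Function.Injective fun t : F => t ^ 2 + t := fun h => by
    have : (-1 : F) = 0 := h (by ring)
    simp at this
  obtain ⟨μ, hμ⟩ := not_forall.1 fun hs : Function.Surjective fun t : F => t ^ 2 + t =>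
    hni (Finite.injective_iff_surjective.2 hs)
  exact ⟨-μ, fun t ht => hμ ⟨t, eq_of_sub_eq_zero (by linear_combination ht)⟩⟩

omit [Finite F] in
/-- Every value is taken on a non-degenerate space of dimension at least two. -/
theorem exists_value [Finite F] {U : Submodule F V} (hU : NondegIn Q U) (hd : 2 ≤ finrank F U) (c : F) :
    ∃ x ∈ U, Q x = c := by
  by_cases hiso : ∃ x ∈ U, x ≠ 0 ∧ Q x = 0
  · obtain ⟨x, hx, hx0, hQx⟩ := hiso
    obtain ⟨y, hy, hQy, hxy⟩ := exists_pair hU hx hx0 hQx
    refine ⟨x + c • y, U.add_mem hx (U.smul_mem c hy), ?_⟩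
    rw [QuadraticMap.map_add (⇑Q), QuadraticMap.map_smul, hQx, hQy, QuadraticMap.polar_smul_right, hxy]
    simp
  push Not at hiso
  have han : ∀ w ∈ U, Q w = 0 → w = 0 := fun w hw h => by
    by_contra h0; exact hiso w hw h0 h
  have hd2 : finrank F U = 2 := le_antisymm (CfsgLib.LinAlg.Witt.finrank_le_two_of_aniso Q U han) hd
  obtain ⟨v, w, hv, hw, hli, -, hQv, hvw, hμ⟩ := CfsgLib.LinAlg.Witt.aniso_plane Q U hd2 han hU
  by_cases h2 : (2 : F) = 0
  · obtain ⟨s, hs⟩ := FiniteField.isSquare_of_char_two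
      (CharP.ringChar_of_prime_eq_zero Nat.prime_two (by simpa using h2)) c
    exact ⟨s • v, U.smul_mem s hv, by rw [QuadraticMap.map_smul, hQv, smul_eq_mul, mul_one, hs]⟩
  have h4 : (4 : F) ≠ 0 := by rw [show (4 : F) = 2 * 2 by norm_num]; exact mul_ne_zero h2 h2
  have hb : Q w - 1 / 4 ≠ 0 := fun h => hμ (-1 / 2) (by
    field_simp at h ⊢
    linear_combination h)
  obtain ⟨a, b, hab⟩ := CfsgLib.LinAlg.Witt.exists_sum_two_sq h2 (one_ne_zero : (1 : F) ≠ 0) hb c
  refine ⟨(a - b / 2) • v + b • w, U.add_mem (U.smul_mem _ hv) (U.smul_mem _ hw), ?_⟩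
  rw [QuadraticMap.map_add (⇑Q), QuadraticMap.map_smul, QuadraticMap.map_smul, hQv,
    QuadraticMap.polar_smul_left, QuadraticMap.polar_smul_right, hvw, ← hab]
  simp only [smul_eq_mul]
  field_simp
  ring

omit [Finite F] in
theorem exists_artin_eq [Finite F] (h2 : (2 : F) = 0) {μ μ' : F} (hμ : ∀ t : F, t ^ 2 + t + μ ≠ 0)
    (hμ' : ∀ t : F, t ^ 2 + t + μ' ≠ 0) : ∃ t : F, t ^ 2 + t = μ + μ' := by
  classical
  haveI : Fintype F := Fintype.ofFinite F
  haveI : CharP F 2 := CharP.ringChar_of_prime_eq_zero Nat.prime_two (by simpa using h2) ▸ inferInstance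
  let φ : F →+ F := AddMonoidHom.mk' (fun t => t ^ 2 + t) fun a b => by
    rw [add_sq, h2]; ring
  have hk : Nat.card φ.ker = 2 := by
    have : (φ.ker : Set F) = {0, 1} := by
      ext x
      rw [SetLike.mem_coe, AddMonoidHom.mem_ker]
      show x ^ 2 + x = 0 ↔ x ∈ ({0, 1} : Set F)
      rw [show x ^ 2 + x = x * (x + 1) by ring, mul_eq_zero, CharTwo.add_eq_zero]
      simp
    rw [show Nat.card φ.ker = Nat.card (φ.ker : Set F) from rfl, this, Nat.card_coe_set_eq,
      Set.ncard_pair zero_ne_one]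
  have hidx : φ.range.index = 2 := by
    have h1 := φ.range.card_mul_index
    have h2 := φ.ker.card_mul_index
    rw [hk, AddSubgroup.index_ker] at h2
    have h3 : 0 < Nat.card φ.range := Nat.card_pos
    nlinarith
  have hn : ∀ ν : F, (∀ t : F, t ^ 2 + t + ν ≠ 0) → ν ∉ φ.range := fun ν hν ⟨t, ht⟩ => hν t (by
    show φ t + ν = 0
    rw [ht, CharTwo.add_self_eq_zero])
  exact (AddSubgroup.add_mem_iff_of_index_two hidx).2 (iff_of_false (hn _ hμ) (hn _ hμ'))

omit [Finite F] in
/-- Two anisotropic planes are isometric. -/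
theorem aniso_iso [Finite F] [FiniteDimensional F V'] {A : Submodule F V} {A' : Submodule F V'}
    (hA : NondegIn Q A) (hA' : NondegIn Q' A') (hd : finrank F A = 2) (hd' : finrank F A' = 2)
    (han : ∀ w ∈ A, Q w = 0 → w = 0) (han' : ∀ w ∈ A', Q' w = 0 → w = 0) :
    AreIso Q A Q' A' := by
  obtain ⟨v, w, hv, hw, hli, -, hQv, hvw, hμ⟩ := CfsgLib.LinAlg.Witt.aniso_plane Q A hd han hA
  obtain ⟨v', w', hv', hw', hli', -, hQv', hvw', hμ'⟩ :=
    CfsgLib.LinAlg.Witt.aniso_plane Q' A' hd' han' hA'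
  obtain ⟨s, t, hs, hst, hq⟩ : ∃ s t : F, s ≠ 0 ∧ s + 2 * t = 1 ∧ t ^ 2 + s * t + s ^ 2 * Q' w' = Q w := by
    by_cases h2 : (2 : F) = 0
    · haveI : CharP F 2 := CharP.ringChar_of_prime_eq_zero Nat.prime_two (by simpa using h2) ▸ inferInstance
      obtain ⟨t, ht⟩ := exists_artin_eq h2 hμ hμ'
      refine ⟨1, t, one_ne_zero, by rw [h2]; ring, ?_⟩
      linear_combination ht + Q' w' * h2
    have h4 : (4 : F) ≠ 0 := by rw [show (4 : F) = 2 * 2 by norm_num]; exact mul_ne_zero h2 h2
    have hns : ∀ ν : F, (∀ t : F, t ^ 2 + t + ν ≠ 0) → ¬ IsSquare (1 - 4 * ν) := by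
      rintro ν hν ⟨y, hy⟩
      refine hν ((y - 1) / 2) ?_
      field_simp
      linear_combination -hy
    obtain ⟨y, hy⟩ : IsSquare ((1 - 4 * Q w) / (1 - 4 * Q' w')) := by
      letI := Fintype.ofFinite F
      classical
      have e : ∀ {x : F}, ¬ IsSquare x → quadraticChar F x = -1 := fun hx =>
        quadraticChar_neg_one_iff_not_isSquare.2 hx
      have hne : (1 - 4 * Q w) / (1 - 4 * Q' w') ≠ 0 := div_ne_zero
        (fun h => hns _ hμ (h ▸ IsSquare.zero)) (fun h => hns _ hμ' (h ▸ IsSquare.zero))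
      rw [← quadraticChar_one_iff_isSquare hne, div_eq_mul_inv, map_mul, e (hns _ hμ),
        e (fun h => hns _ hμ' (by simpa using h.inv))]
      norm_num
    have hne' : 1 - 4 * Q' w' ≠ 0 := fun h => hns _ hμ' (h ▸ IsSquare.zero)
    have hy0 : y ≠ 0 := fun h => by
      rw [h, mul_zero, div_eq_zero_iff] at hy
      exact hy.elim (fun h1 => hns _ hμ (h1 ▸ IsSquare.zero)) hne'
    rw [div_eq_iff hne'] at hy
    refine ⟨y, (1 - y) / 2, hy0, by field_simp; ring, ?_⟩
    field_simp
    linear_combination hy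
  set w'' := s • w' + t • v' with hw''
  have hB' : pol Q' v' w'' = 1 := by
    rw [hw'', QuadraticMap.polar_add_right, QuadraticMap.polar_smul_right, QuadraticMap.polar_smul_right, hvw',
      QuadraticMap.polar_self, hQv']
    simp only [smul_eq_mul, nsmul_eq_mul, Nat.cast_ofNat, mul_one]
    linear_combination hst
  have hQw'' : Q' w'' = Q w := by
    rw [hw'', QuadraticMap.map_add (⇑Q'), QuadraticMap.map_smul, QuadraticMap.map_smul, hQv',
      QuadraticMap.polar_smul_left, QuadraticMap.polar_smul_right, QuadraticMap.polar_comm (⇑Q') w' v', hvw']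
    simp only [smul_eq_mul]
    linear_combination hq
  have hmemA : ![v, w] 0 ∈ A ∧ ![v, w] 1 ∈ A := ⟨hv, hw⟩
  let b : Basis (Fin 2) F A := basisOfLinearIndependentOfCardEqFinrank
    (b := ![(⟨v, hv⟩ : A), ⟨w, hw⟩]) (LinearIndependent.of_comp A.subtype (by
      convert hli using 1; funext j; fin_cases j <;> rfl)) (by rw [hd]; rfl)
  let φ : A →ₗ[F] A' := b.constr F ![(⟨v', hv'⟩ : A'), ⟨w'', A'.add_mem (A'.smul_mem _ hw') (A'.smul_mem _ hv')⟩]
  have hb : ∀ j, b j = ![(⟨v, hv⟩ : A), ⟨w, hw⟩] j := fun j => by simp [b]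
  have hQφ : ∀ a : A, Q' (φ a : V') = Q (a : V) := fun a => by
    obtain ⟨x, y, rfl⟩ : ∃ x y : F, a = x • b 0 + y • b 1 :=
      ⟨b.repr a 0, b.repr a 1, by rw [← Fin.sum_univ_two (fun j => b.repr a j • b j), b.sum_repr]⟩
    have e0 : φ (b 0) = ⟨v', hv'⟩ := b.constr_basis F _ 0
    have e1 : φ (b 1) = ⟨w'', A'.add_mem (A'.smul_mem _ hw') (A'.smul_mem _ hv')⟩ := b.constr_basis F _ 1
    rw [map_add, map_smul, map_smul, e0, e1, hb, hb]
    show Q' (x • v' + y • w'') = Q (x • v + y • w)
    rw [QuadraticMap.map_add (⇑Q'), QuadraticMap.map_add (⇑Q), QuadraticMap.map_smul, QuadraticMap.map_smul,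
      QuadraticMap.map_smul, QuadraticMap.map_smul, hQv', hQv, hQw'', QuadraticMap.polar_smul_left,
      QuadraticMap.polar_smul_right, QuadraticMap.polar_smul_left, QuadraticMap.polar_smul_right, hB', hvw]
  have hinj : Function.Injective φ := LinearMap.ker_eq_bot.1 ((Submodule.eq_bot_iff _).2 fun a ha => by
    refine Subtype.ext (han a a.2 ?_)
    rw [← hQφ, LinearMap.mem_ker.1 ha]; exact QuadraticMap.map_zero Q')
  exact ⟨LinearEquiv.ofBijective φ
    ⟨hinj, (LinearMap.injective_iff_surjective_of_finrank_eq_finrank (hd.trans hd'.symm)).1 hinj⟩, hQφ⟩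

omit [Finite F] in
/-- A smaller space, or an even space of the same dimension and type, embeds isometrically. -/
theorem exists_iso_sub [Finite F] [FiniteDimensional F V'] :
    ∀ (N : ℕ) {R : Submodule F V'} {U : Submodule F V}, NondegIn Q' R → NondegIn Q U → finrank F R = N →
      (N < finrank F U ∨ (N = finrank F U ∧ Even N ∧ (Plus Q' R ↔ Plus Q U))) →
      ∃ U' ≤ U, AreIso Q' R Q U' := by
  intro N
  induction N using Nat.strong_induction_on with
  | _ N ih =>
    intro R U hR hU hd hcase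
    have hRU : N ≤ finrank F U := hcase.elim le_of_lt (fun h => h.1.le)
    rcases (show N = 0 ∨ N = 1 ∨ N = 2 ∨ 3 ≤ N by omega) with rfl | rfl | rfl | h3
    · have : Subsingleton R := Module.finrank_zero_iff.1 hd
      refine ⟨⊥, bot_le, LinearEquiv.ofFinrankEq _ _ (by rw [hd, finrank_bot]), fun u => ?_⟩
      rw [Subsingleton.elim u 0, map_zero, Submodule.coe_zero, Submodule.coe_zero, QuadraticMap.map_zero,
        QuadraticMap.map_zero]
    · obtain ⟨r, hr, hr0⟩ := Submodule.exists_mem_ne_zero_of_ne_bot (show R ≠ ⊥ from fun h => by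
        rw [h, finrank_bot] at hd; omega)
      have hU2 : 2 ≤ finrank F U := hcase.elim id fun h => absurd h.2.1 (by decide)
      have hQr : Q' r ≠ 0 := fun h => hr0 (hR r hr fun y hy => by
        obtain ⟨c, hc⟩ := exists_smul_eq_of_finrank_eq_one hd (x := (⟨r, hr⟩ : R))
          (fun h => hr0 (congrArg Subtype.val h)) ⟨y, hy⟩
        have hc' : c • r = y := congrArg Subtype.val hc
        rw [← hc', QuadraticMap.polar_smul_right, QuadraticMap.polar_self, h, smul_zero, smul_zero])
      obtain ⟨x, hx, hQx⟩ := exists_value hU hU2 (Q' r)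
      have hx0 : x ≠ 0 := fun h => hQr (by rw [← hQx, h, QuadraticMap.map_zero])
      refine ⟨Submodule.span F {x}, (Submodule.span_singleton_le_iff_mem x U).2 hx, ?_⟩
      have hRs : R = Submodule.span F {r} := (Submodule.eq_of_le_of_finrank_eq
        ((Submodule.span_singleton_le_iff_mem r R).2 hr) (by rw [finrank_span_singleton hr0, hd])).symm
      subst hRs
      refine ⟨(LinearEquiv.toSpanNonzeroSingleton F V' r hr0).symm.trans
        (LinearEquiv.toSpanNonzeroSingleton F V x hx0), fun u => ?_⟩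
      obtain ⟨c, hc⟩ : ∃ c, LinearEquiv.toSpanNonzeroSingleton F V' r hr0 c = u := ⟨_, LinearEquiv.apply_symm_apply _ u⟩
      rw [← hc, LinearEquiv.trans_apply, LinearEquiv.symm_apply_apply]
      show Q (c • x) = Q' (c • r)
      rw [QuadraticMap.map_smul, QuadraticMap.map_smul, hQx]
    · by_cases hp : Plus Q' R
      · obtain ⟨L, hL, hLs, hLd⟩ := hp
        obtain ⟨x', hx', hx'0⟩ := Submodule.exists_mem_ne_zero_of_ne_bot (show L ≠ ⊥ from fun h => by
          rw [h, finrank_bot] at hLd; omega)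
        obtain ⟨y', hy', hQy', hxy'⟩ := exists_pair hR (hL hx') hx'0 (hLs x' hx')
        obtain ⟨x, hx, hx0, hQx⟩ : ∃ x ∈ U, x ≠ 0 ∧ Q x = 0 := by
          rcases hcase with h | ⟨h, -, hiff⟩
          · exact exists_singular_vector h
          · obtain ⟨L1, hL1, hL1s, hL1d⟩ := hiff.1 ⟨L, hL, hLs, hLd⟩
            obtain ⟨x, hx, hx0⟩ := Submodule.exists_mem_ne_zero_of_ne_bot (show L1 ≠ ⊥ from fun h' => by
              rw [h', finrank_bot] at hL1d; omega)
            exact ⟨x, hL1 hx, hx0, hL1s x hx⟩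
        obtain ⟨y, hy, hQy, hxy⟩ := exists_pair hU hx hx0 hQx
        refine ⟨Submodule.span F {x, y}, Submodule.span_le.2 (by rintro z (rfl | rfl) <;> assumption), ?_⟩
        have hle : Submodule.span F {x', y'} ≤ R := Submodule.span_le.2 (by
          rintro z (rfl | rfl)
          · exact hL hx'
          · exact hy')
        have hReq : Submodule.span F {x', y'} = R := Submodule.eq_of_le_of_finrank_eq hle
          ((plane_spec (hLs x' hx') hQy' hxy').2.1.trans hd.symm)
        rw [← hReq]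
        exact plane_iso (hLs x' hx') hQy' hxy' hQx hQy hxy
      · have han' := aniso_of_not_plus hd hp
        obtain ⟨A, hAU, hA, hAd, han⟩ : ∃ A ≤ U, NondegIn Q A ∧ finrank F A = 2 ∧
            ∀ w ∈ A, Q w = 0 → w = 0 := by
          rcases (show finrank F U = 2 ∨ 3 ≤ finrank F U by omega) with h | h
          · refine ⟨U, le_rfl, hU, h, aniso_of_not_plus h fun hpU => hp ?_⟩
            exact (hcase.resolve_left (by omega)).2.2.2 hpU
          obtain ⟨x, hx, hx0, hQx⟩ := exists_singular_vector (Q := Q) h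
          obtain ⟨y, hy, hQy, hxy⟩ := exists_pair hU hx hx0 hQx
          obtain ⟨hR1, hR1d, -, -⟩ := peel hU hx hy hQx hQy hxy _ rfl
          obtain ⟨μ, hμ⟩ := exists_no_root (F := F)
          obtain ⟨β, z, hz, hval⟩ : ∃ β : F, ∃ z ∈ U ⊓ orth Q (Submodule.span F {x, y}),
              β * (1 - β) + Q z = μ := by
            rcases (show finrank F U = 3 ∨ 2 ≤ finrank F ↥(U ⊓ orth Q (Submodule.span F {x, y})) by omega)
              with h1 | h1
            · have h1' : finrank F ↥(U ⊓ orth Q (Submodule.span F {x, y})) = 1 := by omega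
              have h2F : (2 : F) ≠ 0 := fun h2 => by
                have := even_finrank_of_two h2 _ hR1 h1'
                simp at this
              obtain ⟨z, hz, hz0⟩ := Submodule.exists_mem_ne_zero_of_ne_bot
                (show U ⊓ orth Q (Submodule.span F {x, y}) ≠ ⊥ from fun h => by
                  rw [h, finrank_bot] at h1'; omega)
              have hQz : Q z ≠ 0 := fun hQz => hz0 (hR1 z hz fun y' hy' => by
                obtain ⟨c, hc⟩ := exists_smul_eq_of_finrank_eq_one h1'
                  (x := (⟨z, hz⟩ : ↥(U ⊓ orth Q (Submodule.span F {x, y}))))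
                  (fun h => hz0 (congrArg Subtype.val h)) ⟨y', hy'⟩
                have hc' : c • z = y' := congrArg Subtype.val hc
                rw [← hc', QuadraticMap.polar_smul_right, QuadraticMap.polar_self, hQz, smul_zero, smul_zero])
              obtain ⟨γ, δ, hγ⟩ := CfsgLib.LinAlg.Witt.exists_sum_two_sq h2F
                (neg_ne_zero.2 (one_ne_zero : (1 : F) ≠ 0)) hQz (μ - 1 / 4)
              refine ⟨γ + 1 / 2, δ • z, Submodule.smul_mem _ _ hz, ?_⟩
              have h4 : (4 : F) ≠ 0 := by rw [show (4 : F) = 2 * 2 by norm_num]; exact mul_ne_zero h2F h2F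
              rw [QuadraticMap.map_smul, smul_eq_mul]
              field_simp at hγ ⊢
              linear_combination hγ
            · obtain ⟨z, hz, hQz⟩ := exists_value hR1 h1 μ
              exact ⟨0, z, hz, by rw [hQz]; ring⟩
          have hyx : pol Q y x = 1 := by rw [QuadraticMap.polar_comm, hxy]
          have hxz : pol Q x z = 0 := mem_orth.1 hz.2 x (Submodule.subset_span (by simp))
          have hyz : pol Q y z = 0 := mem_orth.1 hz.2 y (Submodule.subset_span (by simp))
          set u := x + y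
          set w := β • x + (1 - β) • y + z with hwdef
          have hQu : Q u = 1 := by rw [QuadraticMap.map_add (⇑Q), hQx, hQy, hxy]; simp
          have huw : pol Q u w = 1 := by
            simp [u, hwdef, QuadraticMap.polar_add_left, QuadraticMap.polar_add_right, QuadraticMap.polar_smul_right,
              QuadraticMap.polar_self, hQx, hQy, hxy, hyx, hxz, hyz]
          have hQw : Q w = μ := by
            rw [hwdef, QuadraticMap.map_add (⇑Q), QuadraticMap.map_add (⇑Q)]
            simp [QuadraticMap.map_smul, QuadraticMap.polar_add_left, QuadraticMap.polar_smul_left,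
              QuadraticMap.polar_smul_right, hQx, hQy, hxy, hxz, hyz]
            linear_combination hval
          have hval2 : ∀ a b : F, Q (a • u + b • w) = a * a + a * b + μ * (b * b) := fun a b => by
            rw [QuadraticMap.map_add (⇑Q), QuadraticMap.map_smul, QuadraticMap.map_smul,
              QuadraticMap.polar_smul_left, QuadraticMap.polar_smul_right, hQu, hQw, huw]
            simp only [smul_eq_mul]; ring
          have hzero : ∀ a b : F, a * a + a * b + μ * (b * b) = 0 → a = 0 ∧ b = 0 := fun a b h => by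
            by_cases hb : b = 0
            · subst hb
              exact ⟨mul_self_eq_zero.1 (by linear_combination h), rfl⟩
            · refine absurd ?_ (hμ (a / b))
              field_simp
              linear_combination h
          have hanA : ∀ v ∈ Submodule.span F ({u, w} : Set V), Q v = 0 → v = 0 := fun v hv hQv => by
            obtain ⟨a, b, rfl⟩ := Submodule.mem_span_pair.1 hv
            obtain ⟨ha, hb⟩ := hzero a b ((hval2 a b).symm.trans hQv)
            simp [ha, hb]
          have hli : LinearIndependent F ![u, w] := LinearIndependent.pair_iff.2 fun a b h => hzero a b (by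
            rw [← hval2, h, QuadraticMap.map_zero])
          refine ⟨Submodule.span F {u, w}, Submodule.span_le.2 ?_, fun v hv h => ?_, ?_, hanA⟩
          · rintro v (rfl | rfl)
            · exact U.add_mem hx hy
            · exact U.add_mem (U.add_mem (U.smul_mem _ hx) (U.smul_mem _ hy)) hz.1
          · obtain ⟨a, b, rfl⟩ := Submodule.mem_span_pair.1 hv
            have h1 := h u (Submodule.subset_span (by simp))
            have h2 := h w (Submodule.subset_span (by simp))
            have hwu : pol Q w u = 1 := by rw [QuadraticMap.polar_comm, huw]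
            simp [QuadraticMap.polar_add_left, QuadraticMap.polar_smul_left, QuadraticMap.polar_self, hQu, hQw,
              huw, hwu] at h1 h2
            obtain ⟨ha, hb⟩ := hzero a b (by
              by_cases h2F : (2 : F) = 0
              · have hb0 : b = 0 := by linear_combination h1 - a * h2F
                have ha0 : a = 0 := by linear_combination h2 - μ * b * h2F
                rw [ha0, hb0]; ring
              · refine (mul_eq_zero.1 ?_).resolve_left h2F
                linear_combination a * h1 + b * h2)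
            simp [ha, hb]
          · have h1 := finrank_span_eq_card hli
            rwa [Fintype.card_fin, Matrix.range_cons_cons_empty] at h1
        exact ⟨A, hAU, aniso_iso hR hA hd hAd han' han⟩
    · obtain ⟨x', hx', hx'0, hQx'⟩ := exists_singular_vector (Q := Q') (show 3 ≤ finrank F R by omega)
      obtain ⟨y', hy', hQy', hxy'⟩ := exists_pair hR hx' hx'0 hQx'
      obtain ⟨hR1, hR1d, hR1s, hR1p⟩ := peel hR hx' hy' hQx' hQy' hxy' _ rfl
      obtain ⟨x, hx, hx0, hQx⟩ := exists_singular_vector (Q := Q) (show 3 ≤ finrank F U by omega)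
      obtain ⟨y, hy, hQy, hxy⟩ := exists_pair hU hx hx0 hQx
      obtain ⟨hU1, hU1d, hU1s, hU1p⟩ := peel hU hx hy hQx hQy hxy _ rfl
      obtain ⟨U', hU', hiso⟩ := ih (N - 2) (by omega) hR1 hU1 (by omega) (by
        rcases hcase with h | ⟨h, he, hiff⟩
        · left; omega
        · exact Or.inr ⟨by omega, (Nat.even_sub (by omega)).2 ⟨fun _ => even_two, fun _ => he⟩,
            hR1p.symm.trans (hiff.trans hU1p)⟩)
      refine ⟨Submodule.span F {x, y} ⊔ U', sup_le
        (Submodule.span_le.2 (by rintro z (rfl | rfl) <;> assumption)) (hU'.trans inf_le_left), ?_⟩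
      have h := (plane_iso hQx' hQy' hxy' hQx hQy hxy).sup hiso inf_le_right (hU'.trans inf_le_right)
        ((isCompl_orth (plane_spec hQx' hQy' hxy').1).disjoint.mono_right inf_le_right)
        ((isCompl_orth (plane_spec hQx hQy hxy).1).disjoint.mono_right (hU'.trans inf_le_right))
      rwa [hR1s] at h

omit [Finite F] in
/-- Non-degenerate even subspaces with the same dimension and type are isometric. -/
theorem areIso_of_plus_iff [Finite F] [FiniteDimensional F V'] {R : Submodule F V'} {U : Submodule F V}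
    (hR : NondegIn Q' R) (hU : NondegIn Q U) (hd : finrank F R = finrank F U) (he : Even (finrank F U))
    (hp : Plus Q' R ↔ Plus Q U) : AreIso Q' R Q U := by
  obtain ⟨U', hU', hiso⟩ := exists_iso_sub (finrank F R) hR hU rfl (Or.inr ⟨hd, hd.symm ▸ he, hp⟩)
  rwa [Submodule.eq_of_le_of_finrank_eq hU' (hiso.finrank_eq.symm.trans hd)] at hiso

/-- The type is multiplicative. -/
theorem plus_sup : ∀ (N : ℕ) {X Y : Submodule F V}, NondegIn Q X → NondegIn Q Y → Y ≤ orth Q X →
    Even (finrank F X) → Even (finrank F Y) → finrank F X + finrank F Y = N →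
    (Plus Q (X ⊔ Y) ↔ (Plus Q X ↔ Plus Q Y)) := by
  intro N
  induction N using Nat.strong_induction_on with
  | _ N ih =>
    intro X Y hX hY ho heX heY hd
    -- peeling the first summand
    have step : ∀ {X Y : Submodule F V}, NondegIn Q X → NondegIn Q Y → Y ≤ orth Q X →
        Even (finrank F X) → Even (finrank F Y) → finrank F X + finrank F Y = N →
        (∃ x ∈ X, x ≠ 0 ∧ Q x = 0) → (Plus Q (X ⊔ Y) ↔ (Plus Q X ↔ Plus Q Y)) := by
      intro X Y hX hY ho heX heY hd ⟨x, hx, hx0, hQx⟩
      obtain ⟨y, hy, hQy, hxy⟩ := exists_pair hX hx hx0 hQx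
      obtain ⟨hR, hRd, hRs, hRp⟩ := peel hX hx hy hQx hQy hxy _ rfl
      obtain ⟨-, -, -, hTp⟩ := peel (nondegIn_sup hX hY ho).1 (Submodule.mem_sup_left hx) (Submodule.mem_sup_left hy)
        hQx hQy hxy _ rfl
      have hYH : Y ≤ orth Q (Submodule.span F {x, y}) := fun v hv => mem_orth.2 fun u hu =>
        mem_orth.1 (ho hv) u (Submodule.span_le.2 (by rintro z (rfl | rfl) <;> assumption) hu)
      rw [hTp, hRp, sup_comm X Y, sup_inf_assoc_of_le X hYH, sup_comm Y]
      exact ih _ (by omega) hR hY (fun v hv => mem_orth.2 fun u hu => mem_orth.1 (ho hv) u hu.1)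
        ((Nat.even_add.1 (hRd.symm ▸ heX : Even (_ + 2))).2 even_two) heY rfl
    by_cases hXs : ∃ x ∈ X, x ≠ 0 ∧ Q x = 0
    · exact step hX hY ho heX heY hd hXs
    by_cases hYs : ∃ y ∈ Y, y ≠ 0 ∧ Q y = 0
    · rw [sup_comm, Iff.comm (a := Plus Q X)]
      exact step hY hX (le_orth_comm ho) heY heX (by omega) hYs
    push Not at hXs hYs
    have hanX : ∀ w ∈ X, Q w = 0 → w = 0 := fun w hw h => by by_contra h0; exact hXs w hw h0 h
    have hanY : ∀ w ∈ Y, Q w = 0 → w = 0 := fun w hw h => by by_contra h0; exact hYs w hw h0 h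
    have hX2 : finrank F X = 0 ∨ finrank F X = 2 := by
      have := CfsgLib.LinAlg.Witt.finrank_le_two_of_aniso Q X hanX
      obtain ⟨a, ha⟩ := heX; omega
    have hY2 : finrank F Y = 0 ∨ finrank F Y = 2 := by
      have := CfsgLib.LinAlg.Witt.finrank_le_two_of_aniso Q Y hanY
      obtain ⟨a, ha⟩ := heY; omega
    rcases hX2 with hX0 | hX2
    · rw [Submodule.finrank_eq_zero.1 hX0, bot_sup_eq]
      exact ⟨fun h => iff_of_true (plus_of_finrank_zero (by simp)) h, fun h => h.1 (plus_of_finrank_zero (by simp))⟩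
    rcases hY2 with hY0 | hY2
    · rw [Submodule.finrank_eq_zero.1 hY0, sup_bot_eq]
      exact ⟨fun h => iff_of_true h (plus_of_finrank_zero (by simp)), fun h => h.2 (plus_of_finrank_zero (by simp))⟩
    refine iff_of_true ?_ (iff_of_false (not_plus_of_aniso (by omega) hanX) (not_plus_of_aniso (by omega) hanY))
    -- the graph of an anti-isometry
    have hY' : NondegIn (-Q) Y := fun v hv h => hY v hv fun w hw => by
      have := h w hw
      simp only [QuadraticMap.polar, neg_apply] at this ⊢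
      linear_combination -this
    obtain ⟨e, he⟩ := aniso_iso (Q := Q) (Q' := -Q) hX hY' hX2 hY2 hanX
      (fun w hw h => hanY w hw (by simpa using h))
    obtain ⟨-, hdisj⟩ := nondegIn_sup hX hY ho
    let g : X →ₗ[F] V := X.subtype + Y.subtype ∘ₗ e.toLinearMap
    have hg : Function.Injective g := LinearMap.ker_eq_bot.1 ((Submodule.eq_bot_iff _).2 fun u hu => by
      have h0 : (u : V) + (e u : Y) = 0 := hu
      exact Subtype.ext (Submodule.disjoint_def.1 hdisj _ u.2 (by
        rw [eq_neg_of_add_eq_zero_left h0]; exact Y.neg_mem (e u).2)))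
    refine ⟨LinearMap.range g, ?_, ?_, ?_⟩
    · rintro _ ⟨u, rfl⟩; exact Submodule.add_mem_sup u.2 (e u).2
    · rintro _ ⟨u, rfl⟩
      show Q ((u : V) + (e u : Y)) = 0
      have h1 := he u
      rw [QuadraticMap.neg_apply] at h1
      rw [QuadraticMap.map_add (⇑Q), mem_orth.1 (ho (e u).2) _ u.2, ← h1]
      ring
    · rw [LinearMap.finrank_range_of_inj hg, finrank_sup_disjoint hdisj]; omega

/-- The Witt index: dimensions of singular subspaces. -/
theorem exists_singular_iff : ∀ (N : ℕ) {U : Submodule F V}, NondegIn Q U → finrank F U = N → ∀ j,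
    (∃ L ≤ U, Singular Q L ∧ finrank F L = j) ↔
      (2 * j ≤ N ∧ (2 * j = N → Plus Q U)) := by
  intro N
  induction N using Nat.strong_induction_on with
  | _ N ih =>
    intro U hU hd j
    rcases Nat.eq_zero_or_pos j with rfl | hj
    · exact ⟨fun _ => ⟨by omega, fun h => plus_of_finrank_zero (by omega)⟩,
        fun _ => ⟨⊥, bot_le, singular_bot, finrank_bot F V⟩⟩
    constructor
    · rintro ⟨L, hL, hLs, hLd⟩
      obtain ⟨x, hx, hx0⟩ := Submodule.exists_mem_ne_zero_of_ne_bot (show L ≠ ⊥ from fun h => by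
        rw [h, finrank_bot] at hLd; omega)
      obtain ⟨y, hy, hQy, hxy⟩ := exists_pair hU (hL hx) hx0 (hLs x hx)
      obtain ⟨hR, hRd, -, hRp⟩ := peel hU (hL hx) hy (hLs x hx) hQy hxy _ rfl
      have hsub : L ⊓ orth Q (Submodule.span F {x, y}) ≤ U ⊓ orth Q (Submodule.span F {x, y}) :=
        inf_le_inf_right _ hL
      have hsupL : L ≤ Submodule.span F {x} ⊔ (L ⊓ orth Q (Submodule.span F {x, y})) := fun z hz => by
        refine Submodule.mem_sup.2 ⟨pol Q y z • x, Submodule.smul_mem _ _ (Submodule.subset_span rfl),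
          z - pol Q y z • x, ⟨L.sub_mem hz (L.smul_mem _ hx), mem_orth.2 fun u hu => ?_⟩, by abel⟩
        obtain ⟨a, b, rfl⟩ := Submodule.mem_span_pair.1 hu
        simp only [QuadraticMap.polar_add_left, QuadraticMap.polar_smul_left, QuadraticMap.polar_sub_right,
          QuadraticMap.polar_smul_right, hLs.polar_eq hx hz, hLs.polar_eq hx hx,
          QuadraticMap.polar_comm (⇑Q) y x, hxy, smul_eq_mul]
        ring
      have h1 := (Submodule.finrank_mono hsupL).trans_eq (finrank_sup_disjoint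
        ((isCompl_orth (plane_spec (hLs x hx) hQy hxy).1).disjoint.mono (Submodule.span_mono (by simp)) inf_le_right))
      rw [finrank_span_singleton hx0, hLd] at h1
      obtain ⟨hle, hpl⟩ := (ih (N - 2) (by omega) hR (by omega) _).1 ⟨_, hsub, fun z hz => hLs z hz.1, rfl⟩
      exact ⟨by omega, fun h => hRp.2 (hpl (by omega))⟩
    · rintro ⟨hle, hpl⟩
      obtain ⟨x, hx, hx0, hQx⟩ : ∃ x ∈ U, x ≠ 0 ∧ Q x = 0 := by
        rcases (show 3 ≤ N ∨ 2 * j = N by omega) with h | h
        · exact exists_singular_vector (by omega)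
        · obtain ⟨L, hL, hLs, hLd⟩ := hpl h
          obtain ⟨x, hx, hx0⟩ := Submodule.exists_mem_ne_zero_of_ne_bot (show L ≠ ⊥ from fun h' => by
            rw [h', finrank_bot] at hLd; omega)
          exact ⟨x, hL hx, hx0, hLs x hx⟩
      obtain ⟨y, hy, hQy, hxy⟩ := exists_pair hU hx hx0 hQx
      obtain ⟨hR, hRd, -, hRp⟩ := peel hU hx hy hQx hQy hxy _ rfl
      obtain ⟨L, hL, hLs, hLd⟩ := (ih (N - 2) (by omega) hR (by omega) (j - 1)).2
        ⟨by omega, fun h => hRp.1 (hpl (by omega))⟩
      obtain ⟨hH, -, -⟩ := plane_spec hQx hQy hxy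
      refine ⟨Submodule.span F {x} ⊔ L, sup_le ((Submodule.span_singleton_le_iff_mem x U).2 hx) (hL.trans inf_le_left),
        singular_sup (fun z hz => ?_) hLs (fun z hz => mem_orth.2 fun u hu =>
          mem_orth.1 (hL hz).2 u (Submodule.span_mono (by simp) hu)), ?_⟩
      · obtain ⟨a, rfl⟩ := Submodule.mem_span_singleton.1 hz
        rw [QuadraticMap.map_smul, hQx, smul_zero]
      · rw [finrank_sup_disjoint ((isCompl_orth hH).disjoint.mono (Submodule.span_mono (by simp))
          (hL.trans inf_le_right)), finrank_span_singleton hx0, hLd]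
        omega

/-- Isometric non-degenerate subspaces are carried to each other by an isometry of the whole space. -/
theorem exists_isometry_map (hV : NondegIn Q ⊤) {U U' : Submodule F V} (h : AreIso Q U Q U') :
    ∃ g : V ≃ₗ[F] V, (∀ v, Q (g v) = Q v) ∧ U.map (g : V →ₗ[F] V) = U' := by
  obtain ⟨e, he⟩ := h
  obtain ⟨g, hg, hgx⟩ := CfsgLib.LinAlg.Witt.witt_quadratic Q
    (LinearMap.ker_eq_bot'.2 fun x hx => hV x trivial fun y _ => LinearMap.congr_fun hx y) U
    (U'.subtype ∘ₗ e.toLinearMap) (Subtype.val_injective.comp e.injective) he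
  refine ⟨g, hg, le_antisymm ?_ fun y hy => ?_⟩
  · rintro _ ⟨x, hx, rfl⟩
    show g x ∈ U'
    rw [hgx ⟨x, hx⟩]; exact (e _).2
  · refine ⟨e.symm ⟨y, hy⟩, (e.symm _).2, ?_⟩
    show g _ = y
    rw [hgx, LinearMap.comp_apply, LinearEquiv.coe_coe, LinearEquiv.apply_symm_apply, Submodule.subtype_apply]

end CfsgLib.Classical.Semisimple.QuadType
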