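import Cfsg.Agent.Classical.Semisimple.QuadBridge
import Cfsg.Agent.Jordan.UnipotentElusiveMain

/-!
Unipotent isometries in odd characteristic that fix no non-degenerate subspace of a given odd dimension and
class.
-/

set_option autoImplicit false

namespace CfsgLib.Classical.Semisimple.QuadUnipotent

open Module QuadType CfsgLib.Jordan

variable {F : Type*} [Field F] {V : Type*} [AddCommGroup V] [Module F V] [FiniteDimensional F V]
  {Q : QuadraticForm F V} {g : Module.End F V}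

theorem polarBilin_nondeg (hV : NondegIn Q ⊤) : (QuadraticMap.polarBilin Q).Nondegenerate :=
  ⟨fun x h => hV x trivial fun y _ => h y, fun x h => hV x trivial fun y _ => by
    rw [QuadraticMap.polar_comm]; exact h y⟩

theorem polarBilin_symm (x y : V) : QuadraticMap.polarBilin Q x y = QuadraticMap.polarBilin Q y x :=
  QuadraticMap.polar_comm _ x y

omit [FiniteDimensional F V] in
theorem polar_map (hg : ∀ v, Q (g v) = Q v) (x y : V) : QuadraticMap.polar Q (g x) (g y) = QuadraticMap.polar Q x y := by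
  simp only [QuadraticMap.polar, ← map_add, hg]

omit [FiniteDimensional F V] in
theorem injective_of_iso (hV : NondegIn Q ⊤) (hg : ∀ v, Q (g v) = Q v) : Function.Injective g :=
  LinearMap.ker_eq_bot.1 ((Submodule.eq_bot_iff _).2 fun x hx => hV x trivial fun y _ => by
    rw [← polar_map hg, LinearMap.mem_ker.1 hx, QuadraticMap.polar_zero_left])

/-- The orthogonal space of an invariant subspace is invariant. -/
theorem orth_inv (hV : NondegIn Q ⊤) (hg : ∀ v, Q (g v) = Q v) {W : Submodule F V} (hi : W.map g ≤ W) :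
    (orth Q W).map g ≤ orth Q W := by
  have hmap : W.map g = W := Submodule.eq_of_le_of_finrank_eq hi
    (Submodule.equivMapOfInjective g (injective_of_iso hV hg) W).finrank_eq.symm
  rintro _ ⟨x, hx, rfl⟩
  refine mem_orth.2 fun w hw => ?_
  obtain ⟨w, hw', rfl⟩ := hmap.ge hw
  rw [polar_map hg]
  exact mem_orth.1 hx w hw'

/-- The chain type of the restriction to an invariant non-degenerate subspace. -/
theorem exists_restrict_chain (hV : NondegIn Q ⊤) (h2 : (2 : F) ≠ 0) (hg : ∀ v, Q (g v) = Q v) {μ : Multiset ℕ}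
    (hμ : Pieces.HasChain (g - 1) μ) {W : Submodule F V} (hW : NondegIn Q W) (hi : W.map g ≤ W) :
    ∃ (hN : ∀ x ∈ W, (g - 1) x ∈ W) (ν : Multiset ℕ), ν ≤ μ ∧ ν.sum = finrank F W ∧
      (∀ e, Even e → Even (ν.count e)) ∧ Pieces.HasChain ((g - 1).restrict hN) ν ∧
      ((∀ e ∈ ν, Even e) → Plus Q W) := by
  set B := QuadraticMap.polarBilin Q with hB
  have hW' : ∀ x ∈ W, g x ∈ W := fun x hx => hi ⟨x, hx, rfl⟩
  have hNW : ∀ x ∈ W, (g - 1) x ∈ W := fun x hx => W.sub_mem (hW' x hx) hx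
  have hres : (LinearMap.BilinForm.restrict B W).Nondegenerate :=
    ⟨fun x h => Subtype.ext (hW x x.2 fun y hy => h ⟨y, hy⟩),
      fun x h => Subtype.ext (hW x x.2 fun y hy => by rw [QuadraticMap.polar_comm]; exact h ⟨y, hy⟩)⟩
  obtain ⟨s, hs⟩ : ∃ s, ∀ e ∈ μ, e ≤ s := ⟨μ.sum, fun e he => Multiset.le_sum_of_mem he⟩
  obtain ⟨ν, hνμ, hν⟩ := UnipotentFixed.hasChain_split ⟨s, UnipotentFixed.isNilpotent_of_hasChain hμ hs⟩ hμ
    (isCompl_orth hW) hNW fun x hx => Submodule.sub_mem _ (orth_inv hV hg hi ⟨x, hx, rfl⟩) hx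
  have hν' : Pieces.HasChain (g.restrict hW' - 1) ν := by
    rwa [show g.restrict hW' - 1 = (g - 1).restrict hNW from LinearMap.ext fun x => rfl]
  have hgW : ∀ x y : W, (LinearMap.BilinForm.restrict B W) (g.restrict hW' x) (g.restrict hW' y) = (LinearMap.BilinForm.restrict B W) x y :=
    fun x y => polar_map hg (x : V) y
  refine ⟨hNW, ν, hνμ, (IsometryTypes.finrank_of_hasChain hν).symm,
    UnipotentFixed.even_count h2 hres (fun x y => polarBilin_symm (x : V) y) hgW hν', hν, fun he => ?_⟩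
  obtain ⟨U, hU, hUi⟩ := UnipotentFixed.exists_half_isotropic hres (fun x y => polarBilin_symm (x : V) y) hgW hν' he
  refine ⟨U.map W.subtype, Submodule.map_subtype_le W U, ?_, by rw [Submodule.finrank_map_subtype_eq, hU]⟩
  rintro _ ⟨x, hx, rfl⟩
  have h : QuadraticMap.polar Q (x : V) x = 0 := hUi x hx x hx
  rw [QuadraticMap.polar_self, nsmul_eq_mul, Nat.cast_ofNat] at h
  exact (mul_eq_zero.1 h).resolve_left h2

omit [FiniteDimensional F V] in
/-- If the type has no part one, fixed vectors are singular. -/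
theorem singular_fixed (h2 : (2 : F) ≠ 0) (hg : ∀ v, Q (g v) = Q v) {μ : Multiset ℕ}
    (hμ : Pieces.HasChain (g - 1) μ) (h1 : ∀ e ∈ μ, 2 ≤ e) {v : V} (hv : g v = v) : Q v = 0 := by
  classical
  obtain ⟨ι, hι, d, b, hd, hb, rfl⟩ := hμ
  have hdd : ∀ k, 2 ≤ d k := fun k => h1 _ (Multiset.mem_map_of_mem _ (Finset.mem_univ k))
  set N := g - 1 with hN
  have hNv : N v = 0 := by rw [hN, LinearMap.sub_apply, Module.End.one_apply, hv, sub_self]
  have hcoord : ∀ k, (b.coord ⟨k, ⟨1, hdd k⟩⟩).comp N = b.coord ⟨k, ⟨0, by have := hdd k; omega⟩⟩ := fun k => by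
    refine b.ext fun s => ?_
    obtain ⟨k', i⟩ := s
    rw [LinearMap.comp_apply]
    by_cases hi : (i : ℕ) + 1 < d k'
    · rw [hb.step k' i hi, Basis.coord_apply, Basis.coord_apply, Basis.repr_self, Basis.repr_self,
        Finsupp.single_apply, Finsupp.single_apply]
      refine if_congr ⟨fun h => ?_, fun h => ?_⟩ rfl rfl
      · simp only [Sigma.mk.injEq] at h ⊢
        obtain ⟨rfl, h⟩ := h
        simp only [heq_eq_eq, Fin.ext_iff] at h ⊢
        exact ⟨trivial, by omega⟩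
      · simp only [Sigma.mk.injEq] at h ⊢
        obtain ⟨rfl, h⟩ := h
        simp only [heq_eq_eq, Fin.ext_iff] at h ⊢
        exact ⟨trivial, by omega⟩
    · rw [hb.last k' i (by omega), map_zero, Basis.coord_apply, Basis.repr_self, Finsupp.single_apply, if_neg]
      intro h
      simp only [Sigma.mk.injEq] at h
      obtain ⟨rfl, h⟩ := h
      simp only [heq_eq_eq, Fin.ext_iff] at h
      have := hdd k'
      omega
  obtain ⟨y, hy⟩ : v ∈ LinearMap.range N := by
    rw [← b.sum_repr v]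
    refine Submodule.sum_mem _ fun s _ => ?_
    obtain ⟨k, i, hi⟩ := s
    rcases i with - | i
    · have h0 := LinearMap.congr_fun (hcoord k) v
      rw [LinearMap.comp_apply, hNv, map_zero, Basis.coord_apply] at h0
      rw [← h0, zero_smul]
      exact zero_mem _
    · exact Submodule.smul_mem _ _ ⟨b ⟨k, ⟨i, by omega⟩⟩, hb.step k ⟨i, by omega⟩ hi⟩
  have h0 : QuadraticMap.polar Q v v = 0 := by
    conv_lhs => arg 3; rw [← hy]
    rw [hN, LinearMap.sub_apply, Module.End.one_apply, QuadraticMap.polar_sub_right]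
    nth_rewrite 1 [← hv]
    rw [polar_map hg, sub_self]
  rw [QuadraticMap.polar_self, nsmul_eq_mul, Nat.cast_ofNat] at h0
  exact (mul_eq_zero.1 h0).resolve_left h2

/-- A part one gives an anisotropic fixed vector. -/
theorem exists_fixed_aniso (hV : NondegIn Q ⊤) (hg : ∀ v, Q (g v) = Q v) {W : Submodule F V} (hW : NondegIn Q W)
    (hi : W.map g ≤ W) {hN : ∀ x ∈ W, (g - 1) x ∈ W} {ν : Multiset ℕ}
    (hν : Pieces.HasChain ((g - 1).restrict hN) ν) (h1 : 1 ∈ ν) : ∃ v ∈ W, g v = v ∧ Q v ≠ 0 := by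
  classical
  obtain ⟨ι, hι, d, b, hd, hb, rfl⟩ := hν
  obtain ⟨k, -, hk⟩ := Multiset.mem_map.1 h1
  let s0 : (k : ι) × Fin (d k) := ⟨k, ⟨0, by omega⟩⟩
  have hNx : (g - 1).restrict hN (b s0) = 0 := hb.last k _ (by simp; omega)
  have hcomp : (b.coord s0).comp ((g - 1).restrict hN) = 0 := b.ext fun s => by
    obtain ⟨k', i⟩ := s
    rw [LinearMap.comp_apply, LinearMap.zero_apply]
    by_cases hi' : (i : ℕ) + 1 < d k'
    · rw [hb.step k' i hi', Basis.coord_apply, Basis.repr_self, Finsupp.single_apply, if_neg]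
      intro h
      simp only [s0, Sigma.mk.injEq] at h
      obtain ⟨rfl, h⟩ := h
      simp only [heq_eq_eq, Fin.ext_iff] at h
      omega
    · rw [hb.last k' i (by omega), map_zero]
  let Φ : W →ₗ[F] Module.Dual F W := LinearMap.BilinForm.restrict (QuadraticMap.polarBilin Q) W
  have hΦ : Function.Injective Φ := LinearMap.ker_eq_bot.1 ((Submodule.eq_bot_iff _).2 fun x hx =>
    Subtype.ext (hW x x.2 fun y hy => LinearMap.congr_fun hx ⟨y, hy⟩))
  obtain ⟨z, hz⟩ := (LinearMap.injective_iff_surjective_of_finrank_eq_finrank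
    Subspace.dual_finrank_eq.symm).1 hΦ (b.coord s0)
  have hzy : ∀ y (hy : y ∈ W), QuadraticMap.polar Q (z : V) y = b.coord s0 ⟨y, hy⟩ := fun y hy =>
    LinearMap.congr_fun hz ⟨y, hy⟩
  have hgW : ∀ x ∈ W, g x ∈ W := fun x hx => hi ⟨x, hx, rfl⟩
  have hmap : W.map g = W := Submodule.eq_of_le_of_finrank_eq hi
    (Submodule.equivMapOfInjective g (injective_of_iso hV hg) W).finrank_eq.symm
  have hfz : g z = z := sub_eq_zero.1 (hW _ (W.sub_mem (hgW z z.2) z.2) fun y hy => by
    obtain ⟨y, hy', rfl⟩ := hmap.ge hy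
    rw [QuadraticMap.polar_sub_left, polar_map hg, hzy y hy', hzy _ (hgW y hy'), ← map_sub, ← neg_sub, map_neg,
      neg_eq_zero]
    exact LinearMap.congr_fun hcomp ⟨y, hy'⟩)
  have hfx : g (b s0 : V) = b s0 := sub_eq_zero.1 (congrArg (fun w : W => (w : V)) hNx)
  by_cases hx0 : Q (b s0 : V) = 0
  · by_cases hz0 : Q (z : V) = 0
    · refine ⟨(z : V) + (b s0 : V), W.add_mem z.2 (b s0).2, by rw [map_add, hfz, hfx], ?_⟩
      rw [QuadraticMap.map_add (⇑Q), hx0, hz0, hzy _ (b s0).2]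
      simp
    · exact ⟨z, z.2, hfz, hz0⟩
  · exact ⟨_, (b s0).2, hfx, hx0⟩

omit [FiniteDimensional F V] in
theorem span_fixed {v : V} (hv : g v = v) : (Submodule.span F {v}).map g ≤ Submodule.span F {v} := by
  rw [Submodule.map_span, Set.image_singleton, hv]

omit [FiniteDimensional F V] in
theorem line_nondegIn (h2 : (2 : F) ≠ 0) {v : V} (hv : Q v ≠ 0) : NondegIn Q (Submodule.span F {v}) := by
  intro x hx h
  obtain ⟨a, rfl⟩ := Submodule.mem_span_singleton.1 hx
  have h1 := h v (Submodule.mem_span_singleton_self v)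
  rw [QuadraticMap.polar_smul_left, QuadraticMap.polar_self, nsmul_eq_mul, Nat.cast_ofNat] at h1
  simp only [smul_eq_mul, mul_eq_zero, h2, hv, or_false] at h1
  rw [h1, zero_smul]

/-- An element of type `1 + 3 + 2 + ... + 2` fixing no subspace of the class of `Y₀`. -/
theorem exists_line_derangement [Finite F] (hV : NondegIn Q ⊤) (h2 : (2 : F) ≠ 0) {d : ℕ}
    (hn : finrank F V = 2 * d) (hd : Even d) (hd4 : 4 ≤ d) {Y₀ : Submodule F V} (hY₀ : NondegIn Q Y₀) {i : ℕ}
    (hdY : finrank F Y₀ = 4 * i + 1) :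
    ∃ u : Module.End F V, (∀ v, Q (u v) = Q v) ∧
      Pieces.HasChain (u - 1) (1 ::ₘ (Multiset.replicate (d - 2) 2 + {3})) ∧
      ∀ Y : Submodule F V, AreIso Q Y₀ Q Y → ¬ (Y.map u ≤ Y) := by
  classical
  haveI := Fintype.ofFinite F
  obtain ⟨X₀, hX₀Y, hX₀, hX₀d, hX₀p⟩ := QuadIsometry.exists_sub_type (2 * i) hY₀ (by omega) True fun _ => trivial
  obtain ⟨-, hL₀, hL₀d⟩ := split hY₀ hX₀ hX₀Y
  obtain ⟨v₀, hv₀, hv₀0⟩ := Submodule.exists_mem_ne_zero_of_ne_bot (show Y₀ ⊓ orth Q X₀ ≠ ⊥ from fun h => by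
    rw [h, finrank_bot] at hL₀d; omega)
  have hline : ∀ {L : Submodule F V} {v : V}, finrank F L = 1 → v ∈ L → v ≠ 0 → ∀ x ∈ L, ∃ a : F, a • v = x := by
    intro L v hL hv hv0 x hx
    obtain ⟨a, ha⟩ := exists_smul_eq_of_finrank_eq_one hL (x := ⟨v, hv⟩) (fun h => hv0 (congrArg Subtype.val h)) ⟨x, hx⟩
    exact ⟨a, congrArg Subtype.val ha⟩
  have hQv₀ : Q v₀ ≠ 0 := fun h => hv₀0 (hL₀ v₀ hv₀ fun x hx => by
    obtain ⟨a, rfl⟩ := hline (by omega) hv₀ hv₀0 x hx
    rw [QuadraticMap.polar_smul_right, QuadraticMap.polar_self, h]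
    simp)
  obtain ⟨ν, hνs⟩ := FiniteField.exists_nonsquare (F := F)
    (fun h => h2 (CharP.cast_eq_zero_iff F (ringChar F) 2 |>.2 (dvd_of_eq h)))
  obtain ⟨w, -, hw⟩ := exists_value hV (by rw [finrank_top]; omega) (ν * Q v₀)
  have hw0 : Q w ≠ 0 := by
    rw [hw]; exact mul_ne_zero (fun h => hνs (h ▸ IsSquare.zero)) hQv₀
  have hwv : w ≠ 0 := fun h => hw0 (by rw [h, QuadraticMap.map_zero])
  set L := Submodule.span F {w} with hLdef
  set P := orth Q L with hPdef
  have hLn := line_nondegIn (Q := Q) h2 hw0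
  have hc : IsCompl L P := isCompl_orth hLn
  have hLd : finrank F L = 1 := finrank_span_singleton hwv
  have hPd : finrank F P = 2 * d - 1 := by
    have := Submodule.finrank_add_eq_of_isCompl hc
    omega
  have hPn : NondegIn Q P := by
    have h := (split hV hLn le_top).2.1
    rwa [top_inf_eq] at h
  -- the element on the hyperplane
  let L' : P ≃ₗ[F] (Fin (2 * d - 1) → F) := (Module.finBasisOfFinrankEq F P hPd).equivFun
  let T : LinearMap.BilinForm F (Fin (2 * d - 1) → F) :=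
    (QuadraticMap.polarBilin Q).compl₁₂ (P.subtype ∘ₗ L'.symm.toLinearMap) (P.subtype ∘ₗ L'.symm.toLinearMap)
  have hTk : LinearMap.ker T = ⊥ := (Submodule.eq_bot_iff _).2 fun x hx => L'.symm.map_eq_zero_iff.1
    (Subtype.ext (hPn _ (L'.symm x).2 fun y hy => by
      have h := LinearMap.congr_fun hx (L' ⟨y, hy⟩)
      simpa [T] using h))
  have hev : ∀ e : ℕ, Even e → Even ((Multiset.replicate (d - 2) 2 + {3}).count e) := fun e he => by
    rw [Multiset.count_add, Multiset.count_singleton, if_neg (fun h : e = 3 => by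
      rw [h] at he; exact absurd he (by decide)), add_zero, Multiset.count_replicate]
    split_ifs
    · obtain ⟨j, hj⟩ := hd; exact ⟨j - 1, by omega⟩
    · exact ⟨0, rfl⟩
  have hpos : ∀ e ∈ Multiset.replicate (d - 2) 2 + {3}, 2 ≤ e := fun e he => by
    rcases Multiset.mem_add.1 he with h | h
    · rw [Multiset.eq_of_mem_replicate h]
    · rw [Multiset.mem_singleton.1 h]; omega
  obtain ⟨u', hu', hμ'⟩ := UnipotentFixed.exists_of_odd_part h2 T (fun x y => polarBilin_symm _ _) hTk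
    (fun e he => by have := hpos e he; omega) hev ⟨3, by simp, 1, rfl⟩ (by simp; omega)
  let uP : Module.End F P := L'.symm.toLinearMap ∘ₗ u' ∘ₗ L'.toLinearMap
  have huP : ∀ p : P, Q (uP p : V) = Q (p : V) := fun p => by
    have h := hu' (L' p) (L' p)
    simp only [T, LinearMap.compl₁₂_apply, LinearMap.comp_apply, LinearEquiv.coe_coe, Submodule.subtype_apply,
      LinearEquiv.symm_apply_apply, QuadraticMap.polarBilin_apply_apply, QuadraticMap.polar_self, nsmul_eq_mul, Nat.cast_ofNat] at h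
    exact mul_left_cancel₀ h2 h
  have hchP : Pieces.HasChain (uP - 1) (Multiset.replicate (d - 2) 2 + {3}) :=
    hμ'.map L'.symm fun x => by simp [uP]
  have hchL : Pieces.HasChain (0 : Module.End F L) {1} := by
    have h := Pieces.hasChain_of_ker (N := (0 : Module.End F L)) ⟨1, pow_one _⟩
      (by rw [LinearMap.ker_zero, finrank_top, hLd])
    rwa [hLd] at h
  let e := Submodule.prodEquivOfIsCompl L P hc
  let u : Module.End F V := e.toLinearMap ∘ₗ ((LinearMap.id).prodMap uP) ∘ₗ e.symm.toLinearMap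
  have hue : ∀ (a : L) (p : P), u ((a : V) + p) = (a : V) + (uP p : V) := fun a p => by
    have h1 : e (a, p) = (a : V) + (p : V) := by simp [e, Submodule.coe_prodEquivOfIsCompl']
    rw [← h1]
    simp [u, e, Submodule.coe_prodEquivOfIsCompl']
  have hsplit : ∀ x : V, ∃ (a : L) (p : P), (a : V) + p = x := fun x => by
    refine ⟨(e.symm x).1, (e.symm x).2, ?_⟩
    conv_rhs => rw [← e.apply_symm_apply x]
    simp [e, Submodule.coe_prodEquivOfIsCompl']
  have hadd : ∀ (a : L) (p : P), Q ((a : V) + p) = Q (a : V) + Q (p : V) := fun a p => by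
    rw [QuadraticMap.map_add (⇑Q), mem_orth.1 p.2 _ a.2, add_zero]
  have hu : ∀ x, Q (u x) = Q x := fun x => by
    obtain ⟨a, p, rfl⟩ := hsplit x
    rw [hue, hadd, hadd, huP]
  have hμ : Pieces.HasChain (u - 1) (1 ::ₘ (Multiset.replicate (d - 2) 2 + {3})) := by
    rw [← Multiset.singleton_add]
    refine (hchL.prod hchP).map e fun z => ?_
    obtain ⟨a, p⟩ := z
    rw [LinearMap.sub_apply, Module.End.one_apply]
    simp [u, e, Submodule.coe_prodEquivOfIsCompl']
  -- fixed vectors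
  have hfix : ∀ x, u x = x → ∃ (c : F) (z : P), c • w + (z : V) = x ∧ uP z = z ∧ Q (z : V) = 0 := by
    intro x hx
    obtain ⟨a, p, rfl⟩ := hsplit x
    obtain ⟨c, hc'⟩ := Submodule.mem_span_singleton.1 a.2
    rw [hue, add_right_inj] at hx
    exact ⟨c, p, by rw [hc'], Subtype.ext hx, singular_fixed (Q := Q.comp P.subtype) h2 huP hchP hpos (Subtype.ext hx)⟩
  have hpol0 : ∀ z z' : P, uP z = z → uP z' = z' → QuadraticMap.polar Q (z : V) z' = 0 := fun z z' hz hz' => by
    have hs : ∀ y : P, uP y = y → Q (y : V) = 0 := fun y hy =>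
      singular_fixed (Q := Q.comp P.subtype) h2 huP hchP hpos hy
    rw [QuadraticMap.polar, ← Submodule.coe_add, hs _ (by rw [map_add, hz, hz']), hs z hz, hs z' hz', sub_zero, sub_zero]
  refine ⟨u, hu, hμ, fun Y hiso hYu => ?_⟩
  have hY := hiso.nondeg hY₀
  have hYd : finrank F Y = 4 * i + 1 := hiso.finrank_eq.symm.trans hdY
  have hparts : ∀ e ∈ ({3} : Multiset ℕ), e ≠ 2 := fun e he => by rw [Multiset.mem_singleton.1 he]; omega
  obtain ⟨j, hj⟩ : Even (d - 2) := by obtain ⟨j, hj⟩ := hd; exact ⟨j - 1, by omega⟩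
  obtain ⟨hN, ν₁, hνμ, hνs₁, hνev, hνc, -⟩ := exists_restrict_chain hV h2 hu hμ hY hYu
  have h1ν : 1 ∈ ν₁ := by
    by_contra h
    have hle := (Multiset.le_cons_of_notMem h).1 hνμ
    rw [hj, ← two_mul] at hle
    obtain ⟨k, T', hT', hs', -⟩ := UnipotentElusive.twos_split hparts hle (hνev 2 even_two)
    rcases Multiset.le_singleton.1 hT' with rfl | rfl
    · rw [hνs₁, hYd, Multiset.sum_zero] at hs'; omega
    · rw [hνs₁, hYd, Multiset.sum_singleton] at hs'; omega
  obtain ⟨v, hvY, hfv, hQv⟩ := exists_fixed_aniso hV hu hY hYu hνc h1ν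
  obtain ⟨c, z, hz, huz, hQz⟩ := hfix v hfv
  have hwz : ∀ z : P, QuadraticMap.polar Q w (z : V) = 0 := fun z =>
    mem_orth.1 z.2 w (Submodule.mem_span_singleton_self w)
  have hQvc : Q v = c * c * Q w := by
    rw [← hz, QuadraticMap.map_add (⇑Q), QuadraticMap.map_smul, hQz, QuadraticMap.polar_smul_left, hwz, smul_eq_mul]
    simp
  have hv0 : v ≠ 0 := fun h => hQv (by rw [h, QuadraticMap.map_zero])
  have hvn := line_nondegIn (Q := Q) h2 hQv
  have hvY' : Submodule.span F {v} ≤ Y := by rw [Submodule.span_singleton_le_iff_mem]; exact hvY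
  obtain ⟨-, hX, hXd⟩ := split hY hvn hvY'
  rw [finrank_span_singleton hv0, hYd] at hXd
  set X := Y ⊓ orth Q (Submodule.span F {v}) with hXdef
  have hXu : X.map u ≤ X := le_inf ((Submodule.map_mono inf_le_left).trans hYu)
    ((Submodule.map_mono inf_le_right).trans (orth_inv hV hu (span_fixed hfv)))
  obtain ⟨hNX, ν₂, hνμ₂, hνs₂, hνev₂, hνc₂, hXplus⟩ := exists_restrict_chain hV h2 hu hμ hX hXu
  have hXp : Plus Q X := by
    have h1 : 1 ∉ ν₂ := fun h => by
      obtain ⟨v', hv', hfv', hQv'⟩ := exists_fixed_aniso hV hu hX hXu hνc₂ h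
      obtain ⟨c', z', hz', huz', hQz'⟩ := hfix v' hfv'
      have h0 := mem_orth.1 hv'.2 v (Submodule.mem_span_singleton_self v)
      rw [← hz, ← hz', QuadraticMap.polar_add_left, QuadraticMap.polar_add_right, QuadraticMap.polar_add_right,
        QuadraticMap.polar_smul_left, QuadraticMap.polar_smul_left, QuadraticMap.polar_smul_right,
        QuadraticMap.polar_smul_right, hwz, QuadraticMap.polar_comm Q (z : V) w, hwz, hpol0 z z' huz huz',
        QuadraticMap.polar_self] at h0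
      simp only [smul_eq_mul, nsmul_eq_mul, Nat.cast_ofNat, mul_zero, add_zero, mul_eq_zero, h2, hw0, false_or, or_false] at h0
      rcases h0 with rfl | rfl
      · exact hQv (by rw [← hz, zero_smul, zero_add, hQz])
      · exact hQv' (by rw [← hz', zero_smul, zero_add, hQz'])
    have hle := (Multiset.le_cons_of_notMem h1).1 hνμ₂
    rw [hj, ← two_mul] at hle
    obtain ⟨k, T', hT', hs', hmem⟩ := UnipotentElusive.twos_split hparts hle (hνev₂ 2 even_two)
    rcases Multiset.le_singleton.1 hT' with rfl | rfl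
    · refine hXplus fun e he => ?_
      rcases hmem e he with rfl | h
      · exact even_two
      · simp at h
    · rw [hνs₂, Multiset.sum_singleton] at hs'; omega
  obtain ⟨σ, hσ, hσY⟩ := exists_isometry_map hV hiso
  set X₁ := X₀.map (σ : V →ₗ[F] V) with hX₁def
  have hX₁Y : X₁ ≤ Y := hσY ▸ Submodule.map_mono hX₀Y
  have hiso₁ : AreIso Q X₀ Q X₁ :=
    ⟨Submodule.equivMapOfInjective _ σ.injective X₀, fun x => by
      rw [Submodule.coe_equivMapOfInjective_apply]; exact hσ _⟩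
  have hX₁n := hiso₁.nondeg hX₀
  have hd₁ := hiso₁.finrank_eq
  have hXX₁ : AreIso Q X Q X₁ := areIso_of_plus_iff hX hX₁n (by omega)
    (by rw [← hd₁, hX₀d]; exact even_two_mul _) (iff_of_true hXp (hiso₁.plus (hX₀p.2 trivial)))
  obtain ⟨e₂, he₂⟩ := cancel hY hX inf_le_left hX₁Y hXX₁
  have hkey : ∃ a : F, Q v = a * a * Q v₀ := by
    have hvo : v ∈ Y ⊓ orth Q X := ⟨hvY, mem_orth.2 fun s hs => by
      rw [QuadraticMap.polar_comm]; exact mem_orth.1 hs.2 v (Submodule.mem_span_singleton_self v)⟩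
    have hσv : σ v₀ ∈ Y ⊓ orth Q X₁ := by
      refine ⟨hσY ▸ ⟨v₀, hv₀.1, rfl⟩, mem_orth.2 fun t ht => ?_⟩
      obtain ⟨s, hs, rfl⟩ := ht
      exact (polar_map (g := (σ : V →ₗ[F] V)) hσ s v₀).trans (mem_orth.1 hv₀.2 s hs)
    obtain ⟨-, -, hd'⟩ := split hY hX₁n hX₁Y
    obtain ⟨a, ha⟩ := hline (by omega) hσv (fun h => hv₀0 (σ.map_eq_zero_iff.1 h)) _ (e₂ ⟨v, hvo⟩).2
    refine ⟨a, ?_⟩
    rw [← he₂ ⟨v, hvo⟩, ← ha, QuadraticMap.map_smul, smul_eq_mul, hσ]
  obtain ⟨a, ha⟩ := hkey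
  have hc0 : c ≠ 0 := fun h => hQv (by rw [hQvc, h]; simp)
  refine hνs ⟨a / c, ?_⟩
  rw [hQvc, hw] at ha
  field_simp
  apply mul_right_cancel₀ hQv₀
  linear_combination ha

end CfsgLib.Classical.Semisimple.QuadUnipotent
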