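import Cfsg.Agent.Classical.Semisimple.QuadUnipotent

/-!
Elements of order `p` of `Omega` in even dimension and odd characteristic that fix no subspace of a given
non-degenerate kind.
-/

set_option autoImplicit false

namespace CfsgLib.Classical.Semisimple.QuadUnipotent

open Module QuadType QuadBridge Cfsg.Geo CfsgLib.OrthGeo CfsgLib.Jordan
open scoped Matrix MatrixGroups

variable {ι : Type} [Fintype ι] [DecidableEq ι] {F : Type*} [Field F] [Fintype F] {Q : (ι → F) → F}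
variable (hQ : IsNondegenerateQuadraticForm Q) {p : ℕ} [hp : Fact p.Prime] [CharP F p]

omit [Fintype F] in
theorem two_ne_zero_of_ne (hp2 : p ≠ 2) : (2 : F) ≠ 0 := fun h => hp2 (((Nat.prime_two).eq_one_or_self_of_dvd p
  ((CharP.cast_eq_zero_iff F p 2).1 (by simpa using h))).resolve_left hp.out.ne_one)

omit [Fintype F] hp [CharP F p] in
theorem twos_le_replicate {a k : ℕ} {ν : Multiset ℕ} (ha : a ≠ 2) {j : ℕ}
    (hν : ν ≤ Multiset.replicate (2 * j) 2 + Multiset.replicate k a) (hev : Even (ν.count 2)) :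
    ∃ (i l : ℕ), l ≤ k ∧ ν.sum = 4 * i + l * a ∧ (l = 0 → ∀ e ∈ ν, Even e) := by
  obtain ⟨i, T, hT, hs, hmem⟩ := UnipotentElusive.twos_split
    (fun e he => by rw [Multiset.eq_of_mem_replicate he]; exact ha) hν hev
  obtain ⟨l, hl, rfl⟩ := Multiset.le_replicate_iff.1 hT
  rw [Multiset.sum_replicate, smul_eq_mul] at hs
  refine ⟨i, l, hl, hs, fun h0 e he => ?_⟩
  rcases hmem e he with rfl | h
  · exact even_two
  · rw [h0] at h; simp at h

include hQ in
/-- The element of type `a + a + 2 + ... + 2`. -/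
theorem exists_pair_elem (hp2 : p ≠ 2) {d a : ℕ} (hn : Fintype.card ι = 2 * d) (ha : Odd a) (hap : a ≤ p)
    (had : a + 2 ≤ d) (hde : Even (d - a)) :
    ∃ x : GL ι F, x ∈ omegaGL Q ∧ (∃ z : F, ((x ^ p : GL ι F) : Matrix ι ι F) = z • (1 : Matrix ι ι F)) ∧
      (∀ z : F, (x : Matrix ι ι F) ≠ z • (1 : Matrix ι ι F)) ∧
      ∀ W : Submodule F (ι → F), NondegIn (qf hQ) W → W.map (Matrix.toLin' (x : Matrix ι ι F)) ≤ W →
        ∃ i l : ℕ, l ≤ 2 ∧ finrank F W = 4 * i + l * a ∧ (l = 0 → Plus (qf hQ) W) := by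
  classical
  have h2 := two_ne_zero_of_ne (F := F) hp2
  have h3 : 2 ≤ p := hp.out.two_le
  have ha2 : a ≠ 2 := fun h => by rw [h] at ha; exact absurd ha (by decide)
  obtain ⟨j, hj⟩ := hde
  have hle : ∀ e ∈ Multiset.replicate (2 * j) 2 + Multiset.replicate 2 a, 0 < e ∧ e ≤ p := fun e h => by
    rcases Multiset.mem_add.1 h with h | h
    · rw [Multiset.eq_of_mem_replicate h]; omega
    · rw [Multiset.eq_of_mem_replicate h]; exact ⟨ha.pos, hap⟩
  have hev : ∀ e : ℕ, Even e → Even ((Multiset.replicate (2 * j) 2 + Multiset.replicate 2 a).count e) := fun e _ => by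
    rw [Multiset.count_add, Multiset.count_replicate, Multiset.count_replicate]
    refine Even.add ?_ ?_ <;> split_ifs <;> first | exact even_two_mul j | exact even_two | exact ⟨0, rfl⟩
  obtain ⟨u, hu, hμ⟩ := UnipotentFixed.exists_of_odd_part h2 _ (b_symm hQ)
    (UnipotentElusive.ker_bform hQ) (fun e he => (hle e he).1) hev
    ⟨a, Multiset.mem_add.2 (Or.inr (Multiset.mem_replicate.2 ⟨two_ne_zero, rfl⟩)), ha⟩
    (by simp [hn]; omega)
  obtain ⟨x, hx, -, hz, hns, hxu⟩ := UnipotentElusive.exists_element hQ hp2 (by omega)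
    (fun e he => (hle e he).2)
    ⟨2, Multiset.mem_add.2 (Or.inl (Multiset.mem_replicate.2 ⟨by omega, rfl⟩)), one_lt_two⟩ hu hμ
  refine ⟨x, hx, hz, hns, fun W hW hWx => ?_⟩
  obtain ⟨ν, hν, hs, he, hplus⟩ :=
    UnipotentElusive.fixed_type hQ h2 hxu hu hμ ((nondegenerateOn_iff hQ W).2 hW) hWx
  obtain ⟨i, l, hl, hsum, h0⟩ := twos_le_replicate ha2 hν (he 2 even_two)
  exact ⟨i, l, hl, hs.symm.trans hsum, fun h => (plusTypeOn_iff hQ W).1 (hplus (h0 h))⟩

include hQ in
/-- An element of order `p` fixing no subspace in the class of a subspace of odd dimension. -/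
theorem exists_odd_derangement (hp2 : p ≠ 2) {d : ℕ} (hn : Fintype.card ι = 2 * d) (hd4 : 4 ≤ d)
    {W₀ : Submodule F (ι → F)} (hW₀ : NondegIn (qf hQ) W₀) (hm : Odd (finrank F W₀)) (hmd : finrank F W₀ < 2 * d) :
    ∃ x : GL ι F, x ∈ omegaGL Q ∧ (∃ z : F, ((x ^ p : GL ι F) : Matrix ι ι F) = z • (1 : Matrix ι ι F)) ∧
      (∀ z : F, (x : Matrix ι ι F) ≠ z • (1 : Matrix ι ι F)) ∧
      ∀ W : Submodule F (ι → F), AreIso (qf hQ) W₀ (qf hQ) W →
        ¬ W.map (Matrix.toLin' (x : Matrix ι ι F)) ≤ W := by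
  classical
  have h2 := two_ne_zero_of_ne (F := F) hp2
  have h3 : 3 ≤ p := by have := hp.out.two_le; omega
  obtain ⟨k, hk⟩ := hm
  rcases Nat.even_or_odd d with hd | hd
  · have hV : NondegIn (qf hQ) ⊤ := nondeg_top hQ
    have hfr : finrank F (ι → F) = 2 * d := by rw [finrank_fintype_fun_eq_card, hn]
    obtain ⟨i, Y₀, hY₀, hdY, hpass⟩ : ∃ (i : ℕ) (Y₀ : Submodule F (ι → F)), NondegIn (qf hQ) Y₀ ∧
        finrank F Y₀ = 4 * i + 1 ∧ ∀ (W : Submodule F (ι → F)) (u : Module.End F (ι → F)),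
          (∀ v, qf hQ (u v) = qf hQ v) → AreIso (qf hQ) W₀ (qf hQ) W → W.map u ≤ W →
            ∃ Y, AreIso (qf hQ) Y₀ (qf hQ) Y ∧ Y.map u ≤ Y := by
      by_cases h4 : finrank F W₀ % 4 = 1
      · exact ⟨finrank F W₀ / 4, W₀, hW₀, by omega, fun W u _ hiso hW => ⟨W, hiso, hW⟩⟩
      · have hY : NondegIn (qf hQ) (orth (qf hQ) W₀) := by
          have h := (split hV hW₀ le_top).2.1
          rwa [top_inf_eq] at h
        have hs := Submodule.finrank_add_eq_of_isCompl (isCompl_orth hW₀)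
        obtain ⟨j, hj⟩ := hd
        refine ⟨finrank F ↥(orth (qf hQ) W₀) / 4, _, hY, by omega, fun W u hu hiso hW => ⟨orth (qf hQ) W, ?_,
          orth_inv hV hu hW⟩⟩
        have h := cancel hV hW₀ le_top le_top hiso
        rwa [top_inf_eq, top_inf_eq] at h
    obtain ⟨u, hu, hμ, hder⟩ := exists_line_derangement hV h2 hfr hd hd4 hY₀ hdY
    obtain ⟨x, hx, -, hz, hns, hxu⟩ := UnipotentElusive.exists_element hQ hp2 (by omega) (u := u)
      (fun e he => by
        rcases Multiset.mem_cons.1 he with rfl | he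
        · omega
        rcases Multiset.mem_add.1 he with he | he
        · rw [Multiset.eq_of_mem_replicate he]; omega
        · rw [Multiset.mem_singleton.1 he]; omega)
      ⟨3, by simp, by omega⟩ (fun v w => polar_map hu v w) hμ
    refine ⟨x, hx, hz, hns, fun W hiso hW => ?_⟩
    rw [hxu] at hW
    obtain ⟨Y, hY, hYu⟩ := hpass W u hu hiso hW
    exact hder Y hY hYu
  · obtain ⟨a, ha, ha3, ham⟩ : ∃ a, Odd a ∧ a ≤ 3 ∧ a % 4 ≠ finrank F W₀ % 4 := by
      by_cases h4 : finrank F W₀ % 4 = 1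
      · exact ⟨3, ⟨1, rfl⟩, le_rfl, by omega⟩
      · exact ⟨1, odd_one, by omega, by omega⟩
    obtain ⟨x, hx, hz, hns, hfix⟩ := exists_pair_elem hQ hp2 hn ha (by omega)
      (by obtain ⟨j, rfl⟩ := hd; omega)
      (by obtain ⟨j, rfl⟩ := hd; obtain ⟨b, rfl⟩ := ha; exact ⟨j - b, by omega⟩)
    refine ⟨x, hx, hz, hns, fun W hiso hW => ?_⟩
    obtain ⟨i, l, hl, hsum, -⟩ := hfix W (hiso.nondeg hW₀) hW
    rw [← hiso.finrank_eq] at hsum
    interval_cases l <;> omega

include hQ in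
/-- An element of order `p` of a space of plus type fixing no subspace of even dimension and minus type. -/
theorem exists_even_derangement (hp2 : p ≠ 2) {d : ℕ} (hn : Fintype.card ι = 2 * d) (hd4 : 4 ≤ d)
    (hplus : Plus (qf hQ) ⊤) :
    ∃ x : GL ι F, x ∈ omegaGL Q ∧ (∃ z : F, ((x ^ p : GL ι F) : Matrix ι ι F) = z • (1 : Matrix ι ι F)) ∧
      (∀ z : F, (x : Matrix ι ι F) ≠ z • (1 : Matrix ι ι F)) ∧
      ∀ W : Submodule F (ι → F), NondegIn (qf hQ) W → Even (finrank F W) →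
        W.map (Matrix.toLin' (x : Matrix ι ι F)) ≤ W → Plus (qf hQ) W := by
  classical
  have h2 := two_ne_zero_of_ne (F := F) hp2
  have h3 : 2 ≤ p := hp.out.two_le
  have hV : NondegIn (qf hQ) ⊤ := nondeg_top hQ
  have hfr : finrank F (ι → F) = 2 * d := by rw [finrank_fintype_fun_eq_card, hn]
  rcases Nat.even_or_odd d with hd | hd
  · obtain ⟨U, -, hU, hUd⟩ := hplus
    rw [finrank_top, hfr] at hUd
    have hsq := (CfsgLib.LinAlg.Witt.exists_half_isotropic_iff h2 (bform hQ) (b_symm hQ)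
      (UnipotentElusive.ker_bform hQ) hfr (Pi.basisFun F ι)).1
      ⟨U, by omega, fun y hy z hz => hU.polar_eq hy hz⟩
    obtain ⟨u, hu, hμ⟩ := UnipotentFixed.exists_of_even_parts h2 _ (b_symm hQ) (UnipotentElusive.ker_bform hQ)
      (μ := Multiset.replicate d 2) (fun e he => by rw [Multiset.eq_of_mem_replicate he]; omega)
      (fun e _ => by rw [Multiset.count_replicate]; split_ifs; exacts [hd, ⟨0, rfl⟩])
      (fun e he => by rw [Multiset.eq_of_mem_replicate he]; exact even_two) (by simp [hn]; omega) hn hsq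
    obtain ⟨x, hx, -, hz, hns, hxu⟩ := UnipotentElusive.exists_element hQ hp2 (by omega)
      (fun e he => by rw [Multiset.eq_of_mem_replicate he]; exact h3)
      ⟨2, Multiset.mem_replicate.2 ⟨by omega, rfl⟩, one_lt_two⟩ hu hμ
    refine ⟨x, hx, hz, hns, fun W hW _ hWx => ?_⟩
    obtain ⟨ν, hν, -, -, hpl⟩ :=
      UnipotentElusive.fixed_type hQ h2 hxu hu hμ ((nondegenerateOn_iff hQ W).2 hW) hWx
    exact (plusTypeOn_iff hQ W).1 (hpl fun e he => by
      rw [Multiset.eq_of_mem_replicate (Multiset.mem_of_le hν he)]; exact even_two)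
  · obtain ⟨j, hj⟩ := hd
    obtain ⟨x, hx, hz, hns, hfix⟩ := exists_pair_elem hQ hp2 hn (a := 1) odd_one (by omega) (by omega)
      ⟨j, by omega⟩
    refine ⟨x, hx, hz, hns, fun W hW hWe hWx => ?_⟩
    obtain ⟨i, l, hl, hsum, hpl⟩ := hfix W hW hWx
    obtain ⟨k, hk⟩ := hWe
    by_cases hl0 : l = 0
    · exact hpl hl0
    have hxi := omegaGL_le hx
    have hO : NondegIn (qf hQ) (orth (qf hQ) W) := by
      have h := (split hV hW le_top).2.1
      rwa [top_inf_eq] at h
    obtain ⟨i', l', hl', hsum', hpl'⟩ := hfix _ hO (orth_inv hV (fun v => by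
      rw [qf_apply, qf_apply, Matrix.toLin'_apply]; exact mem_isometryGroup.1 hxi v) hWx)
    have hs := Submodule.finrank_add_eq_of_isCompl (isCompl_orth hW)
    have h := plus_sup _ hW hO le_rfl ⟨k, hk⟩ ⟨j + j + 1 - k, by omega⟩ rfl
    rw [(isCompl_orth hW).sup_eq_top] at h
    exact (h.1 hplus).2 (hpl' (by omega))

end CfsgLib.Classical.Semisimple.QuadUnipotent
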