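import Cfsg.Agent.Classical.Semisimple.FieldNormalizer
import Cfsg.Agent.Classical.Semisimple.ClassCount
import Cfsg.Agent.Classical.Semisimple.OrderRCount
import Cfsg.Agent.S2569

/-!
Prime degree field subalgebras: which elements are conjugate into the normaliser.
-/

set_option autoImplicit false

namespace CfsgLib.Classical.SingerPrime

open Module Matrix Polynomial CfsgLib.Classical.Semisimple

variable {F : Type*} [Field F] {n : ℕ} {K : Subalgebra F (Matrix (Fin n) (Fin n) F)}

/-- The field structure on a field subalgebra. -/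
theorem isField_of_fieldSubalgebra (hK : Cfsg.Geo.IsFieldSubalgebra n K) [NeZero n] : IsField K :=
  { exists_pair_ne := ⟨0, 1, fun h => by
      have := congrArg (fun a : K => (a : Matrix (Fin n) (Fin n) F) 0 0) h
      simp at this⟩
    mul_comm := fun a b => Subtype.ext (hK.comm a a.2 b b.2)
    mul_inv_cancel := fun {a} ha => by
      obtain ⟨b, hb, hab⟩ := hK.inv a a.2 fun h => ha (Subtype.ext h)
      exact ⟨⟨b, hb⟩, Subtype.ext hab⟩ }

/-- Evaluation at a non-zero vector identifies a field subalgebra of full degree with the space. -/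
theorem evalVec_bijective (hK : Cfsg.Geo.IsFieldSubalgebra n K) [NeZero n] {v : Fin n → F}
    (hv : v ≠ 0) : Function.Bijective (fun a : K => (a : Matrix (Fin n) (Fin n) F) *ᵥ v) := by
  let L : K →ₗ[F] (Fin n → F) :=
    { toFun := fun a => (a : Matrix (Fin n) (Fin n) F) *ᵥ v
      map_add' := fun a b => by simp [add_mulVec]
      map_smul' := fun t a => by simp [smul_mulVec] }
  have hinj : Function.Injective L := by
    refine LinearMap.ker_eq_bot.1 (LinearMap.ker_eq_bot'.2 fun a ha => ?_)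
    by_contra hne
    obtain ⟨b, hb, hab⟩ := hK.inv a a.2 fun h => hne (Subtype.ext h)
    rw [hK.comm a a.2 b hb] at hab
    apply hv
    have h1 := congrArg (fun M => M *ᵥ v) hab
    simp only [← mulVec_mulVec, one_mulVec] at h1
    rw [← h1, show (a : Matrix (Fin n) (Fin n) F) *ᵥ v = 0 from ha, mulVec_zero]
  have : FiniteDimensional F K :=
    FiniteDimensional.finiteDimensional_submodule (Subalgebra.toSubmodule K)
  exact ⟨hinj, (LinearMap.injective_iff_surjective_of_finrank_eq_finrank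
    (by rw [hK.finrank_eq, finrank_fin_fun])).1 hinj⟩

theorem matrix_ext_of_mulVec (hK : Cfsg.Geo.IsFieldSubalgebra n K) [NeZero n] {v : Fin n → F}
    (hv : v ≠ 0) {A B : Matrix (Fin n) (Fin n) F}
    (h : ∀ a ∈ K, A *ᵥ (a *ᵥ v) = B *ᵥ (a *ᵥ v)) : A = B := by
  refine Matrix.toLin'.injective (LinearMap.ext fun w => ?_)
  obtain ⟨a, rfl⟩ := (evalVec_bijective hK hv).2 w
  simpa using h a a.2

variable [Fintype F]

/-- A non-scalar element of the normaliser has minimal polynomial of full degree. -/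
theorem le_natDegree_of_aeval_eq_zero (hn : n.Prime) (hK : Cfsg.Geo.IsFieldSubalgebra n K)
    {y : GL (Fin n) F} (hy : y ∈ Cfsg.Geo.subalgebraNormalizer K)
    (hns : ∀ z : F, (y : Matrix (Fin n) (Fin n) F) ≠ z • 1) {Q : F[X]} (hQ : Q ≠ 0)
    (h0 : aeval (y : Matrix (Fin n) (Fin n) F) Q = 0) : n ≤ Q.natDegree := by
  classical
  have : NeZero n := ⟨hn.ne_zero⟩
  let _ : Field K := { (isField_of_fieldSubalgebra hK).toField, (inferInstance : Ring K) with }
  have : Finite K := Finite.of_injective Subtype.val Subtype.val_injective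
  have : FiniteDimensional F K := Module.Finite.of_finite
  set v : Fin n → F := Pi.single 0 1 with hvdef
  have hv : v ≠ 0 := by simp [hvdef]
  set Y : Matrix (Fin n) (Fin n) F := (y : Matrix (Fin n) (Fin n) F) with hY
  set Yi : Matrix (Fin n) (Fin n) F := ((y⁻¹ : GL (Fin n) F) : Matrix (Fin n) (Fin n) F)
  have hYY : Yi * Y = 1 := Units.inv_mul y
  let φ₀ : K →ₐ[F] K :=
    { toFun := fun a => ⟨Y * (a : Matrix (Fin n) (Fin n) F) * Yi, (hy a).1 a.2⟩
      map_one' := Subtype.ext (by simp [Y, Yi])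
      map_mul' := fun a b => Subtype.ext (by
        show Y * ((a : Matrix (Fin n) (Fin n) F) * b) * Yi = (Y * a * Yi) * (Y * b * Yi)
        calc Y * ((a : Matrix (Fin n) (Fin n) F) * b) * Yi
            = Y * a * (Yi * Y) * b * Yi := by rw [hYY]; simp [mul_assoc]
          _ = _ := by simp [mul_assoc])
      map_zero' := Subtype.ext (by simp)
      map_add' := fun a b => Subtype.ext (by simp [mul_add, add_mul])
      commutes' := fun t => Subtype.ext (by
        show Y * algebraMap F (Matrix (Fin n) (Fin n) F) t * Yi = algebraMap F _ t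
        rw [← Algebra.commutes t Y, mul_assoc, show Y * Yi = 1 from Units.mul_inv y, mul_one]) }
  have hsemi : ∀ a : K, Y * (a : Matrix (Fin n) (Fin n) F) =
      ((φ₀ a : K) : Matrix (Fin n) (Fin n) F) * Y := fun a => by
    show _ = Y * (a : Matrix (Fin n) (Fin n) F) * Yi * Y
    rw [mul_assoc, hYY, mul_one]
  obtain ⟨u₀, hu₀⟩ := (evalVec_bijective hK hv).2 (Y *ᵥ v)
  by_cases hid : ∀ a, φ₀ a = a
  · have hYK : Y = (u₀ : Matrix (Fin n) (Fin n) F) := by
      refine matrix_ext_of_mulVec hK hv fun a ha => ?_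
      have h1 := hsemi ⟨a, ha⟩
      rw [hid] at h1
      rw [mulVec_mulVec, mulVec_mulVec, h1, show (u₀ : Matrix (Fin n) (Fin n) F) * a = a * u₀ from
        hK.comm _ u₀.2 a ha, ← mulVec_mulVec, ← mulVec_mulVec, ← hu₀]
    have hu : aeval u₀ Q = 0 := Subtype.ext (by
      show ((aeval u₀ Q : K) : Matrix (Fin n) (Fin n) F) = (0 : Matrix (Fin n) (Fin n) F)
      rw [← h0, hYK]
      exact (aeval_algHom_apply K.val u₀ Q).symm)
    have h1 : (minpoly F u₀).natDegree ∣ n :=
      (minpoly.degree_dvd (Algebra.IsIntegral.isIntegral u₀)).trans (dvd_of_eq hK.finrank_eq)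
    have h2 : (minpoly F u₀).natDegree ≠ 1 := by
      rw [Ne, minpoly.natDegree_eq_one_iff]
      rintro ⟨t, ht⟩
      refine hns t ?_
      show Y = _
      rw [hYK, ← ht, ← Algebra.algebraMap_eq_smul_one]
      rfl
    rcases (Nat.dvd_prime hn).1 h1 with h | h
    · exact absurd h h2
    · rw [← h]; exact natDegree_le_of_dvd (minpoly.dvd F u₀ hu) hQ
  · by_contra hlt
    rw [not_le] at hlt
    have hbij : Function.Bijective φ₀ := by
      have hinj : Function.Injective φ₀ := φ₀.toRingHom.injective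
      exact ⟨hinj, Finite.injective_iff_surjective.1 hinj⟩
    let φ : K ≃ₐ[F] K := AlgEquiv.ofBijective φ₀ hbij
    have hord : orderOf φ = n := by
      haveI : Fact n.Prime := ⟨hn⟩
      refine orderOf_eq_prime ?_ fun h => hid fun a => DFunLike.congr_fun h a
      have hc : Nat.card (K ≃ₐ[F] K) = n := by
        rw [IsGalois.card_aut_eq_finrank, hK.finrank_eq]
      exact (congrArg (fun m => φ ^ m) hc.symm).trans pow_card_eq_one'
    have hpow : ∀ (i : ℕ) (a : K), Y ^ i * (a : Matrix (Fin n) (Fin n) F) =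
        (((φ ^ i) a : K) : Matrix (Fin n) (Fin n) F) * Y ^ i := by
      intro i
      induction i with
      | zero => intro a; simp
      | succ i ih =>
        intro a
        rw [pow_succ, mul_assoc, hsemi, ← mul_assoc, ih, mul_assoc, ← pow_succ, pow_succ φ i]
        rfl
    have hu : ∀ i : ℕ, ∃ u : K, (u : Matrix (Fin n) (Fin n) F) *ᵥ v = (Y ^ i) *ᵥ v :=
      fun i => (evalVec_bijective hK hv).2 _
    choose u hu using hu
    have hune : ∀ i, u i ≠ 0 := fun i h => by
      have h1 := hu i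
      rw [h, ZeroMemClass.coe_zero, zero_mulVec] at h1
      apply hv
      have h2 := congrArg (fun w => (Yi ^ i) *ᵥ w) h1
      simp only [mulVec_zero, mulVec_mulVec] at h2
      rw [← (Commute.mul_pow (show Commute Yi Y from (hYY.trans (Units.mul_inv y).symm)) i), hYY,
        one_pow, one_mulVec] at h2
      exact h2.symm
    have hlin : LinearIndependent K fun i : Fin n => ((φ ^ (i : ℕ) : K ≃ₐ[F] K) : K → K) := by
      refine (linearIndependent_monoidHom K K).comp
        (fun i : Fin n => ((φ ^ (i : ℕ) : K ≃ₐ[F] K) : K →* K)) fun i j hij => ?_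
      refine Fin.ext (pow_injOn_Iio_orderOf (G := K ≃ₐ[F] K) (x := φ) ?_ ?_ ?_)
      · rw [Set.mem_Iio, hord]; exact i.2
      · rw [Set.mem_Iio, hord]; exact j.2
      · exact AlgEquiv.ext fun a => DFunLike.congr_fun hij a
    have hQn : aeval Y Q = ∑ i : Fin n, Q.coeff i • Y ^ (i : ℕ) := by
      rw [aeval_eq_sum_range' hlt, Finset.sum_range]
    have hfun : ∑ i : Fin n, (algebraMap F K (Q.coeff i) * u i) •
        ((φ ^ (i : ℕ) : K ≃ₐ[F] K) : K → K) = 0 := by
      funext a
      apply (evalVec_bijective hK hv).1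
      simp only [Finset.sum_apply, Pi.smul_apply, smul_eq_mul, Pi.zero_apply, ZeroMemClass.coe_zero,
        zero_mulVec, AddSubmonoidClass.coe_finset_sum]
      rw [Matrix.sum_mulVec]
      have h1 : (aeval Y Q * (a : Matrix (Fin n) (Fin n) F)) *ᵥ v = 0 := by
        rw [h0, zero_mul, zero_mulVec]
      rw [hQn, Finset.sum_mul, Matrix.sum_mulVec] at h1
      refine Eq.trans (Finset.sum_congr rfl fun i _ => ?_) h1
      show (algebraMap F (Matrix (Fin n) (Fin n) F) (Q.coeff i) * (u i : Matrix (Fin n) (Fin n) F) *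
        (((φ ^ (i : ℕ)) a : K) : Matrix (Fin n) (Fin n) F)) *ᵥ v = _
      rw [smul_mul_assoc, hpow, Algebra.algebraMap_eq_smul_one, smul_mul_assoc, one_mul,
        smul_mul_assoc, smul_mulVec, smul_mulVec,
        hK.comm _ (u i).2 _ ((φ ^ (i : ℕ)) a).2, ← mulVec_mulVec, hu, mulVec_mulVec]
    have h2 := Fintype.linearIndependent_iff.1 hlin _ hfun
    refine hQ (Polynomial.ext fun i => ?_)
    rw [coeff_zero]
    by_cases hi : i < n
    · have := h2 ⟨i, hi⟩
      simpa [hune] using this
    · exact coeff_eq_zero_of_natDegree_lt (by omega)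

/-- An element killed by a polynomial of smaller degree is not conjugate into the normaliser. -/
theorem not_conj_mem_of_aeval_eq_zero (hn : n.Prime) (hK : Cfsg.Geo.IsFieldSubalgebra n K)
    {x : Matrix.SpecialLinearGroup (Fin n) F}
    (hns : ∀ z : F, (x : Matrix (Fin n) (Fin n) F) ≠ z • 1) {Q : F[X]} (hQ : Q ≠ 0)
    (hdeg : Q.natDegree < n) (h0 : aeval (x : Matrix (Fin n) (Fin n) F) Q = 0)
    (P : Matrix.SpecialLinearGroup (Fin n) F) :
    P⁻¹ * x * P ∉ (Cfsg.Geo.subalgebraNormalizer K).comap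
      (Matrix.SpecialLinearGroup.toGL : Matrix.SpecialLinearGroup (Fin n) F →* GL (Fin n) F) := by
  intro hP
  set A : Matrix (Fin n) (Fin n) F :=
    ((P⁻¹ : Matrix.SpecialLinearGroup (Fin n) F) : Matrix (Fin n) (Fin n) F) with hA
  set B : Matrix (Fin n) (Fin n) F := (P : Matrix (Fin n) (Fin n) F) with hB
  have hAB : A * B = 1 := by
    rw [hA, hB, ← Matrix.SpecialLinearGroup.coe_mul, inv_mul_cancel,
      Matrix.SpecialLinearGroup.coe_one]
  have hBA : B * A = 1 := mul_eq_one_comm.mp hAB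
  have hz : ((Matrix.SpecialLinearGroup.toGL (P⁻¹ * x * P) : GL (Fin n) F) :
      Matrix (Fin n) (Fin n) F) = A * (x : Matrix (Fin n) (Fin n) F) * B := rfl
  have haev : ∀ S : F[X], aeval (A * (x : Matrix (Fin n) (Fin n) F) * B) S =
      A * aeval (x : Matrix (Fin n) (Fin n) F) S * B := by
    intro S
    induction S using Polynomial.induction_on with
    | C a =>
      rw [aeval_C, aeval_C, ← Algebra.commutes a A, mul_assoc, hAB, mul_one]
    | add p q hp hq => simp [hp, hq, mul_add, add_mul]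
    | monomial i a h =>
      rw [pow_succ, ← mul_assoc, map_mul, h, map_mul (aeval (x : Matrix (Fin n) (Fin n) F))
        (C a * X ^ i), aeval_X, aeval_X]
      simp only [mul_assoc]
      rw [← mul_assoc B A, hBA, one_mul]
  refine (not_le.2 hdeg) (le_natDegree_of_aeval_eq_zero hn hK hP (fun z h => hns z ?_) hQ ?_)
  · rw [hz] at h
    have h1 := congrArg (fun M => B * M * A) h
    simpa [mul_assoc, ← mul_assoc B A, hBA, hAB] using h1
  · rw [hz, haev, h0, mul_zero, zero_mul]

/-- The element inducing a non-trivial field automorphism. -/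
theorem exists_galois_element (hn : n.Prime) (hn2 : n ≠ 2) (hK : Cfsg.Geo.IsFieldSubalgebra n K) :
    ∃ s : Matrix.SpecialLinearGroup (Fin n) F,
      s ∈ (Cfsg.Geo.subalgebraNormalizer K).comap
        (Matrix.SpecialLinearGroup.toGL : Matrix.SpecialLinearGroup (Fin n) F →* GL (Fin n) F) ∧
      s ^ n = 1 ∧ (∀ c : F, (s : Matrix (Fin n) (Fin n) F) ≠ c • 1) ∧
      (s : Matrix (Fin n) (Fin n) F).charpoly = X ^ n - 1 := by
  classical
  have : NeZero n := ⟨hn.ne_zero⟩
  let _ : Field K := { (isField_of_fieldSubalgebra hK).toField, (inferInstance : Ring K) with }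
  have : Finite K := Finite.of_injective Subtype.val Subtype.val_injective
  have : FiniteDimensional F K := Module.Finite.of_finite
  have hcard : Nat.card (K ≃ₐ[F] K) = n := by rw [IsGalois.card_aut_eq_finrank, hK.finrank_eq]
  haveI : Nontrivial (K ≃ₐ[F] K) :=
    Finite.one_lt_card_iff_nontrivial.mp (by rw [hcard]; exact hn.one_lt)
  obtain ⟨φ, hφ⟩ := exists_ne (1 : K ≃ₐ[F] K)
  set v : Fin n → F := Pi.single 0 1 with hvdef
  have hv : v ≠ 0 := by simp [hvdef]
  let L : K →ₗ[F] (Fin n → F) :=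
    { toFun := fun a => (a : Matrix (Fin n) (Fin n) F) *ᵥ v
      map_add' := fun a b => by simp [add_mulVec]
      map_smul' := fun t a => by simp [smul_mulVec] }
  let e : K ≃ₗ[F] (Fin n → F) := LinearEquiv.ofBijective L (evalVec_bijective hK hv)
  let S : Matrix (Fin n) (Fin n) F := LinearMap.toMatrix' (e.conj φ.toLinearMap)
  have hS : ∀ a : K, S *ᵥ ((a : Matrix (Fin n) (Fin n) F) *ᵥ v) =
      ((φ a : K) : Matrix (Fin n) (Fin n) F) *ᵥ v := fun a => by
    show Matrix.toLin' (LinearMap.toMatrix' (e.conj φ.toLinearMap)) (e a) = e (φ a)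
    rw [Matrix.toLin'_toMatrix', LinearEquiv.conj_apply_apply, LinearEquiv.symm_apply_apply]
    rfl
  have hSpow : ∀ (i : ℕ) (a : K), (S ^ i) *ᵥ ((a : Matrix (Fin n) (Fin n) F) *ᵥ v) =
      (((φ ^ i) a : K) : Matrix (Fin n) (Fin n) F) *ᵥ v := by
    intro i
    induction i with
    | zero => intro a; simp
    | succ i ih =>
      intro a
      rw [pow_succ, ← mulVec_mulVec, hS, ih, pow_succ φ i]
      rfl
  have hSn : S ^ n = 1 := matrix_ext_of_mulVec hK hv fun a ha => by
    rw [hSpow n ⟨a, ha⟩,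
      show φ ^ n = 1 from (congrArg (fun m => φ ^ m) hcard.symm).trans pow_card_eq_one']
    simp
  let g : GL (Fin n) F := Units.ofPowEqOne S n hSn hn.ne_zero
  have hsemi : ∀ a : K, S * (a : Matrix (Fin n) (Fin n) F) =
      ((φ a : K) : Matrix (Fin n) (Fin n) F) * S := fun a => by
    refine matrix_ext_of_mulVec hK hv fun b hb => ?_
    rw [← mulVec_mulVec, ← mulVec_mulVec]
    calc S *ᵥ ((a : Matrix (Fin n) (Fin n) F) *ᵥ (b *ᵥ v))
        = S *ᵥ (((a * ⟨b, hb⟩ : K) : Matrix (Fin n) (Fin n) F) *ᵥ v) := by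
          rw [mulVec_mulVec v (a : Matrix (Fin n) (Fin n) F) b]; rfl
      _ = _ := by
          rw [hS, map_mul, hS ⟨b, hb⟩, mulVec_mulVec]
          rfl
  have hgmem : g ∈ Cfsg.Geo.subalgebraNormalizer K := by
    intro k
    have hk : ∀ a : K, (g : Matrix (Fin n) (Fin n) F) * (a : Matrix (Fin n) (Fin n) F) *
        ((g⁻¹ : GL (Fin n) F) : Matrix (Fin n) (Fin n) F) =
        ((φ a : K) : Matrix (Fin n) (Fin n) F) := fun a => by
      rw [show (g : Matrix (Fin n) (Fin n) F) = S from rfl, hsemi, mul_assoc,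
        show S * ((g⁻¹ : GL (Fin n) F) : Matrix (Fin n) (Fin n) F) = 1 from Units.mul_inv g, mul_one]
    refine ⟨fun h => by rw [hk ⟨k, h⟩]; exact SetLike.coe_mem _, fun h => ?_⟩
    obtain ⟨a, ha⟩ := φ.surjective ⟨_, h⟩
    have h1 := hk a
    rw [ha] at h1
    have h2 : (a : Matrix (Fin n) (Fin n) F) = k := by
      have h3 := congrArg (fun M => ((g⁻¹ : GL (Fin n) F) : Matrix (Fin n) (Fin n) F) * M *
        (g : Matrix (Fin n) (Fin n) F)) h1
      simpa [mul_assoc, ← mul_assoc ((g⁻¹ : GL (Fin n) F) : Matrix (Fin n) (Fin n) F)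
        (g : Matrix (Fin n) (Fin n) F)] using h3
    exact h2 ▸ a.2
  have hns : ∀ z : F, S ≠ z • 1 := fun z h => hφ (by
    have h1 : ∀ a : K, φ a = algebraMap F K z * a := fun a => by
      apply (evalVec_bijective hK hv).1
      show ((φ a : K) : Matrix (Fin n) (Fin n) F) *ᵥ v =
        ((algebraMap F K z * a : K) : Matrix (Fin n) (Fin n) F) *ᵥ v
      rw [← hS, h, mulVec_mulVec, ← Algebra.algebraMap_eq_smul_one]
      rfl
    have hz := h1 1
    rw [map_one, mul_one] at hz
    refine AlgEquiv.ext fun a => ?_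
    rw [h1, ← hz, one_mul]
    rfl)
  have h0 : aeval S (X ^ n - 1 : F[X]) = 0 := by simp [hSn]
  have hne : (X ^ n - 1 : F[X]).Monic := by
    rw [← C_1]; exact monic_X_pow_sub_C 1 hn.ne_zero
  have hdeg : (X ^ n - 1 : F[X]).natDegree = n := by rw [← C_1, natDegree_X_pow_sub_C]
  have hint : IsIntegral F S := Algebra.IsIntegral.isIntegral S
  have hle := le_natDegree_of_aeval_eq_zero hn hK hgmem hns (minpoly.ne_zero hint) (minpoly.aeval F S)
  have hmin : minpoly F S = X ^ n - 1 :=
    (eq_of_monic_of_dvd_of_natDegree_le (minpoly.monic hint) hne (minpoly.dvd F S h0)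
      (by rw [hdeg]; exact hle)).symm
  have hchar : S.charpoly = X ^ n - 1 := by
    rw [← hmin]
    exact eq_of_monic_of_dvd_of_natDegree_le (minpoly.monic hint) (Matrix.charpoly_monic S)
      (Matrix.minpoly_dvd_charpoly S)
      (by rw [Matrix.charpoly_natDegree_eq_dim, Fintype.card_fin]; exact hle)
  have hdet : S.det = 1 := by
    rw [det_eq_coeff, hchar, coeff_sub, coeff_X_pow, if_neg hn.ne_zero.symm, coeff_one_zero,
      zero_sub, (hn.odd_of_ne_two hn2).neg_one_pow, neg_mul_neg, one_mul]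
  obtain ⟨s, hs⟩ : ∃ s : Matrix.SpecialLinearGroup (Fin n) F, (s : Matrix (Fin n) (Fin n) F) = S :=
    ⟨⟨S, hdet⟩, rfl⟩
  refine ⟨s, ?_, Subtype.ext ?_, fun c => hs ▸ hns c, hs ▸ hchar⟩
  · rw [Subgroup.mem_comap, show Matrix.SpecialLinearGroup.toGL s = g from Units.ext hs]
    exact hgmem
  · rw [Matrix.SpecialLinearGroup.coe_pow, hs]; exact hSn

/-- An element with characteristic polynomial `X ^ n - 1` is conjugate into the normaliser. -/
theorem exists_conj_mem_of_charpoly (hn : n.Prime) (hn2 : n ≠ 2) (hnF : (n : F) ≠ 0)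
    (hK : Cfsg.Geo.IsFieldSubalgebra n K) {x : Matrix.SpecialLinearGroup (Fin n) F}
    (hx : (x : Matrix (Fin n) (Fin n) F).charpoly = X ^ n - 1) :
    ∃ P : Matrix.SpecialLinearGroup (Fin n) F,
      P⁻¹ * x * P ∈ (Cfsg.Geo.subalgebraNormalizer K).comap
        (Matrix.SpecialLinearGroup.toGL : Matrix.SpecialLinearGroup (Fin n) F →* GL (Fin n) F) := by
  obtain ⟨p, hp⟩ := CharP.exists F
  haveI : Fact p.Prime := ⟨CharP.char_is_prime F p⟩
  obtain ⟨s, hs, hsn, -, hsc⟩ := exists_galois_element hn hn2 hK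
  have hcop : ∀ y : Matrix.SpecialLinearGroup (Fin n) F, y ^ n = 1 →
      (orderOf (Matrix.SpecialLinearGroup.toGL y)).Coprime p := fun y hy => by
    refine Nat.Coprime.coprime_dvd_left (orderOf_dvd_of_pow_eq_one (n := n) ?_) ?_
    · rw [← map_pow, hy, map_one]
    · rw [Nat.coprime_comm, (Fact.out : p.Prime).coprime_iff_not_dvd, ← CharP.cast_eq_zero_iff F p]
      exact hnF
  have hxn : x ^ n = 1 := Subtype.ext (by
    have h := Matrix.aeval_self_charpoly (x : Matrix (Fin n) (Fin n) F)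
    rw [hx] at h
    simpa [sub_eq_zero] using h)
  have hconj := gl_isConj_of_charpoly_eq p (hcop s hsn) (hcop x hxn)
    (show (s : Matrix (Fin n) (Fin n) F).charpoly = (x : Matrix (Fin n) (Fin n) F).charpoly by
      rw [hsc, hx])
  obtain ⟨g, hg⟩ := isConj_iff.mp hconj
  obtain ⟨h, hdet, hh⟩ :=
    Cfsg.Agent.S2569.result (Matrix.SpecialLinearGroup.toGL s) g (hcop s hsn)
  obtain ⟨P, hP⟩ : ∃ P : Matrix.SpecialLinearGroup (Fin n) F,
      Matrix.SpecialLinearGroup.toGL P = h := ⟨⟨h, hdet⟩, Units.ext rfl⟩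
  refine ⟨P, ?_⟩
  have hPx : P⁻¹ * x * P = s := by
    apply Matrix.SpecialLinearGroup.toGL_injective
    rw [map_mul, map_mul, map_inv, hP, ← hg, ← hh]
    group
  rw [hPx]
  exact hs

end CfsgLib.Classical.SingerPrime
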