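import Cfsg.Agent.Classical.Semisimple.SingerPrime
import Cfsg.Agent.Classical.Semisimple.Bridge
import Cfsg.Agent.Classical.Semisimple.PGLOrderR
import Cfsg.Agent.Classical.Semisimple.LinearElusive
import Cfsg.Agent.Classical.Linear.Card

/-!
Elements of prime order `n` in `SL n q` and the normaliser of a Singer cycle.
-/

set_option autoImplicit false

namespace CfsgLib.Classical.SingerPrime

open Module Matrix Polynomial CfsgLib.Classical.Semisimple

variable {F : Type*} [Field F] [Fintype F] {n : ℕ}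

theorem orderOf_two_mod_three : orderOf ((2 : ℕ) : ZMod 3) = 3 - 1 :=
  haveI : Fact (Nat.Prime 2) := ⟨Nat.prime_two⟩
  orderOf_eq_prime (p := 2) (by decide) (by decide)

theorem eq_one_of_pow (hn : n.Prime) (hndvd : ¬ n ∣ Fintype.card F - 1) {a : F} (ha : a ^ n = 1) :
    a = 1 := by
  have ha0 : a ≠ 0 := fun h => by simp [h, hn.ne_zero] at ha
  have h1 : orderOf a ∣ n := orderOf_dvd_of_pow_eq_one ha
  have h2 : orderOf a ∣ Fintype.card F - 1 :=
    orderOf_dvd_of_pow_eq_one (FiniteField.pow_card_sub_one_eq_one a ha0)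
  rcases (Nat.dvd_prime hn).1 h1 with h | h
  · exact orderOf_eq_one_iff.1 h
  · exact absurd (h ▸ h2) hndvd

omit [Fintype F] in
theorem pow_eq_one_of_scalar_pow {r : ℕ} {x : Matrix.SpecialLinearGroup (Fin n) F} {z : F}
    (h : ((x ^ r : Matrix.SpecialLinearGroup (Fin n) F) : Matrix (Fin n) (Fin n) F) = z • 1) :
    z ^ n = 1 := by
  have h1 := (x ^ r).2
  rw [h, det_smul, det_one, mul_one, Fintype.card_fin] at h1
  exact h1

omit [Fintype F] in
/-- A diagonal element with few eigenvalues is not conjugate into the normaliser. -/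
theorem exists_diag {r : ℕ} [NeZero n] (d : Fin n → F) (hprod : ∏ i, d i = 1) {z : F}
    (hz : ∀ i, d i ^ r = z) {i j : Fin n} (hij : d i ≠ d j) (S : Finset F) (hS : ∀ k, d k ∈ S) :
    ∃ x : Matrix.SpecialLinearGroup (Fin n) F,
      ((x ^ r : Matrix.SpecialLinearGroup (Fin n) F) : Matrix (Fin n) (Fin n) F) = z • 1 ∧
      (∀ c : F, (x : Matrix (Fin n) (Fin n) F) ≠ c • 1) ∧
      ∃ Q : F[X], Q ≠ 0 ∧ Q.natDegree = S.card ∧ aeval (x : Matrix (Fin n) (Fin n) F) Q = 0 := by
  obtain ⟨x, hx⟩ : ∃ x : Matrix.SpecialLinearGroup (Fin n) F,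
      (x : Matrix (Fin n) (Fin n) F) = diagonal d := ⟨⟨diagonal d, by rw [det_diagonal, hprod]⟩, rfl⟩
  refine ⟨x, ?_, fun c hc => hij ?_, ∏ a ∈ S, (X - C a),
    Finset.prod_ne_zero_iff.2 fun a _ => X_sub_C_ne_zero a, ?_, ?_⟩
  · rw [Matrix.SpecialLinearGroup.coe_pow, hx, diagonal_pow, smul_one_eq_diagonal]
    exact congrArg diagonal (funext hz)
  · rw [hx, smul_one_eq_diagonal] at hc
    have h1 := congrFun (congrFun hc i) i
    have h2 := congrFun (congrFun hc j) j
    simp only [diagonal_apply_eq] at h1 h2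
    rw [h1, h2]
  · rw [natDegree_prod _ _ fun a _ => X_sub_C_ne_zero a]
    simp
  · rw [hx, ← diagonalAlgHom_apply (R := F) d, aeval_algHom_apply]
    have h0 : aeval d (∏ a ∈ S, (X - C a)) = 0 := by
      funext k
      rw [map_prod, Finset.prod_apply]
      exact Finset.prod_eq_zero (hS k) (by simp)
    rw [h0, map_zero]

theorem irreducible_factor_dvd (hnF : (n : F) ≠ 0) {f : Module.End F (Fin n → F)} {r : ℕ}
    (hrF : (r : F) ≠ 0) (hf : f ^ r = 1) {P : F[X]} (hP : Irreducible P) (hPm : P.Monic)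
    (hd : P ∣ f.charpoly) : P ∣ X ^ r - 1 := by
  obtain ⟨v, hv, hv0⟩ := exists_apply_eq_zero_of_dvd_charpoly
    (isSemisimple_of_pow_eq_one hrF hf) hP hPm hd
  by_contra hnd
  obtain ⟨a, b, hab⟩ := hP.coprime_iff_not_dvd.mpr hnd
  have := congrArg (fun T => aeval f T v) hab
  simp [hv0, hf] at this
  exact hv this.symm

/-- If `q` has order `n - 1` modulo `n` all elements of order `n` have polynomial `X ^ n - 1`. -/
theorem charpoly_eq_of_orderOf (hn : n.Prime) (hn3 : 3 ≤ n) (hnF : (n : F) ≠ 0)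
    (hord : orderOf (Fintype.card F : ZMod n) = n - 1) {x : Matrix.SpecialLinearGroup (Fin n) F}
    {z : F} (hz : ((x ^ n : Matrix.SpecialLinearGroup (Fin n) F) : Matrix (Fin n) (Fin n) F) = z • 1)
    (hns : ∀ c : F, (x : Matrix (Fin n) (Fin n) F) ≠ c • 1) :
    (x : Matrix (Fin n) (Fin n) F).charpoly = X ^ n - 1 := by
  classical
  haveI : Fact n.Prime := ⟨hn⟩
  have hndvd : ¬ n ∣ Fintype.card F - 1 := fun h => by
    have h1 : (Fintype.card F : ZMod n) = 1 := by
      rw [← Nat.cast_one, ZMod.natCast_eq_natCast_iff]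
      exact ((Nat.modEq_iff_dvd' Fintype.card_pos).mpr h).symm
    rw [h1, orderOf_one] at hord
    omega
  have hz1 : z = 1 := eq_one_of_pow hn hndvd (pow_eq_one_of_scalar_pow hz)
  subst hz1
  set f : Module.End F (Fin n → F) := Matrix.toLin' (x : Matrix (Fin n) (Fin n) F) with hf
  have hfn : f ^ n = 1 := by rw [hf, toLin'_pow_eq_smul hz, one_smul]
  obtain ⟨P, hP, hPm, hPd, hP1⟩ : ∃ P : F[X], Irreducible P ∧ P.Monic ∧
      P ∣ (x : Matrix (Fin n) (Fin n) F).charpoly ∧ ¬ P ∣ X - C 1 := by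
    by_contra hall
    push Not at hall
    have h := aeval_eq_zero_of_forall_dvd (isSemisimple_of_pow_eq_one hnF hfn) (Q := X - C 1)
      (fun P hP hPm hd => hall P hP hPm (by rwa [hf, Matrix.charpoly_toLin'] at hd))
    refine hns 1 (Matrix.toLin'.injective ?_)
    rw [toLin'_smul_one, one_smul, ← hf]
    simpa [sub_eq_zero] using h
  have hPcyc : P ∣ cyclotomic n F := by
    have h1 := irreducible_factor_dvd hnF hnF hfn hP hPm (by rwa [hf, Matrix.charpoly_toLin'])
    rw [← cyclotomic_prime_mul_X_sub_one] at h1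
    exact (hP.prime.dvd_or_dvd h1).resolve_right (by rwa [C_1] at hP1)
  have hPdeg : P.natDegree = n - 1 := by rw [natDegree_of_dvd_cyclotomic hnF hP hPcyc, hord]
  have hPeq : cyclotomic n F = P :=
    eq_of_monic_of_dvd_of_natDegree_le hPm (cyclotomic.monic n F) hPcyc
      (by rw [natDegree_cyclotomic, Nat.totient_prime hn, hPdeg])
  obtain ⟨L, hL⟩ := hPd
  have hLm : L.Monic := hPm.of_mul_monic_left (hL ▸ Matrix.charpoly_monic _)
  have hLdeg : L.natDegree = 1 := by
    have h1 := congrArg natDegree hL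
    rw [Matrix.charpoly_natDegree_eq_dim, Fintype.card_fin, natDegree_mul hP.ne_zero hLm.ne_zero,
      hPdeg] at h1
    omega
  have hL1 : L = X + C (L.coeff 0) := hLm.eq_X_add_C hLdeg
  have hLirr : Irreducible L := irreducible_of_degree_eq_one (by
    rw [degree_eq_natDegree hLm.ne_zero, hLdeg]; rfl)
  have h2 := irreducible_factor_dvd hnF hnF hfn hLirr hLm
    (by rw [hf, Matrix.charpoly_toLin', hL]; exact dvd_mul_left _ _)
  rw [hL1, show X + C (L.coeff 0) = X - C (-L.coeff 0) by simp [sub_eq_add_neg],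
    dvd_iff_isRoot] at h2
  have h3 : (-L.coeff 0) ^ n = 1 := by simpa [sub_eq_zero] using h2
  have h4 := eq_one_of_pow hn hndvd h3
  rw [hL, hL1, ← hPeq, ← cyclotomic_prime_mul_X_sub_one, show L.coeff 0 = -1 by rw [← h4, neg_neg]]
  simp [sub_eq_add_neg]

variable {K : Subalgebra F (Matrix (Fin n) (Fin n) F)}

/-- Elements of prime order `n` and the Singer normaliser, `n > 3`. -/
theorem forall_conj_iff_orderOf (hn : n.Prime) (hn3 : 3 < n) (hnF : (n : F) ≠ 0)
    (hK : Cfsg.Geo.IsFieldSubalgebra n K) :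
    (∀ x : Matrix.SpecialLinearGroup (Fin n) F,
      (∃ z : F, ((x ^ n : Matrix.SpecialLinearGroup (Fin n) F) : Matrix (Fin n) (Fin n) F) = z • 1) →
      (∀ z : F, (x : Matrix (Fin n) (Fin n) F) ≠ z • 1) →
      ∃ P : Matrix.SpecialLinearGroup (Fin n) F, P⁻¹ * x * P ∈
        (Cfsg.Geo.subalgebraNormalizer K).comap (Matrix.SpecialLinearGroup.toGL :
          Matrix.SpecialLinearGroup (Fin n) F →* GL (Fin n) F)) ↔
      orderOf (Fintype.card F : ZMod n) = n - 1 := by
  classical
  haveI : Fact n.Prime := ⟨hn⟩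
  have : NeZero n := ⟨hn.ne_zero⟩
  constructor
  swap
  · rintro hord x ⟨z, hz⟩ hns
    exact exists_conj_mem_of_charpoly hn (by omega) hnF hK
      (charpoly_eq_of_orderOf hn (by omega) hnF hord hz hns)
  intro h
  by_contra hne
  set d := orderOf (Fintype.card F : ZMod n) with hd
  have hdpos : 0 < d := orderOf_card_pos hnF
  have hdn : d ∣ n - 1 := orderOf_dvd_of_pow_eq_one (ZMod.pow_card_sub_one_eq_one
    (card_ne_zero_mod hnF))
  have hdlt : d + 1 < n := by have := Nat.le_of_dvd (by omega) hdn; omega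
  suffices hw : ∃ x : Matrix.SpecialLinearGroup (Fin n) F,
      (∃ z : F, ((x ^ n : Matrix.SpecialLinearGroup (Fin n) F) : Matrix (Fin n) (Fin n) F) = z • 1) ∧
      (∀ z : F, (x : Matrix (Fin n) (Fin n) F) ≠ z • 1) ∧
      ∃ Q : F[X], Q ≠ 0 ∧ Q.natDegree < n ∧ aeval (x : Matrix (Fin n) (Fin n) F) Q = 0 by
    obtain ⟨x, hx, hns, Q, hQ, hQd, hQ0⟩ := hw
    obtain ⟨P, hP⟩ := h x hx hns
    exact not_conj_mem_of_aeval_eq_zero hn hK hns hQ hQd hQ0 P hP
  by_cases hd1 : d = 1
  · have hndvd : n ∣ Fintype.card F - 1 := by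
      have := (dvd_pow_sub_one_iff_orderOf_dvd (F := F) (r := n) 1).mpr (hd ▸ hd1 ▸ dvd_refl _)
      rwa [pow_one] at this
    obtain ⟨u, hu⟩ := exists_prime_orderOf_dvd_card' (G := Fˣ) n (by
      rw [Nat.card_units, Nat.card_eq_fintype_card]; exact hndvd)
    have hu1 : (u : F) ≠ 1 := fun e => by
      rw [Units.val_eq_one] at e
      rw [e, orderOf_one] at hu
      exact hn.ne_one hu.symm
    have hun : (u : F) ^ n = 1 := by
      rw [← Units.val_pow_eq_pow_val, ← hu, pow_orderOf_eq_one, Units.val_one]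
    let i0 : Fin n := ⟨0, by omega⟩
    let i1 : Fin n := ⟨1, by omega⟩
    let i2 : Fin n := ⟨2, by omega⟩
    have h01 : i0 ≠ i1 := by simp [i0, i1, Fin.ext_iff]
    let dd : Fin n → F := fun k => if k = i0 then (u : F) else if k = i1 then (u : F)⁻¹ else 1
    have hprod : ∏ k, dd k = 1 := by
      rw [Finset.prod_eq_mul i0 i1 h01 (fun c _ hc => by simp [dd, hc.1, hc.2]) (by simp) (by simp)]
      simp [dd, h01.symm]
    obtain ⟨x, hx, hns, Q, hQ, hQd, hQ0⟩ := exists_diag (r := n) dd hprod (z := 1)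
      (fun k => by simp only [dd]; split_ifs <;> simp [hun]) (i := i0) (j := i2)
      (by
        have h20 : i2 ≠ i0 := by simp [i0, i2]
        have h21 : i2 ≠ i1 := by simp [i1, i2]
        show dd i0 ≠ dd i2
        simp only [dd]
        rw [if_neg h20, if_neg h21, if_pos trivial]
        exact hu1) {(u : F), (u : F)⁻¹, 1}
      (fun k => by simp only [dd]; split_ifs <;> simp)
    exact ⟨x, ⟨1, hx⟩, hns, Q, hQ, by rw [hQd]; exact Finset.card_le_three.trans_lt hn3, hQ0⟩
  · have hndvd : ¬ n ∣ Fintype.card F - 1 := fun hc => hd1 (by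
      have := (dvd_pow_sub_one_iff_orderOf_dvd (F := F) (r := n) 1).mp (by rwa [pow_one])
      exact Nat.dvd_one.mp this)
    obtain ⟨f, hfn, hker, -, Q, hQ, hQd, hQ0⟩ :=
      exists_pow_eq_one_finrank_ker_aeval (F := F) (r := n) hnF (n := n) (l := 1) (by omega)
    have hdet : LinearMap.det f = 1 :=
      eq_one_of_pow hn hndvd (by rw [← map_pow, hfn, map_one])
    haveI : Nonempty (Fin n) := ⟨0⟩
    obtain ⟨x, hx, hxn, hns⟩ := exists_sl_of_end hdet (r := n) (z := 1) (by rw [hfn, one_smul])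
      (ne_smul_one_of_finrank_ker hfn (by rw [hker, Fintype.card_fin]; omega)
        fun c hc => eq_one_of_pow hn hndvd hc)
    refine ⟨x, ⟨1, hxn⟩, hns, Q, hQ, by rw [hQd]; omega, ?_⟩
    have h1 : Matrix.toLinAlgEquiv' (aeval (x : Matrix (Fin n) (Fin n) F) Q) =
        Matrix.toLinAlgEquiv' (0 : Matrix (Fin n) (Fin n) F) := by
      rw [← AlgEquiv.coe_algHom, ← aeval_algHom_apply, map_zero]
      rw [← hQ0, ← hx]
      rfl
    exact Matrix.toLinAlgEquiv'.injective h1

/-- In dimension three with `q % 9 ∈ {4, 7}` elements of order three have three eigenvalues. -/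
theorem charpoly_eq_prod_mu [Fintype (PGLOrderR.mu F 3)] (hdvd : 3 ∣ Fintype.card F - 1)
    (h9 : ¬ Fintype.card F % 9 = 1) {y : Matrix.SpecialLinearGroup (Fin 3) F} {z : F}
    (hz : ((y ^ 3 : Matrix.SpecialLinearGroup (Fin 3) F) : Matrix (Fin 3) (Fin 3) F) = z • 1)
    (hns : ∀ c : F, (y : Matrix (Fin 3) (Fin 3) F) ≠ c • 1) :
    (y : Matrix (Fin 3) (Fin 3) F).charpoly = ∏ w : PGLOrderR.mu F 3, (X - C ((w : Fˣ) : F)) := by
  classical
  have h3 : Nat.Prime 3 := Nat.prime_three
  have hz3 : z ^ 3 = 1 := pow_eq_one_of_scalar_pow hz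
  have hz0 : z ≠ 0 := fun e => by simp [e] at hz3
  have hzcube : ∀ b : F, b ^ 3 = z → z = 1 := fun b hb => by
    have hb0 : b ≠ 0 := fun e => hz0 (by rw [← hb, e]; simp)
    have h1 : orderOf b ∣ Nat.gcd 9 (Fintype.card F - 1) := Nat.dvd_gcd
      (orderOf_dvd_of_pow_eq_one (by rw [show 9 = 3 * 3 from rfl, pow_mul, hb, hz3]))
      (orderOf_dvd_of_pow_eq_one (FiniteField.pow_card_sub_one_eq_one b hb0))
    have h2 : Nat.gcd 9 (Fintype.card F - 1) ∣ 3 := by
      have h4 : Nat.gcd 9 (Fintype.card F - 1) ∣ 3 ^ 2 := Nat.gcd_dvd_left 9 _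
      obtain ⟨j, hj, hje⟩ := (Nat.dvd_prime_pow h3).1 h4
      interval_cases j
      · simp [hje]
      · simp [hje]
      · exfalso
        have h5 : 9 ∣ Fintype.card F - 1 := by
          have := Nat.gcd_dvd_right 9 (Fintype.card F - 1)
          rw [hje] at this
          simpa using this
        have := Fintype.card_pos (α := F)
        omega
    rw [← hb]
    exact orderOf_dvd_iff_pow_eq_one.1 (h1.trans h2)
  set g : GL (Fin 3) F := Matrix.SpecialLinearGroup.toGL y with hg
  have hgy : (g : Matrix (Fin 3) (Fin 3) F) = y := rfl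
  have hgz : g ^ 3 = PGLOrderR.scal (Units.mk0 z hz0) := Units.ext (by
    rw [Units.val_pow_eq_pow_val, hgy, ← Matrix.SpecialLinearGroup.coe_pow, hz,
      PGLOrderR.coe_scal, scalar_apply, smul_one_eq_diagonal]
    rfl)
  have hz1 : z = 1 := by
    by_contra hne
    have hnp : ∀ b : Fˣ, b ^ 3 ≠ Units.mk0 z hz0 := fun b hb => hne (hzcube b (by
      rw [← Units.val_pow_eq_pow_val, hb, Units.val_mk0]))
    obtain ⟨-, hchar⟩ := PGLOrderR.charpoly_of_not_pow h3 hdvd hgz hnp
    have hdet := y.2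
    rw [← hgy, det_eq_coeff, hchar] at hdet
    simp [coeff_X_pow] at hdet
    exact hne (by linear_combination hdet)
  subst hz1
  have hg1 : g ^ 3 = PGLOrderR.scal 1 := by
    rw [hgz]; exact congrArg _ (Units.ext (Units.val_mk0 hz0))
  obtain ⟨t, ht⟩ := PGLOrderR.exists_ev_eq h3 hdvd hg1
  have hcard : Fintype.card (PGLOrderR.mu F 3) = 3 := by
    rw [← Nat.card_eq_fintype_card, PGLOrderR.card_mu hdvd]
  obtain ⟨f, hrep, hft⟩ := PGLOrderR.exists_rep_eq t
  have hconj : IsConj g (PGLOrderR.rep t) := PGLOrderR.isConj_of_charpoly hdvd hg1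
    (PGLOrderR.rep_pow t) (ht.trans (PGLOrderR.charpoly_rep t).symm)
  have hfprod : f 0 * f 1 * f 2 = 1 := by
    obtain ⟨w, hw⟩ := isConj_iff.1 hconj
    have hd1 := congrArg Matrix.GeneralLinearGroup.det hw
    rw [map_mul, map_mul, map_inv, mul_comm (Matrix.GeneralLinearGroup.det w),
      mul_inv_cancel_right, hrep] at hd1
    have hd2 := congrArg Units.val hd1
    simp only [Matrix.GeneralLinearGroup.val_det_apply, PGLOrderR.coe_dg, det_diagonal,
      Fin.prod_univ_three, hgy, y.2] at hd2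
    refine Subtype.ext (Units.ext ?_)
    simpa using hd2.symm
  have hnconst : ¬ (f 1 = f 0 ∧ f 2 = f 0) := by
    rintro ⟨e1, e2⟩
    obtain ⟨w, hw⟩ := isConj_iff.1 hconj
    have hsc : PGLOrderR.rep t = PGLOrderR.scal ((f 0 : Fˣ)) := Units.ext (by
      rw [hrep, PGLOrderR.coe_dg, PGLOrderR.coe_scal, scalar_apply]
      congr 1
      funext i
      fin_cases i <;> simp [e1, e2])
    rw [hsc, mul_inv_eq_iff_eq_mul, ← PGLOrderR.scal_comm] at hw
    have h5 := mul_left_cancel hw
    refine hns ((f 0 : Fˣ) : F) ?_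
    rw [← hgy, h5, PGLOrderR.coe_scal, scalar_apply, smul_one_eq_diagonal]
  have hinj : Function.Injective f := by
    have hcube : ∀ w : PGLOrderR.mu F 3, w * w * w = 1 := fun w => by
      refine Subtype.ext ?_
      have : ((w : Fˣ)) ^ 3 = 1 := w.2
      simpa [pow_three, mul_assoc] using this
    have key : ∀ a b c : PGLOrderR.mu F 3, a * b * c = 1 → a = b → c = a := fun a b c h e => by
      subst e
      exact mul_left_cancel (h.trans (hcube a).symm)
    have h01 : f 0 ≠ f 1 := fun e => hnconst ⟨e.symm, key _ _ _ hfprod e⟩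
    have h02 : f 0 ≠ f 2 := fun e => hnconst
      ⟨key _ _ _ (by rw [mul_right_comm]; exact hfprod) e, e.symm⟩
    have h12 : f 1 ≠ f 2 := fun e => by
      have h6 := key _ _ _ (by rw [mul_comm, ← mul_assoc]; exact hfprod : f 1 * f 2 * f 0 = 1) e
      exact h01 h6
    intro i j hij
    fin_cases i <;> fin_cases j <;> first
      | rfl
      | exact absurd hij h01
      | exact absurd hij.symm h01
      | exact absurd hij h02
      | exact absurd hij.symm h02
      | exact absurd hij h12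
      | exact absurd hij.symm h12
  have hbij : Function.Bijective f :=
    (Fintype.bijective_iff_injective_and_card f).2 ⟨hinj, by rw [hcard, Fintype.card_fin]⟩
  rw [← hgy, ht, ← PGLOrderR.charpoly_dg f t hft, PGLOrderR.coe_dg, charpoly_diagonal]
  exact Fintype.prod_bijective f hbij _ _ fun i => rfl

/-- Elements of order three and the Singer normaliser in dimension three. -/
theorem forall_conj_iff_three {K : Subalgebra F (Matrix (Fin 3) (Fin 3) F)}
    (hK : Cfsg.Geo.IsFieldSubalgebra 3 K)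
    (hΩ : 3 ∣ ((Cfsg.Geo.subalgebraNormalizer K).comap (Matrix.SpecialLinearGroup.toGL :
      Matrix.SpecialLinearGroup (Fin 3) F →* GL (Fin 3) F)).index) :
    (∀ x : Matrix.SpecialLinearGroup (Fin 3) F,
      (∃ z : F, ((x ^ 3 : Matrix.SpecialLinearGroup (Fin 3) F) : Matrix (Fin 3) (Fin 3) F) = z • 1) →
      (∀ z : F, (x : Matrix (Fin 3) (Fin 3) F) ≠ z • 1) →
      ∃ P : Matrix.SpecialLinearGroup (Fin 3) F, P⁻¹ * x * P ∈
        (Cfsg.Geo.subalgebraNormalizer K).comap (Matrix.SpecialLinearGroup.toGL :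
          Matrix.SpecialLinearGroup (Fin 3) F →* GL (Fin 3) F)) ↔
      (Fintype.card F % 9 = 4 ∨ Fintype.card F % 9 = 7 ∨ Fintype.card F % 9 = 8) := by
  classical
  have h3 : Nat.Prime 3 := Nat.prime_three
  haveI : Fact (Nat.Prime 3) := ⟨h3⟩
  haveI : Fintype (PGLOrderR.mu F 3) := Fintype.ofFinite _
  have fails : ∀ x : Matrix.SpecialLinearGroup (Fin 3) F,
      (∃ z : F, ((x ^ 3 : Matrix.SpecialLinearGroup (Fin 3) F) : Matrix (Fin 3) (Fin 3) F) = z • 1) →
      (∀ z : F, (x : Matrix (Fin 3) (Fin 3) F) ≠ z • 1) →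
      ∀ Q : F[X], Q ≠ 0 → Q.natDegree < 3 → aeval (x : Matrix (Fin 3) (Fin 3) F) Q = 0 →
      ¬ (∀ x : Matrix.SpecialLinearGroup (Fin 3) F,
        (∃ z : F, ((x ^ 3 : Matrix.SpecialLinearGroup (Fin 3) F) : Matrix (Fin 3) (Fin 3) F) =
          z • 1) →
        (∀ z : F, (x : Matrix (Fin 3) (Fin 3) F) ≠ z • 1) →
        ∃ P : Matrix.SpecialLinearGroup (Fin 3) F, P⁻¹ * x * P ∈
          (Cfsg.Geo.subalgebraNormalizer K).comap (Matrix.SpecialLinearGroup.toGL :
            Matrix.SpecialLinearGroup (Fin 3) F →* GL (Fin 3) F)) := by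
    intro x hx hns Q hQ hQd hQ0 h
    obtain ⟨P, hP⟩ := h x hx hns
    exact not_conj_mem_of_aeval_eq_zero h3 hK hns hQ hQd hQ0 P hP
  by_cases h3F : ((3 : ℕ) : F) = 0
  · -- a transvection
    have hq : ¬ (Fintype.card F % 9 = 4 ∨ Fintype.card F % 9 = 7 ∨ Fintype.card F % 9 = 8) := by
      haveI := CharP.exists F
      obtain ⟨p, hp⟩ := CharP.exists F
      haveI : Fact p.Prime := ⟨CharP.char_is_prime F p⟩
      have hp3 : p = 3 := ((Nat.prime_dvd_prime_iff_eq (Fact.out : p.Prime) h3).mp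
        ((CharP.cast_eq_zero_iff F p 3).mp h3F))
      subst hp3
      obtain ⟨e, -, he⟩ := FiniteField.card F 3
      have : 3 ∣ Fintype.card F := he ▸ dvd_pow_self 3 e.ne_zero
      omega
    refine iff_of_false ?_ hq
    obtain ⟨x, hx⟩ : ∃ x : Matrix.SpecialLinearGroup (Fin 3) F,
        (x : Matrix (Fin 3) (Fin 3) F) = !![1, 1, 0; 0, 1, 0; 0, 0, 1] :=
      ⟨⟨!![1, 1, 0; 0, 1, 0; 0, 0, 1], by simp [det_fin_three]⟩, rfl⟩
    have hsq : ((x : Matrix (Fin 3) (Fin 3) F) - 1) * ((x : Matrix (Fin 3) (Fin 3) F) - 1) = 0 := by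
      rw [hx]
      ext i j
      fin_cases i <;> fin_cases j <;> simp [Matrix.mul_apply, Fin.sum_univ_three]
    refine fails x ⟨1, ?_⟩ (fun z hz => ?_) ((X - C 1) * (X - C 1))
      (mul_ne_zero (X_sub_C_ne_zero 1) (X_sub_C_ne_zero 1)) ?_ ?_
    · rw [Matrix.SpecialLinearGroup.coe_pow, hx, one_smul, pow_three]
      have h3' : (1 : F) + 1 + 1 = 0 := by
        have := h3F
        push_cast at this
        linear_combination this
      ext i j
      fin_cases i <;> fin_cases j <;>
        simp [Matrix.mul_apply, Fin.sum_univ_three] <;> linear_combination h3'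
    · have := congrFun (congrFun hz 0) 1
      simp [hx] at this
    · rw [natDegree_mul (X_sub_C_ne_zero 1) (X_sub_C_ne_zero 1), natDegree_X_sub_C]
      omega
    · rw [map_mul, map_sub, aeval_X, aeval_C, map_one, hsq]
  have hcast : ∀ a : ℕ, Fintype.card F % 3 = a → (Fintype.card F : ZMod 3) = (a : ZMod 3) :=
    fun a h => by rw [← h, ZMod.natCast_mod]
  rcases (show Fintype.card F % 3 = 0 ∨ Fintype.card F % 3 = 1 ∨ Fintype.card F % 3 = 2 by omega)
    with hq | hq | hq
  · exact absurd (by simpa using hcast 0 hq) (card_ne_zero_mod h3F)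
  · have hdvd : 3 ∣ Fintype.card F - 1 := by omega
    by_cases h9 : Fintype.card F % 9 = 1
    · -- three does not suffice
      refine iff_of_false ?_ (by omega)
      have hdvd9 : 9 ∣ Fintype.card F - 1 := by omega
      obtain ⟨g, hg⟩ := IsCyclic.exists_generator (α := Fˣ)
      have hg' : orderOf g = Fintype.card F - 1 := by
        rw [orderOf_eq_card_of_forall_mem_zpowers hg, Nat.card_units, Nat.card_eq_fintype_card]
      have hpos : Fintype.card F - 1 ≠ 0 := by have := Fintype.one_lt_card (α := F); omega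
      set u := g ^ (orderOf g / 9) with hu
      have hu9 : orderOf u = 9 := orderOf_pow_orderOf_div (by rw [hg']; exact hpos) (hg' ▸ hdvd9)
      have hu6 : (u : F) ^ 6 ≠ 1 := by
        rw [← Units.val_pow_eq_pow_val, Ne, Units.val_eq_one, ← orderOf_dvd_iff_pow_eq_one, hu9]
        omega
      have hu90 : (u : F) ^ 9 = 1 := by
        rw [← Units.val_pow_eq_pow_val, ← hu9, pow_orderOf_eq_one, Units.val_one]
      obtain ⟨x, hx, hns, Q, hQ, hQd, hQ0⟩ := exists_diag (r := 3) ![(u : F), u, u ^ 7]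
        (by simp [Fin.prod_univ_three]; linear_combination hu90) (z := (u : F) ^ 3)
        (fun k => by
          fin_cases k <;> simp
          linear_combination ((u : F) ^ 3 * ((u : F) ^ 9 + 1)) * hu90)
        (i := 0) (j := 2)
        (fun e => hu6 (mul_left_cancel₀ u.ne_zero (by simp at e; linear_combination -e)))
        {(u : F), (u : F) ^ 7} (fun k => by fin_cases k <;> simp)
      exact fails x ⟨_, hx⟩ hns Q hQ (by rw [hQd]; exact Finset.card_le_two.trans_lt (by omega)) hQ0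
    · refine iff_of_true ?_ (by omega)
      rintro x ⟨z, hz⟩ hns
      obtain ⟨s, -, hsn, hs1, hsc⟩ := exists_galois_element h3 (by omega) hK
      suffices key : ∀ y : Matrix.SpecialLinearGroup (Fin 3) F, ∀ z : F,
          ((y ^ 3 : Matrix.SpecialLinearGroup (Fin 3) F) : Matrix (Fin 3) (Fin 3) F) = z • 1 →
          (∀ c : F, (y : Matrix (Fin 3) (Fin 3) F) ≠ c • 1) →
          (y : Matrix (Fin 3) (Fin 3) F).charpoly =
            ∏ w : PGLOrderR.mu F 3, (X - C ((w : Fˣ) : F)) by
        refine exists_conj_mem_of_charpoly h3 (by omega) h3F hK ?_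
        rw [key x z hz hns, ← hsc, key s 1 (by rw [hsn, one_smul]; rfl) hs1]
      intro y z hz hns
      exact charpoly_eq_prod_mu hdvd h9 hz hns
  · have hord : orderOf (Fintype.card F : ZMod 3) = 3 - 1 := by
      rw [hcast 2 hq]
      exact orderOf_two_mod_three
    have hq9 : Fintype.card F % 9 = 8 := by
      by_contra hne
      obtain ⟨s, hs, hsn, hs1, -⟩ := exists_galois_element h3 (by omega) hK
      set H := (Cfsg.Geo.subalgebraNormalizer K).comap (Matrix.SpecialLinearGroup.toGL :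
        Matrix.SpecialLinearGroup (Fin 3) F →* GL (Fin 3) F)
      have h3H : 3 ∣ Nat.card H := by
        have := orderOf_dvd_natCard (⟨s, hs⟩ : H)
        rwa [← Subgroup.orderOf_coe, orderOf_eq_prime hsn fun e => hs1 1 (by
          rw [e, one_smul]; rfl)] at this
      have h9 : 9 ∣ Nat.card (Matrix.SpecialLinearGroup (Fin 3) F) := by
        rw [← Subgroup.card_mul_index H]
        exact Nat.mul_dvd_mul h3H hΩ
      have h := CfsgLib.Classical.Linear.card_sl (F := F) 3 (by omega)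
      have h' : 9 ∣ (Fintype.card F - 1) * Nat.card (Matrix.SpecialLinearGroup (Fin 3) F) :=
        h9.mul_left _
      rw [h, Fin.prod_univ_three, ← ZMod.natCast_eq_zero_iff] at h'
      have hle : ∀ i, i ≤ 2 → Fintype.card F ^ i ≤ Fintype.card F ^ 3 := fun i hi =>
        Nat.pow_le_pow_right Fintype.card_pos (by omega)
      simp only [Fin.val_zero, Fin.val_one, Fin.val_two, Nat.cast_mul] at h'
      rw [Nat.cast_sub (hle 0 (by omega)), Nat.cast_sub (hle 1 (by omega)),
        Nat.cast_sub (hle 2 le_rfl)] at h'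
      simp only [Nat.cast_pow, ← ZMod.natCast_mod (Fintype.card F) 9] at h'
      rcases (show Fintype.card F % 9 = 2 ∨ Fintype.card F % 9 = 5 by omega) with e | e <;>
        rw [e] at h' <;> exact absurd h' (by decide)
    refine iff_of_true ?_ (by omega)
    rintro x ⟨z, hz⟩ hns
    exact exists_conj_mem_of_charpoly h3 (by omega) h3F hK
      (charpoly_eq_of_orderOf h3 le_rfl h3F hord hz hns)

end CfsgLib.Classical.SingerPrime
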