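import Cfsg.Prelude.Def_GeometricClasses
import Cfsg.Agent.Eq.Def_GeometricClasses
import Cfsg.Agent.Classical.Semisimple.ClassCount
import Cfsg.Agent.Classical.Semisimple.ConjForm
import Mathlib.FieldTheory.IsAlgClosed.AlgebraicClosure

/-!
Semisimple elements of `SL` conjugate into a subfield subgroup are those with a scalar multiple whose
characteristic polynomial has coefficients in the subfield.
-/

set_option autoImplicit false

namespace CfsgLib.Classical.Semisimple.SubfieldConj

open Module Polynomial Matrix CfsgLib.Classical.Semisimple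

variable {F : Type*} [Field F] {n : ℕ} (F₀ : Subfield F)

local notation "SLn" => Matrix.SpecialLinearGroup (Fin n) F
local notation "Hsub" => Subgroup.comap
  (Matrix.SpecialLinearGroup.toGL : Matrix.SpecialLinearGroup (Fin n) F →* GL (Fin n) F)
  (Cfsg.Geo.subfieldSubgroup F₀ 1)

theorem mem_iff [NeZero n] (y : SLn) :
    y ∈ Hsub ↔ ∃ (c : F) (A : Matrix (Fin n) (Fin n) F₀),
      (y : Matrix (Fin n) (Fin n) F) = c • A.map (F₀.subtype : F₀ →+* F) := by
  classical
  haveI : (Cfsg.Geo.scalars (Fin n) F).Normal := ⟨fun g hg h => by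
    obtain ⟨c, hc⟩ := (Cfsg.Geo.mem_scalars_iff g).1 hg
    rw [Cfsg.Geo.mem_scalars_iff]
    refine ⟨c, ?_⟩
    rw [Units.val_mul, Units.val_mul, hc, mul_smul_comm, mul_one, smul_mul_assoc, ← Units.val_mul,
      mul_inv_cancel, Units.val_one]⟩
  have h1 : Cfsg.Geo.subfieldSubgroup F₀ (1 : GL (Fin n) F) =
      (Matrix.GeneralLinearGroup.map (F₀.subtype : F₀ →+* F)).range ⊔ Cfsg.Geo.scalars (Fin n) F := by
    unfold Cfsg.Geo.subfieldSubgroup
    rw [map_one]
    exact Subgroup.map_id _
  rw [Subgroup.mem_comap, h1, Subgroup.mem_sup_of_normal_right]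
  constructor
  · rintro ⟨_, ⟨A, rfl⟩, s, hs, he⟩
    obtain ⟨c, hc⟩ := (Cfsg.Geo.mem_scalars_iff s).1 hs
    refine ⟨c, (A : Matrix (Fin n) (Fin n) F₀), ?_⟩
    have := congrArg Units.val he
    rw [Units.val_mul, hc, mul_smul_comm, mul_one] at this
    exact this.symm
  · rintro ⟨c, A, hA⟩
    have hdet : c ^ n * (A.map (F₀.subtype : F₀ →+* F)).det = 1 := by
      have := y.2
      rw [hA, Matrix.det_smul, Fintype.card_fin] at this
      exact this
    have hc : c ≠ 0 := by
      rintro rfl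
      simp [zero_pow (NeZero.ne n)] at hdet
    have hAdet : A.det ≠ 0 := fun h => by
      rw [← RingHom.mapMatrix_apply, ← RingHom.map_det, h, map_zero, mul_zero] at hdet
      exact zero_ne_one hdet
    refine ⟨_, ⟨Matrix.GeneralLinearGroup.mkOfDetNeZero A hAdet, rfl⟩,
      Units.map (Matrix.scalar (Fin n) : F →+* Matrix (Fin n) (Fin n) F).toMonoidHom (Units.mk0 c hc),
      ⟨Units.mk0 c hc, rfl⟩, Units.ext ?_⟩
    show A.map (F₀.subtype : F₀ →+* F) * Matrix.scalar (Fin n) c = (y : Matrix (Fin n) (Fin n) F)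
    rw [hA, Matrix.scalar_apply, ← Matrix.smul_one_eq_diagonal, mul_smul_comm, mul_one]

theorem coe_conj (P x : SLn) : ((P⁻¹ * x * P : SLn) : Matrix (Fin n) (Fin n) F) =
    (Matrix.SpecialLinearGroup.toGL P : GL (Fin n) F).1⁻¹ * (x : Matrix (Fin n) (Fin n) F) *
      (Matrix.SpecialLinearGroup.toGL P : GL (Fin n) F).1 := by
  rw [← Matrix.coe_units_inv, ← map_inv]
  rfl

/-- A conjugate in the subfield subgroup gives a scalar multiple with characteristic polynomial over
the subfield. -/
theorem exists_coeff_mem [NeZero n] {x P : SLn} (h : P⁻¹ * x * P ∈ Hsub) :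
    ∃ c : F, c ≠ 0 ∧ ∀ j, (c • (x : Matrix (Fin n) (Fin n) F)).charpoly.coeff j ∈ F₀ := by
  obtain ⟨c, A, hA⟩ := (mem_iff F₀ _).1 h
  have hc : c ≠ 0 := by
    rintro rfl
    have := (P⁻¹ * x * P).2
    rw [hA, zero_smul, Matrix.det_zero] at this
    exact zero_ne_one this
  refine ⟨c⁻¹, inv_ne_zero hc, fun j => ?_⟩
  have h1 : (c⁻¹ • (x : Matrix (Fin n) (Fin n) F)).charpoly = (A.map (F₀.subtype : F₀ →+* F)).charpoly := by
    rw [← Matrix.charpoly_units_conj' (Matrix.SpecialLinearGroup.toGL P) (c⁻¹ • (x : Matrix (Fin n) (Fin n) F)),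
      Matrix.mul_smul, Matrix.smul_mul, ← coe_conj, hA, smul_smul, inv_mul_cancel₀ hc, one_smul]
  rw [h1, Matrix.charpoly_map, Polynomial.coeff_map]
  exact ((A.charpoly).coeff j).2

/-- A semisimple element with a scalar multiple whose characteristic polynomial is over the subfield is
conjugate into the subfield subgroup. -/
theorem exists_conj_mem [Fintype F] [NeZero n] (p : ℕ) [Fact p.Prime] [CharP F p] (x : SLn) {N : ℕ}
    (hN : (N : F) ≠ 0) {z : F} (hz : z ≠ 0)
    (hx : ((x ^ N : SLn) : Matrix (Fin n) (Fin n) F) = z • 1) {c : F} (hc : c ≠ 0)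
    (hχ : ∀ j, (c • (x : Matrix (Fin n) (Fin n) F)).charpoly.coeff j ∈ F₀) :
    ∃ P : SLn, P⁻¹ * x * P ∈ Hsub := by
  classical
  haveI : CharP F₀ p := RingHom.charP (F₀.subtype : F₀ →+* F) Subtype.val_injective p
  haveI : Fintype F₀ := Fintype.ofFinite _
  have : Nontrivial (Fin n → F) := inferInstance
  let ι' : F₀ →+* F := F₀.subtype
  set X' := c • (x : Matrix (Fin n) (Fin n) F) with hX'
  obtain ⟨χ, hχe, -, hχm⟩ := Polynomial.lifts_and_degree_eq_and_monic
    (f := ι') (p := X'.charpoly) ((Polynomial.lifts_iff_coeff_lifts _).2 fun j => ⟨⟨_, hχ j⟩, rfl⟩)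
    (Matrix.charpoly_monic X')
  obtain ⟨M0, hM0⟩ := exists_matrix_charpoly_eq (n := n) hχm (by
    rw [← hχm.natDegree_map ι', hχe, Matrix.charpoly_natDegree_eq_dim, Fintype.card_fin])
  have hdet : (M0.map ι').det = X'.det := by
    rw [det_eq_coeff, det_eq_coeff, Matrix.charpoly_map, hM0, hχe]
  have hXdet : X'.det ≠ 0 := by
    rw [hX', Matrix.det_smul, x.2, mul_one]
    exact pow_ne_zero _ hc
  have hM0det : M0.det ≠ 0 := fun h0 => hXdet (by
    rw [← hdet, ← RingHom.mapMatrix_apply, ← RingHom.map_det, h0, map_zero])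
  let g : GL (Fin n) F₀ := Matrix.GeneralLinearGroup.mkOfDetNeZero M0 hM0det
  obtain ⟨K, hcop, hchar⟩ := exists_pow_card_pow_coprime p g
  set h0 := g ^ Fintype.card F₀ ^ K with hh0
  let h : GL (Fin n) F := Matrix.GeneralLinearGroup.map ι' h0
  have hhs := gl_isSemisimple p (g := h) (hcop.coprime_dvd_left (orderOf_map_dvd _ h0))
  have hxs : Module.End.IsSemisimple (Matrix.toLin' X' : Module.End F (Fin n → F)) := by
    refine isSemisimple_of_pow_eq_smul hN (mul_ne_zero (pow_ne_zero N hc) hz) ?_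
    rw [CfsgLib.Classical.Semisimple.toLin'_pow, hX', _root_.smul_pow,
      ← Matrix.SpecialLinearGroup.coe_pow, hx, smul_smul, toLin'_smul_one]
  have hh : (h : Matrix (Fin n) (Fin n) F) = (h0 : Matrix (Fin n) (Fin n) F₀).map ι' := rfl
  obtain ⟨e, he⟩ := exists_equiv_of_charpoly_eq hhs hxs (by
    rw [Matrix.charpoly_toLin', Matrix.charpoly_toLin', hh, Matrix.charpoly_map, hchar]
    show Polynomial.map ι' M0.charpoly = _
    rw [hM0, hχe])
  have hd : LinearMap.det (e : (Fin n → F) →ₗ[F] (Fin n → F)) ≠ 0 := (LinearEquiv.isUnit_det' e).ne_zero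
  obtain ⟨k, hk, hkd⟩ := exists_commute_det_eq hxs (inv_ne_zero hd)
  have hdetP : (LinearMap.toMatrix' (e.trans k : (Fin n → F) →ₗ[F] (Fin n → F))).det = 1 := by
    rw [LinearMap.det_toMatrix']
    show LinearMap.det ((k : (Fin n → F) →ₗ[F] (Fin n → F)) ∘ₗ (e : (Fin n → F) →ₗ[F] (Fin n → F))) = 1
    rw [LinearMap.det_comp, hkd, inv_mul_cancel₀ hd]
  let P : SLn := ⟨_, hdetP⟩
  have hcomm : (P : Matrix (Fin n) (Fin n) F) * (h : Matrix (Fin n) (Fin n) F) =
      X' * (P : Matrix (Fin n) (Fin n) F) :=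
    toMatrix'_mul_eq_of_comm fun v => by rw [LinearEquiv.trans_apply, LinearEquiv.trans_apply, he, hk]
  refine ⟨P, (mem_iff F₀ _).2 ⟨c⁻¹, (h0 : Matrix (Fin n) (Fin n) F₀), ?_⟩⟩
  have hxP : (x : Matrix (Fin n) (Fin n) F) * (P : Matrix (Fin n) (Fin n) F) =
      (P : Matrix (Fin n) (Fin n) F) * (c⁻¹ • (h : Matrix (Fin n) (Fin n) F)) := by
    rw [Matrix.mul_smul, hcomm, hX', Matrix.smul_mul, smul_smul, inv_mul_cancel₀ hc, one_smul]
  rw [Matrix.SpecialLinearGroup.coe_mul, Matrix.SpecialLinearGroup.coe_mul, Matrix.mul_assoc, hxP,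
    ← Matrix.mul_assoc, ← Matrix.SpecialLinearGroup.coe_mul, inv_mul_cancel, Matrix.SpecialLinearGroup.coe_one,
    Matrix.one_mul]
  rfl

/-- Elements fixed by the `|F₀|`-th power lie in the subfield. -/
theorem mem_of_pow_eq [Fintype F] {a : F} (h : a ^ Nat.card F₀ = a) : a ∈ F₀ := by
  classical
  haveI : Fintype F₀ := Fintype.ofFinite _
  rw [Nat.card_eq_fintype_card] at h
  set q₀ := Fintype.card F₀
  have h1 : 1 < q₀ := Fintype.one_lt_card
  have hne : (X ^ q₀ - X : F[X]) ≠ 0 := FiniteField.X_pow_card_sub_X_ne_zero F h1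
  let S : Finset F := Finset.univ.image (fun b : F₀ => (b : F))
  have hS : S ⊆ (X ^ q₀ - X : F[X]).roots.toFinset := by
    intro b hb
    obtain ⟨b', -, rfl⟩ := Finset.mem_image.1 hb
    rw [Multiset.mem_toFinset, mem_roots hne, IsRoot, eval_sub, eval_pow, eval_X, sub_eq_zero]
    exact congrArg (fun z : F₀ => (z : F)) (FiniteField.pow_card b')
  have hcard : (X ^ q₀ - X : F[X]).roots.toFinset.card ≤ S.card := by
    rw [Finset.card_image_of_injective _ Subtype.val_injective, Finset.card_univ]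
    refine (Multiset.toFinset_card_le _).trans ((Polynomial.card_roots' _).trans_eq ?_)
    rw [FiniteField.X_pow_card_sub_X_natDegree_eq F h1]
  have ha : a ∈ (X ^ q₀ - X : F[X]).roots.toFinset := by
    rw [Multiset.mem_toFinset, mem_roots hne, IsRoot, eval_sub, eval_pow, eval_X, h, sub_self]
  rw [← Finset.eq_of_subset_of_card_le hS hcard] at ha
  obtain ⟨b', -, rfl⟩ := Finset.mem_image.1 ha
  exact b'.2

variable {K : Type*} [Field K] [Algebra F K]

/-- A multiset of roots stable under the `|F₀|`-th power gives coefficients in the subfield. -/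
theorem coeff_mem_of_roots [Fintype F] (p : ℕ) [Fact p.Prime] [CharP F p] {χ : F[X]} {M : Multiset K}
    (hM : χ.map (algebraMap F K) = (M.map fun ρ => X - C ρ).prod)
    (hinv : M.map (fun ρ => ρ ^ Nat.card F₀) = M) (j : ℕ) : χ.coeff j ∈ F₀ := by
  haveI : CharP F₀ p := RingHom.charP (F₀.subtype : F₀ →+* F) Subtype.val_injective p
  haveI : CharP K p := charP_of_injective_algebraMap (algebraMap F K).injective p
  haveI : Fintype F₀ := Fintype.ofFinite _
  obtain ⟨f, -, hf⟩ := FiniteField.card F₀ p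
  have hq : Nat.card F₀ = p ^ (f : ℕ) := by rw [Nat.card_eq_fintype_card, hf]
  let φ : K →+* K := iterateFrobenius K p f
  have hφ : ∀ b, φ b = b ^ Nat.card F₀ := fun b => by rw [iterateFrobenius_def, hq]
  have h1 : (χ.map (algebraMap F K)).map φ = χ.map (algebraMap F K) := by
    conv_rhs => rw [hM, ← hinv]
    rw [hM, Polynomial.map_multiset_prod, Multiset.map_map, Multiset.map_map]
    congr 1
    exact Multiset.map_congr rfl fun ρ _ => by simp [hφ]
  have h2 := congrArg (fun P => P.coeff j) h1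
  simp only [Polynomial.coeff_map, hφ, ← map_pow] at h2
  exact mem_of_pow_eq F₀ ((algebraMap F K).injective h2)

/-- Coefficients fixed by a power map give a stable multiset of roots. -/
theorem roots_pow_eq {χ : F[X]} {M : Multiset K} (hM : χ.map (algebraMap F K) = (M.map fun ρ => X - C ρ).prod)
    (p : ℕ) [Fact p.Prime] [CharP K p] (f : ℕ) (hfix : ∀ j, χ.coeff j ^ p ^ f = χ.coeff j) :
    M.map (fun ρ => ρ ^ p ^ f) = M := by
  let φ : K →+* K := iterateFrobenius K p f
  have hφ : ∀ b, φ b = b ^ p ^ f := fun b => by rw [iterateFrobenius_def]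
  have h1 : (χ.map (algebraMap F K)).map φ = χ.map (algebraMap F K) := Polynomial.ext fun j => by
    rw [Polynomial.coeff_map, Polynomial.coeff_map, hφ, ← map_pow, hfix]
  rw [hM, Polynomial.map_multiset_prod, Multiset.map_map] at h1
  have h2 : (Multiset.map (fun ρ => X - C ρ) (M.map fun ρ => ρ ^ p ^ f)).prod =
      (M.map fun ρ => X - C ρ).prod := by
    rw [Multiset.map_map]
    refine Eq.trans ?_ h1
    congr 1
    exact Multiset.map_congr rfl fun ρ _ => by simp [hφ]
  have h3 := congrArg Polynomial.roots h2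
  rwa [Polynomial.roots_multiset_prod_X_sub_C, Polynomial.roots_multiset_prod_X_sub_C] at h3

theorem stable_of_coeff_mem [Fintype F] (p : ℕ) [Fact p.Prime] [CharP F p] {χ : F[X]} {M : Multiset K}
    (hM : χ.map (algebraMap F K) = (M.map fun ρ => X - C ρ).prod) (h : ∀ j, χ.coeff j ∈ F₀) :
    M.map (fun ρ => ρ ^ Nat.card F₀) = M := by
  haveI : CharP F₀ p := RingHom.charP (F₀.subtype : F₀ →+* F) Subtype.val_injective p
  haveI : CharP K p := charP_of_injective_algebraMap (algebraMap F K).injective p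
  haveI : Fintype F₀ := Fintype.ofFinite _
  obtain ⟨f, -, hf⟩ := FiniteField.card F₀ p
  have hq : Nat.card F₀ = p ^ (f : ℕ) := by rw [Nat.card_eq_fintype_card, hf]
  rw [hq]
  refine roots_pow_eq hM p f fun j => ?_
  have := congrArg (fun z : F₀ => (z : F)) (FiniteField.pow_card (⟨_, h j⟩ : F₀))
  rw [← hq, Nat.card_eq_fintype_card]
  exact this

/-- The characteristic polynomial of a scalar multiple. -/
theorem charpoly_smul_eq {m : ℕ} (M : Matrix (Fin m) (Fin m) K) (c : K) (hc : c ≠ 0) :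
    (c • M).charpoly = C (c ^ m) * M.charpoly.comp (C c⁻¹ * X) := by
  let φ : K[X] →+* K[X] := Polynomial.compRingHom (C c⁻¹ * X)
  have hm : φ.mapMatrix M.charmatrix = C c⁻¹ • (c • M).charmatrix := by
    refine Matrix.ext fun a b => ?_
    have hcc : C c⁻¹ * C c = (1 : K[X]) := by rw [← C_mul, inv_mul_cancel₀ hc, C_1]
    by_cases hab : a = b
    · subst hab
      simp [φ, mul_sub, ← mul_assoc, hcc]
    · simp [φ, charmatrix_apply_ne _ _ _ hab, ← mul_assoc, hcc]
  have h1 : φ M.charpoly = C c⁻¹ ^ m * (c • M).charpoly := by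
    rw [Matrix.charpoly, Matrix.charpoly, RingHom.map_det, hm, Matrix.det_smul, Fintype.card_fin]
  have h2 : M.charpoly.comp (C c⁻¹ * X) = C c⁻¹ ^ m * (c • M).charpoly := h1
  rw [h2, ← mul_assoc, ← C_pow, ← C_mul, ← mul_pow, mul_inv_cancel₀ hc, one_pow, C_1, one_mul]

theorem charpoly_smul_of_prod {M : Matrix (Fin n) (Fin n) F} {R : Multiset K} {c : F} (hc : c ≠ 0)
    (hM : M.charpoly.map (algebraMap F K) = (R.map fun ρ => X - C ρ).prod) :
    (c • M).charpoly.map (algebraMap F K) =
      ((R.map fun ρ => algebraMap F K c * ρ).map fun ρ => X - C ρ).prod := by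
  have hcard : R.card = n := by
    have h := congrArg Polynomial.natDegree hM
    rw [Polynomial.natDegree_multiset_prod_X_sub_C_eq_card,
      (Matrix.charpoly_monic M).natDegree_map, Matrix.charpoly_natDegree_eq_dim, Fintype.card_fin] at h
    exact h.symm
  set c' := algebraMap F K c with hc'
  have hc0 : c' ≠ 0 := by rw [hc']; exact (_root_.map_ne_zero _).2 hc
  rw [← Matrix.charpoly_map, show (c • M).map (algebraMap F K) = c' • M.map (algebraMap F K) by
      ext a b; simp [hc'], charpoly_smul_eq _ _ hc0, Matrix.charpoly_map, hM, ← hcard]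
  clear hM hcard
  induction R using Multiset.induction_on with
  | empty => simp
  | cons ρ R ih =>
    simp only [Multiset.map_cons, Multiset.prod_cons, Multiset.card_cons, pow_succ, map_mul, mul_comp]
    rw [← ih]
    have : C c' * (X - C ρ).comp (C c'⁻¹ * X) = X - C c' * C ρ := by
      rw [sub_comp, X_comp, C_comp, mul_sub, ← mul_assoc, ← C_mul, mul_inv_cancel₀ hc0, C_1, one_mul]
    rw [← this]
    ring

/-- A root of the characteristic polynomial is a root of every annihilating polynomial. -/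
theorem eval_eq_zero_of_root {M : Matrix (Fin n) (Fin n) F} {Q : F[X]}
    (hQ : aeval (Matrix.toLin' M : Module.End F (Fin n → F)) Q = 0) {ρ : K}
    (hρ : (M.charpoly.map (algebraMap F K)).IsRoot ρ) : (Q.map (algebraMap F K)).eval ρ = 0 := by
  set MK := M.map (algebraMap F K) with hMK
  rw [← Matrix.charpoly_map, ← hMK, ← Matrix.charpoly_toLin',
    ← Module.End.hasEigenvalue_iff_isRoot_charpoly] at hρ
  obtain ⟨v, hv⟩ := hρ.exists_hasEigenvector
  have hA : aeval MK (Q.map (algebraMap F K)) = 0 := by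
    have h1 : aeval M Q = 0 := by
      apply (Matrix.toLinAlgEquiv' (R := F)).injective
      rw [map_zero, ← Polynomial.aeval_algHom_apply]
      exact hQ
    rw [Polynomial.aeval_map_algebraMap, hMK,
      show M.map (algebraMap F K) = (Algebra.ofId F K).mapMatrix M from rfl, Polynomial.aeval_algHom_apply, h1, map_zero]
  have h2 : aeval (Matrix.toLin' MK : Module.End K (Fin n → K)) (Q.map (algebraMap F K)) = 0 := by
    rw [show (Matrix.toLin' MK : Module.End K (Fin n → K)) = Matrix.toLinAlgEquiv' MK from rfl,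
      Polynomial.aeval_algHom_apply, hA, map_zero]
  have h3 := Module.End.aeval_apply_of_hasEigenvector (p := Q.map (algebraMap F K)) hv
  rw [h2, LinearMap.zero_apply] at h3
  exact (smul_eq_zero.1 h3.symm).resolve_right hv.2

end CfsgLib.Classical.Semisimple.SubfieldConj
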