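import Mathlib

/-!
Counting subspaces, complementary pairs and flags over a finite field.
-/

set_option autoImplicit false

namespace CfsgLib.Classical.Semisimple

open Module

variable {F V : Type*} [Field F] [Fintype F] [AddCommGroup V] [Module F V] [Finite V]

omit [Fintype F] [Finite V] in
theorem sigma_subtype_ext {m : ℕ}
    {x y : Σ W : {W : Submodule F V // finrank F ↥W = m},
      { s : Fin m → ↥W.1 // LinearIndependent F s }}
    (h : x.1 = y.1) (h' : ∀ a, (x.2.1 a : V) = (y.2.1 a : V)) : x = y := by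
  obtain ⟨W, s⟩ := x
  obtain ⟨W', s'⟩ := y
  subst h
  congr 1
  exact Subtype.ext (funext fun a => Subtype.ext (h' a))

/-- The number of `m`-dimensional subspaces times `∏ (q ^ (m - a) - 1)` is `∏ (q ^ (n - a) - 1)`. -/
theorem card_subspaces_mul (m : ℕ) (hm : m ≤ finrank F V) :
    Nat.card {W : Submodule F V // finrank F ↥W = m} *
        ∏ a : Fin m, (Fintype.card F ^ (m - a) - 1) =
      ∏ a : Fin m, (Fintype.card F ^ (finrank F V - a) - 1) := by
  classical
  have := Fintype.ofFinite V
  have e : { s : Fin m → V // LinearIndependent F s } ≃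
      Σ W : {W : Submodule F V // finrank F ↥W = m},
        { s : Fin m → ↥W.1 // LinearIndependent F s } :=
    { toFun := fun s => ⟨⟨Submodule.span F (Set.range s.1),
          (finrank_span_eq_card s.2).trans (Fintype.card_fin m)⟩,
        ⟨fun a => ⟨s.1 a, Submodule.subset_span ⟨a, rfl⟩⟩,
          LinearIndependent.of_comp (Submodule.subtype _) (by exact s.2)⟩⟩
      invFun := fun x => ⟨fun a => (x.2.1 a : V),
        x.2.2.map' x.1.1.subtype (Submodule.ker_subtype _)⟩
      left_inv := fun s => rfl
      right_inv := by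
        rintro ⟨⟨W, hW⟩, ⟨s, hs⟩⟩
        have h1 : Submodule.span F (Set.range fun a => (s a : V)) = W := by
          refine Submodule.eq_of_le_of_finrank_eq
            (Submodule.span_le.mpr (by rintro _ ⟨a, rfl⟩; exact (s a).2)) ?_
          exact ((finrank_span_eq_card (hs.map' W.subtype (Submodule.ker_subtype _))).trans
            (Fintype.card_fin m)).trans hW.symm
        exact sigma_subtype_ext (Subtype.ext h1) (fun _ => rfl) }
  have hcard := Nat.card_congr e
  rw [Nat.card_sigma] at hcard
  have hW : ∀ W : {W : Submodule F V // finrank F ↥W = m},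
      Nat.card { s : Fin m → ↥W.1 // LinearIndependent F s } =
        ∏ a : Fin m, (Fintype.card F ^ m - Fintype.card F ^ (a : ℕ)) := by
    intro W
    rw [card_linearIndependent W.2.ge]
    simp only [W.2]
  rw [card_linearIndependent hm, Finset.sum_congr rfl (fun W _ => hW W), Finset.sum_const,
    smul_eq_mul, Finset.card_univ, ← Nat.card_eq_fintype_card] at hcard
  have hsplit : ∀ N : ℕ, m ≤ N →
      ∏ a : Fin m, (Fintype.card F ^ N - Fintype.card F ^ (a : ℕ)) =
        (∏ a : Fin m, Fintype.card F ^ (a : ℕ)) * ∏ a : Fin m, (Fintype.card F ^ (N - a) - 1) := by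
    intro N hN
    rw [← Finset.prod_mul_distrib]
    refine Finset.prod_congr rfl fun a _ => ?_
    rw [Nat.mul_sub, mul_one, ← pow_add, Nat.add_sub_of_le (le_trans a.2.le hN)]
  simp only [Nat.card_eq_fintype_card (α := F)] at hcard
  rw [hsplit _ le_rfl, hsplit _ hm, mul_left_comm] at hcard
  rw [Nat.card_eq_fintype_card]
  exact Nat.eq_of_mul_eq_mul_left
    (Finset.prod_pos fun a _ => pow_pos Fintype.card_pos _) hcard.symm

/-- A prime dividing the number of `m`-subspaces of an `n`-space divides some `q ^ j - 1` with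
`n - m < j ≤ n`. -/
theorem exists_dvd_of_dvd_card_subspaces {r : ℕ} (hr : r.Prime) {m : ℕ} (hm : m ≤ finrank F V)
    (h : r ∣ Nat.card {W : Submodule F V // finrank F ↥W = m}) :
    ∃ a < m, r ∣ Fintype.card F ^ (finrank F V - a) - 1 := by
  have h1 := h.trans (Dvd.intro _ (card_subspaces_mul m hm))
  obtain ⟨a, -, ha⟩ := (Prime.dvd_finsetProd_iff hr.prime _).mp h1
  exact ⟨a, a.2, ha⟩

theorem not_dvd_pow_sub_one_of_eq {r : ℕ} (hr : r.Prime) {f : ℕ} (hf : Fintype.card F = r ^ f)
    (hf0 : 0 < f) {j : ℕ} (hj : 0 < j) : ¬ r ∣ Fintype.card F ^ j - 1 := by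
  intro h
  have h1 : r ∣ Fintype.card F ^ j :=
    dvd_pow (hf ▸ dvd_pow_self r hf0.ne') hj.ne'
  have h2 := Nat.dvd_sub h1 h
  rw [Nat.sub_sub_self (Nat.one_le_pow _ _ Fintype.card_pos)] at h2
  exact hr.not_dvd_one h2

end CfsgLib.Classical.Semisimple
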