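import Cfsg.Agent.Classical.Semisimple.SympModel
import Cfsg.Agent.Classical.Semisimple.PrimeOrder
import Cfsg.Agent.Classical.Symp.Frames
import Cfsg.Agent.Classical.Symp.Blocks
import Mathlib.LinearAlgebra.Matrix.GeneralLinearGroup.Card

/-!
Prime divisors of the numbers of totally isotropic and of non-degenerate subspaces, and of orthogonal
decompositions, of a symplectic space.
-/

set_option autoImplicit false

namespace CfsgLib.Classical.Semisimple.SympModel

open Module Matrix CfsgLib.Classical.Symp AltIsometry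

variable {F : Type*} [Field F] [Fintype F] {d : ℕ}

local notation "V" => (Fin d ⊕ Fin d → F)
local notation "Sp" => Matrix.symplecticGroup (Fin d) F
local notation "Mat" => Matrix (Fin d ⊕ Fin d) (Fin d ⊕ Fin d) F

/-- The number of totally isotropic `m`-spaces in closed form. -/
theorem card_isotropic_mul {m : ℕ} (hm : m ≤ d) :
    Nat.card {W : Submodule F V // finrank F W = m ∧ ∀ u ∈ W, ∀ v ∈ W, Cfsg.sympForm d F u v = 0} *
      ∏ i ∈ Finset.range m, (Fintype.card F ^ (m - i) - 1) =
      ∏ i ∈ Finset.range m, (Fintype.card F ^ (2 * (d - i)) - 1) := by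
  classical
  let S := {W : Submodule F V // finrank F W = m ∧ ∀ u ∈ W, ∀ v ∈ W, Cfsg.sympForm d F u v = 0}
  have hspan : ∀ (u : Fin m → V), Frames.IsFrame u →
      finrank F (Submodule.span F (Set.range u)) = m ∧
        ∀ a ∈ Submodule.span F (Set.range u), ∀ b ∈ Submodule.span F (Set.range u),
          Cfsg.sympForm d F a b = 0 := by
    intro u hu
    refine ⟨by rw [finrank_span_eq_card hu.1, Fintype.card_fin], fun a ha b hb => ?_⟩
    obtain ⟨ca, rfl⟩ := (Submodule.mem_span_range_iff_exists_fun F).1 ha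
    obtain ⟨cb, rfl⟩ := (Submodule.mem_span_range_iff_exists_fun F).1 hb
    rw [form_sum_right]
    refine Finset.sum_eq_zero fun i _ => ?_
    rw [form_smul_right, form_swap, form_sum_right, Finset.sum_eq_zero fun j _ => ?_, neg_zero, mul_zero]
    rw [form_smul_right, hu.2, mul_zero]
  let φ : {u : Fin m → V // Frames.IsFrame u} → S := fun u => ⟨_, hspan u.1 u.2⟩
  let e := (Equiv.sigmaFiberEquiv φ).symm
  have efib : ∀ W : S, {u // φ u = W} ≃ {s : Fin m → W.1 // LinearIndependent F s} := fun W =>
    { toFun := fun u => ⟨fun i => ⟨u.1.1 i, congrArg Subtype.val u.2 ▸ Submodule.subset_span ⟨i, rfl⟩⟩,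
        LinearIndependent.of_comp W.1.subtype u.1.2.1⟩
      invFun := fun s => ⟨⟨fun i => (s.1 i : V),
        ⟨s.2.map' _ (Submodule.ker_subtype _), fun i j => W.2.2 _ (s.1 i).2 _ (s.1 j).2⟩⟩,
        Subtype.ext (Submodule.eq_of_le_of_finrank_eq
          (Submodule.span_le.2 (Set.range_subset_iff.2 fun i => (s.1 i).2))
          (by
            have hli : LinearIndependent F fun i => (s.1 i : V) := s.2.map' _ (Submodule.ker_subtype _)
            show finrank F (Submodule.span F (Set.range fun i => (s.1 i : V))) = finrank F W.1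
            rw [finrank_span_eq_card hli, Fintype.card_fin, W.2.1]))⟩
      left_inv := fun u => rfl
      right_inv := fun s => rfl }
  haveI : Fintype S := Fintype.ofFinite _
  have hfib : ∀ W : S, Nat.card {s : Fin m → W.1 // LinearIndependent F s} =
      ∏ i ∈ Finset.range m, (Fintype.card F ^ m - Fintype.card F ^ i) := fun W => by
    rw [card_linearIndependent (by rw [W.2.1]), W.2.1,
      Fin.prod_univ_eq_prod_range (fun i => Fintype.card F ^ m - Fintype.card F ^ i)]
  have h1 := Frames.card_frames (F := F) (m := d) m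
  rw [Nat.card_congr e, Nat.card_sigma, Finset.sum_congr rfl fun W _ => (Nat.card_congr (efib W)).trans (hfib W), Finset.sum_const,
    Finset.card_univ, ← Nat.card_eq_fintype_card, smul_eq_mul] at h1
  have e1 : ∀ i ∈ Finset.range m, Fintype.card F ^ (2 * d - i) - Fintype.card F ^ i =
      Fintype.card F ^ i * (Fintype.card F ^ (2 * (d - i)) - 1) := fun i hi => by
    rw [Finset.mem_range] at hi
    rw [Nat.mul_sub, mul_one, ← pow_add]; congr 2; omega
  have e2 : ∀ i ∈ Finset.range m, Fintype.card F ^ m - Fintype.card F ^ i =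
      Fintype.card F ^ i * (Fintype.card F ^ (m - i) - 1) := fun i hi => by
    rw [Finset.mem_range] at hi
    rw [Nat.mul_sub, mul_one, ← pow_add]; congr 2; omega
  rw [Finset.prod_congr rfl e1, Finset.prod_congr rfl e2, Finset.prod_mul_distrib, Finset.prod_mul_distrib,
    mul_left_comm] at h1
  exact Nat.eq_of_mul_eq_mul_left (Finset.prod_pos fun i _ => pow_pos Fintype.card_pos _) h1

/-- A prime dividing the number of totally isotropic `m`-spaces. -/
theorem exists_dvd_of_dvd_card_isotropic {m : ℕ} (hm : m ≤ d) {r : ℕ} (hr : r.Prime)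
    (hN : r ∣ Nat.card {W : Submodule F V //
      finrank F W = m ∧ ∀ u ∈ W, ∀ v ∈ W, Cfsg.sympForm d F u v = 0}) :
    ∃ j, d - m < j ∧ j ≤ d ∧ r ∣ Fintype.card F ^ (2 * j) - 1 := by
  have h := hN.mul_right (∏ i ∈ Finset.range m, (Fintype.card F ^ (m - i) - 1))
  rw [card_isotropic_mul hm] at h
  obtain ⟨i, hi, hd⟩ := (Nat.Prime.prime hr).exists_mem_finset_dvd h
  rw [Finset.mem_range] at hi
  exact ⟨d - i, by omega, by omega, hd⟩

/-- Tuples of subspaces transported by a symplectic element. -/
theorem card_tuples_dvd {k : ℕ} (P : (Fin k → Submodule F V) → Prop) {D0 : Fin k → Submodule F V}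
    (hP : ∀ D, P D ↔ ∃ g : Sp, ∀ j, (D0 j).map (Matrix.toLin' (g : Mat)) = D j) (H : Subgroup Sp)
    (hH : ∀ g ∈ H, ∀ j, (D0 j).map (Matrix.toLin' (g : Mat)) = D0 j) :
    Nat.card {D // P D} * Nat.card H ∣ Nat.card Sp := by
  classical
  have hmul : ∀ (g h : Sp) (W : Submodule F V), W.map (Matrix.toLin' ((g * h : Sp) : Mat)) =
      (W.map (Matrix.toLin' (h : Mat))).map (Matrix.toLin' (g : Mat)) := fun g h W => by
    rw [← Submodule.map_comp, Submonoid.coe_mul, Matrix.toLin'_mul]
  have hone : ∀ W : Submodule F V, W.map (Matrix.toLin' ((1 : Sp) : Mat)) = W := fun W => by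
    rw [Submonoid.coe_one, Matrix.toLin'_one, Submodule.map_id]
  let S : Subgroup Sp :=
    { carrier := {g | ∀ j, (D0 j).map (Matrix.toLin' (g : Mat)) = D0 j}
      one_mem' := fun j => hone _
      mul_mem' := fun {a b} ha hb j => by rw [hmul, hb j, ha j]
      inv_mem' := fun {a} ha j => by
        conv_lhs => rw [← ha j]
        rw [← hmul, inv_mul_cancel, hone] }
  have hS : H ≤ S := hH
  let φ : Sp ⧸ S → {D // P D} := Quotient.lift
    (fun g => ⟨fun j => (D0 j).map (Matrix.toLin' (g : Mat)), (hP _).2 ⟨g, fun j => rfl⟩⟩) fun a b hab => by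
      have h : a⁻¹ * b ∈ S := QuotientGroup.leftRel_apply.mp hab
      refine Subtype.ext (funext fun j => ?_)
      show (D0 j).map (Matrix.toLin' (a : Mat)) = (D0 j).map (Matrix.toLin' (b : Mat))
      rw [show b = a * (a⁻¹ * b) by group, hmul, h j]
  have hφ : Function.Bijective φ := by
    refine ⟨fun a b => ?_, fun D => ?_⟩
    · induction a using QuotientGroup.induction_on with
      | _ a =>
        induction b using QuotientGroup.induction_on with
        | _ b =>
          intro h
          rw [QuotientGroup.eq]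
          intro j
          have h' : (D0 j).map (Matrix.toLin' (a : Mat)) = (D0 j).map (Matrix.toLin' (b : Mat)) :=
            congrFun (congrArg Subtype.val h) j
          rw [hmul, ← h', ← hmul, inv_mul_cancel, hone]
    · obtain ⟨g, hg⟩ := (hP _).1 D.2
      exact ⟨QuotientGroup.mk g, Subtype.ext (funext hg)⟩
  rw [← Nat.card_congr (Equiv.ofBijective φ hφ), Subgroup.card_eq_card_quotient_mul_card_subgroup S]
  exact Nat.mul_dvd_mul_left _ (Subgroup.card_dvd_of_le hS)

/-- Orthogonal families of non-degenerate subspaces of equal dimensions are conjugate. -/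
theorem exists_map_family {k : ℕ} (D D' : Fin k → Submodule F V)
    (hn : ∀ j, NondegIn (formB d F) (D j)) (hn' : ∀ j, NondegIn (formB d F) (D' j))
    (ho : ∀ j j', j ≠ j' → ∀ u ∈ D j, ∀ v ∈ D j', Cfsg.sympForm d F u v = 0)
    (ho' : ∀ j j', j ≠ j' → ∀ u ∈ D' j, ∀ v ∈ D' j', Cfsg.sympForm d F u v = 0)
    (hd : ∀ j, finrank F (D j) = finrank F (D' j)) :
    ∃ g : Sp, ∀ j, (D j).map (Matrix.toLin' (g : Mat)) = D' j := by
  classical
  have halt : LinearMap.BilinForm.IsAlt (formB d F) := fun u => form_self u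
  choose m b hm h1 h2 h3 using fun j => exists_basis halt (hn j)
  choose m' b' hm' h1' h2' h3' using fun j => exists_basis halt (hn' j)
  obtain rfl : m' = m := funext fun j => by have := hd j; rw [hm, hm'] at this; omega
  let a : (Σ j, Fin (m' j) ⊕ Fin (m' j)) → V := fun i => b i.1 i.2
  let a' : (Σ j, Fin (m' j) ⊕ Fin (m' j)) → V := fun i => b' i.1 i.2
  have hli : ∀ (D : Fin k → Submodule F V) (hn : ∀ j, NondegIn (formB d F) (D j))
      (ho : ∀ j j', j ≠ j' → ∀ u ∈ D j, ∀ v ∈ D j', Cfsg.sympForm d F u v = 0)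
      (b : ∀ j, Basis (Fin (m' j) ⊕ Fin (m' j)) F (D j)),
      LinearIndependent F fun i : (Σ j, Fin (m' j) ⊕ Fin (m' j)) => (b i.1 i.2 : V) := by
    intro D hn ho b
    rw [Fintype.linearIndependent_iff]
    intro g hg
    have hx : ∀ j, ∑ i, g ⟨j, i⟩ • (b j i : D j) = 0 := by
      intro j
      refine Subtype.ext (hn j _ (SetLike.coe_mem _) fun y hy => ?_)
      have h0 : formB d F (∑ i, g i • (b i.1 i.2 : V)) y = 0 := by rw [hg, map_zero, LinearMap.zero_apply]
      rw [Fintype.sum_sigma, map_sum, LinearMap.sum_apply, Finset.sum_eq_single j] at h0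
      · rw [Submodule.coe_sum]; simpa using h0
      · intro j' _ hne
        rw [map_sum, LinearMap.sum_apply]
        refine Finset.sum_eq_zero fun i _ => ?_
        rw [map_smul, LinearMap.smul_apply, formB_apply, ho j' j hne _ (b j' i).2 y hy, smul_zero]
      · exact fun h => absurd (Finset.mem_univ j) h
    rintro ⟨j, i⟩
    exact Fintype.linearIndependent_iff.1 (b j).linearIndependent (fun i => g ⟨j, i⟩) (hx j) i
  have hB : ∀ i i', Cfsg.sympForm d F (a i) (a i') = Cfsg.sympForm d F (a' i) (a' i') := by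
    rintro ⟨j, i⟩ ⟨j', i'⟩
    by_cases hj : j = j'
    · subst hj
      show formB d F (b j i : V) (b j i' : V) = formB d F (b' j i : V) (b' j i' : V)
      rcases i with i | i <;> rcases i' with i' | i'
      · rw [h2, h2']
      · rw [h1, h1']
      · rw [flip_eq halt (b j (Sum.inl i') : V), flip_eq halt (b' j (Sum.inl i') : V), h1, h1']
      · rw [h3, h3']
    · show Cfsg.sympForm d F (b j i : V) (b j' i' : V) = Cfsg.sympForm d F (b' j i : V) (b' j' i' : V)
      rw [ho j j' hj _ (b j i).2 _ (b j' i').2, ho' j j' hj _ (b' j i).2 _ (b' j' i').2]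
  obtain ⟨g, hg⟩ := Frames.exists_mulVec_family (hli D hn ho b) (hli D' hn' ho' b') hB
  refine ⟨g, fun j => Submodule.eq_of_le_of_finrank_eq ?_ ?_⟩
  · rintro _ ⟨u, hu, rfl⟩
    rw [show u = ((⟨u, hu⟩ : D j) : V) from rfl, ← (b j).sum_repr ⟨u, hu⟩, Submodule.coe_sum, map_sum]
    refine Submodule.sum_mem _ fun i _ => ?_
    rw [Submodule.coe_smul, map_smul, Matrix.toLin'_apply, hg ⟨j, i⟩]
    exact Submodule.smul_mem _ _ (b' j i).2
  · rw [← (Submodule.equivMapOfInjective _ (fun u v e => mulVec_injective g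
      (by simpa [Matrix.toLin'_apply] using e)) _).finrank_eq, hd j]

/-- A prime dividing the number of non-degenerate `2a`-spaces. -/
theorem exists_dvd_of_dvd_card_nondeg {a : ℕ} (ha : a ≤ d) {r : ℕ} (hr : r.Prime)
    (hrq : ¬ r ∣ Fintype.card F)
    (hN : r ∣ Nat.card {W : Submodule F V //
      finrank F W = 2 * a ∧ ∀ u ∈ W, u ≠ 0 → ∃ v ∈ W, Cfsg.sympForm d F u v ≠ 0}) :
    ∃ j, d - a < j ∧ j ≤ d ∧ r ∣ Fintype.card F ^ (2 * j) - 1 := by
  classical
  obtain ⟨b, rfl⟩ := Nat.exists_eq_add_of_le ha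
  let W0 : Submodule F (Fin (a + b) ⊕ Fin (a + b) → F) :=
    { carrier := {v | ∀ j : Fin b, v (Sum.inl (Fin.natAdd a j)) = 0 ∧ v (Sum.inr (Fin.natAdd a j)) = 0}
      add_mem' := fun hu hv j => by simp [(hu j).1, (hu j).2, (hv j).1, (hv j).2]
      zero_mem' := fun j => ⟨rfl, rfl⟩
      smul_mem' := fun c _ hv j => by simp [(hv j).1, (hv j).2] }
  have hnd : ∀ u ∈ W0, u ≠ 0 → ∃ v ∈ W0, Cfsg.sympForm (a + b) F u v ≠ 0 := by
    intro u hu hu0
    obtain ⟨i, hi⟩ := Function.ne_iff.1 hu0
    have hne : ∀ (j : Fin a) (k : Fin b), Fin.natAdd a k ≠ Fin.castAdd b j := fun j k h => by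
      simp [Fin.ext_iff] at h; omega
    rcases i with i | i
    · induction i using Fin.addCases with
      | left j =>
        exact ⟨stdE (Fin.castAdd b j), fun k => ⟨by simp [stdE], by simp [stdE, hne]⟩,
          by rw [form_stdE_right]; simpa using hi⟩
      | right j => exact absurd (hu j).1 hi
    · induction i using Fin.addCases with
      | left j =>
        exact ⟨stdF (Fin.castAdd b j), fun k => ⟨by simp [stdF, hne], by simp [stdF]⟩,
          by rw [form_stdF_right]; simpa using hi⟩
      | right j => exact absurd (hu j).2 hi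
  have hd0 : finrank F W0 = 2 * a := by
    let e : W0 ≃ₗ[F] (Fin a ⊕ Fin a → F) :=
      { toFun := fun v i => (v : _ → F) (Sum.map (Fin.castAdd b) (Fin.castAdd b) i)
        map_add' := fun _ _ => rfl
        map_smul' := fun _ _ => rfl
        invFun := fun w => ⟨Sum.elim (Fin.append (fun j => w (Sum.inl j)) 0)
          (Fin.append (fun j => w (Sum.inr j)) 0), fun j => by simp⟩
        left_inv := fun v => Subtype.ext (funext fun i => by
          rcases i with i | i <;> induction i using Fin.addCases with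
            | left j => simp
            | right j => simp [(v.2 j).1, (v.2 j).2])
        right_inv := fun w => funext fun i => by rcases i with i | i <;> simp }
    rw [e.finrank_eq, finrank_space]
  let H := (Blocks.blockSp a b F).range
  have hH : Nat.card H = Nat.card (Matrix.symplecticGroup (Fin a) F) * Nat.card (Matrix.symplecticGroup (Fin b) F) := by
    rw [← Nat.card_congr (MonoidHom.ofInjective Blocks.blockSp_injective).toEquiv, Nat.card_prod]
  let P : (Fin 1 → Submodule F (Fin (a + b) ⊕ Fin (a + b) → F)) → Prop := fun D =>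
    finrank F (D 0) = 2 * a ∧ ∀ u ∈ D 0, u ≠ 0 → ∃ v ∈ D 0, Cfsg.sympForm (a + b) F u v ≠ 0
  have hdvd := card_tuples_dvd P (D0 := fun _ => W0) (fun D => ⟨fun hD => ?_, ?_⟩) H ?_
  rotate_left
  · obtain ⟨g, hg⟩ := exists_map_family (fun _ : Fin 1 => W0) D (fun _ => nondegIn_iff.2 hnd)
      (fun j => nondegIn_iff.2 (by rw [Subsingleton.elim j 0]; exact hD.2))
      (fun j j' h => absurd (Subsingleton.elim j j') h) (fun j j' h => absurd (Subsingleton.elim j j') h)
      (fun j => by rw [Subsingleton.elim j 0, hd0, hD.1])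
    exact ⟨g, hg⟩
  · rintro ⟨g, hg⟩
    have hinj : Function.Injective (Matrix.toLin' (g : Matrix _ _ F)) := fun u v e => mulVec_injective g
      (by simpa [Matrix.toLin'_apply] using e)
    refine ⟨?_, ?_⟩
    · rw [← hg 0, ← (Submodule.equivMapOfInjective _ hinj _).finrank_eq, hd0]
    · rw [← hg 0]
      rintro _ ⟨u, hu, rfl⟩ h0
      obtain ⟨v, hv, hv0⟩ := hnd u hu (fun e => h0 (by rw [e, map_zero]))
      refine ⟨_, Submodule.mem_map_of_mem hv, ?_⟩
      rwa [Matrix.toLin'_apply, Matrix.toLin'_apply, form_mulVec]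
  · rintro _ ⟨p, rfl⟩ j
    have hle : ∀ v ∈ W0, ∀ i : Fin b ⊕ Fin b, ((Blocks.blockSp a b F p : Matrix _ _ F) *ᵥ v)
        (Blocks.blockEquiv a b (Sum.inr i)) = 0 := by
      intro v hv i
      rw [Blocks.coe_blockSp, coe_reindexAlgEquiv, reindex_apply]
      simp only [mulVec, dotProduct, submatrix_apply, Equiv.symm_apply_apply]
      rw [← (Blocks.blockEquiv a b).sum_comp]
      refine Finset.sum_eq_zero fun k _ => ?_
      rcases k with k | k
      · simp
      · have : v (Blocks.blockEquiv a b (Sum.inr k)) = 0 := by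
          rcases k with k | k <;> simp [Blocks.blockEquiv, (hv k).1, (hv k).2]
        rw [this, mul_zero]
    refine Submodule.eq_of_le_of_finrank_eq ?_ (Submodule.equivMapOfInjective _ (fun u v e => mulVec_injective _
      (by simpa [Matrix.toLin'_apply] using e)) _).finrank_eq.symm
    rintro _ ⟨v, hv, rfl⟩ k
    rw [Matrix.toLin'_apply]
    exact ⟨by simpa [Blocks.blockEquiv] using hle v hv (Sum.inl k),
      by simpa [Blocks.blockEquiv] using hle v hv (Sum.inr k)⟩
  have hN' : r ∣ Nat.card {D // P D} := by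
    refine hN.trans (dvd_of_eq (Nat.card_congr ?_))
    exact ((Equiv.funUnique (Fin 1) _).subtypeEquiv fun D => by rfl).symm
  have h := (Nat.mul_dvd_mul_right hN' _).trans hdvd
  rw [hH, card_symplecticGroup, card_symplecticGroup, card_symplecticGroup] at h
  -- compare the products
  by_contra hno
  push Not at hno
  set q := Fintype.card F
  set f : ℕ → ℕ := fun i => q ^ (2 * (i + 1)) - 1
  have hsplit : ∏ i ∈ Finset.range (a + b), f i = (∏ i ∈ Finset.range b, f i) * ∏ i ∈ Finset.range a, f (b + i) := by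
    rw [show a + b = b + a by omega, Finset.prod_range_add]
  rw [hsplit] at h
  have hbpos : 0 < ∏ i ∈ Finset.range b, f i := Finset.prod_pos fun i _ => by
    have : 1 < q ^ (2 * (i + 1)) := Nat.one_lt_pow (by omega) Fintype.one_lt_card
    simp only [f]
    omega
  have h' : r * (q ^ a ^ 2 * (∏ i ∈ Finset.range a, f i) * q ^ b ^ 2) ∣
      q ^ (a + b) ^ 2 * ∏ i ∈ Finset.range a, f (b + i) := by
    refine Nat.dvd_of_mul_dvd_mul_left hbpos ?_
    refine (dvd_of_eq ?_).trans (h.trans (dvd_of_eq ?_)) <;> ring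
  rcases (Nat.Prime.dvd_mul hr).1 ((dvd_mul_right r _).trans h') with h1 | h1
  · exact hrq (hr.dvd_of_dvd_pow h1)
  · obtain ⟨i, hi, hd⟩ := (Nat.Prime.prime hr).exists_mem_finset_dvd h1
    rw [Finset.mem_range] at hi
    exact hno (b + i + 1) (by omega) (by omega) hd

end CfsgLib.Classical.Semisimple.SympModel
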