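import Cfsg.Prelude.Def_GeometricClasses
import Cfsg.Agent.Eq.Def_GeometricClasses
import Cfsg.Agent.Classical.Symp.Involutions
import Cfsg.Agent.Classical.Symp.InvolutionCharTwo

/-!
Involutions of symplectic groups permute the summands of an orthogonal decomposition into blocks of
standard pairs.
-/

set_option autoImplicit false

namespace CfsgLib.Classical.Semisimple.SympDecomp

open Matrix CfsgLib.Classical.Symp

variable {F : Type*} [Field F] {d t : ℕ}

local notation "V" => Fin d ⊕ Fin d → F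
local notation "Mat" => Matrix (Fin d ⊕ Fin d) (Fin d ⊕ Fin d) F
local notation "Sp" => Matrix.symplecticGroup (Fin d) F

/-- Vectors supported on the pairs in the fibre over `u`. -/
def coordBlock (f : Fin d → Fin t) (u : Fin t) : Submodule F (Fin d ⊕ Fin d → F) where
  carrier := {v | ∀ i, Sum.elim f f i ≠ u → v i = 0}
  add_mem' ha hb i hi := by simp [ha i hi, hb i hi]
  zero_mem' _ _ := rfl
  smul_mem' c _ ha i hi := by simp [ha i hi]

theorem mem_coordBlock {f : Fin d → Fin t} {u : Fin t} {v : V} :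
    v ∈ coordBlock f u ↔ ∀ i, Sum.elim f f i ≠ u → v i = 0 := Iff.rfl

/-- Coordinates in a block. -/
def blockEquivFun (f : Fin d → Fin t) (u : Fin t) :
    coordBlock (F := F) f u ≃ₗ[F] ({i // Sum.elim f f i = u} → F) where
  toFun v i := (v : V) i
  map_add' _ _ := rfl
  map_smul' _ _ := rfl
  invFun w := ⟨fun i => if h : Sum.elim f f i = u then w ⟨i, h⟩ else 0, fun i hi => dif_neg hi⟩
  left_inv v := Subtype.ext (funext fun i => by
    by_cases h : Sum.elim f f i = u
    · simp [h]
    · simp [h, (mem_coordBlock.1 v.2 i h)])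
  right_inv w := funext fun i => by simp [i.2]

theorem finrank_coordBlock {f : Fin d → Fin t} {b : ℕ} {u : Fin t}
    (hf : Fintype.card {j // f j = u} = b) : Module.finrank F (coordBlock (F := F) f u) = 2 * b := by
  classical
  rw [(blockEquivFun f u).finrank_eq, Module.finrank_pi]
  rw [Fintype.card_congr (show {i // Sum.elim f f i = u} ≃ {j // f j = u} ⊕ {j // f j = u} from
    { toFun := fun i => match i with
        | ⟨Sum.inl j, h⟩ => Sum.inl ⟨j, h⟩
        | ⟨Sum.inr j, h⟩ => Sum.inr ⟨j, h⟩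
      invFun := Sum.elim (fun j => ⟨Sum.inl j.1, j.2⟩) (fun j => ⟨Sum.inr j.1, j.2⟩)
      left_inv := by rintro ⟨j | j, h⟩ <;> rfl
      right_inv := by rintro (j | j) <;> rfl }), Fintype.card_sum, hf, two_mul]

/-- The blocks of a map with equal fibres form a non-degenerate orthogonal decomposition. -/
theorem coordBlock_spec {f : Fin d → Fin t} {b : ℕ} (ht : 2 ≤ t) (hb : 0 < b)
    (hf : ∀ u, Fintype.card {j // f j = u} = b) :
    Cfsg.Geo.IsMDecomposition (2 * b) (coordBlock (F := F) f) ∧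
      (∀ u, ∀ v ∈ coordBlock f u, v ≠ 0 → ∃ w ∈ coordBlock f u, Cfsg.sympForm d F v w ≠ 0) ∧
      ∀ u u', u ≠ u' → ∀ v ∈ coordBlock f u, ∀ w ∈ coordBlock f u', Cfsg.sympForm d F v w = 0 := by
  classical
  refine ⟨⟨ht, by omega, fun u => finrank_coordBlock (hf u), ?_, ?_⟩, fun u v hv hv0 => ?_,
    fun u u' huu v hv w hw => ?_⟩
  · refine iSupIndep_def.2 fun u => Submodule.disjoint_def.2 fun v hv hv' => funext fun i => ?_
    by_cases hi : Sum.elim f f i = u
    · let Z : Submodule F V :=
        { carrier := {w | ∀ i, Sum.elim f f i = u → w i = 0}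
          add_mem' := fun ha hb i hi => by simp [ha i hi, hb i hi]
          zero_mem' := fun _ _ => rfl
          smul_mem' := fun c _ ha i hi => by simp [ha i hi] }
      have hle : (⨆ (u') (_ : u' ≠ u), coordBlock f u') ≤ Z :=
        iSup₂_le fun u' hu' w hw i hi => mem_coordBlock.1 hw i (by rw [hi]; exact fun h => hu' h.symm)
      exact hle hv' i hi
    · exact mem_coordBlock.1 hv i hi
  · refine eq_top_iff.2 fun v _ => ?_
    rw [show v = ∑ u, fun i => if Sum.elim f f i = u then v i else 0 by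
      funext i; simp [Finset.sum_apply]]
    exact Submodule.sum_mem _ fun u _ => Submodule.mem_iSup_of_mem u fun i hi => if_neg hi
  · obtain ⟨i, hi⟩ := Function.ne_iff.1 hv0
    have hfi : Sum.elim f f i = u := by_contra fun h => hi (mem_coordBlock.1 hv i h)
    rcases i with j | j
    · refine ⟨stdE j, fun k hk => ?_, by rw [form_stdE_right]; simpa using hi⟩
      rw [stdE, Pi.single_apply, if_neg]
      rintro rfl; exact hk hfi
    · refine ⟨stdF j, fun k hk => ?_, by rw [form_stdF_right]; simpa using hi⟩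
      rw [stdF, Pi.single_apply, if_neg]
      rintro rfl; exact hk hfi
  · rw [form_apply]
    refine Finset.sum_eq_zero fun j _ => ?_
    by_cases hj : f j = u
    · have h1 := mem_coordBlock.1 hw (Sum.inl j) (by simpa [hj] using huu)
      have h2 := mem_coordBlock.1 hw (Sum.inr j) (by simpa [hj] using huu)
      simp [h1, h2]
    · have h1 := mem_coordBlock.1 hv (Sum.inl j) (by simpa using hj)
      have h2 := mem_coordBlock.1 hv (Sum.inr j) (by simpa using hj)
      simp [h1, h2]

/-- A matrix monomial with respect to the blocks permutes them. -/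
theorem map_coordBlock {f : Fin d → Fin t} {b : ℕ} (hf : ∀ u, Fintype.card {j // f j = u} = b)
    (g : Sp) (ρ : Equiv.Perm (Fin t))
    (h : ∀ i k, Sum.elim f f k ≠ ρ (Sum.elim f f i) → (g : Mat) k i = 0) (u : Fin t) :
    (coordBlock (F := F) f u).map (Matrix.toLin' (g : Mat)) = coordBlock f (ρ u) := by
  refine Submodule.eq_of_le_of_finrank_eq ?_ ?_
  · rintro _ ⟨v, hv, rfl⟩ k hk
    rw [Matrix.toLin'_apply]
    show ∑ i, (g : Mat) k i * v i = 0
    refine Finset.sum_eq_zero fun i _ => ?_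
    by_cases hi : Sum.elim f f i = u
    · show (g : Mat) k i * v i = 0
      rw [h i k (hi ▸ hk), zero_mul]
    · show (g : Mat) k i * v i = 0
      rw [mem_coordBlock.1 hv i hi, mul_zero]
  · rw [← (Submodule.equivMapOfInjective _ (fun v w e => mulVec_injective g
      (by simpa [Matrix.toLin'_apply] using e)) _).finrank_eq, finrank_coordBlock (hf u),
      finrank_coordBlock (hf (ρ u))]

/-- Transport of a permuted block decomposition along conjugation. -/
theorem exists_of_conj {f : Fin d → Fin t} {b : ℕ} (ht : 2 ≤ t) (hb : 0 < b)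
    (hf : ∀ u, Fintype.card {j // f j = u} = b) {x g : Sp} (hc : IsConj g x) (ρ : Equiv.Perm (Fin t))
    (h : ∀ i k, Sum.elim f f k ≠ ρ (Sum.elim f f i) → (g : Mat) k i = 0) :
    ∃ D : Fin t → Submodule F (Fin d ⊕ Fin d → F), (Cfsg.Geo.IsMDecomposition (2 * b) D ∧
      (∀ j, ∀ u ∈ D j, u ≠ 0 → ∃ v ∈ D j, Cfsg.sympForm d F u v ≠ 0) ∧
      (∀ j j', j ≠ j' → ∀ u ∈ D j, ∀ v ∈ D j', Cfsg.sympForm d F u v = 0)) ∧
      ∃ σ : Equiv.Perm (Fin t), ∀ j, (D j).map (Matrix.toLin' (x : Mat)) = D (σ j) := by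
  obtain ⟨hD, hnd, horth⟩ := coordBlock_spec (F := F) ht hb hf
  obtain ⟨c, hc⟩ := isConj_iff.1 hc
  subst hc
  let T : V ≃ₗ[F] V := LinearEquiv.ofBijective (Matrix.toLin' (c : Mat))
    ⟨fun v w e => mulVec_injective c (by simpa [Matrix.toLin'_apply] using e),
      fun v => ⟨((c⁻¹ : Sp) : Mat) *ᵥ v, by rw [Matrix.toLin'_apply, mulVec_inv_cancel]⟩⟩
  have hT : ∀ v, T v = (c : Mat) *ᵥ v := fun v => Matrix.toLin'_apply _ _
  refine ⟨fun u => (coordBlock f u).map (T : V →ₗ[F] V), ⟨⟨hD.two_le, hD.pos,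
    fun u => by rw [LinearEquiv.finrank_map_eq]; exact hD.finrank_eq u, ?_, ?_⟩, ?_, ?_⟩, ρ, fun u => ?_⟩
  · exact hD.indep.map_orderIso (Submodule.orderIsoMapComap T)
  · rw [← Submodule.map_iSup, hD.iSup_eq_top, Submodule.map_top, LinearEquiv.range]
  · rintro j _ ⟨u, hu, rfl⟩ h0
    obtain ⟨v, hv, hv0⟩ := hnd j u hu (fun e => h0 (by rw [e, map_zero]))
    refine ⟨T v, Submodule.mem_map_of_mem hv, ?_⟩
    show Cfsg.sympForm d F (T u) (T v) ≠ 0
    rwa [hT, hT, form_mulVec]
  · rintro j j' hjj _ ⟨u, hu, rfl⟩ _ ⟨v, hv, rfl⟩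
    show Cfsg.sympForm d F (T u) (T v) = 0
    rw [hT, hT, form_mulVec]
    exact horth j j' hjj u hu v hv
  · show Submodule.map _ (Submodule.map _ (coordBlock f u)) = Submodule.map _ (coordBlock f (ρ u))
    rw [← map_coordBlock hf g ρ h u, ← Submodule.map_comp, ← Submodule.map_comp]
    congr 1
    refine LinearMap.ext fun v => ?_
    show Matrix.toLin' ((c * g * c⁻¹ : Sp) : Mat) (T v) = T (Matrix.toLin' (g : Mat) v)
    rw [Matrix.toLin'_apply, Matrix.toLin'_apply, hT, hT, mul_mulVec, mul_mulVec, inv_mulVec_cancel]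

/-- An involution of `U × Fin b` compatible with the first coordinate moving `2 * k` points. -/
def Swappable (U : Type*) (b k : ℕ) : Prop :=
  ∃ (τ : Equiv.Perm (U × Fin b)) (ρ : Equiv.Perm U), (∀ z, τ (τ z) = z) ∧ (∀ z, (τ z).1 = ρ z.1) ∧
    Nat.card {z // τ z ≠ z} = 2 * k

theorem swappable_congr {U U' : Type*} (e : U ≃ U') {b k : ℕ} (h : Swappable U b k) : Swappable U' b k := by
  obtain ⟨τ, ρ, h1, h2, h3⟩ := h
  let E := e.prodCongr (Equiv.refl (Fin b))
  refine ⟨E.permCongr τ, e.permCongr ρ, fun z => ?_, fun z => ?_, ?_⟩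
  · simp [Equiv.permCongr_apply, h1]
  · simp [Equiv.permCongr_apply, E, h2]
  · rw [← h3]
    refine (Nat.card_congr (E.subtypeEquiv fun z => ?_)).symm
    simp [Equiv.permCongr_apply]

theorem swappable_sum {U U' : Type*} [Finite U] [Finite U'] {b k k' : ℕ} (h : Swappable U b k)
    (h' : Swappable U' b k') : Swappable (U ⊕ U') b (k + k') := by
  obtain ⟨τ, ρ, h1, h2, h3⟩ := h
  obtain ⟨τ', ρ', h1', h2', h3'⟩ := h'
  let E := Equiv.sumProdDistrib U U' (Fin b)
  refine ⟨E.symm.permCongr (Equiv.sumCongr τ τ'), Equiv.sumCongr ρ ρ', ?_, ?_, ?_⟩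
  · rintro ⟨u | u, i⟩ <;> simp [Equiv.permCongr_apply, E, h1, h1']
  · rintro ⟨u | u, i⟩ <;> simp [Equiv.permCongr_apply, E, h2, h2']
  · rw [mul_add, ← h3, ← h3', ← Nat.card_sum]
    refine Nat.card_congr ((E.subtypeEquiv (q := fun y => Sum.map τ τ' y ≠ y) fun z => ?_).trans
      (Equiv.subtypeSum.trans (Equiv.sumCongr (Equiv.subtypeEquivRight fun y => ?_)
        (Equiv.subtypeEquivRight fun y => ?_))))
    · obtain ⟨u | u, i⟩ := z <;> simp [Equiv.permCongr_apply, E] <;>
        simp [Prod.ext_iff]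
    · simp
    · simp

theorem swappable_one {b c : ℕ} (hc : 2 * c ≤ b) : Swappable (Fin 1) b c := by
  have hlt : ∀ i : Fin b,
      (if (i : ℕ) < 2 * c then (if (i : ℕ) % 2 = 0 then (i : ℕ) + 1 else (i : ℕ) - 1) else (i : ℕ)) < b := by
    intro i; split_ifs <;> omega
  let g : Fin b → Fin b := fun i => ⟨_, hlt i⟩
  have hg : Function.Involutive g := fun i => Fin.ext (by simp only [g]; split_ifs <;> omega)
  refine ⟨(Equiv.refl _).prodCongr hg.toPerm, Equiv.refl _, fun z => Prod.ext rfl (hg z.2), fun z => rfl, ?_⟩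
  rw [← Nat.card_fin (2 * c)]
  refine Nat.card_congr
    { toFun := fun z => ⟨(z.1.2 : ℕ), by
        by_contra h
        refine z.2 (Prod.ext rfl (Fin.ext ?_))
        simp only [Equiv.prodCongr_apply, Prod.map_snd, Function.Involutive.coe_toPerm, g, if_neg h]⟩
      invFun := fun i => ⟨(0, ⟨i, by omega⟩), fun h => by
        have h' := congrArg (fun z : Fin 1 × Fin b => (z.2 : ℕ)) h
        simp [g] at h'
        split_ifs at h' <;> omega⟩
      left_inv := fun z => Subtype.ext (Prod.ext (Subsingleton.elim _ _) (Fin.ext rfl))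
      right_inv := fun i => Fin.ext rfl }

theorem swappable_two (b : ℕ) : Swappable (Fin 2) b b := by
  refine ⟨(Equiv.swap 0 1).prodCongr (Equiv.refl _), Equiv.swap 0 1, fun z => ?_, fun z => rfl, ?_⟩
  · exact Prod.ext (Equiv.swap_apply_self 0 1 z.1) rfl
  · rw [Nat.card_congr (Equiv.subtypeUnivEquiv fun z => ?_), Nat.card_prod, Nat.card_fin, Nat.card_fin]
    intro h
    have h' := congrArg Prod.fst h
    revert h'
    obtain ⟨u, i⟩ := z
    fin_cases u <;> simp

theorem swappable_fin (b : ℕ) : ∀ (t k : ℕ), 2 * k ≤ t * b → Swappable (Fin t) b k := by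
  intro t
  induction t using Nat.strong_induction_on with
  | _ t ih =>
    intro k hk
    match t, hk with
    | 0, hk =>
      obtain rfl : k = 0 := by omega
      refine ⟨1, 1, fun z => rfl, fun z => rfl, ?_⟩
      haveI : IsEmpty {z : Fin 0 × Fin b // (1 : Equiv.Perm (Fin 0 × Fin b)) z ≠ z} := ⟨fun z => z.2 rfl⟩
      simp
    | 1, hk => exact swappable_one (by omega)
    | s + 2, hk =>
      by_cases hkb : b ≤ k
      · have h := swappable_sum (ih s (by omega) (k - b) (by rw [add_mul] at hk; omega)) (swappable_two b)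
        rw [Nat.sub_add_cancel hkb] at h
        exact swappable_congr finSumFinEquiv h
      · have h := swappable_sum (ih s (by omega) 0 (by omega))
          (swappable_sum (swappable_one (b := b) (c := k / 2) (by omega)) (swappable_one (b := b) (c := k - k / 2) (by omega)))
        rw [show 0 + (k / 2 + (k - k / 2)) = k by omega] at h
        exact swappable_congr ((Equiv.refl _).sumCongr finSumFinEquiv |>.trans finSumFinEquiv) h

end CfsgLib.Classical.Semisimple.SympDecomp
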