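import Cfsg.Agent.Classical.Semisimple.Classify

/-!
Block types of nilpotent linear maps: existence, invariance of the type, and the sub-multisets of
the type as dimensions of invariant summands.
-/

set_option autoImplicit false

namespace CfsgLib.Classical.Semisimple

open Module Polynomial

universe u v

variable {F : Type u} [Field F] {V : Type v} [AddCommGroup V] [Module F V]
  [FiniteDimensional F V]

/-- `μ` is the multiset of block sizes of the nilpotent map `N`. -/
def HasType (N : Module.End F V) (μ : Multiset ℕ) : Prop :=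
  (∀ a ∈ μ, 0 < a) ∧ ∀ i : ℕ, finrank F ↥(LinearMap.range (N ^ i)) = (μ.map (fun a => a - i)).sum

omit [FiniteDimensional F V] in
theorem HasType.sum_eq {N : Module.End F V} {μ : Multiset ℕ} (h : HasType N μ) :
    μ.sum = finrank F V := by
  have h0 := h.2 0
  rw [pow_zero, Module.End.one_eq_id, LinearMap.range_id, finrank_top] at h0
  simpa using h0.symm

theorem count_add_two_mul_sum (μ : Multiset ℕ) (j : ℕ) :
    μ.count (j + 1) + 2 * (μ.map (fun a => a - (j + 1))).sum =
      (μ.map (fun a => a - j)).sum + (μ.map (fun a => a - (j + 2))).sum := by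
  induction μ using Multiset.induction_on with
  | empty => simp
  | cons a μ ih =>
    simp only [Multiset.count_cons, Multiset.map_cons, Multiset.sum_cons]
    split_ifs with h <;> omega

omit [FiniteDimensional F V] in
theorem HasType.unique {N : Module.End F V} {μ ν : Multiset ℕ} (hμ : HasType N μ)
    (hν : HasType N ν) : μ = ν := by
  refine Multiset.ext.mpr fun a => ?_
  rcases a with _ | j
  · rw [Multiset.count_eq_zero.mpr fun h => (hμ.1 0 h).false,
      Multiset.count_eq_zero.mpr fun h => (hν.1 0 h).false]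
  · have h1 := count_add_two_mul_sum μ j
    have h2 := count_add_two_mul_sum ν j
    rw [← hμ.2, ← hμ.2, ← hμ.2] at h1
    rw [← hν.2, ← hν.2, ← hν.2] at h2
    omega

omit [FiniteDimensional F V] in
theorem coe_res_pow (f : Module.End F V) {W : Submodule F V} (hW : W.map f ≤ W) (i : ℕ) (x : W) :
    (((res f hW) ^ i) x : V) = (f ^ i) x := by
  have := coe_aeval_res f hW (X ^ i : F[X]) x
  simpa using this

omit [FiniteDimensional F V] in
theorem finrank_range_res_pow (f : Module.End F V) {W : Submodule F V} (hW : W.map f ≤ W) (i : ℕ) :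
    finrank F ↥(LinearMap.range ((res f hW) ^ i)) = finrank F ↥(W.map (f ^ i)) := by
  rw [← Submodule.finrank_map_subtype_eq W (LinearMap.range ((res f hW) ^ i)),
    ← LinearMap.range_comp]
  have h : W.subtype.comp ((res f hW) ^ i) = (f ^ i).comp W.subtype :=
    LinearMap.ext fun x => coe_res_pow f hW i x
  rw [h, LinearMap.range_comp, Submodule.range_subtype]

theorem HasType.add {N : Module.End F V} {W C' : Submodule F V} (h : IsCompl W C')
    (hW : W.map N ≤ W) (hC : C'.map N ≤ C') {μ ν : Multiset ℕ} (hμ : HasType (res N hW) μ)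
    (hν : HasType (res N hC) ν) : HasType N (μ + ν) := by
  refine ⟨fun a ha => (Multiset.mem_add.mp ha).elim (hμ.1 a) (hν.1 a), fun i => ?_⟩
  rw [Multiset.map_add, Multiset.sum_add, ← hμ.2, ← hν.2, finrank_range_res_pow,
    finrank_range_res_pow]
  have hle : ∀ {U : Submodule F V}, U.map N ≤ U → U.map (N ^ i) ≤ U := fun {U} hU =>
    map_le_of_forall_mem fun x hx => by
      have := aeval_mem hU (X ^ i : F[X]) hx
      simpa using this
  rw [← finrank_add_of_disjoint (h.disjoint.mono (hle hW) (hle hC)), ← Submodule.map_sup,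
    h.sup_eq_top, Submodule.map_top]

/-- The ranks of the powers of a nilpotent map drop strictly until they vanish. -/
theorem finrank_range_pow_succ_lt {N : Module.End F V} {k : ℕ} (hk : N ^ k = 0) {i : ℕ}
    (hi : LinearMap.range (N ^ i) ≠ ⊥) :
    finrank F ↥(LinearMap.range (N ^ (i + 1))) < finrank F ↥(LinearMap.range (N ^ i)) := by
  have hle : LinearMap.range (N ^ (i + 1)) ≤ LinearMap.range (N ^ i) := by
    rw [pow_succ]; exact LinearMap.range_comp_le_range _ _
  rcases lt_or_eq_of_le (Submodule.finrank_mono hle) with h | h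
  · exact h
  exfalso
  have heq := Submodule.eq_of_le_of_finrank_eq hle h
  have hst : ∀ j, LinearMap.range (N ^ (i + j)) = LinearMap.range (N ^ i) := by
    intro j
    induction j with
    | zero => rfl
    | succ j ih =>
      rw [← Nat.add_assoc, pow_succ', Module.End.mul_eq_comp, LinearMap.range_comp, ih,
        ← LinearMap.range_comp, ← Module.End.mul_eq_comp, ← pow_succ', heq]
  have h2 := hst k
  rw [pow_add, hk, mul_zero, LinearMap.range_zero] at h2
  exact hi h2.symm

/-- A nilpotent map of full index has one block. -/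
theorem hasType_single {N : Module.End F V} {k : ℕ} (hk0 : 0 < k) (hd : finrank F V ≤ k)
    (hk : N ^ k = 0) (hk1 : N ^ (k - 1) ≠ 0) : finrank F V = k ∧ HasType N {k} := by
  have hne : ∀ i < k, LinearMap.range (N ^ i) ≠ ⊥ := by
    intro i hi hb
    rw [LinearMap.range_eq_bot] at hb
    exact hk1 (by rw [show k - 1 = i + (k - 1 - i) by omega, pow_add, hb, zero_mul])
  have hge : ∀ j i : ℕ, i + j = k → j ≤ finrank F ↥(LinearMap.range (N ^ i)) := by
    intro j
    induction j with
    | zero => intros; exact Nat.zero_le _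
    | succ j ih =>
      intro i hij
      have h1 := ih (i + 1) (by omega)
      have h2 := finrank_range_pow_succ_lt hk (hne i (by omega))
      omega
  have hle : ∀ i : ℕ, i ≤ k → finrank F ↥(LinearMap.range (N ^ i)) ≤ k - i := by
    intro i
    induction i with
    | zero => intro _; simpa using (Submodule.finrank_le _).trans hd
    | succ i ih =>
      intro hi
      have h1 := finrank_range_pow_succ_lt hk (hne i (by omega))
      have h2 := ih (by omega)
      omega
  have hfull : finrank F V = k := by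
    have h1 := hge k 0 (by simp)
    rw [pow_zero, Module.End.one_eq_id, LinearMap.range_id, finrank_top] at h1
    omega
  refine ⟨hfull, fun a ha => (Multiset.mem_singleton.mp ha) ▸ hk0, fun i => ?_⟩
  rw [Multiset.map_singleton, Multiset.sum_singleton]
  rcases le_or_gt i k with hi | hi
  · exact le_antisymm (hle i hi) (hge (k - i) i (by omega))
  · rw [show i = k + (i - k) by omega, pow_add, hk, zero_mul, LinearMap.range_zero, finrank_bot]
    omega

/-- A longest cyclic piece has an invariant complement. -/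
theorem exists_cyclic_split {N : Module.End F V} {k : ℕ} (hk0 : 0 < k) (hk : N ^ k = 0) {v : V}
    (hv : (N ^ (k - 1)) v ≠ 0) :
    ∃ (W C' : Submodule F V) (hW : W.map N ≤ W) (_ : C'.map N ≤ C'),
      IsCompl W C' ∧ HasType (res N hW) {k} ∧ finrank F W = k := by
  set W := Submodule.span F (Set.range fun j : Fin k => (N ^ (j : ℕ)) v) with hWdef
  have hmem : ∀ j, (N ^ j) v ∈ W := by
    intro j
    rcases lt_or_ge j k with hj | hj
    · exact Submodule.subset_span ⟨⟨j, hj⟩, rfl⟩
    · rw [show j = k + (j - k) by omega, pow_add, hk, zero_mul]; exact W.zero_mem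
  have hW : W.map N ≤ W := by
    rw [hWdef, Submodule.map_span_le]
    rintro _ ⟨j, rfl⟩
    rw [← Module.End.mul_apply, ← pow_succ']
    exact hmem _
  have hWk : (res N hW) ^ k = 0 := LinearMap.ext fun x => Subtype.ext (by
    rw [coe_res_pow, hk]; rfl)
  have hWk1 : (res N hW) ^ (k - 1) ≠ 0 := fun h => hv (by
    have := coe_res_pow N hW (k - 1) ⟨v, by simpa using hmem 0⟩
    rw [h] at this
    simpa using this.symm)
  have hWle : finrank F W ≤ k :=
    (finrank_range_le_card (R := F) (fun j : Fin k => (N ^ (j : ℕ)) v)).trans (Fintype.card_fin k).le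
  obtain ⟨hWd, hWt⟩ := hasType_single hk0 hWle hWk hWk1
  obtain ⟨φ, hφ⟩ := Module.Projective.exists_dual_ne_zero F hv
  let Φ : V →ₗ[F] (Fin k → F) := LinearMap.pi fun i => φ.comp (N ^ (i : ℕ))
  have hC : (LinearMap.ker Φ).map N ≤ LinearMap.ker Φ := by
    refine map_le_of_forall_mem fun x hx => ?_
    rw [LinearMap.mem_ker] at hx ⊢
    ext i
    have h2 : (N ^ ((i : ℕ) + 1)) x = (N ^ (i : ℕ)) (N x) := by
      rw [pow_succ, Module.End.mul_apply]
    show φ ((N ^ (i : ℕ)) (N x)) = 0
    rw [← h2]
    rcases lt_or_ge ((i : ℕ) + 1) k with hj | hj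
    · exact congrFun hx ⟨_, hj⟩
    · rw [show (i : ℕ) + 1 = k by omega, hk]; simp
  refine ⟨W, LinearMap.ker Φ, hW, hC, ?_, hWt, hWd⟩
  have hdis : Disjoint W (LinearMap.ker Φ) := by
    rw [disjoint_iff]
    by_contra hne
    have hXN := inf_map_le hW hC
    -- a non-zero invariant subspace meets the kernel
    obtain ⟨x, ⟨hxX, hxk⟩, hx0⟩ : ∃ x, (x ∈ W ⊓ LinearMap.ker Φ ∧ N x = 0) ∧ x ≠ 0 := by
      obtain ⟨y, hy, hy0⟩ := Submodule.exists_mem_ne_zero_of_ne_bot hne
      have hex : ∃ i, (N ^ i) y = 0 := ⟨k, by rw [hk]; rfl⟩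
      classical
      obtain ⟨i, hi⟩ : ∃ i, Nat.find hex = i + 1 := by
        refine ⟨Nat.find hex - 1, ?_⟩
        have : Nat.find hex ≠ 0 := fun h0 => hy0 (by
          have h := Nat.find_spec hex
          rw [h0] at h
          simpa using h)
        omega
      refine ⟨(N ^ i) y, ⟨?_, ?_⟩, Nat.find_min hex (by omega)⟩
      · have := aeval_mem hXN (X ^ i : F[X]) hy
        simpa using this
      · rw [← Module.End.mul_apply, ← pow_succ', ← hi]; exact Nat.find_spec hex
    have h1 := hWt.2 1
    rw [Multiset.map_singleton, Multiset.sum_singleton, pow_one] at h1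
    have h2 := LinearMap.finrank_range_add_finrank_ker (res N hW)
    rw [h1, hWd] at h2
    have hker : finrank F ↥(LinearMap.ker (res N hW)) = 1 := by omega
    have ha : (⟨(N ^ (k - 1)) v, hmem _⟩ : W) ∈ LinearMap.ker (res N hW) := by
      refine LinearMap.mem_ker.mpr (Subtype.ext ?_)
      rw [coe_res, ← Module.End.mul_apply, ← pow_succ', Nat.sub_add_cancel hk0, hk]
      rfl
    have hb : (⟨x, hxX.1⟩ : W) ∈ LinearMap.ker (res N hW) :=
      LinearMap.mem_ker.mpr (Subtype.ext hxk)
    obtain ⟨c, hc⟩ := exists_smul_eq_of_finrank_eq_one hker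
      (x := ⟨_, ha⟩) (fun h => hv (congrArg (fun z : LinearMap.ker (res N hW) => ((z : W) : V)) h)) ⟨_, hb⟩
    have hc' : c • (N ^ (k - 1)) v = x :=
      congrArg (fun z : LinearMap.ker (res N hW) => ((z : W) : V)) hc
    have hx' := congrFun (LinearMap.mem_ker.mp hxX.2) ⟨0, hk0⟩
    simp only [Φ, LinearMap.pi_apply, LinearMap.comp_apply, pow_zero, Module.End.one_apply,
      Pi.zero_apply] at hx'
    rw [← hc', map_smul, smul_eq_mul, mul_eq_zero] at hx'
    rcases hx' with h | h
    · exact hx0 (by rw [← hc', h, zero_smul])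
    · exact hφ h
  have h3 := LinearMap.finrank_range_add_finrank_ker Φ
  have h4 := Submodule.finrank_le (LinearMap.range Φ)
  rw [Module.finrank_fin_fun] at h4
  have h5 := finrank_add_of_disjoint hdis
  have h6 := Submodule.finrank_le (W ⊔ LinearMap.ker Φ)
  refine ⟨hdis, codisjoint_iff.mpr (Submodule.eq_top_of_finrank_eq ?_)⟩
  omega

/-- Existence of the type, with invariant summands for each sub-multiset. -/
theorem exists_hasType {N : Module.End F V} (hN : IsNilpotent N) :
    ∃ μ : Multiset ℕ, HasType N μ ∧ ∀ ν ≤ μ, ∃ U W : Submodule F V, IsCompl U W ∧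
      U.map N ≤ U ∧ W.map N ≤ W ∧ finrank F U = ν.sum := by
  induction hn : finrank F V using Nat.strong_induction_on generalizing V with
  | _ n ih =>
    rcases subsingleton_or_nontrivial V with hV | hV
    · refine ⟨0, ⟨by simp, fun i => by simp [finrank_zero_of_subsingleton]⟩, fun ν hν => ?_⟩
      rw [nonpos_iff_eq_zero] at hν
      exact ⟨⊥, ⊤, isCompl_bot_top, by simp, le_top, by simp [hν]⟩
    classical
    obtain ⟨k, hk, hmin⟩ : ∃ k, N ^ k = 0 ∧ ∀ j < k, N ^ j ≠ 0 :=
      ⟨Nat.find hN, Nat.find_spec hN, fun j hj => Nat.find_min hN hj⟩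
    have hk0 : 0 < k := by
      rcases Nat.eq_zero_or_pos k with rfl | h
      · rw [pow_zero] at hk; exact absurd hk one_ne_zero
      · exact h
    obtain ⟨v, hv⟩ : ∃ v, (N ^ (k - 1)) v ≠ 0 := by
      by_contra! h
      exact hmin (k - 1) (by omega) (LinearMap.ext h)
    obtain ⟨W, C', hW, hC, hWC, hWt, hWd⟩ := exists_cyclic_split hk0 hk hv
    have hlt : finrank F C' < n := by
      rw [← hn, ← Submodule.finrank_add_eq_of_isCompl hWC, hWd]; omega
    obtain ⟨μ, hμ, hsub⟩ := ih _ hlt (N := res N hC)
      ⟨k, LinearMap.ext fun x => Subtype.ext (by rw [coe_res_pow, hk]; rfl)⟩ rfl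
    refine ⟨{k} + μ, HasType.add hWC hW hC hWt hμ, fun ν hν => ?_⟩
    rw [Multiset.singleton_add] at hν
    obtain ⟨ν', hν', hcase⟩ : ∃ ν', ν' ≤ μ ∧ (ν = ν' ∨ ν = k ::ₘ ν') := by
      by_cases h : k ∈ ν
      · obtain ⟨t, rfl⟩ := Multiset.exists_cons_of_mem h
        exact ⟨t, (Multiset.cons_le_cons_iff k).mp hν, Or.inr rfl⟩
      · exact ⟨ν, (Multiset.le_cons_of_notMem h).mp hν, Or.inl rfl⟩
    obtain ⟨U', W', hUW', hU', hW', hU'd⟩ := hsub ν' hν'
    set U1 := U'.map C'.subtype with hU1
    set W1 := W'.map C'.subtype with hW1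
    have hinv : ∀ {Z : Submodule F C'}, Z.map (res N hC) ≤ Z →
        (Z.map C'.subtype).map N ≤ Z.map C'.subtype := fun {Z} hZ => by
      refine map_le_of_forall_mem ?_
      rintro _ ⟨z, hz, rfl⟩
      exact ⟨res N hC z, mem_of_map_le hZ hz, rfl⟩
    have hU1C : U1 ≤ C' := Submodule.map_subtype_le _ _
    have hW1C : W1 ≤ C' := Submodule.map_subtype_le _ _
    have hsup : U1 ⊔ W1 = C' := by
      rw [hU1, hW1, ← Submodule.map_sup, hUW'.sup_eq_top, Submodule.map_top,
        Submodule.range_subtype]
    have hd1 : Disjoint U1 W1 := Submodule.disjoint_map Subtype.val_injective hUW'.disjoint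
    have hdn := Submodule.finrank_add_eq_of_isCompl hWC
    have hU1d : finrank F U1 = ν'.sum := by rw [hU1, Submodule.finrank_map_subtype_eq, hU'd]
    have hsum : finrank F U1 + finrank F W1 = finrank F C' := by
      rw [← finrank_add_of_disjoint hd1, hsup]
    rcases hcase with rfl | rfl
    · refine ⟨U1, W ⊔ W1, ?_, hinv hU', sup_map_le hW (hinv hW'), hU1d⟩
      have htop : U1 ⊔ (W ⊔ W1) = ⊤ := by
        rw [← sup_assoc, sup_comm U1, sup_assoc, hsup, hWC.sup_eq_top]
      have hdd := Submodule.finrank_sup_add_finrank_inf_eq U1 (W ⊔ W1)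
      rw [htop, finrank_top, finrank_add_of_disjoint (hWC.disjoint.mono_right hW1C)] at hdd
      refine ⟨disjoint_iff.mpr (Submodule.finrank_eq_zero.mp ?_), codisjoint_iff.mpr htop⟩
      omega
    · refine ⟨W ⊔ U1, W1, ?_, sup_map_le hW (hinv hU'), hinv hW', ?_⟩
      · have htop : W ⊔ U1 ⊔ W1 = ⊤ := by rw [sup_assoc, hsup, hWC.sup_eq_top]
        have hdd := Submodule.finrank_sup_add_finrank_inf_eq (W ⊔ U1) W1
        rw [htop, finrank_top, finrank_add_of_disjoint (hWC.disjoint.mono_right hU1C)] at hdd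
        refine ⟨disjoint_iff.mpr (Submodule.finrank_eq_zero.mp ?_), codisjoint_iff.mpr htop⟩
        omega
      · rw [finrank_add_of_disjoint (hWC.disjoint.mono_right hU1C), hU1d, hWd, Multiset.sum_cons]

omit [FiniteDimensional F V] in
theorem parts_le_of_pow_eq_zero {N : Module.End F V} {μ : Multiset ℕ} (h : HasType N μ) {p : ℕ}
    (hp : N ^ p = 0) : ∀ a ∈ μ, a ≤ p := by
  intro a ha
  have h1 := h.2 p
  rw [hp, LinearMap.range_zero, finrank_bot, eq_comm, Multiset.sum_eq_zero_iff] at h1
  have := h1 (a - p) (Multiset.mem_map_of_mem _ ha)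
  omega

omit [FiniteDimensional F V] in
/-- Transport of the type along an equivalence. -/
theorem HasType.conj {V' : Type*} [AddCommGroup V'] [Module F V'] {N : Module.End F V}
    {μ : Multiset ℕ} (h : HasType N μ) (e : V ≃ₗ[F] V') : HasType (e.conjAlgEquiv F N) μ := by
  refine ⟨h.1, fun i => ?_⟩
  have hr : LinearMap.range ((e.conjAlgEquiv F N) ^ i) =
      (LinearMap.range (N ^ i)).map (e : V →ₗ[F] V') := by
    rw [← map_pow, LinearEquiv.conjAlgEquiv_apply, ← LinearMap.comp_assoc,
      LinearMap.range_comp_of_range_eq_top _ (LinearEquiv.range e.symm), LinearMap.range_comp]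
  rw [← h.2 i, hr, LinearEquiv.finrank_map_eq]

omit [FiniteDimensional F V] in
theorem finrank_submodule_prod {V' : Type*} [AddCommGroup V'] [Module F V'] [FiniteDimensional F V]
    [FiniteDimensional F V'] (A : Submodule F V) (B : Submodule F V') :
    finrank F ↥(A.prod B) = finrank F A + finrank F B := by
  let e : ↥(A.prod B) ≃ₗ[F] (↥A × ↥B) :=
    { toFun := fun x => (⟨x.1.1, x.2.1⟩, ⟨x.1.2, x.2.2⟩)
      invFun := fun y => ⟨(y.1.1, y.2.1), y.1.2, y.2.2⟩
      map_add' := fun _ _ => rfl
      map_smul' := fun _ _ => rfl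
      left_inv := fun _ => rfl
      right_inv := fun _ => rfl }
  rw [e.finrank_eq, Module.finrank_prod]

/-- Every multiset of positive numbers is the type of some nilpotent map. -/
theorem exists_end_hasType (μ : Multiset ℕ) (hμ : ∀ a ∈ μ, 0 < a) :
    ∃ N : Module.End F (Fin μ.sum → F), HasType N μ ∧ ∀ p, (∀ a ∈ μ, a ≤ p) → N ^ p = 0 := by
  suffices h : ∃ N : Module.End F (Fin μ.sum → F), HasType N μ by
    obtain ⟨N, hN⟩ := h
    refine ⟨N, hN, fun p hp => ?_⟩
    have h1 := hN.2 p
    have hz : (μ.map fun a => a - p).sum = 0 := Multiset.sum_eq_zero_iff.mpr fun x hx => by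
      obtain ⟨a, ha, rfl⟩ := Multiset.mem_map.mp hx
      have := hp a ha
      omega
    exact LinearMap.range_eq_bot.mp (Submodule.finrank_eq_zero.mp (h1.trans hz))
  induction μ using Multiset.induction_on with
  | empty =>
    refine ⟨0, by simp, fun i => ?_⟩
    have h1 := Submodule.finrank_le (LinearMap.range
      ((0 : Module.End F (Fin (0 : Multiset ℕ).sum → F)) ^ i))
    rw [Module.finrank_fin_fun] at h1
    simpa using h1
  | cons k μ ih =>
    obtain ⟨M, hM⟩ := ih fun a ha => hμ a (Multiset.mem_cons_of_mem ha)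
    have hk0 : 0 < k := hμ k (Multiset.mem_cons_self _ _)
    have hXk : (X ^ k : F[X]) ≠ 0 := pow_ne_zero _ X_ne_zero
    let pb := AdjoinRoot.powerBasis hXk
    have : FiniteDimensional F (AdjoinRoot (X ^ k : F[X])) := pb.finite
    have hdim : finrank F (AdjoinRoot (X ^ k : F[X])) = k := by
      rw [pb.finrank, AdjoinRoot.powerBasis_dim, natDegree_X_pow]
    let S : Module.End F (AdjoinRoot (X ^ k : F[X])) :=
      LinearMap.mulLeft F (AdjoinRoot.root (X ^ k : F[X]))
    have hS : HasType S {k} := (hasType_single hk0 hdim.le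
      (by
        rw [LinearMap.pow_mulLeft, ← AdjoinRoot.mk_X, ← map_pow, AdjoinRoot.mk_self,
          LinearMap.mulLeft_zero_eq_zero])
      (by
        rw [LinearMap.pow_mulLeft, ← AdjoinRoot.mk_X, ← map_pow, Ne, LinearMap.mulLeft_eq_zero_iff,
          AdjoinRoot.mk_eq_zero]
        intro hd
        have := natDegree_le_of_dvd hd (pow_ne_zero _ X_ne_zero)
        rw [natDegree_X_pow, natDegree_X_pow] at this
        omega)).2
    let P : Module.End F (AdjoinRoot (X ^ k : F[X]) × (Fin μ.sum → F)) := S.prodMap M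
    have hP : HasType P (k ::ₘ μ) := by
      refine ⟨hμ, fun i => ?_⟩
      have hpow : P ^ i = (S ^ i).prodMap (M ^ i) := by
        induction i with
        | zero => rfl
        | succ i ih => rw [pow_succ, ih, pow_succ, pow_succ]; rfl
      have h1 := hS.2 i
      rw [Multiset.map_singleton, Multiset.sum_singleton] at h1
      rw [hpow, LinearMap.range_prodMap, finrank_submodule_prod, h1, hM.2 i, Multiset.map_cons,
        Multiset.sum_cons]
    exact ⟨_, hP.conj (LinearEquiv.ofFinrankEq _ _ (by
      rw [Module.finrank_prod, hdim, Module.finrank_fin_fun, Module.finrank_fin_fun,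
        Multiset.sum_cons]))⟩

/-- Two complementary invariant subspaces split the type. -/
theorem HasType.exists_le_of_isCompl {N : Module.End F V} {μ : Multiset ℕ} (h : HasType N μ)
    (hN : IsNilpotent N) {U W : Submodule F V} (hUW : IsCompl U W) (hU : U.map N ≤ U)
    (hW : W.map N ≤ W) : ∃ ν ≤ μ, ν.sum = finrank F U := by
  obtain ⟨k, hk⟩ := hN
  have hnil : ∀ {Z : Submodule F V} (hZ : Z.map N ≤ Z), IsNilpotent (res N hZ) := fun {Z} hZ =>
    ⟨k, LinearMap.ext fun x => Subtype.ext (by rw [coe_res_pow, hk]; rfl)⟩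
  obtain ⟨a, ha, -⟩ := exists_hasType (hnil hU)
  obtain ⟨b, hb, -⟩ := exists_hasType (hnil hW)
  exact ⟨a, (h.unique (HasType.add hUW hU hW ha hb)).symm ▸ Multiset.le_add_right a b, ha.sum_eq⟩

end CfsgLib.Classical.Semisimple
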