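import Cfsg.Agent.Jordan.IsometryParity
import Cfsg.Agent.Classical.Semisimple.AltIsometry

/-!
Unipotent isometries of alternating forms: orthogonal pieces and invariant non-degenerate subspaces.
-/

set_option autoImplicit false

namespace CfsgLib.Classical.Semisimple.UnipotentPieces

open Module CfsgLib.Classical.Semisimple CfsgLib.Classical.Semisimple.AltIsometry CfsgLib.Jordan.IsometryParity

variable {F : Type*} [Field F] {V : Type*} [AddCommGroup V] [Module F V]

/-- `μ` lists the Jordan block sizes of `N` on `U`. -/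
def HasType (N : Module.End F V) (U : Submodule F V) (μ : Multiset ℕ) : Prop :=
  ∀ i, finrank F ↥(U.map (N ^ i)) = (μ.map fun a => a - i).sum

theorem second_difference (μ : Multiset ℕ) (i : ℕ) :
    (μ.map fun a => a - i).sum + (μ.map fun a => a - (i + 2)).sum =
      2 * (μ.map fun a => a - (i + 1)).sum + μ.count (i + 1) := by
  induction μ using Multiset.induction_on with
  | empty => simp
  | cons x s ih =>
    simp only [Multiset.map_cons, Multiset.sum_cons, Multiset.count_cons]
    split_ifs <;> omega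

theorem HasType.count_eq {N : Module.End F V} {U : Submodule F V} {μ μ' : Multiset ℕ}
    (h : HasType N U μ) (h' : HasType N U μ') (i : ℕ) : μ.count (i + 1) = μ'.count (i + 1) := by
  have e1 := second_difference μ i
  have e2 := second_difference μ' i
  rw [← h, ← h, ← h] at e1
  rw [← h', ← h', ← h'] at e2
  omega

theorem HasType.unique {N : Module.End F V} {U : Submodule F V} {μ μ' : Multiset ℕ}
    (h : HasType N U μ) (h' : HasType N U μ') (h0 : ∀ a ∈ μ, 0 < a) (h0' : ∀ a ∈ μ', 0 < a) : μ = μ' := by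
  refine Multiset.ext.2 fun a => ?_
  rcases a with _ | a
  · rw [Multiset.count_eq_zero_of_notMem fun hm => lt_irrefl 0 (h0 0 hm),
      Multiset.count_eq_zero_of_notMem fun hm => lt_irrefl 0 (h0' 0 hm)]
  · exact h.count_eq h' a

theorem HasType.finrank_eq {N : Module.End F V} {U : Submodule F V} {μ : Multiset ℕ}
    (h : HasType N U μ) : finrank F U = μ.sum := by
  have := h 0
  rw [pow_zero, Module.End.one_eq_id, Submodule.map_id] at this
  simpa using this

variable [FiniteDimensional F V] {B : LinearMap.BilinForm F V} {u v : Module.End F V}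

theorem pow_mem {N : Module.End F V} {U : Submodule F V} (hU : U.map N ≤ U) :
    ∀ (i : ℕ) {x : V}, x ∈ U → (N ^ i) x ∈ U := by
  intro i
  induction i with
  | zero => intro x hx; simpa using hx
  | succ i ih => intro x hx; rw [pow_succ', Module.End.mul_apply]; exact hU ⟨_, ih hx, rfl⟩

theorem hasType_sup {N : Module.End F V} {W R : Submodule F V} {μ μ' : Multiset ℕ}
    (hW : W.map N ≤ W) (hR : R.map N ≤ R) (hd : Disjoint W R) (h : HasType N W μ) (h' : HasType N R μ') :
    HasType N (W ⊔ R) (μ + μ') := by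
  intro i
  rw [Submodule.map_sup, finrank_add_of_disjoint, h, h', Multiset.map_add, Multiset.sum_add]
  exact hd.mono (Submodule.map_le_iff_le_comap.2 fun x hx => pow_mem hW i hx)
    (Submodule.map_le_iff_le_comap.2 fun x hx => pow_mem hR i hx)

theorem fix_pow (h : IsoData B u v) {e : V} (he : (u - 1) e = 0) (i : ℕ) : (v ^ i) e = e := by
  have h1 : u e = e := sub_eq_zero.1 he
  have h2 : v e = e := by
    conv_lhs => rw [← h1]
    exact LinearMap.congr_fun h.inv_mul e
  induction i with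
  | zero => simp
  | succ i ih => rw [pow_succ, Module.End.mul_apply, h2, ih]

/-- Pairings at complementary heights. -/
theorem pairing (h : IsoData B u v) {i l j : ℕ} (hil : i + l + 1 = j) {x y : V} (hy : ((u - 1) ^ j) y = 0) :
    B (((u - 1) ^ i) x) (((u - 1) ^ l) y) = (-1) ^ i * B x (((u - 1) ^ (i + l)) y) := by
  rw [h.adjoint_pow, Module.End.mul_apply, h.neg_pow_apply, ← Module.End.mul_apply (f := (u - 1) ^ i),
    ← pow_add, fix_pow h (by rw [← Module.End.mul_apply, ← pow_succ', hil, hy]), map_smul, smul_eq_mul]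

theorem map_orth_le (h : IsoData B u v) {W : Submodule F V} (hW : W.map (u - 1) ≤ W) :
    (B.orthogonal W).map (u - 1) ≤ B.orthogonal W := by
  have hinj : Function.Injective u := fun a b e => by
    simpa [← Module.End.mul_apply, h.inv_mul] using congrArg v e
  have hWu : W.map u = W := by
    refine Submodule.eq_of_le_of_finrank_eq ?_ (Submodule.equivMapOfInjective u hinj W).finrank_eq.symm
    rintro _ ⟨w, hw, rfl⟩
    have : u w = (u - 1) w + w := by simp
    rw [this]
    exact W.add_mem (hW ⟨w, hw, rfl⟩) hw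
  rintro _ ⟨z, hz, rfl⟩ w hw
  obtain ⟨w', hw', rfl⟩ : w ∈ W.map u := hWu.symm ▸ hw
  show B (u w') ((u - 1) z) = 0
  rw [LinearMap.sub_apply, Module.End.one_apply, map_sub, h.iso, show B w' z = 0 from hz w' hw', zero_sub,
    neg_eq_zero]
  exact hz _ (hWu ▸ ⟨w', hw', rfl⟩)

/-- The piece generated by vectors with invertible matrix of top pairings. -/
theorem exists_piece_of_gram (h : IsoData B u v) {U : Submodule F V} (hinv : U.map (u - 1) ≤ U)
    {j k : ℕ} (x : Fin k → V) (hxU : ∀ a, x a ∈ U) (hxj : ∀ a, ((u - 1) ^ j) (x a) = 0)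
    (hG : ∀ c : Fin k → F, (∀ b, ∑ a, c a * B (x a) (((u - 1) ^ (j - 1)) (x b)) = 0) → c = 0) :
    ∃ W ≤ U, NondegIn B W ∧ W.map (u - 1) ≤ W ∧ HasType (u - 1) W (Multiset.replicate k j) := by
  classical
  set N := u - 1 with hN
  let e : Fin k × Fin j → V := fun s => (N ^ (s.2 : ℕ)) (x s.1)
  have key : ∀ c : Fin k × Fin j → F, (∀ s, B (∑ s', c s' • e s') (e s) = 0) → c = 0 := by
    intro c hc
    suffices ∀ (i : ℕ) (hi : i < j) a, c (a, ⟨i, hi⟩) = 0 from funext fun s => this s.2 s.2.2 s.1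
    intro i
    induction i using Nat.strong_induction_on with
    | _ i ih =>
      intro hi a
      refine congrFun (hG (fun a => c (a, ⟨i, hi⟩)) fun b => ?_) a
      have h1 := hc (b, ⟨j - 1 - i, by omega⟩)
      rw [Fintype.sum_prod_type, map_sum, LinearMap.sum_apply] at h1
      have h2 : ∀ a, B (∑ l, c (a, l) • e (a, l)) (e (b, ⟨j - 1 - i, by omega⟩)) =
          (-1) ^ i * (c (a, ⟨i, hi⟩) * B (x a) ((N ^ (j - 1)) (x b))) := by
        intro a
        rw [map_sum, LinearMap.sum_apply, Finset.sum_eq_single (⟨i, hi⟩ : Fin j)]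
        · rw [map_smul, LinearMap.smul_apply, smul_eq_mul, hN,
            pairing h (i := i) (l := j - 1 - i) (j := j) (by omega) (hxj b), show i + (j - 1 - i) = j - 1 by omega]
          ring
        · intro l _ hl
          rcases lt_or_gt_of_ne (fun e : (l : ℕ) = i => hl (Fin.ext e)) with hlt | hgt
          · rw [show c (a, l) = 0 from ih l hlt l.2 a, zero_smul, map_zero, LinearMap.zero_apply]
          · have := h.vanish (a := (l : ℕ)) (b := j - 1 - i) (hxj b) (by omega) 1 (Commute.one_left _) (x a)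
            rw [Module.End.one_apply] at this
            rw [map_smul, LinearMap.smul_apply, this, smul_zero]
        · exact fun hh => absurd (Finset.mem_univ _) hh
      rw [Finset.sum_congr rfl (fun a _ => h2 a), ← Finset.mul_sum] at h1
      exact (mul_eq_zero.1 h1).resolve_left (pow_ne_zero _ (neg_ne_zero.2 one_ne_zero))
  have hli : LinearIndependent F e := Fintype.linearIndependent_iff.2 fun c hc s =>
    congrFun (key c fun s' => by rw [hc, map_zero, LinearMap.zero_apply]) s
  refine ⟨Submodule.span F (Set.range e), ?_, ?_, ?_, fun i => ?_⟩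
  · rw [Submodule.span_le]
    rintro _ ⟨s, rfl⟩
    exact pow_mem hinv _ (hxU _)
  · intro w hw hw0
    obtain ⟨c, rfl⟩ := (Submodule.mem_span_range_iff_exists_fun F).1 hw
    rw [key c fun s => hw0 _ (Submodule.subset_span ⟨s, rfl⟩)]
    simp
  · rw [Submodule.map_span, Submodule.span_le]
    rintro _ ⟨_, ⟨⟨a, l⟩, rfl⟩, rfl⟩
    show N ((N ^ (l : ℕ)) (x a)) ∈ _
    rw [← Module.End.mul_apply, ← pow_succ']
    by_cases hl : (l : ℕ) + 1 < j
    · exact Submodule.subset_span ⟨(a, ⟨l + 1, hl⟩), rfl⟩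
    · rw [show (l : ℕ) + 1 = j by omega, hxj]
      exact zero_mem _
  · let g : Fin k × Fin (j - i) → Fin k × Fin j := fun s => (s.1, ⟨i + s.2, by omega⟩)
    have hspan : (Submodule.span F (Set.range e)).map (N ^ i) = Submodule.span F (Set.range (e ∘ g)) := by
      rw [Submodule.map_span]
      refine le_antisymm (Submodule.span_le.2 ?_) (Submodule.span_mono ?_)
      · rintro _ ⟨_, ⟨⟨a, l⟩, rfl⟩, rfl⟩
        show (N ^ i) ((N ^ (l : ℕ)) (x a)) ∈ _
        rw [← Module.End.mul_apply, ← pow_add]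
        by_cases hl : (l : ℕ) < j - i
        · exact Submodule.subset_span ⟨(a, ⟨l, hl⟩), rfl⟩
        · rw [show i + (l : ℕ) = (i + l - j) + j by omega, pow_add, Module.End.mul_apply, hxj, map_zero]
          exact zero_mem _
      · rintro _ ⟨⟨a, l⟩, rfl⟩
        refine ⟨_, ⟨(a, ⟨(l : ℕ), by omega⟩), rfl⟩, ?_⟩
        show (N ^ i) ((N ^ (l : ℕ)) (x a)) = _
        rw [← Module.End.mul_apply, ← pow_add]
        rfl
    have hg : Function.Injective g := fun s s' hs => by
      simp only [g, Prod.mk.injEq, Fin.mk.injEq] at hs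
      exact Prod.ext hs.1 (Fin.ext (by omega))
    rw [hspan, finrank_span_eq_card (hli.comp g hg), Fintype.card_prod, Fintype.card_fin, Fintype.card_fin,
      Multiset.map_replicate, Multiset.sum_replicate, smul_eq_mul]

/-- A top piece: one block, or two. -/
theorem exists_top_piece (h : IsoData B u v) (hA : B.IsAlt) (hnil : IsNilpotent (u - 1))
    {U : Submodule F V} (hU : NondegIn B U) (hinv : U.map (u - 1) ≤ U) (hne : U ≠ ⊥) :
    ∃ j k : ℕ, 1 ≤ j ∧ U.map ((u - 1) ^ (j - 1)) ≠ ⊥ ∧
      ((k = 1 ∧ Even j ∧ ∃ x ∈ U, B x (((u - 1) ^ (j - 1)) x) ≠ 0) ∨ (k = 2 ∧ (Odd j ∨ (2 : F) = 0))) ∧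
      ∃ W ≤ U, NondegIn B W ∧ W.map (u - 1) ≤ W ∧ HasType (u - 1) W (Multiset.replicate k j) := by
  classical
  set N := u - 1 with hN
  have hex : ∃ j, U.map (N ^ j) = ⊥ := by
    obtain ⟨n, hn⟩ := hnil
    exact ⟨n, by rw [hn, Submodule.map_zero]⟩
  set j := Nat.find hex with hj
  have hj0 : U.map (N ^ j) = ⊥ := Nat.find_spec hex
  have hjx : ∀ x ∈ U, (N ^ j) x = 0 := fun x hx => (Submodule.eq_bot_iff _).1 hj0 _ ⟨x, hx, rfl⟩
  have hj1 : 1 ≤ j := by
    by_contra hlt
    rw [show j = 0 by omega, pow_zero, Module.End.one_eq_id, Submodule.map_id] at hj0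
    exact hne hj0
  have htop : U.map (N ^ (j - 1)) ≠ ⊥ := Nat.find_min hex (show j - 1 < j by omega)
  obtain ⟨_, ⟨x, hx, rfl⟩, hx0⟩ := Submodule.exists_mem_ne_zero_of_ne_bot htop
  obtain ⟨y, hy, hy0⟩ : ∃ y ∈ U, B y ((N ^ (j - 1)) x) ≠ 0 := by
    by_contra hc
    push Not at hc
    exact hx0 (hU _ (pow_mem hinv _ hx) fun y hy => comm_zero hA (hc y hy))
  have hswap : ∀ a ∈ U, ∀ b ∈ U, B b ((N ^ (j - 1)) a) = -((-1) ^ (j - 1) * B a ((N ^ (j - 1)) b)) := by
    intro a _ b hb
    have h1 := pairing h (i := j - 1) (l := 0) (j := j) (by omega) (x := a) (y := b) (hjx b hb)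
    rw [pow_zero, Module.End.one_apply, Nat.add_zero, ← hN] at h1
    rw [flip_eq hA, h1]
  have hodd : Odd j → ∀ a ∈ U, B a ((N ^ (j - 1)) a) = 0 := by
    rintro ⟨r, hr⟩ a ha
    refine comm_zero hA ?_
    rw [show j - 1 = 2 * r by omega]
    exact h.zero_odd hA r (by rw [← hr]; exact hjx a ha)
  by_cases hsq : ∃ z ∈ U, B z ((N ^ (j - 1)) z) ≠ 0
  · obtain ⟨z, hz, hz0⟩ := hsq
    refine ⟨j, 1, hj1, htop, Or.inl ⟨rfl, Nat.not_odd_iff_even.1 fun ho => hz0 (hodd ho z hz), z, hz, hz0⟩,
      exists_piece_of_gram h hinv (fun _ => z) (fun _ => hz) (fun _ => hjx z hz) fun c hc => ?_⟩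
    have h1 := hc 0
    rw [Fin.sum_univ_one] at h1
    exact funext fun a => by rw [Subsingleton.elim a 0]; exact (mul_eq_zero.1 h1).resolve_right hz0
  · push Not at hsq
    refine ⟨j, 2, hj1, htop, Or.inr ⟨rfl, ?_⟩, exists_piece_of_gram h hinv ![x, y] ?_ ?_ fun c hc => ?_⟩
    · refine (Nat.even_or_odd j).elim (fun he => Or.inr ?_) Or.inl
      obtain ⟨r, hr⟩ := he
      have h1 := hsq (x + y) (U.add_mem hx hy)
      simp only [map_add, LinearMap.add_apply, hsq x hx, hsq y hy] at h1
      have h2 := hswap x hx y hy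
      rw [show j - 1 = 2 * (r - 1) + 1 by omega, pow_succ (-1 : F), pow_mul, neg_one_sq, one_pow, one_mul,
        neg_one_mul, neg_neg, ← show j - 1 = 2 * (r - 1) + 1 by omega] at h2
      have h3 : (2 : F) * B y ((N ^ (j - 1)) x) = 0 := by linear_combination h1 + h2
      exact (mul_eq_zero.1 h3).resolve_right hy0
    · exact Fin.forall_fin_two.2 ⟨hx, hy⟩
    · exact Fin.forall_fin_two.2 ⟨hjx x hx, hjx y hy⟩
    · have h0 := hc 0
      have h1 := hc 1
      simp only [Fin.sum_univ_two, Matrix.cons_val_zero, Matrix.cons_val_one, ← hN, hsq x hx, hsq y hy,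
        mul_zero, zero_add, add_zero] at h0 h1
      refine funext (Fin.forall_fin_two.2 ⟨(mul_eq_zero.1 h1).resolve_right fun e => hy0 ?_,
        (mul_eq_zero.1 h0).resolve_right hy0⟩)
      rw [hswap x hx y hy, e, mul_zero, neg_zero]

/-- Jordan types of non-degenerate invariant subspaces and the subspaces they contain. -/
theorem exists_type (h : IsoData B u v) (hA : B.IsAlt) (hnil : IsNilpotent (u - 1)) :
    ∀ {U : Submodule F V}, NondegIn B U → U.map (u - 1) ≤ U → ∃ μ : Multiset ℕ, HasType (u - 1) U μ ∧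
      (∀ a ∈ μ, 0 < a ∧ U.map ((u - 1) ^ (a - 1)) ≠ ⊥) ∧
      (∀ a, (Odd a ∨ ∀ x ∈ U, B x (((u - 1) ^ (a - 1)) x) = 0) → Even (μ.count a)) ∧
      ((2 : F) ≠ 0 → ∀ ν ≤ μ, (∀ a, Odd a → Even (ν.count a)) →
        ∃ W ≤ U, NondegIn B W ∧ W.map (u - 1) ≤ W ∧ finrank F W = ν.sum) ∧
      (((u - 1) ^ 2 = 0) → ∀ a, 2 * a ≤ finrank F U → (Even a ∨ finrank F U % 4 = 2) →
        ∃ W ≤ U, NondegIn B W ∧ W.map (u - 1) ≤ W ∧ finrank F W = 2 * a) := by
  classical
  intro U
  induction hn : finrank F U using Nat.strong_induction_on generalizing U with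
  | _ n ih =>
  subst hn
  intro hU hinv
  by_cases hne : U = ⊥
  · subst hne
    refine ⟨0, fun i => by simp, by simp, by simp, fun _ ν hν _ => ⟨⊥, le_rfl, nondegIn_bot, by simp, ?_⟩,
      fun _ a ha _ => ⟨⊥, le_rfl, nondegIn_bot, by simp, ?_⟩⟩
    · rw [finrank_bot, nonpos_iff_eq_zero.1 hν]; rfl
    · rw [finrank_bot] at ha ⊢; omega
  obtain ⟨j, k, hj1, htop, hk, W, hWU, hW, hWinv, hWt⟩ := exists_top_piece h hA hnil hU hinv hne
  obtain ⟨hsup, hR, hRd⟩ := AltIsometry.split hA hU hW hWU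
  set R := U ⊓ B.orthogonal W with hRdef
  have hRinv : R.map (u - 1) ≤ R :=
    inf_map_le hinv (map_orth_le h hWinv)
  have hdisj : Disjoint W R := (isCompl_orth hA hW).disjoint.mono_right inf_le_right
  have hWd : finrank F W = k * j := by simpa using hWt.finrank_eq
  have hk12 : k = 1 ∨ k = 2 := hk.imp (fun e => e.1) fun e => e.1
  have hkj : 0 < k * j := Nat.mul_pos (by omega) hj1
  obtain ⟨μ, hμ, hμm, hμp, hμs, hμ2⟩ := ih (finrank F R) (by omega) rfl hR hRinv
  have hjoin : ∀ W' ≤ R, NondegIn B W' → W'.map (u - 1) ≤ W' →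
      W ⊔ W' ≤ U ∧ NondegIn B (W ⊔ W') ∧ (W ⊔ W').map (u - 1) ≤ W ⊔ W' ∧
        finrank F ↥(W ⊔ W') = k * j + finrank F W' := fun W' h1 h2 h3 => by
    obtain ⟨hnd, hdj⟩ := nondegIn_sup hA hW h2 (h1.trans inf_le_right)
    exact ⟨sup_le hWU (h1.trans inf_le_left), hnd, sup_map_le hWinv h3,
      by rw [finrank_add_of_disjoint hdj, hWd]⟩
  refine ⟨Multiset.replicate k j + μ, hsup ▸ hasType_sup hWinv hRinv hdisj hWt hμ, ?_, ?_, ?_, ?_⟩
  · intro a ha
    rcases Multiset.mem_add.1 ha with ha | ha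
    · rw [Multiset.eq_of_mem_replicate ha]; exact ⟨hj1, htop⟩
    · exact ⟨(hμm a ha).1, fun e => (hμm a ha).2 (le_bot_iff.1 ((Submodule.map_mono inf_le_left).trans e.le))⟩
  · intro a ha
    rw [Multiset.count_add, Multiset.count_replicate]
    refine Even.add ?_ (hμp a (ha.imp id fun e x hx => e x hx.1))
    split_ifs with haj
    · subst haj
      rcases hk with ⟨-, hje, x, hx, hx0⟩ | ⟨rfl, -⟩
      · rcases ha with ha | ha
        · exact absurd hje (Nat.not_even_iff_odd.2 ha)
        · exact absurd (ha x hx) hx0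
      · exact even_two
    · exact Even.zero
  · intro h2 ν hν hpar
    by_cases hjν : Multiset.replicate k j ≤ ν
    · obtain ⟨ν', rfl⟩ := Multiset.le_iff_exists_add.1 hjν
      obtain ⟨W', h1, h2', h3, h4⟩ := hμs h2 ν' (le_of_add_le_add_left hν) fun a ha => by
        have h5 := hpar a ha
        rw [Multiset.count_add, Nat.even_add] at h5
        refine h5.1 ?_
        rw [Multiset.count_replicate]
        split_ifs with haj
        · subst haj
          rcases hk with ⟨-, hje, -⟩ | ⟨rfl, -⟩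
          · exact absurd hje (Nat.not_even_iff_odd.2 ha)
          · exact even_two
        · exact Even.zero
      obtain ⟨g1, g2, g3, g4⟩ := hjoin W' h1 h2' h3
      exact ⟨_, g1, g2, g3, by rw [g4, h4, Multiset.sum_add, Multiset.sum_replicate, smul_eq_mul]⟩
    · obtain ⟨W', h1, h2', h3, h4⟩ := hμs h2 ν (Multiset.le_iff_count.2 fun a => by
          have h5 := Multiset.le_iff_count.1 hν a
          rw [Multiset.count_add, Multiset.count_replicate] at h5
          rw [← Multiset.le_count_iff_replicate_le] at hjν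
          split_ifs at h5 with haj
          · subst haj
            rcases hk with ⟨rfl, -⟩ | ⟨rfl, hjo⟩
            · omega
            · obtain ⟨b, hb⟩ := hpar j (hjo.resolve_right h2)
              omega
          · omega) hpar
      exact ⟨W', h1.trans inf_le_left, h2', h3, h4⟩
  · intro hN2 a ha hpa
    have hj2 : j ≤ 2 := by
      by_contra hlt
      refine htop ?_
      rw [show j - 1 = (j - 3) + 2 by omega, pow_add, hN2, mul_zero, Submodule.map_zero]
    have hkj2 : k * j = 2 ∨ k * j = 4 := by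
      rcases hk with ⟨rfl, ⟨r, hr⟩, -⟩ | ⟨rfl, -⟩ <;> omega
    have hR2 := AltIsometry.even_finrank hA hR
    obtain ⟨b, hb⟩ := hR2
    rcases Nat.eq_zero_or_pos a with rfl | ha0
    · exact ⟨⊥, bot_le, nondegIn_bot, by simp, by simp⟩
    rw [hWd] at hRd
    have hexcl : 2 * a ≤ finrank F R → (Even a ∨ finrank F R % 4 = 2) →
        ∃ W ≤ U, NondegIn B W ∧ W.map (u - 1) ≤ W ∧ finrank F W = 2 * a := fun h1 h2 => by
      obtain ⟨W', g1, g2, g3, g4⟩ := hμ2 hN2 a h1 h2
      exact ⟨W', g1.trans inf_le_left, g2, g3, g4⟩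
    have hincl : k * j ≤ 2 * a → (Even (a - k * j / 2) ∨ finrank F R % 4 = 2) →
        ∃ W ≤ U, NondegIn B W ∧ W.map (u - 1) ≤ W ∧ finrank F W = 2 * a := fun h1 h2 => by
      obtain ⟨W', g1, g2, g3, g4⟩ := hμ2 hN2 (a - k * j / 2) (by omega) h2
      obtain ⟨i1, i2, i3, i4⟩ := hjoin W' g1 g2 g3
      exact ⟨_, i1, i2, i3, by omega⟩
    simp only [Nat.even_iff] at hexcl hincl hpa
    rcases hkj2 with e | e
    · by_cases hinc : a % 2 = 1 ∨ finrank F R % 4 = 2
      · exact hincl (by omega) (by omega)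
      · by_cases hlt : 2 * a ≤ finrank F R
        · exact hexcl hlt (by omega)
        · exact hincl (by omega) (by omega)
    · by_cases ha2 : 2 ≤ a
      · exact hincl (by omega) (by omega)
      · exact hexcl (by omega) (by omega)

end CfsgLib.Classical.Semisimple.UnipotentPieces
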