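import Cfsg.Agent.Classical.Unitary.Parabolic
import Cfsg.Agent.Classical.Unitary.LangFinite
import Cfsg.Agent.Classical.Semisimple.Basic

/-!
Subspaces of a finite hermitian space: orthogonal splittings, totally isotropic subspaces, orthonormal
coordinates and lifts of unitary matrices along them.
-/

set_option autoImplicit false

namespace CfsgLib.Classical.Semisimple.UnitBasic

open Cfsg Module CfsgLib.Unitary
open scoped Matrix

variable {F : Type*} [Field F] {n q : ℕ}

local notation "V" => (Fin n → F)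

/-- The form vanishes on the subspace. -/
def Iso (q : ℕ) (U : Submodule F V) : Prop := ∀ u ∈ U, ∀ v ∈ U, hermForm n F q u v = 0

variable [Fintype F]

section

variable (hF : Fintype.card F = q ^ 2)
include hF

theorem le_perp_comm {X Y : Submodule F V} (h : Y ≤ perp q X) : X ≤ perp q Y :=
  fun x hx y hy => herm_eq_zero_comm hF (h hy x hx)

theorem iso_bot : Iso q (⊥ : Submodule F V) := fun u hu v _ => by
  rw [(Submodule.mem_bot F).1 hu, herm_zero_left]

theorem iso_sup {X Y : Submodule F V} (hX : Iso q X) (hY : Iso q Y) (ho : Y ≤ perp q X) : Iso q (X ⊔ Y) := by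
  intro u hu v hv
  obtain ⟨a, ha, b, hb, rfl⟩ := Submodule.mem_sup.1 hu
  obtain ⟨a', ha', b', hb', rfl⟩ := Submodule.mem_sup.1 hv
  rw [herm_add_left, herm_add_right hF, herm_add_right hF, hX a ha a' ha', hY b hb b' hb', ho hb a' ha',
    herm_eq_zero_comm hF (ho hb' a ha)]
  simp

theorem nondeg_sup {X Y : Submodule F V} (hX : IsNondeg q X) (hY : IsNondeg q Y) (ho : Y ≤ perp q X) :
    IsNondeg q (X ⊔ Y) ∧ Disjoint X Y := by
  refine ⟨fun u hu h => ?_, Submodule.disjoint_def.2 fun x hx hy => hX x hx fun v hv => ho hy v hv⟩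
  obtain ⟨a, ha, b, hb, rfl⟩ := Submodule.mem_sup.1 hu
  have ha0 : a = 0 := hX a ha fun v hv => by
    have h1 := h v (Submodule.mem_sup_left hv)
    rwa [herm_add_left, ho hb v hv, add_zero] at h1
  have hb0 : b = 0 := hY b hb fun v hv => by
    have h1 := h v (Submodule.mem_sup_right hv)
    rwa [herm_add_left, herm_eq_zero_comm hF (ho hv a ha), zero_add] at h1
  rw [ha0, hb0, add_zero]

theorem isCompl_perp {W : Submodule F V} (hW : IsNondeg q W) : IsCompl W (perp q W) := by
  have hd : Disjoint W (perp q W) := disjoint_iff.2 (isNondeg_iff_disjoint.1 hW)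
  refine ⟨hd, codisjoint_iff.2 (Submodule.eq_top_of_finrank_eq ?_)⟩
  have h1 := finrank_perp_add hF W
  rw [finrank_add_of_disjoint hd, finrank_fin_fun]
  omega

/-- Splitting off a non-degenerate subspace. -/
theorem split {U W : Submodule F V} (hU : IsNondeg q U) (hW : IsNondeg q W) (hle : W ≤ U) :
    W ⊔ U ⊓ perp q W = U ∧ IsNondeg q (U ⊓ perp q W) ∧
      finrank F W + finrank F ↥(U ⊓ perp q W) = finrank F U := by
  have hc := isCompl_perp hF hW
  have h1 : W ⊔ U ⊓ perp q W = U := by
    rw [inf_comm, ← sup_inf_assoc_of_le _ hle, hc.sup_eq_top, top_inf_eq]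
  refine ⟨h1, fun x hx h => hU x hx.1 fun y hy => ?_, ?_⟩
  · obtain ⟨w, hw, o, ho, rfl⟩ := Submodule.mem_sup.1 (h1.symm ▸ hy : y ∈ W ⊔ U ⊓ perp q W)
    rw [herm_add_right hF, h o ho, hx.2 w hw, zero_add]
  · rw [← finrank_add_of_disjoint (hc.disjoint.mono_right inf_le_right), h1]

theorem nondeg_perp {W : Submodule F V} (hW : IsNondeg q W) : IsNondeg q (perp q W) := by
  have h := (split hF (isNondeg_top hF) hW le_top).2.1
  rwa [top_inf_eq] at h

theorem finrank_inf_perp {U Y : Submodule F V} (hU : IsNondeg q U) (hY : Y ≤ U) :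
    finrank F ↥(U ⊓ perp q Y) + finrank F Y = finrank F U := by
  have hc := isCompl_perp hF hU
  have hle : perp q U ≤ perp q Y := fun x hx y hy => hx y (hY hy)
  have hsup : (U ⊓ perp q Y) ⊔ perp q U = perp q Y := by
    rw [sup_comm, ← sup_inf_assoc_of_le _ hle, sup_comm, hc.sup_eq_top, top_inf_eq]
  have h1 := finrank_add_of_disjoint (hc.disjoint.mono_left (inf_le_left : U ⊓ perp q Y ≤ U))
  rw [hsup] at h1
  have h2 := finrank_perp_add hF Y
  have h3 := finrank_perp_add hF U
  omega

theorem two_mul_le {U Y : Submodule F V} (hU : IsNondeg q U) (hY : Y ≤ U) (hi : Iso q Y) :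
    2 * finrank F Y ≤ finrank F U := by
  have h1 := finrank_inf_perp hF hU hY
  have h2 := Submodule.finrank_mono (le_inf hY fun x hx y hy => hi x hx y hy : Y ≤ U ⊓ perp q Y)
  omega

theorem exists_norm_neg_one : ∃ ω : F, ω ^ (q + 1) = -1 :=
  exists_norm_eq hF (by rw [neg_pow_q hF, one_pow])

end

/-! ### Orthonormal coordinates -/

variable {κ : Type*} [Fintype κ] [DecidableEq κ]

omit [Fintype F] [Fintype κ] in
/-- The family is orthonormal. -/
def Ortho (q : ℕ) (g : κ → V) : Prop := ∀ i j, hermForm n F q (g i) (g j) = if i = j then 1 else 0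

/-- The combination map. -/
def emb (g : κ → V) : (κ → F) →ₗ[F] V := Fintype.linearCombination F g

/-- The coordinates. -/
def crd (q : ℕ) (g : κ → V) : V →ₗ[F] (κ → F) := LinearMap.pi fun k => hermLeft q (g k)

/-- The matrix preserves the standard hermitian form. -/
def Pres (q : ℕ) (A : Matrix κ κ F) : Prop :=
  ∀ u v : κ → F, ∑ k, (A *ᵥ u) k * (A *ᵥ v) k ^ q = ∑ k, u k * v k ^ q

/-- The lift of a matrix along a family, acting trivially on the orthogonal space. -/
noncomputable def lift (q : ℕ) (g : κ → V) (A : Matrix κ κ F) : Module.End F V :=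
  1 + emb g ∘ₗ (Matrix.toLin' A - 1) ∘ₗ crd q g

omit [Fintype F] [DecidableEq κ] in
theorem crd_apply (g : κ → V) (v : V) (k : κ) : crd q g v k = hermForm n F q v (g k) := rfl

omit [Fintype F] [DecidableEq κ] in
theorem emb_apply (g : κ → V) (c : κ → F) : emb g c = ∑ k, c k • g k := Fintype.linearCombination_apply F g c

omit [Fintype F] [DecidableEq κ] in
theorem emb_mem {g : κ → V} {W : Submodule F V} (h : ∀ k, g k ∈ W) (c : κ → F) : emb g c ∈ W := by
  rw [emb_apply]; exact W.sum_mem fun k _ => W.smul_mem _ (h k)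

omit [Fintype F] in
theorem crd_emb {g : κ → V} (hg : Ortho q g) (c : κ → F) : crd q g (emb g c) = c := by
  funext k
  rw [crd_apply, emb_apply, herm_sum_left]
  simp [herm_smul_left, hg _ k]

omit [Fintype F] in
theorem emb_injective {g : κ → V} (hg : Ortho q g) : Function.Injective (emb g) :=
  Function.LeftInverse.injective (crd_emb hg)

omit [Fintype F] [DecidableEq κ] in
theorem range_emb (g : κ → V) : LinearMap.range (emb g) = Submodule.span F (Set.range g) :=
  Fintype.range_linearCombination F g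

omit [Fintype F] in
theorem finrank_range_emb {g : κ → V} (hg : Ortho q g) :
    finrank F (LinearMap.range (emb g)) = Fintype.card κ := by
  rw [LinearMap.finrank_range_of_inj (emb_injective hg), finrank_fintype_fun_eq_card]

variable (hF : Fintype.card F = q ^ 2)
include hF

omit [DecidableEq κ] in
theorem herm_emb_right (g : κ → V) (v : V) (c : κ → F) :
    hermForm n F q v (emb g c) = ∑ k, crd q g v k * c k ^ q := by
  rw [emb_apply, herm_sum_right hF]
  simp only [herm_smul_right, crd_apply, mul_comm]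

theorem herm_emb {g : κ → V} (hg : Ortho q g) (c d : κ → F) :
    hermForm n F q (emb g c) (emb g d) = ∑ k, c k * d k ^ q := by
  rw [herm_emb_right hF, crd_emb hg]

theorem nondeg_range_emb {g : κ → V} (hg : Ortho q g) : IsNondeg q (LinearMap.range (emb g)) := by
  rintro _ ⟨c, rfl⟩ h
  have hc : c = 0 := funext fun k => by
    have h1 := h _ ⟨Pi.single k 1, rfl⟩
    rw [herm_emb hF hg, Finset.sum_eq_single k] at h1
    · simpa using h1
    · intro j _ hj
      rw [Pi.single_eq_of_ne hj, zero_pow_q hF, mul_zero]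
    · simp
  rw [hc, map_zero]

omit hF [Fintype F] in
theorem lift_apply (g : κ → V) (A : Matrix κ κ F) (v : V) :
    lift q g A v = v + emb g (A *ᵥ crd q g v - crd q g v) := by
  simp [lift, Matrix.toLin'_apply]

omit hF [Fintype F] in
theorem lift_emb {g : κ → V} (hg : Ortho q g) (A : Matrix κ κ F) (c : κ → F) :
    lift q g A (emb g c) = emb g (A *ᵥ c) := by
  rw [lift_apply, crd_emb hg, map_sub, add_sub_cancel]

omit hF [Fintype F] in
theorem crd_lift {g : κ → V} (hg : Ortho q g) (A : Matrix κ κ F) (v : V) :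
    crd q g (lift q g A v) = A *ᵥ crd q g v := by
  rw [lift_apply, map_add, crd_emb hg, add_sub_cancel]

omit hF [Fintype F] in
theorem lift_mul {g : κ → V} (hg : Ortho q g) (A B : Matrix κ κ F) :
    lift q g (A * B) = lift q g A * lift q g B := by
  refine LinearMap.ext fun v => ?_
  rw [Module.End.mul_apply, lift_apply g A, crd_lift hg, lift_apply g B, lift_apply, ← Matrix.mulVec_mulVec,
    map_sub, map_sub, map_sub]
  abel

omit hF [Fintype F] in
theorem lift_one (g : κ → V) : lift q g (1 : Matrix κ κ F) = 1 := by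
  refine LinearMap.ext fun v => ?_
  rw [lift_apply, Matrix.one_mulVec, sub_self, map_zero, add_zero]
  rfl

omit hF [Fintype F] in
theorem lift_pow {g : κ → V} (hg : Ortho q g) (A : Matrix κ κ F) : ∀ k : ℕ, lift q g (A ^ k) = lift q g A ^ k
  | 0 => by rw [pow_zero, pow_zero, lift_one]
  | k + 1 => by rw [pow_succ, pow_succ, lift_mul hg, lift_pow hg A k]

theorem lift_iso {g : κ → V} (hg : Ortho q g) {A : Matrix κ κ F} (hA : Pres q A) (u v : V) :
    hermForm n F q (lift q g A u) (lift q g A v) = hermForm n F q u v := by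
  have hperp : ∀ x : V, ∀ c, hermForm n F q (x - emb g (crd q g x)) (emb g c) = 0 := fun x c => by
    rw [herm_sub_left, herm_emb hF hg, herm_emb_right hF, sub_self]
  have hdec : ∀ x : V, lift q g A x = (x - emb g (crd q g x)) + emb g (A *ᵥ crd q g x) := fun x => by
    rw [lift_apply, map_sub]; abel
  have hsum : ∀ (a b : V) (c d : κ → F), (∀ e, hermForm n F q a (emb g e) = 0) →
      (∀ e, hermForm n F q b (emb g e) = 0) → hermForm n F q (a + emb g c) (b + emb g d) =
        hermForm n F q a b + ∑ k, c k * d k ^ q := fun a b c d ha hb => by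
    rw [herm_add_left, herm_add_right hF, herm_add_right hF, ha, herm_eq_zero_comm hF (hb c), herm_emb hF hg]
    simp
  rw [hdec u, hdec v, hsum _ _ _ _ (hperp u) (hperp v), hA]
  conv_rhs => rw [← sub_add_cancel u (emb g (crd q g u)), ← sub_add_cancel v (emb g (crd q g v))]
  rw [hsum _ _ _ _ (hperp u) (hperp v)]

omit hF [Fintype F] in
theorem det_lift {g : κ → V} (hg : Ortho q g) (A : Matrix κ κ F) : LinearMap.det (lift q g A) = A.det := by
  set E := LinearMap.toMatrix' (emb g) with hE
  set C := LinearMap.toMatrix' (crd q g) with hC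
  have hCE : C * E = 1 := by
    rw [hC, hE, ← LinearMap.toMatrix'_comp, show crd q g ∘ₗ emb g = LinearMap.id from LinearMap.ext (crd_emb hg),
      LinearMap.toMatrix'_id]
  have hl : LinearMap.toMatrix' (lift q g A) = 1 + E * ((A - 1) * C) := by
    rw [lift, map_add, LinearMap.toMatrix'_one, LinearMap.toMatrix'_comp, LinearMap.toMatrix'_comp, map_sub,
      LinearMap.toMatrix'_toLin', LinearMap.toMatrix'_one]
  rw [← LinearMap.det_toMatrix', hl, Matrix.det_one_add_mul_comm, Matrix.mul_assoc, hCE, Matrix.mul_one, add_sub_cancel]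

/-- An orthonormal basis of a non-degenerate subspace. -/
theorem exists_frame {W : Submodule F V} (hW : IsNondeg q W) {d : ℕ} (hd : finrank F W = d) :
    ∃ g : Fin d → V, Ortho q g ∧ LinearMap.range (emb g) = W := by
  obtain ⟨g, hg, -, hs⟩ := exists_orthonorm_basis hF hW hd
  exact ⟨g, fun i j => hg i j, by rw [range_emb, hs]⟩

/-- Non-degenerate subspaces of every smaller dimension. -/
theorem exists_nondeg_sub {U : Submodule F V} (hU : IsNondeg q U) {j : ℕ} (hj : j ≤ finrank F U) :
    ∃ W ≤ U, IsNondeg q W ∧ finrank F W = j := by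
  obtain ⟨g, hg, hgU⟩ := exists_frame hF hU rfl
  have hg' : Ortho q (g ∘ Fin.castLE hj) := fun a b => by
    simp only [Function.comp_apply, hg _ _, (Fin.castLE_injective hj).eq_iff]
  refine ⟨_, ?_, nondeg_range_emb hF hg', by rw [finrank_range_emb hg', Fintype.card_fin]⟩
  rw [range_emb]
  exact (Submodule.span_mono (Set.range_comp_subset_range _ _)).trans (by rw [← range_emb]; exact hgU.le)

/-- Totally isotropic subspaces of up to half the dimension. -/
theorem exists_iso_sub {U : Submodule F V} (hU : IsNondeg q U) {j : ℕ} (hj : 2 * j ≤ finrank F U) :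
    ∃ Y ≤ U, Iso q Y ∧ finrank F Y = j := by
  obtain ⟨g, hg, hgU⟩ := exists_frame hF hU rfl
  obtain ⟨ω, hω⟩ := exists_norm_neg_one hF
  let i0 : Fin j → Fin (finrank F U) := fun i => ⟨2 * i, by omega⟩
  let i1 : Fin j → Fin (finrank F U) := fun i => ⟨2 * i + 1, by omega⟩
  let c : Fin j → (Fin (finrank F U) → F) := fun i => Pi.single (i0 i) 1 + ω • Pi.single (i1 i) 1
  let e : Fin j → V := fun i => emb g (c i)
  have hc0 : ∀ a b, c a (i0 b) = if a = b then 1 else 0 := fun a b => by
    simp only [c, Pi.add_apply, Pi.smul_apply, Pi.single_apply, i0, i1, Fin.ext_iff]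
    rw [if_neg (show ¬ (2 * (b : ℕ) = 2 * a + 1) by omega)]
    simp [eq_comm]
  have hc1 : ∀ a b, c a (i1 b) = if a = b then ω else 0 := fun a b => by
    simp only [c, Pi.add_apply, Pi.smul_apply, Pi.single_apply, i0, i1, Fin.ext_iff]
    rw [if_neg (show ¬ (2 * (b : ℕ) + 1 = 2 * a) by omega)]
    simp [eq_comm]
  have hiso : ∀ a b, hermForm n F q (e a) (e b) = 0 := by
    intro a b
    simp only [e]
    rw [herm_emb hF hg]
    have hsupp : ∀ k, k ≠ i0 a → k ≠ i1 a → c a k = 0 := fun k h0 h1 => by
      simp [c, Pi.single_eq_of_ne h0, Pi.single_eq_of_ne h1]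
    rw [Finset.sum_eq_add (i0 a) (i1 a) (fun h => by simp [i0, i1, Fin.ext_iff] at h)
      (fun k _ hk => by rw [hsupp k hk.1 hk.2, zero_mul]) (by simp) (by simp), hc0, hc1, hc0, hc1, if_pos rfl, if_pos rfl]
    by_cases hab : a = b
    · subst hab
      rw [if_pos rfl, if_pos rfl, one_pow, mul_one, ← pow_succ', hω, add_neg_cancel]
    · rw [if_neg (Ne.symm hab), if_neg (Ne.symm hab), zero_pow_q hF, mul_zero, mul_zero, add_zero]
  have hli : LinearIndependent F e := Fintype.linearIndependent_iff.2 fun l hl i => by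
    simp only [e, ← map_smul, ← map_sum] at hl
    have h0 : (∑ a, l a • c a) = 0 := emb_injective hg (hl.trans (map_zero _).symm)
    have h := congrFun h0 (i0 i)
    simpa [Finset.sum_apply, hc0] using h
  refine ⟨Submodule.span F (Set.range e), Submodule.span_le.2 ?_, fun u hu v hv => span_TI hF hiso hu v hv,
    by rw [finrank_span_eq_card hli, Fintype.card_fin]⟩
  rintro _ ⟨i, rfl⟩
  exact hgU.le ⟨c i, rfl⟩

omit [Fintype κ] [DecidableEq κ] in
/-- Similar unitary matrices are unitarily similar. -/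
theorem exists_unitary_conj {d : ℕ} {A B P : Matrix (Fin d) (Fin d) F} (hA : Pres q A) (hB : Pres q B)
    (hP : IsUnit P) (h : P * A = B * P) :
    ∃ G : Matrix (Fin d) (Fin d) F, Pres q G ∧ G * A = B * G := by
  have hcj : ∀ {M : Matrix (Fin d) (Fin d) F}, Pres q M → cjT q M * M = 1 := by
    intro M hM
    ext i j
    rw [Matrix.mul_apply]
    have h1 := hM (Pi.single j 1) (Pi.single i 1)
    simp only [Matrix.mulVec_single_one, Matrix.col_apply] at h1
    have h2 : ∑ k, (Pi.single j (1 : F) : Fin d → F) k * (Pi.single i (1 : F) : Fin d → F) k ^ q = (Pi.single i (1 : F) : Fin d → F) j ^ q := by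
      rw [Finset.sum_eq_single j (by intros b _ hb; simp [Pi.single_eq_of_ne hb]) (by simp), Pi.single_eq_same, one_mul]
    rw [h2] at h1
    simp only [cjT, Matrix.transpose_apply, Matrix.map_apply]
    rw [Finset.sum_congr rfl fun k _ => mul_comm (M k i ^ q) (M k j), h1, Matrix.one_apply]
    by_cases hij : i = j
    · simp [hij]
    · rw [if_neg hij, Pi.single_eq_of_ne (Ne.symm hij), zero_pow_q hF]
  have hA1 := hcj hA
  have hB1 := hcj hB
  have hA1' : A * cjT q A = 1 := mul_eq_one_comm.1 hA1
  set H := cjT q P * P with hHdef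
  have hH : cjT q H = H := by rw [hHdef, cjT_mul hF, cjT_cjT hF]
  have hHu : IsUnit H := (isUnit_cjT hF hP).mul hP
  have hinv : cjT q A * H * A = H := by
    rw [hHdef]
    calc cjT q A * (cjT q P * P) * A = cjT q (P * A) * (P * A) := by rw [cjT_mul hF]; simp only [mul_assoc]
      _ = cjT q P * (cjT q B * B) * P := by rw [h, cjT_mul hF]; simp only [mul_assoc]
      _ = cjT q P * P := by rw [hB1, mul_one]
  have hcomm : Commute A H := by
    show A * H = H * A
    conv_lhs => rw [← hinv]
    rw [← mul_assoc, ← mul_assoc, hA1', one_mul]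
  obtain ⟨Z, hZu, hZc, hZ⟩ := exists_cjT_mul_self hF hH hHu
  have hZA : A * Z = Z * A := hZc A hcomm
  obtain ⟨z, rfl⟩ := hZu
  refine ⟨P * ((z⁻¹ : _ˣ) : Matrix (Fin d) (Fin d) F), ?_, ?_⟩
  · set G := P * ((z⁻¹ : _ˣ) : Matrix (Fin d) (Fin d) F) with hG
    have hGG : cjT q G * G = 1 := by
      rw [hG, cjT_mul hF]
      calc cjT q ((z⁻¹ : _ˣ) : Matrix (Fin d) (Fin d) F) * cjT q P * (P * ((z⁻¹ : _ˣ) : Matrix (Fin d) (Fin d) F))
          = cjT q ((z⁻¹ : _ˣ) : Matrix (Fin d) (Fin d) F) * (cjT q (z : Matrix (Fin d) (Fin d) F) * z) *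
              ((z⁻¹ : _ˣ) : Matrix (Fin d) (Fin d) F) := by rw [hZ, hHdef]; simp only [mul_assoc]
        _ = cjT q ((z : Matrix (Fin d) (Fin d) F) * ((z⁻¹ : _ˣ) : Matrix (Fin d) (Fin d) F)) *
              ((z : Matrix (Fin d) (Fin d) F) * ((z⁻¹ : _ˣ) : Matrix (Fin d) (Fin d) F)) := by
            rw [cjT_mul hF]; simp only [mul_assoc]
        _ = 1 := by rw [z.mul_inv, cjT_one hF, mul_one]
    intro u v
    have hentry : ∀ i j, ∑ k, G k i ^ q * G k j = if i = j then 1 else 0 := fun i j => by
      have h1 := congrFun (congrFun hGG i) j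
      rw [Matrix.mul_apply, Matrix.one_apply] at h1
      simpa [cjT, Matrix.transpose_apply, Matrix.map_apply] using h1
    calc ∑ k, (G *ᵥ u) k * (G *ᵥ v) k ^ q
        = ∑ k, ∑ j, ∑ i, (u j * v i ^ q) * (G k i ^ q * G k j) := by
          refine Finset.sum_congr rfl fun k _ => ?_
          simp only [Matrix.mulVec, dotProduct]
          rw [sum_pow_q hF, Finset.sum_mul]
          refine Finset.sum_congr rfl fun j _ => ?_
          rw [Finset.mul_sum]
          refine Finset.sum_congr rfl fun i _ => ?_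
          rw [mul_pow]; ring
      _ = ∑ j, ∑ i, (u j * v i ^ q) * ∑ k, G k i ^ q * G k j := by
          rw [Finset.sum_comm]
          refine Finset.sum_congr rfl fun j _ => ?_
          rw [Finset.sum_comm]
          exact Finset.sum_congr rfl fun i _ => (Finset.mul_sum _ _ _).symm
      _ = ∑ k, u k * v k ^ q := by simp [hentry]
  · have hc : Commute A ((z⁻¹ : _ˣ) : Matrix (Fin d) (Fin d) F) := Commute.units_inv_right hZA
    rw [mul_assoc, ← hc.eq, ← mul_assoc, h, mul_assoc]

end CfsgLib.Classical.Semisimple.UnitBasic
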