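import Cfsg.Agent.Classical.Semisimple.UnitExists
import Cfsg.Agent.Classical.Semisimple.Bridge
import Cfsg.Agent.Classical.PrimeDerangement.Orders

/-!
Passing between matrices of the special unitary group and isometries with scalar powers, and the scalars
involved.
-/

set_option autoImplicit false

namespace CfsgLib.Classical.Semisimple.UnitBridge

open Cfsg Module Polynomial CfsgLib.Unitary UnitBasic UnitSetting
open scoped Matrix

variable {F : Type*} [Field F] [Fintype F] {n q r : ℕ}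

/-- The endomorphism has an invariant subspace of dimension `m` with property `R`. -/
def Has (m : ℕ) (R : Submodule F (Fin n → F) → Prop) (f : Module.End F (Fin n → F)) : Prop :=
  ∃ W : Submodule F (Fin n → F), finrank F W = m ∧ R W ∧ W.map f ≤ W

/-- Every determinant-one isometry with scalar `r`-th power has such a subspace. -/
def AllHave (q r m : ℕ) (R : Submodule F (Fin n → F) → Prop) : Prop :=
  ∀ (f : Module.End F (Fin n → F)) (z : F), (∀ u v, hermForm n F q (f u) (f v) = hermForm n F q u v) →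
    LinearMap.det f = 1 → f ^ r = z • 1 → Has m R f

omit [Fintype F] in
theorem Has.smul_iff {m : ℕ} {R : Submodule F (Fin n → F) → Prop} {c : F} (hc : c ≠ 0)
    (f : Module.End F (Fin n → F)) : Has m R (c • f) ↔ Has m R f := by
  unfold Has
  simp only [map_smul_le_iff hc]

omit [Fintype F] in
theorem smul_map_le (c : F) (W : Submodule F (Fin n → F)) : W.map (c • (1 : Module.End F (Fin n → F))) ≤ W :=
  map_le_of_forall_mem fun x hx => by simpa using W.smul_mem c hx

/-- The statement about matrices and the statement about isometries agree. -/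
theorem forall_iff {m : ℕ} {R : Submodule F (Fin n → F) → Prop} [Nonempty (Fin n)]
    (hex : ∃ W : Submodule F (Fin n → F), finrank F W = m ∧ R W) :
    (∀ x : Matrix.SpecialLinearGroup (Fin n) F, x ∈ Cfsg.SU n F q →
      (∃ z : F, ((x ^ r : Matrix.SpecialLinearGroup (Fin n) F) : Matrix (Fin n) (Fin n) F) =
        z • (1 : Matrix (Fin n) (Fin n) F)) →
      (∀ z : F, (x : Matrix (Fin n) (Fin n) F) ≠ z • (1 : Matrix (Fin n) (Fin n) F)) →
      ∃ W : Submodule F (Fin n → F), finrank F ↥W = m ∧ R W ∧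
        W.map (Matrix.toLin' (x : Matrix (Fin n) (Fin n) F)) ≤ W) ↔ AllHave q r m R := by
  constructor
  · intro h f z hiso hdet hpow
    by_cases hns : ∀ c : F, f ≠ c • 1
    · obtain ⟨x, hxf, hxr, hxs⟩ := exists_sl_of_end hdet hpow hns
      have := h x (mem_SU.2 fun u v => by
        rw [← Matrix.toLin'_apply, ← Matrix.toLin'_apply, hxf]; exact hiso u v) ⟨z, hxr⟩ hxs
      rwa [hxf] at this
    · push Not at hns
      obtain ⟨c, rfl⟩ := hns
      obtain ⟨W, h1, h2⟩ := hex
      exact ⟨W, h1, h2, smul_map_le c W⟩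
  · rintro h x hx ⟨z, hz⟩ -
    exact h (Matrix.toLin' (x : Matrix (Fin n) (Fin n) F)) z
      (fun u v => by rw [Matrix.toLin'_apply, Matrix.toLin'_apply]; exact mem_SU.1 hx u v)
      (toLin'_det_one x) (toLin'_pow_eq_smul hz)

theorem not_allHave {m : ℕ} {R : Submodule F (Fin n → F) → Prop} (f : Module.End F (Fin n → F)) (z : F)
    (hiso : ∀ u v, hermForm n F q (f u) (f v) = hermForm n F q u v) (hdet : LinearMap.det f = 1)
    (hpow : f ^ r = z • 1) (hno : ¬ Has m R f) : ¬ AllHave q r m R :=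
  fun h => hno (h f z hiso hdet hpow)

theorem exists_iso (hF : Fintype.card F = q ^ 2) {m : ℕ} (hm : 2 * m ≤ n) :
    ∃ W : Submodule F (Fin n → F), finrank F W = m ∧ Iso q W := by
  obtain ⟨W, -, h1, h2⟩ := exists_iso_sub hF (isNondeg_top (n := n) hF) (j := m) (by rwa [finrank_top, finrank_fin_fun])
  exact ⟨W, h2, h1⟩

theorem exists_nondeg (hF : Fintype.card F = q ^ 2) {m : ℕ} (hm : m ≤ n) :
    ∃ W : Submodule F (Fin n → F), finrank F W = m ∧ IsNondeg q W := by
  obtain ⟨W, -, h1, h2⟩ := exists_nondeg_sub hF (isNondeg_top (n := n) hF) (j := m) (by rwa [finrank_top, finrank_fin_fun])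
  exact ⟨W, h2, h1⟩

theorem iso_pow {f : Module.End F (Fin n → F)}
    (hiso : ∀ u v, hermForm n F q (f u) (f v) = hermForm n F q u v) :
    ∀ k : ℕ, ∀ u v, hermForm n F q ((f ^ k) u) ((f ^ k) v) = hermForm n F q u v
  | 0 => fun u v => by simp
  | k + 1 => fun u v => by rw [pow_succ', Module.End.mul_apply, Module.End.mul_apply, hiso, iso_pow hiso k]

theorem scalar_norm (hF : Fintype.card F = q ^ 2) (hn : 0 < n) {f : Module.End F (Fin n → F)} {z : F}
    (hiso : ∀ u v, hermForm n F q (f u) (f v) = hermForm n F q u v) (hpow : f ^ r = z • 1) :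
    z ^ (q + 1) = 1 := by
  have h := iso_pow hiso r (Pi.single ⟨0, hn⟩ 1) (Pi.single ⟨0, hn⟩ 1)
  rw [hpow, LinearMap.smul_apply, Module.End.one_apply, herm_smul_left, herm_smul_right,
    herm_single_single hF, if_pos rfl, mul_one] at h
  rw [pow_succ']
  exact h

theorem scalar_ne (hF : Fintype.card F = q ^ 2) (hn : 0 < n) {f : Module.End F (Fin n → F)} {z : F}
    (hiso : ∀ u v, hermForm n F q (f u) (f v) = hermForm n F q u v) (hpow : f ^ r = z • 1) : z ≠ 0 := by
  intro h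
  have := scalar_norm hF hn hiso hpow
  rw [h, zero_pow (Nat.succ_ne_zero q)] at this
  exact zero_ne_one this

omit [Fintype F] in
/-- Rescaling by a norm-one scalar keeps the isometries. -/
theorem smul_iso {f : Module.End F (Fin n → F)} {w : F} (hw : w ^ (q + 1) = 1)
    (hiso : ∀ u v, hermForm n F q (f u) (f v) = hermForm n F q u v) (u v : Fin n → F) :
    hermForm n F q ((w⁻¹ • f) u) ((w⁻¹ • f) v) = hermForm n F q u v := by
  rw [LinearMap.smul_apply, LinearMap.smul_apply, herm_smul_left, herm_smul_right, hiso, ← mul_assoc,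
    ← pow_succ', inv_pow, hw, inv_one, one_mul]

theorem setting_twist [hr : Fact r.Prime] (hF : Fintype.card F = q ^ 2) (hrF : (r : F) ≠ 0)
    {f : Module.End F (Fin n → F)} {z w : F} (hiso : ∀ u v, hermForm n F q (f u) (f v) = hermForm n F q u v)
    (hpow : f ^ r = z • 1) (hz : z ≠ 0) (hw : w ^ (q + 1) = 1) (hwz : w ^ r = z) :
    Setting q r (1 : F) (w⁻¹ • f) :=
  ⟨hF, smul_iso hw hiso, by rw [one_smul]; exact smul_pow_eq_one hwz hz hpow, hrF, one_ne_zero⟩

/-- A norm-one scalar is an `r`-th power of one when `r` is prime to `q + 1`. -/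
theorem exists_root [hr : Fact r.Prime] {z : F} (hz : z ^ (q + 1) = 1) (hrq1 : ¬ r ∣ q + 1) :
    ∃ w : F, w ^ (q + 1) = 1 ∧ w ^ r = z := by
  obtain ⟨a, ha⟩ := exists_pow_eq_self_of_coprime (((Nat.Prime.coprime_iff_not_dvd hr.out).2 hrq1).coprime_dvd_right
    (orderOf_dvd_of_pow_eq_one hz))
  exact ⟨z ^ a, by rw [← pow_mul, mul_comm, pow_mul, hz, one_pow], by rw [← pow_mul, mul_comm, pow_mul]; exact ha⟩

omit [Fintype F] in
/-- An `r`-th root of a norm-one scalar has norm one when `r` divides `q + 1`. -/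
theorem root_norm [Fintype F] [hr : Fact r.Prime] (hF : Fintype.card F = q ^ 2) (hr2 : r ≠ 2) (hrq1 : r ∣ q + 1)
    {z w : F} (hz : z ^ (q + 1) = 1) (hw : w ^ r = z) : w ^ (q + 1) = 1 := by
  have hw0 : w ≠ 0 := by
    rintro rfl
    rw [zero_pow hr.out.ne_zero] at hw
    rw [← hw, zero_pow (Nat.succ_ne_zero q)] at hz
    exact zero_ne_one hz
  have h1 : w ^ (r * (q + 1)) = 1 := by rw [pow_mul, hw, hz]
  have h2 : w ^ ((q - 1) * (q + 1)) = 1 := by
    have h3 := FiniteField.pow_card_sub_one_eq_one w hw0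
    rwa [hF, show q ^ 2 - 1 = (q - 1) * (q + 1) by
      rw [Nat.sub_one_mul]; have := two_le_q hF; rw [sq, mul_add, mul_one]; omega] at h3
  have hcop : Nat.Coprime r (q - 1) := (Nat.Prime.coprime_iff_not_dvd hr.out).2 fun h => hr2 (by
    have h4 := Nat.dvd_sub hrq1 h
    rw [show q + 1 - (q - 1) = 2 by have := two_le_q hF; omega] at h4
    exact (Nat.prime_dvd_prime_iff_eq hr.out Nat.prime_two).1 h4)
  have h5 : w ^ Nat.gcd (r * (q + 1)) ((q - 1) * (q + 1)) = 1 := pow_gcd_eq_one.2 ⟨h1, h2⟩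
  rwa [Nat.gcd_mul_right, hcop.gcd_eq_one, one_mul] at h5

/-- A norm-one scalar of prime-power order. -/
theorem exists_primitive (hF : Fintype.card F = q ^ 2) {d : ℕ} (hd : d ∣ q + 1) :
    ∃ w : F, IsPrimitiveRoot w d ∧ w ^ (q + 1) = 1 := by
  obtain ⟨x, hx⟩ := CfsgLib.Classical.PrimeDerangement.exists_primitive_of_dvd (F := F)
    (card_units_eq hF ▸ Dvd.dvd.mul_left hd _)
  refine ⟨(x : F), IsPrimitiveRoot.coe_units_iff.2 hx, ?_⟩
  obtain ⟨c, hc⟩ := hd
  rw [hc, pow_mul, ← Units.val_pow_eq_pow_val, hx.pow_eq_one, Units.val_one, one_pow]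

/-- Scalars which are not powers. -/
theorem exists_nonpower [hr : Fact r.Prime] (hF : Fintype.card F = q ^ 2) (hr2 : r ≠ 2) (hrq1 : r ∣ q + 1) {n : ℕ}
    (hn : n ≠ 0) (hv : padicValNat r (q + 1) < padicValNat r n) :
    r ∣ n ∧ ∃ z : F, z ^ (q + 1) = 1 ∧ (∀ b : F, b ^ r ≠ z) ∧ z ^ (n / r) = 1 := by
  set e := padicValNat r (q + 1) with he
  have he1 : 1 ≤ e := one_le_padicValNat_of_dvd (by omega) hrq1
  have hn1 : r ^ (e + 1) ∣ n := (pow_dvd_pow r hv).trans pow_padicValNat_dvd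
  refine ⟨(dvd_pow_self r (Nat.succ_ne_zero e)).trans hn1, ?_⟩
  obtain ⟨z, hz, hzq⟩ := exists_primitive hF (d := r ^ e) (pow_padicValNat_dvd)
  refine ⟨z, hzq, fun b hb => ?_, ?_⟩
  · have hbq := root_norm hF hr2 hrq1 hzq hb
    have hord : orderOf b = r ^ (e + 1) := by
      refine orderOf_eq_prime_pow (fun h => ?_) (by rw [pow_succ', pow_mul, hb, hz.pow_eq_one])
      obtain ⟨e', he'⟩ : ∃ e', e = e' + 1 := ⟨e - 1, by omega⟩
      rw [he', pow_succ', pow_mul, hb] at h
      exact hz.pow_ne_one_of_pos_of_lt (pow_ne_zero e' hr.out.ne_zero) (he' ▸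
        Nat.pow_lt_pow_right hr.out.one_lt (Nat.lt_succ_self e')) h
    exact pow_succ_padicValNat_not_dvd (p := r) (by omega) (he ▸ hord ▸ orderOf_dvd_of_pow_eq_one hbq)
  · obtain ⟨c, hc⟩ := hn1
    rw [hc, pow_succ, mul_comm (r ^ e) r, mul_assoc, Nat.mul_div_cancel_left _ hr.out.pos, pow_mul, hz.pow_eq_one,
      one_pow]

/-- A norm-one scalar with the determinant condition is a power. -/
theorem exists_power [hr : Fact r.Prime] (hF : Fintype.card F = q ^ 2) (hrq1 : r ∣ q + 1) {n : ℕ} (hn : n ≠ 0)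
    (hrn : r ∣ n) (hv : padicValNat r n ≤ padicValNat r (q + 1)) {z : F} (hz : z ^ (q + 1) = 1)
    (hzn : z ^ (n / r) = 1) : ∃ b : F, b ^ r = z := by
  classical
  set e := padicValNat r (q + 1) with he
  have he1 : 1 ≤ e := one_le_padicValNat_of_dvd (by omega) hrq1
  obtain ⟨o, ho⟩ : r ^ e ∣ q + 1 := pow_padicValNat_dvd
  obtain ⟨k, hk, hkg⟩ := (Nat.dvd_prime_pow hr.out).1 (Nat.gcd_dvd_left (r ^ e) (n / r))
  have hke : k < e := lt_of_le_of_ne hk fun h => by
    have h1 : r ^ e ∣ n / r := h ▸ hkg ▸ Nat.gcd_dvd_right _ _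
    have h2 : r ^ (e + 1) ∣ n := by rw [pow_succ']; exact Nat.mul_dvd_of_dvd_div hrn h1
    have h3 := (padicValNat_dvd_iff_le hn).1 h2
    omega
  have h1 : (z ^ o) ^ (r ^ k) = 1 := by
    rw [← hkg]
    refine pow_gcd_eq_one.2 ⟨?_, ?_⟩
    · rw [← pow_mul, mul_comm, ← ho, hz]
    · rw [← pow_mul, mul_comm, pow_mul, hzn, one_pow]
  have hz0 : z ≠ 0 := by rintro rfl; rw [zero_pow (Nat.succ_ne_zero q)] at hz; exact zero_ne_one hz
  obtain ⟨g, hg⟩ := IsCyclic.exists_generator (α := Fˣ)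
  obtain ⟨j, hj⟩ := Submonoid.mem_powers_iff _ _ |>.1
    (mem_powers_iff_mem_zpowers.2 (hg (Units.mk0 z hz0)))
  have hkey : z ^ ((q - 1) * (r ^ k * o)) = 1 := by
    rw [mul_comm, pow_mul, mul_comm (r ^ k) o, pow_mul, h1, one_pow]
  have hord : orderOf g = (q - 1) * (r ^ e * o) := by
    rw [orderOf_eq_card_of_forall_mem_zpowers hg, card_units_eq hF, ho]
  have hdvd : (q - 1) * (r ^ e * o) ∣ j * ((q - 1) * (r ^ k * o)) := by
    rw [← hord]
    refine orderOf_dvd_of_pow_eq_one (Units.ext ?_)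
    rw [pow_mul, hj, Units.val_pow_eq_pow_val, Units.val_mk0, hkey, Units.val_one]
  have hrj : r ∣ j := by
    obtain ⟨d, hd⟩ : ∃ d, e = k + (d + 1) := ⟨e - k - 1, by omega⟩
    rw [hd, pow_add, show (q - 1) * (r ^ k * r ^ (d + 1) * o) = r ^ (d + 1) * ((q - 1) * (r ^ k * o)) by ring,
      Nat.mul_dvd_mul_iff_right (Nat.pos_of_ne_zero fun h => by
        rw [hd, pow_add] at hord
        have hp : 0 < orderOf g := orderOf_pos g
        rw [hord, show (q - 1) * (r ^ k * r ^ (d + 1) * o) = r ^ (d + 1) * ((q - 1) * (r ^ k * o)) by ring, h,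
          mul_zero] at hp
        omega)] at hdvd
    exact (dvd_pow_self r (Nat.succ_ne_zero d)).trans hdvd
  obtain ⟨i, rfl⟩ := hrj
  refine ⟨((g ^ i : Fˣ) : F), ?_⟩
  rw [← Units.val_pow_eq_pow_val, ← pow_mul, mul_comm, hj, Units.val_mk0]

end CfsgLib.Classical.Semisimple.UnitBridge
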