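import Cfsg.Agent.Classical.Semisimple.UnitBasic
import Cfsg.Agent.Classical.Unitary.Parabolic
import Cfsg.Agent.Classical.Unitary.Blocks

/-!
Divisors of the numbers of totally isotropic and of non-degenerate subspaces of a hermitian space, and
the multiplicative orders attached to a prime and `q`.
-/

set_option autoImplicit false

namespace CfsgLib.Classical.Semisimple.UnitCounts

open Cfsg Module CfsgLib.Unitary UnitBasic
open scoped Matrix

variable {F : Type*} [Field F] [Fintype F] {n q : ℕ}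

/-- The factors of the order of the unitary group. -/
def term (q j : ℕ) : ℕ := if Even j then q ^ (j + 1) + 1 else q ^ (j + 1) - 1

theorem card_GU_eq (hF : Fintype.card F = q ^ 2) (n : ℕ) :
    Nat.card ↥(GU n F q) = q ^ (n * (n - 1) / 2) * ∏ j ∈ Finset.range n, term q j := card_GU hF n

theorem term_pos (hq : 2 ≤ q) (j : ℕ) : 0 < term q j := by
  unfold term
  have h : 2 ≤ q ^ (j + 1) := le_trans hq (Nat.le_self_pow (Nat.succ_ne_zero j) q)
  split_ifs <;> omega

theorem dvd_term_iff {r : ℕ} (hq : 2 ≤ q) (j : ℕ) : r ∣ term q j ↔ orderOf (-(q : ZMod r)) ∣ j + 1 := by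
  rw [orderOf_dvd_iff_pow_eq_one, ← ZMod.natCast_eq_zero_iff]
  unfold term
  split_ifs with he
  · rw [he.add_one.neg_pow]
    push_cast
    constructor <;> intro h <;> linear_combination -h
  · rw [(Nat.not_even_iff_odd.1 he).add_one.neg_pow, Nat.cast_sub (Nat.one_le_pow _ _ (by omega))]
    push_cast
    exact sub_eq_zero

theorem not_dvd_term {p : ℕ} (hp : 2 ≤ p) (hq : 2 ≤ q) (hpq : p ∣ q) (j : ℕ) : ¬ p ∣ term q j := by
  intro h
  have hd : p ∣ q ^ (j + 1) := dvd_pow hpq (Nat.succ_ne_zero j)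
  have h1 : p ∣ 1 := by
    unfold term at h
    split_ifs at h
    · exact (Nat.dvd_add_right hd).1 h
    · have := Nat.dvd_sub hd h
      rwa [Nat.sub_sub_self (Nat.one_le_pow _ _ (by omega))] at this
  have := Nat.le_of_dvd one_pos h1
  omega

/-- No factor in the range is divisible by `r`. -/
theorem not_dvd_prod {r : ℕ} (hr : r.Prime) (hq : 2 ≤ q) {n k : ℕ}
    (hk : k ≤ n % orderOf (-(q : ZMod r))) : ¬ r ∣ ∏ j ∈ Finset.Ico (n - k) n, term q j := by
  intro h
  obtain ⟨j, hj, hd⟩ := hr.prime.exists_mem_finset_dvd h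
  rw [Finset.mem_Ico] at hj
  obtain ⟨l, hl⟩ := (dvd_term_iff hq j).1 hd
  set c := orderOf (-(q : ZMod r))
  have h1 := Nat.div_add_mod n c
  rcases Nat.eq_zero_or_pos c with hc | hc
  · rw [hc, zero_mul] at hl
    omega
  have h2 : l ≤ n / c := (Nat.le_div_iff_mul_le hc).2 (by rw [mul_comm]; omega)
  have h3 : c * l ≤ c * (n / c) := Nat.mul_le_mul le_rfl h2
  omega

/-- The number of totally isotropic subspaces in closed form. -/
theorem card_iso_mul (hF : Fintype.card F = q ^ 2) {m : ℕ} (hm : 2 * m ≤ n) :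
    Nat.card {W : Submodule F (Fin n → F) // finrank F W = m ∧ ∀ u ∈ W, ∀ v ∈ W, hermForm n F q u v = 0} *
      (∏ i ∈ Finset.range m, ((q ^ 2) ^ (m - i) - 1)) = ∏ j ∈ Finset.Ico (n - 2 * m) n, term q j := by
  have hq : 2 ≤ q := two_le_q hF
  have h1 := card_GU_eq_TIFrame hF m hm
  rw [card_TIFrame_eq_mul hF m, card_GU_eq hF, card_GU_eq hF,
    Fin.prod_univ_eq_prod_range (fun i => (q ^ 2) ^ m - (q ^ 2) ^ i)] at h1
  set N := Nat.card {W : Submodule F (Fin n → F) // finrank F W = m ∧ ∀ u ∈ W, ∀ v ∈ W, hermForm n F q u v = 0}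
  have e1 : ∏ i ∈ Finset.range m, ((q ^ 2) ^ m - (q ^ 2) ^ i) =
      q ^ (m * (m - 1)) * ∏ i ∈ Finset.range m, ((q ^ 2) ^ (m - i) - 1) := by
    rw [← Finset.sum_range_id_mul_two, mul_comm (∑ i ∈ Finset.range m, i), pow_mul,
      ← Finset.prod_pow_eq_pow_sum, ← Finset.prod_mul_distrib]
    refine Finset.prod_congr rfl fun i hi => ?_
    rw [Finset.mem_range] at hi
    rw [Nat.mul_sub, mul_one, ← pow_add, Nat.add_sub_cancel' hi.le]
  have e2 : n * (n - 1) / 2 = m * (m - 1) + m * (2 * n - 3 * m) + (n - 2 * m) * (n - 2 * m - 1) / 2 := by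
    obtain ⟨k, rfl⟩ : ∃ k, n = k + 2 * m := ⟨n - 2 * m, by omega⟩
    rw [show 2 * (k + 2 * m) - 3 * m = 2 * k + m by omega, Nat.add_sub_cancel]
    have e3 : (k + 2 * m) * (k + 2 * m - 1) = k * (k - 1) + 2 * (m * (m - 1) + m * (2 * k + m)) := by
      rcases k with _ | k
      · rcases m with _ | m
        · rfl
        · rw [show 0 + 2 * (m + 1) - 1 = 2 * m + 1 by omega, show 0 - 1 = 0 from rfl, Nat.add_sub_cancel]
          ring
      · rcases m with _ | m
        · simp
        · rw [show k + 1 + 2 * (m + 1) - 1 = k + 2 * (m + 1) by omega, Nat.add_sub_cancel, Nat.add_sub_cancel]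
          ring
    rw [e3, Nat.add_mul_div_left _ _ two_pos, add_comm]
  rw [e1, e2, ← Finset.prod_range_mul_prod_Ico (term q) (Nat.sub_le n (2 * m)), pow_add, pow_add] at h1
  refine (Nat.eq_of_mul_eq_mul_left (show 0 < q ^ (m * (m - 1)) * q ^ (m * (2 * n - 3 * m)) *
    q ^ ((n - 2 * m) * (n - 2 * m - 1) / 2) * ∏ j ∈ Finset.range (n - 2 * m), term q j from ?_) ?_).symm
  · have := Finset.prod_pos (s := Finset.range (n - 2 * m)) fun j _ => term_pos hq j
    positivity
  · linear_combination h1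

theorem not_dvd_iso (hF : Fintype.card F = q ^ 2) {r : ℕ} (hr : r.Prime) {m : ℕ} (hm : 2 * m ≤ n)
    (h : 2 * m ≤ n % orderOf (-(q : ZMod r))) :
    ¬ r ∣ Nat.card {W : Submodule F (Fin n → F) // finrank F W = m ∧ ∀ u ∈ W, ∀ v ∈ W, hermForm n F q u v = 0} :=
  fun hd => not_dvd_prod hr (two_le_q hF) h (hd.trans ⟨_, (card_iso_mul hF hm).symm⟩)

/-- The characteristic does not divide the number of totally isotropic subspaces. -/
theorem prime_not_dvd_iso (hF : Fintype.card F = q ^ 2) {p : ℕ} (hp : p.Prime) (hpq : p ∣ q) {m : ℕ}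
    (hm : 2 * m ≤ n) :
    ¬ p ∣ Nat.card {W : Submodule F (Fin n → F) // finrank F W = m ∧ ∀ u ∈ W, ∀ v ∈ W, hermForm n F q u v = 0} := by
  intro hd
  obtain ⟨j, -, hj⟩ := hp.prime.exists_mem_finset_dvd (hd.trans ⟨_, (card_iso_mul hF hm).symm⟩)
  exact not_dvd_term hp.two_le (two_le_q hF) hpq j hj

theorem isNondeg_iff {W : Submodule F (Fin n → F)} :
    IsNondeg q W ↔ ∀ u ∈ W, u ≠ 0 → ∃ v ∈ W, hermForm n F q u v ≠ 0 := by
  refine ⟨fun h u hu hu0 => ?_, fun h u hu hv => ?_⟩
  · by_contra hne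
    push Not at hne
    exact hu0 (h u hu hne)
  · by_contra hu0
    obtain ⟨v, hv', hne⟩ := h u hu hu0
    exact hne (hv v hv')

/-- The setwise stabiliser of a subspace. -/
noncomputable def stab (W : Submodule F (Fin n → F)) : Subgroup ↥(GU n F q) where
  carrier := {a | W.map (Matrix.toLin' ((a : GL (Fin n) F) : Matrix (Fin n) (Fin n) F)) = W}
  one_mem' := by simp
  mul_mem' {a b} ha hb := by
    simp only [Set.mem_setOf_eq, Subgroup.coe_mul, Units.val_mul, Matrix.toLin'_mul, Submodule.map_comp] at *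
    rw [hb, ha]
  inv_mem' {a} ha := by
    simp only [Set.mem_setOf_eq, Subgroup.coe_inv] at *
    conv_lhs => rw [← ha]
    rw [← Submodule.map_comp, ← Matrix.toLin'_mul, ← Units.val_mul, inv_mul_cancel, Units.val_one,
      Matrix.toLin'_one, Submodule.map_id]

/-- A bound for the number of non-degenerate subspaces. -/
theorem card_nondeg_dvd (hF : Fintype.card F = q ^ 2) {m : ℕ} (hm : m ≤ n) :
    Nat.card {W : Submodule F (Fin n → F) // finrank F W = m ∧ ∀ u ∈ W, u ≠ 0 → ∃ v ∈ W, hermForm n F q u v ≠ 0} ∣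
      q ^ (n * (n - 1) / 2) * ∏ j ∈ Finset.Ico (n - m) n, term q j := by
  classical
  have h : m + (n - m) = n := by omega
  let g0 : Fin m → Fin n → F := fun i => Pi.single (blockIdx h (Sum.inl i)) 1
  have hg0 : Ortho q g0 := fun i j => by
    rw [herm_single_single hF]
    simp only [(blockIdx h).injective.eq_iff, Sum.inl.injEq]
  let W0 := LinearMap.range (emb g0)
  have himg : ∀ (a : GL (Fin n) F), W0.map (Matrix.toLin' (a : Matrix (Fin n) (Fin n) F)) =
      Submodule.span F (Set.range fun i => (a : Matrix (Fin n) (Fin n) F) *ᵥ g0 i) := fun a => by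
    show (LinearMap.range (emb g0)).map _ = _
    rw [range_emb, Submodule.map_span, ← Set.range_comp]
    rfl
  let φ : ↥(GU n F q) → {W : Submodule F (Fin n → F) //
      finrank F W = m ∧ ∀ u ∈ W, u ≠ 0 → ∃ v ∈ W, hermForm n F q u v ≠ 0} := fun a =>
    ⟨W0.map (Matrix.toLin' ((a : GL (Fin n) F) : Matrix (Fin n) (Fin n) F)), by
      have ho : Ortho q fun i => ((a : GL (Fin n) F) : Matrix (Fin n) (Fin n) F) *ᵥ g0 i := fun i j => by
        rw [mem_GU.1 a.2]; exact hg0 i j
      rw [himg, ← range_emb]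
      exact ⟨by rw [finrank_range_emb ho, Fintype.card_fin], isNondeg_iff.1 (nondeg_range_emb hF ho)⟩⟩
  have hsurj : Function.Surjective φ := fun W => by
    obtain ⟨g, hg, hgW⟩ := exists_frame hF (isNondeg_iff.2 W.2.2) W.2.1
    obtain ⟨a, ha, hag⟩ := exists_GU_map_orthonorm hF (f := g0) (f' := g) (fun i j => hg0 i j) (fun i j => hg i j)
    refine ⟨⟨a, ha⟩, Subtype.ext ?_⟩
    show W0.map (Matrix.toLin' (a : Matrix (Fin n) (Fin n) F)) = W.1
    rw [himg, ← hgW, range_emb]
    exact congrArg (fun s => Submodule.span F (Set.range s)) (funext hag)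
  have hcard := card_eq_card_mul_of_surjective (stab (q := q) W0) φ hsurj fun a b => by
    rw [Subtype.ext_iff]
    show _ ↔ W0.map (Matrix.toLin' (((a⁻¹ * b : ↥(GU n F q)) : GL (Fin n) F) : Matrix (Fin n) (Fin n) F)) = W0
    rw [Subgroup.coe_mul, Subgroup.coe_inv, Units.val_mul, Matrix.toLin'_mul, Submodule.map_comp]
    constructor
    · intro he
      rw [← show W0.map (Matrix.toLin' ((a : GL (Fin n) F) : Matrix (Fin n) (Fin n) F)) =
          W0.map (Matrix.toLin' ((b : GL (Fin n) F) : Matrix (Fin n) (Fin n) F)) from he, ← Submodule.map_comp,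
        ← Matrix.toLin'_mul, ← Units.val_mul, inv_mul_cancel, Units.val_one, Matrix.toLin'_one, Submodule.map_id]
    · intro he
      show W0.map (Matrix.toLin' ((a : GL (Fin n) F) : Matrix (Fin n) (Fin n) F)) =
        W0.map (Matrix.toLin' ((b : GL (Fin n) F) : Matrix (Fin n) (Fin n) F))
      conv_lhs => rw [← he]
      rw [← Submodule.map_comp, ← Matrix.toLin'_mul, ← Units.val_mul, mul_inv_cancel, Units.val_one,
        Matrix.toLin'_one, Submodule.map_id]
  let ι : ↥(GU (n - m) F q) →* ↥(GU n F q) := (blockGU hF h).comp (MonoidHom.inr _ _)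
  have hι : ι.range ≤ stab W0 := by
    rintro _ ⟨y, rfl⟩
    show W0.map _ = W0
    rw [himg]
    show _ = LinearMap.range (emb g0)
    rw [range_emb]
    refine congrArg (fun s => Submodule.span F (Set.range s)) (funext fun i => funext fun x => ?_)
    obtain ⟨s, rfl⟩ := (blockIdx h).surjective x
    show (((blockGU hF h (1, y) : GL (Fin n) F) : Matrix (Fin n) (Fin n) F) *ᵥ g0 i) (blockIdx h s) = _
    rw [Matrix.mulVec_single_one, blockGU_val]
    rcases s with s | s
    · simp [g0, blockMat, Matrix.one_apply, Pi.single_apply, (blockIdx h).injective.eq_iff]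
    · simp [g0, blockMat, Pi.single_apply, (blockIdx h).injective.eq_iff]
  have hinj : Function.Injective ι := fun x y hxy => (Prod.ext_iff.1 (blockGU_injective hF h hxy)).2
  have hdvd := mul_dvd_mul_left
    (Nat.card {W : Submodule F (Fin n → F) // finrank F W = m ∧ ∀ u ∈ W, u ≠ 0 → ∃ v ∈ W, hermForm n F q u v ≠ 0})
    (Subgroup.card_dvd_of_le hι)
  rw [← hcard, ← Nat.card_congr (MonoidHom.ofInjective hinj).toEquiv, card_GU_eq hF, card_GU_eq hF,
    ← Finset.prod_range_mul_prod_Ico (term q) (Nat.sub_le n m)] at hdvd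
  refine Nat.dvd_of_mul_dvd_mul_right
    (Finset.prod_pos (s := Finset.range (n - m)) fun j _ => term_pos (two_le_q hF) j) ?_
  refine (mul_dvd_mul_left _ (dvd_mul_left _ (q ^ ((n - m) * (n - m - 1) / 2)))).trans (hdvd.trans (dvd_of_eq ?_))
  ring

theorem not_dvd_nondeg (hF : Fintype.card F = q ^ 2) {r : ℕ} (hr : r.Prime) (hrq : ¬ r ∣ q) {m : ℕ} (hm : m ≤ n)
    (h : m ≤ n % orderOf (-(q : ZMod r))) :
    ¬ r ∣ Nat.card {W : Submodule F (Fin n → F) //
      finrank F W = m ∧ ∀ u ∈ W, u ≠ 0 → ∃ v ∈ W, hermForm n F q u v ≠ 0} := fun hd => by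
  rcases hr.dvd_mul.1 (hd.trans (card_nondeg_dvd hF hm)) with h' | h'
  · exact hrq (hr.dvd_of_dvd_pow h')
  · exact not_dvd_prod hr (two_le_q hF) h h'

/-- The orders of `q ^ 2` and of `-q` modulo an odd prime. -/
theorem orders {r : ℕ} [Fact r.Prime] (hr2 : r ≠ 2) (hrq : ¬ r ∣ q) {i b c : ℕ} (hi : i = orderOf (q : ZMod r))
    (hb : b = if Even i then i / 2 else i)
    (hc : c = if i % 4 = 0 then i else if i % 4 = 2 then i / 2 else 2 * i) :
    0 < i ∧ orderOf ((q ^ 2 : ℕ) : ZMod r) = b ∧ orderOf (-(q : ZMod r)) = c ∧ (i % 4 = 2 → c = b) ∧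
      (i % 4 ≠ 2 → c = 2 * b) := by
  have hr : r.Prime := Fact.out
  have hx : (q : ZMod r) ≠ 0 := fun h => hrq ((ZMod.natCast_eq_zero_iff _ _).1 h)
  have hi0 : 0 < i := hi ▸ orderOf_pos_iff.2 (isOfFinOrder_iff_pow_eq_one.2
    ⟨r - 1, Nat.sub_pos_of_lt hr.one_lt, ZMod.pow_card_sub_one_eq_one hx⟩)
  refine ⟨hi0, ?_, ?_, ?_, ?_⟩
  · rw [hb, Nat.cast_pow, orderOf_pow' _ two_ne_zero, ← hi]
    split_ifs with he
    · rw [Nat.gcd_eq_right he.two_dvd]
    · rw [show Nat.gcd i 2 = 1 from Nat.coprime_two_right.2 (Nat.not_even_iff_odd.1 he), Nat.div_one]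
  · have hneg : (-1 : ZMod r) ≠ 1 := fun h => by
      have h2 : ((2 : ℕ) : ZMod r) = 0 := by push_cast; linear_combination -h
      exact hr2 ((Nat.prime_dvd_prime_iff_eq hr Nat.prime_two).1 ((ZMod.natCast_eq_zero_iff _ _).1 h2))
    rcases Nat.even_or_odd i with he | ho
    · obtain ⟨k, hk⟩ := he
      have h1 : (q : ZMod r) ^ k = -1 := by
        have h2 : ((q : ZMod r) ^ k - 1) * ((q : ZMod r) ^ k + 1) = 0 := by
          have h3 := pow_orderOf_eq_one (q : ZMod r)
          rw [← hi, hk, pow_add] at h3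
          linear_combination h3
        rcases mul_eq_zero.1 h2 with h4 | h4
        · have := Nat.le_of_dvd (by omega) (orderOf_dvd_of_pow_eq_one (sub_eq_zero.1 h4))
          omega
        · linear_combination h4
      rw [show -(q : ZMod r) = (q : ZMod r) ^ (k + 1) by rw [pow_succ, h1, neg_one_mul],
        orderOf_pow' _ (Nat.succ_ne_zero k), ← hi, hc]
      rcases Nat.even_or_odd k with hke | hko
      · obtain ⟨l, hl⟩ := hke
        rw [if_pos (by omega : i % 4 = 0)]
        have : Nat.gcd i (k + 1) = 1 := by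
          have g1 := Nat.gcd_dvd_left i (k + 1)
          have g2 := Nat.gcd_dvd_right i (k + 1)
          have g3 : Nat.gcd i (k + 1) ∣ 2 * (k + 1) - i := Nat.dvd_sub (g2.mul_left 2) g1
          rw [show 2 * (k + 1) - i = 2 by omega] at g3
          rcases (Nat.dvd_prime Nat.prime_two).1 g3 with g4 | g4
          · exact g4
          · rw [g4] at g2; omega
        rw [this, Nat.div_one]
      · obtain ⟨l, hl⟩ := hko
        rw [if_neg (by omega : ¬ i % 4 = 0), if_pos (by omega : i % 4 = 2)]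
        have : Nat.gcd i (k + 1) = 2 := by
          have g1 := Nat.gcd_dvd_left i (k + 1)
          have g2 := Nat.gcd_dvd_right i (k + 1)
          have g3 : Nat.gcd i (k + 1) ∣ 2 * (k + 1) - i := Nat.dvd_sub (g2.mul_left 2) g1
          rw [show 2 * (k + 1) - i = 2 by omega] at g3
          exact Nat.dvd_antisymm g3 (Nat.dvd_gcd ⟨k, by omega⟩ ⟨l + 1, by omega⟩)
        rw [this]
    · have h4 : i % 4 ≠ 0 ∧ i % 4 ≠ 2 := by obtain ⟨k, rfl⟩ := ho; omega
      rw [hc, if_neg h4.1, if_neg h4.2, neg_eq_neg_one_mul]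
      have h2 : orderOf (-1 : ZMod r) = 2 := orderOf_eq_prime (by ring) hneg
      rw [(Commute.all (-1 : ZMod r) (q : ZMod r)).orderOf_mul_eq_mul_orderOf_of_coprime
        (by rw [h2, ← hi]; exact Nat.coprime_two_left.2 ho), h2, ← hi]
  · intro h
    rw [hc, hb, if_neg (by omega : ¬ i % 4 = 0), if_pos h, if_pos (Nat.even_iff.2 (by omega))]
  · intro h
    rw [hc, hb]
    rcases Nat.even_or_odd i with ⟨k, rfl⟩ | ⟨k, rfl⟩
    · rw [if_pos (by omega : (k + k) % 4 = 0), if_pos ⟨k, rfl⟩]; omega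
    · rw [if_neg (by omega : ¬ (2 * k + 1) % 4 = 0), if_neg h,
        if_neg (Nat.not_even_iff_odd.2 ⟨k, rfl⟩)]

end CfsgLib.Classical.Semisimple.UnitCounts
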