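import Cfsg.Agent.Classical.Semisimple.UnitSetting
import Cfsg.Agent.Classical.Semisimple.UnitCounts
import Cfsg.Agent.Classical.Semisimple.QuadExists
import Cfsg.Agent.Classical.Semisimple.Bridge
import Mathlib.GroupTheory.Perm.Cycle.Type

/-!
Isometries of prime order of a hermitian space with prescribed moved space.
-/

set_option autoImplicit false

namespace CfsgLib.Classical.Semisimple.UnitExists

open Cfsg Module Polynomial CfsgLib.Unitary UnitBasic UnitSetting
open scoped Matrix

variable {F : Type*} [Field F] [Fintype F] {n q r : ℕ} [hr : Fact r.Prime]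

omit hr in
theorem not_dvd_q [Fact r.Prime] (hF : Fintype.card F = q ^ 2) (hrF : (r : F) ≠ 0) : ¬ r ∣ q := by
  intro h
  obtain ⟨p, e, hp, hchar, -, rfl⟩ := exists_char hF
  refine hrF ?_
  rw [(Nat.prime_dvd_prime_iff_eq Fact.out hp).1 ((Fact.out : r.Prime).dvd_of_dvd_pow h)]
  exact CharP.cast_eq_zero F p

omit [Fintype F] hr in
theorem aeval_lift_emb {κ : Type*} [Fintype κ] [DecidableEq κ] {g : κ → (Fin n → F)} (hg : Ortho q g)
    (A : Matrix κ κ F) (P : F[X]) : ∀ u, aeval (lift q g A) P (emb g u) = emb g (aeval (Matrix.toLin' A) P u) := by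
  induction P using Polynomial.induction_on with
  | C a => intro u; simp [Module.algebraMap_end_apply]
  | add p p' hp hp' => intro u; simp [hp, hp']
  | monomial k a ih =>
    intro u
    rw [show C a * X ^ (k + 1) = C a * X ^ k * (X : F[X]) by ring,
      map_mul (aeval (lift q g A)) (C a * X ^ k), map_mul (aeval (Matrix.toLin' A)) (C a * X ^ k), aeval_X, aeval_X,
      Module.End.mul_apply, Module.End.mul_apply, lift_emb hg, ih, Matrix.toLin'_apply]

omit [Fintype F] hr in
/-- The moved space of a lift without fixed vectors. -/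
theorem moved_lift {κ : Type*} [Fintype κ] [DecidableEq κ] {g : κ → (Fin n → F)} (hg : Ortho q g)
    {A : Matrix κ κ F} (hA : ∀ u, A *ᵥ u = u → u = 0) :
    moved (lift q g A) = LinearMap.range (emb g) ∧ finrank F (moved (lift q g A)) = Fintype.card κ := by
  have h : moved (lift q g A) = LinearMap.range (emb g) := by
    refine le_antisymm ?_ ?_
    · rintro _ ⟨v, rfl⟩
      exact ⟨A *ᵥ crd q g v - crd q g v, by simp [lift_apply]⟩
    · rintro _ ⟨c, rfl⟩
      have hinj : Function.Injective (Matrix.toLin' A - 1 : Module.End F (κ → F)) :=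
        LinearMap.ker_eq_bot.1 ((Submodule.eq_bot_iff _).2 fun u hu => hA u (by
          simpa [LinearMap.mem_ker, sub_eq_zero] using hu))
      obtain ⟨u, hu⟩ := LinearMap.injective_iff_surjective.1 hinj c
      refine ⟨emb g u, ?_⟩
      rw [← hu]
      simp [lift_emb hg, Matrix.toLin'_apply]
  exact ⟨h, by rw [h, finrank_range_emb hg]⟩

omit [Fintype F] hr in
theorem blockDiagonal_mulVec {d a : ℕ} (M : Fin a → Matrix (Fin d) (Fin d) F) (u : Fin d × Fin a → F) (k : Fin d)
    (j : Fin a) : (Matrix.blockDiagonal M *ᵥ u) (k, j) = (M j *ᵥ fun l => u (l, j)) k := by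
  simp [Matrix.mulVec, dotProduct, Matrix.blockDiagonal_apply, Fintype.sum_prod_type, ite_mul]

omit [Fintype F] hr in
theorem aeval_blockDiagonal {d a : ℕ} (M : Fin a → Matrix (Fin d) (Fin d) F) (P : F[X]) :
    ∀ (u : Fin d × Fin a → F) (j : Fin a), (fun k => aeval (Matrix.toLin' (Matrix.blockDiagonal M)) P u (k, j)) =
      aeval (Matrix.toLin' (M j)) P fun k => u (k, j) := by
  induction P using Polynomial.induction_on with
  | C x => intro u j; funext k; simp [Module.algebraMap_end_apply]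
  | add p p' hp hp' => intro u j; funext k; simp [← hp, ← hp']
  | monomial k x ih =>
    intro u j
    rw [show C x * X ^ (k + 1) = C x * X ^ k * (X : F[X]) by ring,
      map_mul (aeval (Matrix.toLin' (Matrix.blockDiagonal M))) (C x * X ^ k),
      map_mul (aeval (Matrix.toLin' (M j))) (C x * X ^ k), aeval_X, aeval_X]
    simp only [Module.End.mul_apply]
    rw [ih]
    congr 1
    funext l
    exact blockDiagonal_mulVec M u l j

omit hr in
/-- Blocks on disjoint coordinates. -/
theorem exists_blocks (hF : Fintype.card F = q ^ 2) {d a : ℕ} (h : a * d ≤ n)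
    (M : Fin a → Matrix (Fin d) (Fin d) F) (hP : ∀ j, Pres q (M j)) :
    ∃ g : Fin d × Fin a → (Fin n → F), Ortho q g ∧ (∀ u v, hermForm n F q (lift q g (Matrix.blockDiagonal M) u)
      (lift q g (Matrix.blockDiagonal M) v) = hermForm n F q u v) ∧
      LinearMap.det (lift q g (Matrix.blockDiagonal M)) = ∏ j, (M j).det := by
  classical
  let e : Fin d × Fin a → Fin n := fun x => Fin.castLE (by rwa [mul_comm]) (finProdFinEquiv x)
  have he : Function.Injective e := (Fin.castLE_injective _).comp finProdFinEquiv.injective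
  let g : Fin d × Fin a → (Fin n → F) := fun x => Pi.single (e x) 1
  have hg : Ortho q g := fun x y => by rw [herm_single_single hF]; simp only [he.eq_iff]
  refine ⟨g, hg, lift_iso hF hg fun u v => ?_, by rw [det_lift hg, Matrix.det_blockDiagonal]⟩
  rw [Fintype.sum_prod_type_right, Fintype.sum_prod_type_right]
  refine Finset.sum_congr rfl fun j _ => ?_
  simp only [blockDiagonal_mulVec]
  exact hP j _ _

/-- A fixed-point-free invariant non-degenerate subspace has dimension at least the order of `-q`. -/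
theorem piece_bound {f : Module.End F (Fin n → F)} (hs : Setting q r (1 : F) f) {W : Submodule F (Fin n → F)}
    (hle : W ≤ moved f) (hi : W.map f ≤ W) (hW : IsNondeg q W) (hne : W ≠ ⊥) :
    orderOf (-(q : ZMod r)) ≤ finrank F W := by
  classical
  set d := finrank F W with hd
  obtain ⟨g, hg, hgW⟩ := exists_frame hs.card hW hd.symm
  set A := LinearMap.toMatrix' (crd q g ∘ₗ f ∘ₗ emb g) with hAdef
  have hfun : ∀ c, emb g (A *ᵥ c) = f (emb g c) := fun c => by
    obtain ⟨c', hc'⟩ := hgW.ge (mem_of_map_le hi (hgW.le ⟨c, rfl⟩))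
    rw [← hc']
    congr 1
    rw [hAdef, ← Matrix.toLin'_apply, Matrix.toLin'_toMatrix', LinearMap.comp_apply, LinearMap.comp_apply, ← hc',
      crd_emb hg]
  have hpowf : ∀ k, ∀ c, emb g ((A ^ k) *ᵥ c) = (f ^ k) (emb g c) := by
    intro k
    induction k with
    | zero => intro c; simp
    | succ k ih => intro c; rw [pow_succ, pow_succ, ← Matrix.mulVec_mulVec, ih, hfun, Module.End.mul_apply]
  have hAr : A ^ r = 1 := Matrix.ext_iff_mulVec.2 fun c => emb_injective hg (by
    rw [hpowf, hs.pow, one_smul, Matrix.one_mulVec]; rfl)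
  have hA1 : A ≠ 1 := fun h1 => by
    obtain ⟨w, hw, hw0⟩ := Submodule.exists_mem_ne_zero_of_ne_bot hne
    obtain ⟨c, rfl⟩ := hgW.ge hw
    refine hw0 (Submodule.disjoint_def.1 (isCompl_ker_range hs.semisimple (1 : F)).disjoint _ ?_ (hle hw))
    have h2 := hfun c
    rw [h1, Matrix.one_mulVec] at h2
    exact mem_fixed.2 h2.symm
  have hAp : Pres q A := fun u v => by
    rw [← herm_emb hs.card hg, ← herm_emb hs.card hg, hfun, hfun, hs.iso]
  obtain ⟨a, ha⟩ : IsUnit A := IsUnit.of_pow_eq_one hAr hr.out.ne_zero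
  have haG : a ∈ GU d F q := mem_GU.2 fun u v => by rw [ha]; exact hAp u v
  have hord : orderOf (⟨a, haG⟩ : ↥(GU d F q)) = r := orderOf_eq_prime
    (Subtype.ext (Units.ext (by simp [ha, hAr]))) (fun h => hA1 (by
      rw [← ha]; exact congrArg Units.val (congrArg Subtype.val h)))
  have hdvd := orderOf_dvd_natCard (⟨a, haG⟩ : ↥(GU d F q))
  rw [hord, UnitCounts.card_GU_eq hs.card, hr.out.dvd_mul] at hdvd
  rcases hdvd with h | h
  · exact absurd (hr.out.dvd_of_dvd_pow h) (not_dvd_q hs.card hs.ne)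
  · obtain ⟨j, hj, hjd⟩ := hr.out.prime.exists_mem_finset_dvd h
    rw [Finset.mem_range] at hj
    have := Nat.le_of_dvd (by omega) ((UnitCounts.dvd_term_iff (two_le_q hs.card) j).1 hjd)
    omega

/-- A fixed-point-free element of order `r` in the smallest possible degree. -/
theorem exists_piece_matrix (hF : Fintype.card F = q ^ 2) (hrF : (r : F) ≠ 0) (hrq1 : ¬ r ∣ q + 1) :
    ∃ A : Matrix (Fin (orderOf (-(q : ZMod r)))) (Fin (orderOf (-(q : ZMod r)))) F,
      Pres q A ∧ A ^ r = 1 ∧ A.det = 1 ∧ ∀ u, A *ᵥ u = u → u = 0 := by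
  classical
  set c := orderOf (-(q : ZMod r)) with hc
  have hc0 : 0 < c := orderOf_pos_iff.2 (isOfFinOrder_iff_pow_eq_one.2 ⟨r - 1, Nat.sub_pos_of_lt hr.out.one_lt,
    ZMod.pow_card_sub_one_eq_one (neg_ne_zero.2 fun h => not_dvd_q hF hrF ((ZMod.natCast_eq_zero_iff _ _).1 h))⟩)
  obtain ⟨y, hy⟩ := exists_prime_orderOf_dvd_card' (G := ↥(GU c F q)) r (by
    rw [UnitCounts.card_GU_eq hF]
    refine Dvd.dvd.mul_left (((UnitCounts.dvd_term_iff (two_le_q hF) (c - 1)).2 ?_).trans
      (Finset.dvd_prod_of_mem _ (Finset.mem_range.2 (by omega)))) _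
    rw [Nat.sub_add_cancel hc0])
  set A : Matrix (Fin c) (Fin c) F := ((y : GL (Fin c) F) : Matrix (Fin c) (Fin c) F)
  have hyr : y ^ r = 1 := hy ▸ pow_orderOf_eq_one y
  have hAr : A ^ r = 1 := by
    have h1 := congrArg (fun z : ↥(GU c F q) => ((z : GL (Fin c) F) : Matrix (Fin c) (Fin c) F)) hyr
    simpa using h1
  have hA : Pres q A := fun u v => mem_GU.1 y.2 u v
  have hs : Setting q r (1 : F) (Matrix.toLin' A) :=
    { card := hF
      iso := fun u v => by rw [Matrix.toLin'_apply, Matrix.toLin'_apply]; exact hA u v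
      pow := by rw [toLin'_pow, hAr, Matrix.toLin'_one, one_smul]; rfl
      ne := hrF
      z_ne := one_ne_zero }
  have hbot : moved (Matrix.toLin' A) ≠ ⊥ := fun h => by
    have h1 : A = 1 := Matrix.toLin'.injective (by
      have h2 := sub_eq_zero.1 (LinearMap.range_eq_bot.1 h)
      rw [one_smul] at h2
      rw [h2, Matrix.toLin'_one]; rfl)
    have h3 : y = 1 := Subtype.ext (Units.ext h1)
    rw [h3, orderOf_one] at hy
    exact hr.out.ne_one hy.symm
  have htop : moved (Matrix.toLin' A) = ⊤ := Submodule.eq_top_of_finrank_eq (le_antisymm (Submodule.finrank_le _)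
    (by rw [finrank_fin_fun]; exact piece_bound hs le_rfl (moved_map_le _) hs.nondeg_moved hbot))
  refine ⟨A, hA, hAr, ?_, fun u hu => ?_⟩
  · have hd1 : A.det ^ r = 1 := by rw [← Matrix.det_pow, hAr, Matrix.det_one]
    have hd2 : A.det ^ Nat.gcd r (q + 1) = 1 := pow_gcd_eq_one.2 ⟨hd1, det_pow_succ_eq_one hF y.2⟩
    rwa [Nat.coprime_iff_gcd_eq_one.1 ((Nat.Prime.coprime_iff_not_dvd hr.out).2 hrq1), pow_one] at hd2
  · refine Submodule.disjoint_def.1 (isCompl_ker_range hs.semisimple (1 : F)).disjoint u ?_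
      (htop.ge Submodule.mem_top)
    exact mem_fixed.2 (by rw [Matrix.toLin'_apply, hu])

/-- An element with `a` pieces. -/
theorem exists_elem (hF : Fintype.card F = q ^ 2) (hrF : (r : F) ≠ 0) (hrq1 : ¬ r ∣ q + 1) {a : ℕ}
    (ha : a * orderOf (-(q : ZMod r)) ≤ n) :
    ∃ f : Module.End F (Fin n → F), Setting q r (1 : F) f ∧ LinearMap.det f = 1 ∧
      finrank F (moved f) = a * orderOf (-(q : ZMod r)) := by
  obtain ⟨A, hA, hAr, hAd, hAf⟩ := exists_piece_matrix hF hrF hrq1
  obtain ⟨g, hg, hiso, hdet⟩ := exists_blocks hF ha (fun _ : Fin a => A) fun _ => hA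
  refine ⟨_, ⟨hF, hiso, ?_, hrF, one_ne_zero⟩, by rw [hdet]; simp [hAd], ?_⟩
  · rw [← lift_pow hg, ← Matrix.blockDiagonal_pow,
      show ((fun _ : Fin a => A) ^ r) = 1 from funext fun _ => hAr, Matrix.blockDiagonal_one, lift_one, one_smul]
  · rw [(moved_lift hg fun u hu => ?_).2]
    · simp [mul_comm]
    · funext x
      obtain ⟨k, j⟩ := x
      exact congrFun (hAf (fun l => u (l, j)) (funext fun l => by
        have h1 := congrFun hu (l, j)
        rwa [blockDiagonal_mulVec] at h1)) k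

/-- When `ord (-q) = ord (q ^ 2)`: an element whose pieces have distinct polynomials, so that no non-zero
totally isotropic subspace of the moved space is invariant. -/
theorem exists_singles (hF : Fintype.card F = q ^ 2) (hrF : (r : F) ≠ 0) (hrq1 : ¬ r ∣ q + 1)
    (hcb : orderOf (-(q : ZMod r)) = orderOf (Fintype.card F : ZMod r)) {t a : ℕ}
    (ht : t * orderOf (Fintype.card F : ZMod r) = r - 1) (hat : a ≤ t) (ha : a * orderOf (-(q : ZMod r)) ≤ n) :
    ∃ f : Module.End F (Fin n → F), Setting q r (1 : F) f ∧ LinearMap.det f = 1 ∧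
      finrank F (moved f) = a * orderOf (-(q : ZMod r)) ∧
      ∀ W ≤ moved f, W.map f ≤ W → Iso q W → W = ⊥ := by
  classical
  obtain ⟨A, hA, hAr, hAd, hAf⟩ := exists_piece_matrix hF hrF hrq1
  generalize hc : orderOf (-(q : ZMod r)) = c at A hA hAr hAd hAf hcb ha ⊢
  have hy : (Matrix.toLin' A : Module.End F (Fin c → F)) ^ r = 1 := by
    rw [toLin'_pow, hAr, Matrix.toLin'_one]; rfl
  obtain ⟨e, P, hPinj, hP⟩ := QuadIsometry.exists_orbit_powers (F := F) hrF (finrank_fin_fun (R := F) |>.trans hcb) hy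
    (fun u hu => hAf u hu) ht
  let E : Fin a → ℕ := fun j => e (Fin.castLE hat j)
  have hpres : ∀ k : ℕ, Pres q (A ^ k) := by
    intro k
    induction k with
    | zero => intro u v; simp
    | succ k ih => intro u v; rw [pow_succ, ← Matrix.mulVec_mulVec, ← Matrix.mulVec_mulVec, ih, hA]
  obtain ⟨g, hg, hiso, hdet⟩ := exists_blocks hF ha (fun j => A ^ E j) fun j => hpres _
  have hblock : ∀ u : Fin c × Fin a → F, Matrix.blockDiagonal (fun j => A ^ E j) *ᵥ u = u → u = 0 := fun u hu => by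
    funext x
    obtain ⟨k, j⟩ := x
    refine congrFun ((hP (Fin.castLE hat j)).1 (fun l => u (l, j)) ?_) k
    funext l
    have h1 := congrFun hu (l, j)
    rw [blockDiagonal_mulVec] at h1
    rw [toLin'_pow, Matrix.toLin'_apply]
    exact h1
  obtain ⟨hmov, hmovd⟩ := moved_lift hg hblock
  set f := lift q g (Matrix.blockDiagonal fun j => A ^ E j)
  have hs : Setting q r (1 : F) f := ⟨hF, hiso, by
    rw [← lift_pow hg, ← Matrix.blockDiagonal_pow,
      show ((fun j : Fin a => A ^ E j) ^ r) = 1 from funext fun j => by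
        rw [Pi.pow_apply, ← pow_mul, mul_comm, pow_mul, hAr, one_pow]; rfl,
      Matrix.blockDiagonal_one, lift_one, one_smul], hrF, one_ne_zero⟩
  refine ⟨f, hs, by rw [hdet]; simp [hAd], by rw [hmovd]; simp [mul_comm], fun W hW hWi hWiso => ?_⟩
  by_contra hne
  obtain ⟨W1, Q, hW1W, -, hW1d, hQ, -, hW1k⟩ := ((homog_moved hs).mono hW).exists_irred hWi hne
  have hc0 : 0 < c := hcb ▸ orderOf_card_pos hrF
  obtain ⟨w, hw, hw0⟩ := Submodule.exists_mem_ne_zero_of_ne_bot (fun h0 => by
    rw [h0, finrank_bot, ← hcb] at hW1d; exact hc0.ne hW1d : W1 ≠ ⊥)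
  obtain ⟨u, rfl⟩ := hmov.le (hW (hW1W hw))
  have hu0 : u ≠ 0 := fun h => hw0 (by rw [h, map_zero])
  have hQu : ∀ j, aeval (Matrix.toLin' (A ^ E j)) Q (fun k => u (k, j)) = 0 := fun j => by
    have h1 := hW1k _ hw
    rw [aeval_lift_emb hg] at h1
    have h2 : aeval (Matrix.toLin' (Matrix.blockDiagonal fun j => A ^ E j)) Q u = 0 :=
      emb_injective hg (h1.trans (map_zero _).symm)
    rw [← aeval_blockDiagonal (fun j => A ^ E j) Q u j]
    funext k
    rw [h2]; rfl
  have huniq : ∀ j, (fun k => u (k, j)) ≠ 0 → Associated Q (P (Fin.castLE hat j)) := fun j hj => by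
    by_contra hna
    have hcop : IsCoprime Q (P (Fin.castLE hat j)) := (hQ.coprime_iff_not_dvd).2
      fun hd => hna (hQ.associated_of_dvd (hP _).2.1 hd)
    obtain ⟨x, y, hxy⟩ := hcop
    have h1 := congrArg (fun R : F[X] => aeval (Matrix.toLin' (A ^ E j)) R (fun k => u (k, j))) hxy
    have h2 : aeval (Matrix.toLin' (A ^ E j)) (P (Fin.castLE hat j)) = 0 := by
      rw [← toLin'_pow]; exact (hP _).2.2.2.2
    simp only [map_add, map_mul, LinearMap.add_apply, Module.End.mul_apply, hQu j, h2, map_zero,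
      LinearMap.zero_apply, add_zero, map_one, Module.End.one_apply] at h1
    exact hj h1.symm
  obtain ⟨⟨k0, j0⟩, hk0⟩ := Function.ne_iff.1 hu0
  have hj0 : (fun k => u (k, j0)) ≠ 0 := fun h => hk0 (congrFun h k0)
  have hsupp : ∀ j, j ≠ j0 → (fun k => u (k, j)) = 0 := fun j hj => by
    by_contra h
    have h1 := (huniq j h).symm.trans (huniq j0 hj0)
    have h2 := eq_of_monic_of_associated (hP _).2.2.1 (hP _).2.2.1 h1
    exact hj (Fin.castLE_injective hat (hPinj h2))
  let g0 : Fin c → (Fin n → F) := fun k => g (k, j0)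
  have hg0 : Ortho q g0 := fun x y => by rw [hg (x, j0) (y, j0)]; simp
  have hg0e : ∀ x : Fin c → F, emb g0 x = emb g (fun p => if p.2 = j0 then x p.1 else 0) := fun x => by
    rw [emb_apply, emb_apply, Fintype.sum_prod_type]
    refine Finset.sum_congr rfl fun k _ => ?_
    simp [g0, ite_smul]
  have hwB : emb g u ∈ LinearMap.range (emb g0) := ⟨fun k => u (k, j0), by
    rw [hg0e]; congr 1; funext p
    obtain ⟨k, j⟩ := p
    by_cases hj : j = j0
    · simp [hj]
    · simpa [hj] using (congrFun (hsupp j hj) k).symm⟩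
  have hBi : (LinearMap.range (emb g0)).map f ≤ LinearMap.range (emb g0) := by
    refine map_le_of_forall_mem ?_
    rintro _ ⟨x, rfl⟩
    refine ⟨(A ^ E j0) *ᵥ x, ?_⟩
    rw [hg0e, hg0e, lift_emb hg]
    congr 1; funext p
    obtain ⟨k, j⟩ := p
    rw [blockDiagonal_mulVec]
    by_cases hj : j = j0
    · subst hj; simp
    · simp [hj, Matrix.mulVec, dotProduct]
  have hwk := hW1k _ hw
  obtain ⟨W2, -, hw2, hW2d, hW2le, -⟩ := exists_invariant_of_aeval_apply_eq_zero hQ hw0 hwk
  have h2B : W2 ≤ LinearMap.range (emb g0) := hW2le _ hBi hwB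
  have heq : W2 = LinearMap.range (emb g0) := Submodule.eq_of_le_of_finrank_eq h2B (by
    rw [hW2d, finrank_range_emb hg0, Fintype.card_fin]
    obtain ⟨j, hj⟩ : ∃ j, (fun k => u (k, j)) ≠ 0 := ⟨j0, hj0⟩
    rw [natDegree_eq_of_degree_eq (degree_eq_degree_of_associated (huniq j hj)), (hP _).2.2.2.1]
    exact hcb.symm)
  have hsub : LinearMap.range (emb g0) ≤ W := heq ▸ hW2le _ hWi (hW1W hw)
  have h1 := hWiso _ (hsub ⟨Pi.single ⟨0, hc0⟩ 1, rfl⟩) _ (hsub ⟨Pi.single ⟨0, hc0⟩ 1, rfl⟩)
  rw [herm_emb hF hg0] at h1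
  simp [Pi.single_apply, zero_pow (show q ≠ 0 by have := two_le_q hF; omega)] at h1

end CfsgLib.Classical.Semisimple.UnitExists
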