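import Cfsg.Agent.Classical.Semisimple.UnitBridge
import Cfsg.Agent.Classical.Unitary.Center

/-!
Fixed totally isotropic subspaces of isometries of odd prime order of a hermitian space.
-/

set_option autoImplicit false

namespace CfsgLib.Classical.Semisimple.UnitIsoMain

open Cfsg Module Polynomial CfsgLib.Unitary UnitBasic UnitSetting UnitBridge
open scoped Matrix

variable {F : Type*} [Field F] [Fintype F] {n q r m : ℕ} [hr : Fact r.Prime]

/-- An invariant isotropic subspace of the moved space completes with fixed vectors. -/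
theorem has_of_moved {f : Module.End F (Fin n → F)} (hs : Setting q r (1 : F) f) {Y : Submodule F (Fin n → F)}
    (hY : Y ≤ moved f) (hYiso : Iso q Y) (hYi : Y.map f ≤ Y) (he : finrank F Y ≤ m)
    (hle : 2 * (m - finrank F Y) ≤ finrank F (fixed f)) : Has m (Iso q) f := by
  obtain ⟨Z, hZ, hZiso, hZd⟩ := exists_iso_sub hs.card hs.nondeg_fixed hle
  refine ⟨Y ⊔ Z, ?_, iso_sup hs.card hYiso hZiso fun z hz y hy =>
    herm_eq_zero_comm hs.card (hs.moved_le_perp (hY hy) z (hZ hz)), sup_map_le hYi (map_le_of_le_fixed hZ)⟩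
  rw [finrank_add_of_disjoint ((isCompl_ker_range hs.semisimple (1 : F)).disjoint.symm.mono hY hZ), hZd]
  omega

/-- The two parts of an invariant isotropic subspace. -/
theorem parts_of_has {f : Module.End F (Fin n → F)} (hs : Setting q r (1 : F) f) (h : Has m (Iso q) f) :
    ∃ Y ≤ moved f, Iso q Y ∧ Y.map f ≤ Y ∧ finrank F Y ≤ m ∧ 2 * (m - finrank F Y) ≤ finrank F (fixed f) := by
  obtain ⟨W, hWd, hWiso, hWi⟩ := h
  obtain ⟨-, -, hd⟩ := hs.inter hWi
  refine ⟨W ⊓ moved f, inf_le_right, fun u hu v hv => hWiso u hu.1 v hv.1,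
    inf_map_le hWi (moved_map_le f), by omega, ?_⟩
  have := two_mul_le hs.card hs.nondeg_fixed (inf_le_right : W ⊓ fixed f ≤ fixed f)
    fun u hu v hv => hWiso u hu.1 v hv.1
  omega

/-- Invariant isotropic subspaces when all factors are self-adjoint and few. -/
theorem exists_iso_of_deg {z : F} {f : Module.End F (Fin n → F)} (hs : Setting q r z f)
    {U : Submodule F (Fin n → F)} {d : ℕ} {Φ : F[X]} (hd : 0 < d) (hΦ : Homog f U d Φ) (hU : IsNondeg q U)
    (hi : U.map f ≤ U) {a : ℕ} (hUd : finrank F U = a * d)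
    (hsa : ∀ P : F[X], Irreducible P → P ∣ Φ → SelfAdj hs.card z r f P) {l : ℕ}
    (hl : 2 * l * d + Φ.natDegree ≤ (a + 1) * d) :
    ∃ Y ≤ U, Iso q Y ∧ Y.map f ≤ Y ∧ finrank F Y = l * d := by
  classical
  set s := UniqueFactorizationMonoid.normalizedFactors Φ
  have hmem : ∀ P ∈ s.toFinset, Irreducible P ∧ P ∣ Φ := fun P hP =>
    ⟨UniqueFactorizationMonoid.irreducible_of_normalized_factor P (Multiset.mem_toFinset.1 hP),
      UniqueFactorizationMonoid.dvd_of_mem_normalizedFactors (Multiset.mem_toFinset.1 hP)⟩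
  refine hs.exists_iso_max hd a hΦ hU hi hUd hsa s.toFinset hmem (fun W hW hWi hW0 => ?_) l ?_
  · obtain ⟨W', P, hW'W, -, hW'd, hP, hPd, hPk⟩ := (hΦ.mono hW).exists_irred hWi hW0
    obtain ⟨P', hP', hPP⟩ := UniqueFactorizationMonoid.exists_mem_normalizedFactors_of_dvd hΦ.ne hP hPd
    obtain ⟨Q, hQ⟩ := hPP.dvd
    refine ⟨P', Multiset.mem_toFinset.2 hP', fun h0 => ?_⟩
    have hle : W' ≤ W ⊓ LinearMap.ker (aeval f P') := le_inf hW'W fun w hw => by
      rw [LinearMap.mem_ker, hQ, mul_comm, map_mul, Module.End.mul_apply, hPk w hw, map_zero]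
    have h1 := Submodule.finrank_mono hle
    rw [h0, finrank_bot] at h1
    omega
  · have h1 : s.prod.natDegree = Φ.natDegree := natDegree_eq_of_degree_eq (degree_eq_degree_of_associated
      (UniqueFactorizationMonoid.prod_normalizedFactors hΦ.ne))
    rw [natDegree_multiset_prod _ (UniqueFactorizationMonoid.zero_notMem_normalizedFactors _),
      Multiset.map_congr rfl fun P hP => hΦ.deg P (UniqueFactorizationMonoid.irreducible_of_normalized_factor P hP)
        (UniqueFactorizationMonoid.dvd_of_mem_normalizedFactors hP),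
      Multiset.map_const', Multiset.sum_replicate, smul_eq_mul] at h1
    have h2 := Nat.mul_le_mul_right d (Multiset.toFinset_card_le s)
    simp only [s] at h1 h2 ⊢
    refine Nat.le_of_mul_le_mul_right ?_ hd
    rw [add_mul]
    omega

theorem natDegree_cyclotomic_prime : (cyclotomic r F).natDegree = r - 1 := by
  rw [natDegree_cyclotomic, Nat.totient_prime hr.out]

section

variable {b c : ℕ}

/-- An element with the largest moved space. -/
theorem not_allHave_big (hF : Fintype.card F = q ^ 2) (hrF : (r : F) ≠ 0) (hrq1 : ¬ r ∣ q + 1)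
    (hb : orderOf (Fintype.card F : ZMod r) = b) (hc : orderOf (-(q : ZMod r)) = c)
    (hcon : n % c < 2 * (m % b)) : ¬ AllHave q r m (Iso q (F := F) (n := n)) := by
  subst hb hc
  obtain ⟨f, hs, hdet, hd⟩ := UnitExists.exists_elem (n := n) hF hrF hrq1 (Nat.div_mul_le_self n _)
  refine not_allHave f 1 hs.iso hdet hs.pow fun h => ?_
  obtain ⟨Y, hY, -, hYi, hYm, hle⟩ := parts_of_has hs h
  obtain ⟨l, hl⟩ := ((homog_moved hs).mono hY).pieces.dvd_finrank hs.semisimple (orderOf_card_pos hrF) hYi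
  have hadd := hs.finrank_fixed_add
  have hdm := Nat.div_add_mod n (orderOf (-(q : ZMod r)))
  rw [mul_comm] at hdm
  have h1 : (m - finrank F Y) % orderOf (Fintype.card F : ZMod r) = m % orderOf (Fintype.card F : ZMod r) := by
    conv_rhs => rw [← Nat.sub_add_cancel hYm, hl, Nat.add_mul_mod_self_left]
    rw [hl]
  have h2 := Nat.mod_le (m - finrank F Y) (orderOf (Fintype.card F : ZMod r))
  omega

/-- The pieces come in pairs. -/
theorem allHave_paired (hF : Fintype.card F = q ^ 2) (hrF : (r : F) ≠ 0) (hrq1 : ¬ r ∣ q + 1) (hn : 0 < n)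
    (hb : orderOf (Fintype.card F : ZMod r) = b) (hc : orderOf (-(q : ZMod r)) = c) (hcb : c = 2 * b)
    (hmn : 2 * m ≤ n) (hk : 2 * (m % b) ≤ n % c) : AllHave q r m (Iso q (F := F) (n := n)) := by
  intro f z hiso _ hpow
  have hz := scalar_norm hF hn hiso hpow
  obtain ⟨w, hw, hwz⟩ := exists_root (r := r) hz hrq1
  have hz0 := scalar_ne hF hn hiso hpow
  have hw0 : w ≠ 0 := by rintro rfl; exact hz0 (by rw [← hwz, zero_pow hr.out.ne_zero])
  rw [← Has.smul_iff (inv_ne_zero hw0) f]
  have hs := setting_twist hF hrF hiso hpow hz0 hw hwz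
  generalize w⁻¹ • f = g at hs ⊢
  subst hb hc
  have hb0 : 0 < orderOf (Fintype.card F : ZMod r) := orderOf_card_pos hrF
  have hno : ∀ W ≤ moved g, W.map g ≤ W → finrank F W = orderOf (Fintype.card F : ZMod r) → ¬ IsNondeg q W := by
    intro W hW hWi hWd hnd
    have := UnitExists.piece_bound hs hW hWi hnd (fun h => by rw [h, finrank_bot] at hWd; omega)
    omega
  obtain ⟨hdvd, hsubs⟩ := hs.exists_subs (c := 2 * orderOf (Fintype.card F : ZMod r))
    (e := orderOf (Fintype.card F : ZMod r)) (by omega) (hs.exists_piece_paired hb0 (homog_moved hs) hno)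
    (moved g) le_rfl hs.nondeg_moved (moved_map_le g)
  obtain ⟨a, ha⟩ := hdvd
  have hadd := hs.finrank_fixed_add
  set b := orderOf (Fintype.card F : ZMod r)
  have hal : a ≤ n / (2 * b) := (Nat.le_div_iff_mul_le (by omega)).2 (by rw [mul_comm]; omega)
  obtain ⟨W, hWU, -, -, -, Y, hYW, hY, hYi, hYd⟩ := hsubs (min a (m / b))
    (by rw [ha, mul_comm (2 * b)]; exact Nat.mul_le_mul_right _ (min_le_left _ _))
  have hmb := Nat.div_add_mod m b
  have hmin : min a (m / b) * b ≤ m := by
    have := Nat.mul_le_mul_right b (min_le_right a (m / b))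
    rw [mul_comm (m / b)] at this
    omega
  refine has_of_moved hs (hYW.trans hWU) hY hYi (hYd.le.trans hmin) ?_
  rw [hYd]
  rw [hcb] at hk
  have hnd := Nat.div_add_mod n (2 * b)
  have h3 := Nat.mul_le_mul_left (2 * b) hal
  rcases le_total a (m / b) with h | h
  · rw [min_eq_left h]
    have e1 : 2 * b * a = 2 * (a * b) := by ring
    omega
  · rw [min_eq_right h, mul_comm (m / b)]
    omega

/-- The factors are self-adjoint. -/
theorem allHave_self (hF : Fintype.card F = q ^ 2) (hrF : (r : F) ≠ 0) (hrq1 : ¬ r ∣ q + 1) (hn : 0 < n)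
    (hb : orderOf (Fintype.card F : ZMod r) = b) (hc : orderOf (-(q : ZMod r)) = b) (hodd : Odd b) {t : ℕ}
    (ht : t * b = r - 1) (hmn : 2 * m ≤ n) (hk : 2 * (m % b) ≤ n % b) (hts : t + 2 * (m / b) ≤ n / b) :
    AllHave q r m (Iso q (F := F) (n := n)) := by
  intro f z hiso _ hpow
  have hz := scalar_norm hF hn hiso hpow
  obtain ⟨w, hw, hwz⟩ := exists_root (r := r) hz hrq1
  have hz0 := scalar_ne hF hn hiso hpow
  have hw0 : w ≠ 0 := by rintro rfl; exact hz0 (by rw [← hwz, zero_pow hr.out.ne_zero])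
  rw [← Has.smul_iff (inv_ne_zero hw0) f]
  have hs := setting_twist hF hrF hiso hpow hz0 hw hwz
  generalize w⁻¹ • f = g at hs ⊢
  have hb0 : 0 < b := hodd.pos
  have hΦ : Homog g (moved g) b (cyclotomic r F) := hb ▸ homog_moved hs
  have hj : (r - 1) * q ≡ Fintype.card F ^ ((b + 1) / 2) [MOD r] := by
    rw [← ZMod.natCast_eq_natCast_iff, hF]
    obtain ⟨k, hk'⟩ := hodd
    rw [show (b + 1) / 2 = k + 1 by omega]
    push_cast [Nat.cast_sub hr.out.one_le]
    rw [ZMod.natCast_self, ← pow_mul]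
    have h1 := pow_orderOf_eq_one (-(q : ZMod r))
    rw [hc] at h1
    calc (0 - 1) * (q : ZMod r) = (-(q : ZMod r)) ^ b * -(q : ZMod r) := by rw [h1]; ring
      _ = (-(q : ZMod r)) ^ (2 * (k + 1)) := by rw [← pow_succ]; congr 1; omega
      _ = _ := Even.neg_pow (even_two_mul _) _
  have hsa : ∀ P : F[X], Irreducible P → P ∣ cyclotomic r F → SelfAdj hs.card 1 r g P :=
    fun P _ _ => selfAdj_of_modEq hs hj P
  obtain ⟨a, ha⟩ := hΦ.pieces.dvd_finrank hs.semisimple hb0 (moved_map_le g)
  have hadd := hs.finrank_fixed_add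
  have hal : a ≤ n / b := (Nat.le_div_iff_mul_le hb0).2 (by rw [mul_comm]; omega)
  set l := min ((a + 1 - t) / 2) (m / b) with hl
  have hlm : l * b ≤ m := le_trans (Nat.mul_le_mul_right b (min_le_right _ _)) (Nat.div_mul_le_self m b)
  have hndm := Nat.div_add_mod n b
  have hmb := Nat.div_add_mod m b
  have h3 := Nat.mul_le_mul_left b hal
  rcases lt_or_ge a t with hat | hat
  · refine has_of_moved hs (bot_le : ⊥ ≤ moved g) (iso_bot hs.card) (by simp) (by simp) ?_
    rw [finrank_bot]
    have h4 := Nat.mul_le_mul_left b (show a + 2 * (m / b) ≤ n / b by omega)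
    rw [Nat.mul_add, show b * (2 * (m / b)) = 2 * (b * (m / b)) by ring] at h4
    omega
  · obtain ⟨Y, hYU, hY, hYi, hYd⟩ := exists_iso_of_deg hs hb0 hΦ hs.nondeg_moved (moved_map_le g)
      (a := a) (by rw [ha, mul_comm]) hsa (l := l) (by
        rw [natDegree_cyclotomic_prime, ← ht, ← add_mul]
        exact Nat.mul_le_mul_right _ (by omega))
    refine has_of_moved hs hYU hY hYi (hYd.le.trans hlm) ?_
    rw [hYd]
    rcases le_total ((a + 1 - t) / 2) (m / b) with h | h
    · rw [min_eq_left h] at hl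
      have h4 := Nat.mul_le_mul_left b (show a + 2 * (m / b) ≤ n / b + 2 * l by omega)
      rw [Nat.mul_add, Nat.mul_add, show b * (2 * (m / b)) = 2 * (b * (m / b)) by ring,
        show b * (2 * l) = 2 * (l * b) by ring] at h4
      omega
    · rw [min_eq_right h] at hl
      rw [hl, mul_comm (m / b) b]
      omega

/-- An element with pairwise different pieces. -/
theorem not_allHave_singles (hF : Fintype.card F = q ^ 2) (hrF : (r : F) ≠ 0) (hrq1 : ¬ r ∣ q + 1)
    (hb : orderOf (Fintype.card F : ZMod r) = b) (hc : orderOf (-(q : ZMod r)) = b) {t : ℕ}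
    (ht : t * b = r - 1) (hyp : n % b < 2 * m) (hts : n / b < t + 2 * (m / b)) :
    ¬ AllHave q r m (Iso q (F := F) (n := n)) := by
  have hb0 : 0 < b := hb ▸ orderOf_card_pos hrF
  obtain ⟨f, hs, hdet, hd, hno⟩ := UnitExists.exists_singles (n := n) (t := t) (a := min t (n / b)) hF hrF hrq1
    (hc.trans hb.symm) (hb.symm ▸ ht) (min_le_left _ _)
    (by rw [hc]; exact (Nat.mul_le_mul_right b (min_le_right _ _)).trans (Nat.div_mul_le_self n b))
  refine not_allHave f 1 hs.iso hdet hs.pow fun h => ?_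
  obtain ⟨Y, hY, hYiso, hYi, -, hle⟩ := parts_of_has hs h
  rw [hno Y hY hYi hYiso, finrank_bot] at hle
  rw [hc] at hd
  have hadd := hs.finrank_fixed_add
  have hndm := Nat.div_add_mod n b
  have hmb := Nat.div_add_mod m b
  rcases le_total t (n / b) with h1 | h1
  · rw [min_eq_left h1] at hd
    have h4 : (n / b + 1) * b ≤ (t + 2 * (m / b)) * b := Nat.mul_le_mul_right b hts
    rw [add_mul, add_mul, one_mul, mul_comm (n / b), mul_assoc, mul_comm (m / b) b] at h4
    have := Nat.mod_lt n hb0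
    omega
  · rw [min_eq_right h1, mul_comm] at hd
    omega

end

/-- When `r` divides `q + 1` and the scalar is a power. -/
theorem exists_of_power (hF : Fintype.card F = q ^ 2) (hrF : (r : F) ≠ 0) (hr2 : r ≠ 2) (hrq1 : r ∣ q + 1)
    (hn : 0 < n) (hb : orderOf (Fintype.card F : ZMod r) = 1) (hk : r - 1 + 2 * m ≤ n)
    {f : Module.End F (Fin n → F)} {z w : F} (hiso : ∀ u v, hermForm n F q (f u) (f v) = hermForm n F q u v)
    (hpow : f ^ r = z • 1) (hwz : w ^ r = z) : Has m (Iso q) f := by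
  have hw := root_norm hF hr2 hrq1 (scalar_norm hF hn hiso hpow) hwz
  have hz0 := scalar_ne hF hn hiso hpow
  have hw0 : w ≠ 0 := by rintro rfl; exact hz0 (by rw [← hwz, zero_pow hr.out.ne_zero])
  rw [← Has.smul_iff (inv_ne_zero hw0) f]
  have hs := setting_twist hF hrF hiso hpow hz0 hw hwz
  generalize w⁻¹ • f = g at hs ⊢
  have hne : (X : F[X]) ^ r - 1 ≠ 0 := by
    rw [← C_1]; exact (monic_X_pow_sub_C (1 : F) hr.out.ne_zero).ne_zero
  have hΦ : Homog g (⊤ : Submodule F (Fin n → F)) 1 ((X : F[X]) ^ r - 1) := by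
    refine ⟨hne, fun v _ => by simp [hs.pow], fun P hP hPd => ?_⟩
    rw [← cyclotomic_prime_mul_X_sub_one] at hPd
    rcases hP.prime.dvd_or_dvd hPd with h | h
    · rw [natDegree_of_dvd_cyclotomic hrF hP h, hb]
    · refine le_antisymm ?_ hP.natDegree_pos
      have := natDegree_le_of_dvd h (by rw [← C_1]; exact X_sub_C_ne_zero 1)
      rwa [← C_1, natDegree_X_sub_C] at this
  have hj : (r - 1) * q ≡ Fintype.card F ^ 1 [MOD r] := by
    rw [← ZMod.natCast_eq_natCast_iff, hF, pow_one]
    push_cast [Nat.cast_sub hr.out.one_le]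
    rw [ZMod.natCast_self]
    have h1 : ((q + 1 : ℕ) : ZMod r) = 0 := (ZMod.natCast_eq_zero_iff _ _).2 hrq1
    push_cast at h1
    linear_combination -(q : ZMod r) * h1
  obtain ⟨Y, -, hY, hYi, hYd⟩ := exists_iso_of_deg hs one_pos hΦ (isNondeg_top hF) le_top (a := n)
    (by rw [finrank_top, finrank_fin_fun, mul_one]) (fun P _ _ => selfAdj_of_modEq hs hj P) (l := m) (by
      rw [← C_1, natDegree_X_pow_sub_C]; omega)
  exact ⟨Y, by rw [hYd, mul_one], hY, hYi⟩

/-- When `r` divides `q + 1` and the scalar is not a power. -/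
theorem exists_of_nonpower (hF : Fintype.card F = q ^ 2) (hrF : (r : F) ≠ 0) (hn : 0 < n) (hmn : 2 * m ≤ n)
    {f : Module.End F (Fin n → F)} {z : F} (hiso : ∀ u v, hermForm n F q (f u) (f v) = hermForm n F q u v)
    (hpow : f ^ r = z • 1) (hz : ∀ b : F, b ^ r ≠ z) (hrm : r ∣ m) : Has m (Iso q) f := by
  have hs : Setting q r z f := ⟨hF, hiso, hpow, hrF, scalar_ne hF hn hiso hpow⟩
  have hP := irreducible_X_pow_sub_C_of_forall hz
  have hΦ : Homog f (⊤ : Submodule F (Fin n → F)) r (X ^ r - C z) := by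
    refine ⟨hP.ne_zero, fun v _ => by simp [hpow, Algebra.algebraMap_eq_smul_one], fun P h1 h2 => ?_⟩
    rw [natDegree_eq_of_degree_eq (degree_eq_degree_of_associated (h1.associated_of_dvd hP h2)),
      natDegree_X_pow_sub_C]
  obtain ⟨⟨a, ha⟩, -, -⟩ := of_pow_eq_smul_nonpower hz hpow
  rw [finrank_fin_fun] at ha
  obtain ⟨l, hl⟩ := hrm
  have hsa : ∀ P : F[X], Irreducible P → P ∣ (X ^ r - C z : F[X]) → SelfAdj hs.card z r f P := fun P h1 h2 => by
    obtain ⟨N, hN⟩ := selfAdj_X_pow hs (scalar_norm hF hn hiso hpow)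
    obtain ⟨R, hR⟩ := (h1.associated_of_dvd hP h2).dvd
    obtain ⟨R', hR'⟩ := (h1.associated_of_dvd hP h2).symm.dvd
    refine ⟨N, fun u hu => ?_⟩
    have hu' : aeval f (X ^ r - C z : F[X]) u = 0 := by
      rw [hR, mul_comm, map_mul, Module.End.mul_apply, hu, map_zero]
    rw [hR', mul_comm, Polynomial.map_mul, ← map_pow, mul_pow, map_mul, map_pow, map_pow, Module.End.mul_apply,
      hN u hu', map_zero]
  obtain ⟨Y, -, hY, hYi, hYd⟩ := exists_iso_of_deg hs hr.out.pos hΦ (isNondeg_top hF) le_top (a := a)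
    (by rw [finrank_top, finrank_fin_fun, ha, mul_comm]) hsa (l := l) (by
      rw [natDegree_X_pow_sub_C, add_mul, one_mul]
      refine Nat.add_le_add_right ?_ _
      rw [mul_assoc, mul_comm l, ← hl, mul_comm a, ← ha]
      exact hmn)
  exact ⟨Y, by rw [hYd, hl, mul_comm], hY, hYi⟩

open Fin.NatCast in
/-- An element with scalar power a non-power. -/
theorem exists_cycle_elem (hF : Fintype.card F = q ^ 2) {z : F} (hz : z ^ (q + 1) = 1) (hrn : r ∣ n) :
    ∃ f : Module.End F (Fin n → F), (∀ u v, hermForm n F q (f u) (f v) = hermForm n F q u v) ∧ f ^ r = z • 1 := by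
  classical
  haveI : NeZero r := ⟨hr.out.ne_zero⟩
  let s : Fin r → F := fun i => if i = 0 then z else 1
  have hs : ∀ i, s i ^ (q + 1) = 1 := fun i => by
    show (if i = 0 then z else 1 : F) ^ (q + 1) = 1
    split_ifs <;> simp [hz]
  let σ : Equiv.Perm (Fin r) := Equiv.addRight 1
  let C : Matrix (Fin r) (Fin r) F := monoMat s σ
  have hk : ∀ (k : ℕ) (u : Fin r → F) (j : Fin r), ((C ^ k) *ᵥ u) j =
      (∏ l ∈ Finset.range k, s (j + (l : Fin r))) * u (j + (k : Fin r)) := by
    intro k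
    induction k with
    | zero => intro u j; simp
    | succ k ih =>
      intro u j
      rw [pow_succ, ← Matrix.mulVec_mulVec, ih, monoMat_mulVec, Finset.prod_range_succ, mul_assoc]
      congr 2
      show u (j + (k : Fin r) + 1) = _
      rw [Nat.cast_succ, add_assoc]
  have hCr : C ^ r = z • 1 := Matrix.ext_iff_mulVec.2 fun u => funext fun j => by
    rw [hk, ← Fin.prod_univ_eq_prod_range (fun l => s (j + (l : Fin r))) r]
    simp only [Fin.cast_val_eq_self, CharP.cast_eq_zero, add_zero, Fin.natCast_self, Matrix.smul_mulVec,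
      Matrix.one_mulVec, Pi.smul_apply, smul_eq_mul]
    congr 1
    rw [Fintype.prod_eq_single (-j) (fun l hl => ?_)]
    · simp [s]
    · exact if_neg fun h => hl (eq_neg_of_add_eq_zero_right h)
  obtain ⟨a, rfl⟩ := hrn
  obtain ⟨g, hg, hiso, -⟩ := UnitExists.exists_blocks (n := r * a) hF (d := r) (a := a) (by rw [mul_comm])
    (fun _ => C) fun _ u v => monoMat_preserves s hs σ u v
  refine ⟨_, hiso, LinearMap.ext fun v => ?_⟩
  rw [← lift_pow hg, ← Matrix.blockDiagonal_pow]
  have htop : LinearMap.range (emb g) = ⊤ := Submodule.eq_top_of_finrank_eq (by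
    rw [finrank_range_emb hg, finrank_fin_fun, Fintype.card_prod, Fintype.card_fin, Fintype.card_fin])
  obtain ⟨u, rfl⟩ := htop.ge (Submodule.mem_top (x := v))
  rw [lift_emb hg, LinearMap.smul_apply, Module.End.one_apply, ← map_smul]
  congr 1
  funext x
  obtain ⟨k, j⟩ := x
  rw [UnitExists.blockDiagonal_mulVec, Pi.pow_apply, hCr]
  simp [Matrix.smul_mulVec]

/-- An element without invariant totally isotropic subspaces of dimension `m` not divisible by `r`. -/
theorem not_allHave_nonpower (hF : Fintype.card F = q ^ 2) (hr2 : r ≠ 2) {z : F} (hz : z ^ (q + 1) = 1)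
    (hnp : ∀ b : F, b ^ r ≠ z) (hzn : z ^ (n / r) = 1) (hrn : r ∣ n) (hrm : ¬ r ∣ m)
    (R : Submodule F (Fin n → F) → Prop) : ¬ AllHave q r m R := by
  obtain ⟨f, hiso, hpow⟩ := exists_cycle_elem hF hz hrn
  obtain ⟨-, hdet, hdvd⟩ := of_pow_eq_smul_nonpower hnp hpow
  refine not_allHave f z hiso ?_ hpow fun ⟨W, hWd, _, hWi⟩ => hrm (hWd ▸ hdvd W hWi)
  rw [hdet, finrank_fin_fun, Odd.neg_one_pow (hr.out.odd_of_ne_two hr2), neg_one_mul, neg_neg, hzn]

/-- A diagonal element with distinct eigenvalues. -/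
theorem not_allHave_diag (hF : Fintype.card F = q ^ 2) (hrF : (r : F) ≠ 0) (hr2 : r ≠ 2) (hrq1 : r ∣ q + 1)
    (hm : 1 ≤ m) (hk : n < r - 1 + 2 * m) : ¬ AllHave q r m (Iso q (F := F) (n := n)) := by
  classical
  obtain ⟨ζ, hζ, hζq⟩ := exists_primitive hF hrq1
  set k := min (r - 1) n / 2 with hk'
  let E : ℕ → ℕ := fun i => if i < k then i + 1 else if i < 2 * k then r - (i - k + 1) else 0
  have hEinj : ∀ i j, i < 2 * k → j < 2 * k → ζ ^ E i = ζ ^ E j → i = j := by
    intro i j hi hj h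
    have hE : ∀ l, l < 2 * k → E l < r := fun l hl => by
      show (if l < k then l + 1 else if l < 2 * k then r - (l - k + 1) else 0) < r
      have := hr.out.two_le
      split_ifs <;> omega
    have := hζ.pow_inj (hE i hi) (hE j hj) h
    simp only [E] at this
    split_ifs at this <;> omega
  have hEne : ∀ i, i < 2 * k → ζ ^ E i ≠ 1 := fun i hi h => by
    have h1 : E i ≠ 0 ∧ E i < r := by
      have := hr.out.two_le
      simp only [E]
      split_ifs <;> omega
    exact hζ.pow_ne_one_of_pos_of_lt h1.1 h1.2 h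
  let v : Fin n → F := fun i => ζ ^ E i
  have hv : ∀ i, v i ^ (q + 1) = 1 := fun i => by
    show (ζ ^ E i) ^ (q + 1) = 1
    rw [← pow_mul, mul_comm, pow_mul, hζq, one_pow]
  let f : Module.End F (Fin n → F) := Matrix.toLin' (Matrix.diagonal v)
  have hf : ∀ u i, f u i = v i * u i := fun u i => by simp [f, Matrix.mulVec_diagonal]
  have hiso : ∀ x y, hermForm n F q (f x) (f y) = hermForm n F q x y := fun x y => by
    rw [show f x = Matrix.diagonal v *ᵥ x from rfl, show f y = Matrix.diagonal v *ᵥ y from rfl]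
    exact diagonal_preserves v hv x y
  have hpow : f ^ r = (1 : F) • 1 := by
    rw [toLin'_pow, Matrix.diagonal_pow, one_smul, show v ^ r = fun _ => 1 from funext fun i => by
      rw [Pi.pow_apply]; show (ζ ^ E i) ^ r = 1
      rw [← pow_mul, mul_comm, pow_mul, hζ.pow_eq_one, one_pow], Matrix.diagonal_one, Matrix.toLin'_one]
    rfl
  have hsum : ∑ i ∈ Finset.range n, E i = k * r := by
    obtain ⟨e, he⟩ : ∃ e, n = k + k + e := ⟨n - (k + k), by omega⟩
    rw [he, Finset.sum_range_add, Finset.sum_range_add]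
    have h0 : ∑ x ∈ Finset.range e, E (k + k + x) = 0 := Finset.sum_eq_zero fun x _ => by
      simp only [E]; split_ifs <;> omega
    rw [h0, add_zero, ← Finset.sum_add_distrib, Finset.sum_congr rfl fun x hx => show E x + E (k + x) = r by
      rw [Finset.mem_range] at hx
      simp only [E]
      split_ifs <;> omega, Finset.sum_const, Finset.card_range, smul_eq_mul]
  have hdet : LinearMap.det f = 1 := by
    rw [LinearMap.det_toLin', Matrix.det_diagonal, Fin.prod_univ_eq_prod_range (fun i => ζ ^ E i) n,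
      Finset.prod_pow_eq_pow_sum, hsum, mul_comm, pow_mul, hζ.pow_eq_one, one_pow]
  have hs : Setting q r (1 : F) f := ⟨hF, hiso, hpow, hrF, one_ne_zero⟩
  refine not_allHave f 1 hiso hdet hpow fun h => ?_
  obtain ⟨Y, hY, hYiso, hYi, -, hle⟩ := parts_of_has hs h
  have hmoved : ∀ x ∈ moved f, ∀ i : Fin n, 2 * k ≤ i → x i = 0 := by
    rintro _ ⟨u, rfl⟩ i hi
    have h1 : v i = 1 := by
      show ζ ^ E i = 1
      simp only [E]
      rw [if_neg (by omega), if_neg (by omega), pow_zero]
    simp [hf, h1]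
  have hY0 : Y = ⊥ := by
    by_contra hne
    obtain ⟨W1, P, hW1Y, hW1i, hW1d, -⟩ := ((homog_moved hs).mono hY).exists_irred hYi hne
    have hd1 : finrank F W1 = 1 := by
      rw [hW1d, orderOf_eq_one_iff, hF]
      have h1 : ((q + 1 : ℕ) : ZMod r) = 0 := (ZMod.natCast_eq_zero_iff _ _).2 hrq1
      push_cast at h1 ⊢
      linear_combination ((q : ZMod r) - 1) * h1
    obtain ⟨⟨x, hx⟩, hx0, hspan⟩ := finrank_eq_one_iff'.1 hd1
    have hx0' : x ≠ 0 := fun h => hx0 (Subtype.ext h)
    obtain ⟨μ, hμ⟩ := hspan ⟨f x, mem_of_map_le hW1i hx⟩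
    have hμ' : ∀ i, μ * x i = v i * x i := fun i => by
      rw [← hf]; exact congrFun (congrArg Subtype.val hμ) i
    obtain ⟨i0, hi0⟩ := Function.ne_iff.1 hx0'
    have hi0k : (i0 : ℕ) < 2 * k := by
      by_contra hc
      exact hi0 (hmoved x (hY (hW1Y hx)) i0 (by omega))
    have hsupp : ∀ i, i ≠ i0 → x i = 0 := fun i hi => by
      by_contra hxi
      have hik : (i : ℕ) < 2 * k := by
        by_contra hc
        exact hxi (hmoved x (hY (hW1Y hx)) i (by omega))
      have h1 : v i = v i0 := by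
        rw [← mul_right_cancel₀ hxi (hμ' i), mul_right_cancel₀ hi0 (hμ' i0)]
      exact hi (Fin.ext (hEinj i i0 hik hi0k h1))
    have h2 : hermForm n F q x x = 0 := hYiso x (hW1Y hx) x (hW1Y hx)
    rw [hermForm, Fintype.sum_eq_single i0 (fun i hi => by rw [hsupp i hi, zero_mul])] at h2
    exact hi0 ((pow_eq_zero_iff (Nat.succ_ne_zero q)).1 (by rw [pow_succ']; exact h2))
  rw [hY0, finrank_bot] at hle
  have h2k : 2 * k ≤ n := by omega
  let ρ : fixed f →ₗ[F] (Fin (n - 2 * k) → F) :=
    { toFun := fun x j => (x : Fin n → F) ⟨2 * k + j, by omega⟩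
      map_add' := fun x y => rfl
      map_smul' := fun c x => rfl }
  have hρ : Function.Injective ρ := fun x y hxy => by
    refine Subtype.ext (funext fun i => ?_)
    by_cases hi : (i : ℕ) < 2 * k
    · have h1 : ∀ z ∈ fixed f, z i = 0 := fun z hz => by
        have h2 := congrFun (mem_fixed.1 hz) i
        rw [hf] at h2
        by_contra hzi
        exact hEne i hi ((mul_left_eq_self₀.1 h2).resolve_right hzi)
      rw [h1 _ x.2, h1 _ y.2]
    · have h1 := congrFun hxy ⟨i - 2 * k, by omega⟩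
      simp only [ρ, LinearMap.coe_mk, AddHom.coe_mk] at h1
      convert h1 using 2 <;> exact Fin.ext (by simp; omega)
  have h3 := LinearMap.finrank_le_finrank_of_injective hρ
  rw [finrank_fin_fun] at h3
  rcases Nat.le_total (r - 1) n with h4 | h4
  · obtain ⟨e, he⟩ := hr.out.odd_of_ne_two hr2
    rw [min_eq_left h4] at hk'
    omega
  · rw [min_eq_right h4] at hk'
    omega

end CfsgLib.Classical.Semisimple.UnitIsoMain
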