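import Cfsg.Agent.Classical.Semisimple.UnitIsoMain

/-!
Fixed non-degenerate subspaces of isometries of odd prime order of a hermitian space.
-/

set_option autoImplicit false

namespace CfsgLib.Classical.Semisimple.UnitNondegMain

open Cfsg Module Polynomial CfsgLib.Unitary UnitBasic UnitSetting UnitBridge UnitIsoMain
open scoped Matrix

variable {F : Type*} [Field F] [Fintype F] {n q r m : ℕ} [hr : Fact r.Prime]

/-- An invariant non-degenerate subspace of the moved space completes with fixed vectors. -/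
theorem has_of_moved {f : Module.End F (Fin n → F)} (hs : Setting q r (1 : F) f) {Y : Submodule F (Fin n → F)}
    (hY : Y ≤ moved f) (hYnd : IsNondeg q Y) (hYi : Y.map f ≤ Y) (he : finrank F Y ≤ m)
    (hle : m - finrank F Y ≤ finrank F (fixed f)) : Has m (IsNondeg q) f := by
  obtain ⟨Z, hZ, hZnd, hZd⟩ := exists_nondeg_sub hs.card hs.nondeg_fixed hle
  obtain ⟨hnd, hdj⟩ := nondeg_sup hs.card hZnd hYnd fun y hy z hz => hs.moved_le_perp (hY hy) z (hZ hz)
  refine ⟨Z ⊔ Y, ?_, hnd, sup_map_le (map_le_of_le_fixed hZ) hYi⟩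
  rw [finrank_add_of_disjoint hdj, hZd]
  omega

/-- The pieces of dimension `ord (-q)`. -/
theorem subs (hn : 0 < n) {b c : ℕ} (hb : orderOf (Fintype.card F : ZMod r) = b)
    (hc : orderOf (-(q : ZMod r)) = c) (hcase : c = 2 * b ∨ (c = b ∧ Odd b))
    {f : Module.End F (Fin n → F)} (hs : Setting q r (1 : F) f) :
    ∀ U' ≤ moved f, IsNondeg q U' → U'.map f ≤ U' → c ∣ finrank F U' ∧ ∀ l, l * c ≤ finrank F U' →
      ∃ W ≤ U', IsNondeg q W ∧ W.map f ≤ W ∧ finrank F W = l * c := by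
  have hb0 : 0 < b := hb ▸ orderOf_card_pos hs.ne
  have hΦ : Homog f (moved f) b (cyclotomic r F) := hb ▸ homog_moved hs
  intro U' hle hU' hi'
  rcases hcase with rfl | ⟨rfl, hodd⟩
  · have hno : ∀ W ≤ moved f, W.map f ≤ W → finrank F W = b → ¬ IsNondeg q W := by
      intro W hW hWi hWd hnd
      have := UnitExists.piece_bound hs hW hWi hnd (fun h => by rw [h, finrank_bot] at hWd; omega)
      omega
    obtain ⟨h1, h2⟩ := hs.exists_subs (c := 2 * b) (e := b) (by omega) (hs.exists_piece_paired hb0 hΦ hno) U' hle hU' hi'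
    exact ⟨h1, fun l hl => by obtain ⟨W, a, a', a'', a3, -⟩ := h2 l hl; exact ⟨W, a, a', a'', a3⟩⟩
  · have hj : (r - 1) * q ≡ Fintype.card F ^ ((c + 1) / 2) [MOD r] := by
      rw [← ZMod.natCast_eq_natCast_iff, hs.card]
      obtain ⟨k, hk'⟩ := hodd
      rw [show (c + 1) / 2 = k + 1 by omega]
      push_cast [Nat.cast_sub hr.out.one_le]
      rw [ZMod.natCast_self, ← pow_mul]
      have h1 := pow_orderOf_eq_one (-(q : ZMod r))
      rw [hc] at h1
      calc (0 - 1) * (q : ZMod r) = (-(q : ZMod r)) ^ c * -(q : ZMod r) := by rw [h1]; ring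
        _ = (-(q : ZMod r)) ^ (2 * (k + 1)) := by rw [← pow_succ]; congr 1; omega
        _ = _ := Even.neg_pow (even_two_mul _) _
    obtain ⟨h1, h2⟩ := hs.exists_subs (c := c) (e := 0) hb0
      (hs.exists_piece_self hb0 hΦ fun P _ _ => selfAdj_of_modEq hs hj P) U' hle hU' hi'
    exact ⟨h1, fun l hl => by obtain ⟨W, a, a', a'', a3, -⟩ := h2 l hl; exact ⟨W, a, a', a'', a3⟩⟩

/-- The criterion when `r` does not divide `q + 1`. -/
theorem criterion (hF : Fintype.card F = q ^ 2) (hrF : (r : F) ≠ 0) (hrq1 : ¬ r ∣ q + 1) (hn : 0 < n) {b c : ℕ}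
    (hb : orderOf (Fintype.card F : ZMod r) = b) (hc : orderOf (-(q : ZMod r)) = c)
    (hcase : c = 2 * b ∨ (c = b ∧ Odd b)) (hmn : m ≤ n) :
    AllHave q r m (IsNondeg q (F := F) (n := n)) ↔ m % c ≤ n % c := by
  have hb0 : 0 < b := hb ▸ orderOf_card_pos hrF
  have hc0 : 0 < c := by omega
  have hnd := Nat.div_add_mod n c
  constructor
  · intro hall
    by_contra hcon
    obtain ⟨g, hs, hdet, hd⟩ := UnitExists.exists_elem (n := n) hF hrF hrq1 (Nat.div_mul_le_self n _)
    rw [hc] at hd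
    obtain ⟨W, hWd, hW, hWi⟩ := hall g 1 hs.iso hdet hs.pow
    obtain ⟨-, -, hd'⟩ := hs.inter hWi
    obtain ⟨⟨l, hl⟩, -⟩ := subs hn hb hc hcase hs (W ⊓ moved g) inf_le_right (hs.nondeg_inter hW hWi).2
      (inf_map_le hWi (moved_map_le g))
    have h1 := Submodule.finrank_mono (inf_le_right : W ⊓ fixed g ≤ fixed g)
    have hadd := hs.finrank_fixed_add
    rw [mul_comm] at hnd
    have h2 : (m - c * l) % c = m % c := by
      conv_rhs => rw [← Nat.sub_add_cancel (show c * l ≤ m by omega), Nat.add_mul_mod_self_left]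
    have h3 := Nat.mod_le (m - c * l) c
    omega
  · intro hk f z hiso _ hpow
    obtain ⟨w, hw, hwz⟩ := exists_root (r := r) (scalar_norm hF hn hiso hpow) hrq1
    have hz0 := scalar_ne hF hn hiso hpow
    have hw0 : w ≠ 0 := by rintro rfl; exact hz0 (by rw [← hwz, zero_pow hr.out.ne_zero])
    rw [← Has.smul_iff (inv_ne_zero hw0) f]
    have hs := setting_twist hF hrF hiso hpow hz0 hw hwz
    generalize w⁻¹ • f = g at hs ⊢
    obtain ⟨⟨a, ha⟩, hsub⟩ := subs hn hb hc hcase hs (moved g) le_rfl hs.nondeg_moved (moved_map_le g)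
    obtain ⟨W, hWle, hW, hWi, hWd⟩ := hsub (min a (m / c))
      (by rw [ha, mul_comm c]; exact Nat.mul_le_mul_right _ (min_le_left _ _))
    have hmd := Nat.div_add_mod m c
    have hle : min a (m / c) * c ≤ m :=
      le_trans (Nat.mul_le_mul_right c (min_le_right _ _)) (Nat.div_mul_le_self m c)
    refine has_of_moved hs hWle hW hWi (hWd.le.trans hle) ?_
    have hadd := hs.finrank_fixed_add
    rw [hWd]
    have hal : a ≤ n / c := (Nat.le_div_iff_mul_le hc0).2 (by rw [mul_comm]; omega)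
    have h3 := Nat.mul_le_mul_left c hal
    rcases le_total a (m / c) with h | h
    · rw [min_eq_left h, mul_comm a]; omega
    · rw [min_eq_right h, mul_comm (m / c)]; omega

/-- When `r` divides `q + 1` and the scalar is a power. -/
theorem exists_of_power (hF : Fintype.card F = q ^ 2) (hrF : (r : F) ≠ 0) (hr2 : r ≠ 2) (hrq1 : r ∣ q + 1)
    (hn : 0 < n) (hb : orderOf (Fintype.card F : ZMod r) = 1) (hmn : m ≤ n)
    {f : Module.End F (Fin n → F)} {z w : F} (hiso : ∀ u v, hermForm n F q (f u) (f v) = hermForm n F q u v)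
    (hpow : f ^ r = z • 1) (hwz : w ^ r = z) : Has m (IsNondeg q) f := by
  have hw := root_norm hF hr2 hrq1 (scalar_norm hF hn hiso hpow) hwz
  have hz0 := scalar_ne hF hn hiso hpow
  have hw0 : w ≠ 0 := by rintro rfl; exact hz0 (by rw [← hwz, zero_pow hr.out.ne_zero])
  rw [← Has.smul_iff (inv_ne_zero hw0) f]
  have hs := setting_twist hF hrF hiso hpow hz0 hw hwz
  generalize w⁻¹ • f = g at hs ⊢
  have hc : orderOf (-(q : ZMod r)) = 1 := by
    rw [orderOf_eq_one_iff]
    have h1 : ((q + 1 : ℕ) : ZMod r) = 0 := (ZMod.natCast_eq_zero_iff _ _).2 hrq1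
    push_cast at h1
    linear_combination -h1
  obtain ⟨-, hsub⟩ := subs hn hb hc (Or.inr ⟨rfl, odd_one⟩) hs (moved g) le_rfl hs.nondeg_moved (moved_map_le g)
  obtain ⟨W, hWle, hW, hWi, hWd⟩ := hsub (min m (finrank F (moved g))) (by simp)
  rw [mul_one] at hWd
  refine has_of_moved hs hWle hW hWi (by omega) ?_
  have := hs.finrank_fixed_add
  omega

/-- When `r` divides `q + 1` and the scalar is not a power. -/
theorem exists_of_nonpower (hF : Fintype.card F = q ^ 2) (hrF : (r : F) ≠ 0) (hn : 0 < n) (hmn : m ≤ n)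
    {f : Module.End F (Fin n → F)} {z : F} (hiso : ∀ u v, hermForm n F q (f u) (f v) = hermForm n F q u v)
    (hpow : f ^ r = z • 1) (hz : ∀ b : F, b ^ r ≠ z) (hrm : r ∣ m) : Has m (IsNondeg q) f := by
  have hs : Setting q r z f := ⟨hF, hiso, hpow, hrF, scalar_ne hF hn hiso hpow⟩
  have hP := irreducible_X_pow_sub_C_of_forall hz
  have hΦ : Homog f (⊤ : Submodule F (Fin n → F)) r (X ^ r - C z) := by
    refine ⟨hP.ne_zero, fun v _ => by simp [hpow, Algebra.algebraMap_eq_smul_one], fun P h1 h2 => ?_⟩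
    rw [natDegree_eq_of_degree_eq (degree_eq_degree_of_associated (h1.associated_of_dvd hP h2)),
      natDegree_X_pow_sub_C]
  obtain ⟨l, hl⟩ := hrm
  have hsa : ∀ P : F[X], Irreducible P → P ∣ (X ^ r - C z : F[X]) → SelfAdj hs.card z r f P := fun P h1 h2 => by
    obtain ⟨N, hN⟩ := selfAdj_X_pow hs (scalar_norm hF hn hiso hpow)
    obtain ⟨R, hR⟩ := (h1.associated_of_dvd hP h2).dvd
    obtain ⟨R', hR'⟩ := (h1.associated_of_dvd hP h2).symm.dvd
    refine ⟨N, fun u hu => ?_⟩
    have hu' : aeval f (X ^ r - C z : F[X]) u = 0 := by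
      rw [hR, mul_comm, map_mul, Module.End.mul_apply, hu, map_zero]
    rw [hR', mul_comm, Polynomial.map_mul, ← map_pow, mul_pow, map_mul, map_pow, map_pow, Module.End.mul_apply,
      hN u hu', map_zero]
  obtain ⟨-, hsub⟩ := hs.exists_subs (c := r) (e := 0) hr.out.pos (hs.exists_piece_self hr.out.pos hΦ hsa) ⊤ le_rfl
    (isNondeg_top hF) le_top
  obtain ⟨W, -, hW, hWi, hWd, -⟩ := hsub l (by rw [finrank_top, finrank_fin_fun, mul_comm, ← hl]; exact hmn)
  exact ⟨W, by rw [hWd, hl, mul_comm], hW, hWi⟩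

end CfsgLib.Classical.Semisimple.UnitNondegMain
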