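import Cfsg.Agent.Classical.Semisimple.UnitBasic
import Cfsg.Agent.Classical.Semisimple.Primary
import Cfsg.Agent.Classical.Semisimple.PrimeOrder

/-!
Isometries of a finite hermitian space with scalar `r`-th power: invariant non-degenerate and totally isotropic
subspaces built from irreducible pieces.
-/

set_option autoImplicit false

namespace CfsgLib.Classical.Semisimple.UnitSetting

open Cfsg Module Polynomial CfsgLib.Unitary UnitBasic
open scoped Matrix

variable {F : Type*} [Field F] {n q : ℕ}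

variable [Fintype F]

/-- An isometry with scalar `r`-th power. -/
structure Setting (q r : ℕ) (z : F) (f : Module.End F (Fin n → F)) : Prop where
  card : Fintype.card F = q ^ 2
  iso : ∀ u v, hermForm n F q (f u) (f v) = hermForm n F q u v
  pow : f ^ r = z • 1
  ne : (r : F) ≠ 0
  z_ne : z ≠ 0

/-- The inverse of the isometry. -/
noncomputable def inv' (z : F) (r : ℕ) (f : Module.End F (Fin n → F)) : Module.End F (Fin n → F) := z⁻¹ • f ^ (r - 1)

/-- All invariant irreducible subspaces of `U` have dimension `d`, with polynomials dividing `Φ`. -/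
structure Homog (f : Module.End F (Fin n → F)) (U : Submodule F (Fin n → F)) (d : ℕ) (Φ : F[X]) : Prop where
  ne : Φ ≠ 0
  kills : ∀ v ∈ U, aeval f Φ v = 0
  deg : ∀ P : F[X], Irreducible P → P ∣ Φ → P.natDegree = d

/-- The fixed space. -/
noncomputable def fixed (f : Module.End F (Fin n → F)) : Submodule F (Fin n → F) := LinearMap.ker (f - (1 : F) • 1)

/-- The moved space. -/
noncomputable def moved (f : Module.End F (Fin n → F)) : Submodule F (Fin n → F) := LinearMap.range (f - (1 : F) • 1)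

omit [Fintype F] in
theorem mem_fixed {f : Module.End F (Fin n → F)} {v : (Fin n → F)} : v ∈ fixed f ↔ f v = v := by
  simp [fixed, LinearMap.mem_ker, sub_eq_zero]

omit [Fintype F] in
theorem map_le_of_le_fixed {f : Module.End F (Fin n → F)} {U : Submodule F (Fin n → F)} (hU : U ≤ fixed f) : U.map f ≤ U :=
  map_le_of_forall_mem fun x hx => by rwa [mem_fixed.1 (hU hx)]

omit [Fintype F] in
theorem moved_map_le (f : Module.End F (Fin n → F)) : (moved f).map f ≤ moved f := by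
  refine map_le_of_forall_mem ?_
  rintro _ ⟨v, rfl⟩
  exact ⟨f v, by simp⟩

omit [Fintype F] in
theorem Homog.mono {f : Module.End F (Fin n → F)} {U U' : Submodule F (Fin n → F)} {d : ℕ} {Φ : F[X]} (h : Homog f U d Φ)
    (hle : U' ≤ U) : Homog f U' d Φ :=
  ⟨h.ne, fun v hv => h.kills v (hle hv), h.deg⟩

omit [Fintype F] in
theorem Homog.pieces {f : Module.End F (Fin n → F)} {U : Submodule F (Fin n → F)} {d : ℕ} {Φ : F[X]} (h : Homog f U d Φ) :
    Pieces f U d := pieces_of_aeval_eq_zero h.ne h.kills h.deg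

omit [Fintype F] in
theorem Homog.exists_irred {f : Module.End F (Fin n → F)} {U : Submodule F (Fin n → F)} {d : ℕ} {Φ : F[X]} (h : Homog f U d Φ)
    (hU : U.map f ≤ U) (hne : U ≠ ⊥) :
    ∃ (W : Submodule F (Fin n → F)) (P : F[X]), W ≤ U ∧ W.map f ≤ W ∧ finrank F W = d ∧ Irreducible P ∧ P ∣ Φ ∧
      ∀ w ∈ W, aeval f P w = 0 := by
  obtain ⟨v, hvU, hv⟩ := Submodule.exists_mem_ne_zero_of_ne_bot hne
  obtain ⟨P, hP, hPd, w, hwU, hw, hPw⟩ := exists_irreducible_factor_apply_eq_zero hU h.ne hvU hv (h.kills v hvU)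
  obtain ⟨W, h1, -, h3, h4, h5⟩ := exists_invariant_of_aeval_apply_eq_zero hP hw hPw
  exact ⟨W, P, h4 U hU hwU, h1, h3.trans (h.deg P hP hPd), hP, hPd, fun w hw => h5 hw⟩

/-- The polynomial is fixed by the adjoint up to nilpotence. -/
def SelfAdj (hq : Fintype.card F = q ^ 2) (z : F) (r : ℕ) (f : Module.End F (Fin n → F)) (P : F[X]) : Prop :=
  ∃ N : ℕ, ∀ u, aeval f P u = 0 → ((aeval (inv' z r f) (P.map (conjHom hq))) ^ N) u = 0

namespace Setting

variable {f : Module.End F (Fin n → F)} {r : ℕ} [hr : Fact r.Prime] {z : F} (hs : Setting q r z f)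
include hs

omit hr in
theorem semisimple : f.IsSemisimple := isSemisimple_of_pow_eq_smul hs.ne hs.z_ne hs.pow

theorem inv_mul : inv' z r f * f = 1 := by
  rw [inv', smul_mul_assoc, ← pow_succ, Nat.sub_add_cancel hr.out.one_le, hs.pow, smul_smul,
    inv_mul_cancel₀ hs.z_ne, one_smul]

theorem mul_inv : f * inv' z r f = 1 := by
  rw [inv', mul_smul_comm, ← pow_succ', Nat.sub_add_cancel hr.out.one_le, hs.pow, smul_smul,
    inv_mul_cancel₀ hs.z_ne, one_smul]

theorem injective : Function.Injective f := fun x y h => by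
  have h1 := congrArg (inv' z r f) h
  rwa [← Module.End.mul_apply, ← Module.End.mul_apply, hs.inv_mul] at h1

theorem perp_map_le {W : Submodule F (Fin n → F)} (hW : W.map f ≤ W) : (perp q W).map f ≤ perp q W := by
  refine map_le_of_forall_mem fun x hx w hw => ?_
  have heq : W.map f = W := Submodule.eq_of_le_of_finrank_eq hW
    (Submodule.equivMapOfInjective f hs.injective W).finrank_eq.symm
  obtain ⟨w', hw', rfl⟩ := (heq.symm ▸ hw : w ∈ W.map f)
  rw [hs.iso]
  exact hx w' hw'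

theorem inf_perp_map_le {U W : Submodule F (Fin n → F)} (hU : U.map f ≤ U) (hW : W.map f ≤ W) :
    (U ⊓ perp q W).map f ≤ U ⊓ perp q W :=
  inf_map_le hU (hs.perp_map_le hW)

theorem adjoint (u v : (Fin n → F)) : hermForm n F q (f u) v = hermForm n F q u (inv' z r f v) := by
  conv_lhs => rw [show v = f (inv' z r f v) by rw [← Module.End.mul_apply, hs.mul_inv]; rfl]
  exact hs.iso _ _

theorem aeval_adjoint (P : F[X]) : ∀ u v, hermForm n F q (aeval f P u) v =
    hermForm n F q u (aeval (inv' z r f) (P.map (conjHom hs.card)) v) := by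
  induction P using Polynomial.induction_on with
  | C a =>
    intro u v
    simp only [aeval_C, Polynomial.map_C, Module.algebraMap_end_apply, herm_smul_left, herm_smul_right]
    show a * _ = (a ^ q) ^ q * _
    rw [pow_q_q hs.card]
  | add p p' hp hp' =>
    intro u v
    simp only [map_add, Polynomial.map_add, LinearMap.add_apply]
    rw [herm_add_left, hp, hp', herm_add_right hs.card]
  | monomial k a h =>
    intro u v
    have h1 := h (f u) v
    rw [hs.adjoint] at h1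
    have e1 : aeval f (C a * X ^ (k + 1)) = aeval f (C a * X ^ k) * f := by
      rw [show C a * X ^ (k + 1) = C a * X ^ k * X by ring, map_mul (aeval f), aeval_X]
    have e2 : aeval (inv' z r f) ((C a * X ^ (k + 1)).map (conjHom hs.card)) =
        inv' z r f * aeval (inv' z r f) ((C a * X ^ k).map (conjHom hs.card)) := by
      rw [show C a * X ^ (k + 1) = X * (C a * X ^ k) by ring, Polynomial.map_mul, Polynomial.map_X,
        map_mul (aeval (inv' z r f)), aeval_X]
    rw [e1, e2, Module.End.mul_apply, Module.End.mul_apply, h1]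

variable {U : Submodule F (Fin n → F)} {d : ℕ} {Φ : F[X]}

theorem minimal (hd : 0 < d) (hΦ : Homog f U d Φ) {W Y : Submodule F (Fin n → F)} (hle : W ≤ U)
    (hW : finrank F W = d) (hY : Y.map f ≤ Y) (hYW : Y ≤ W) : Y = ⊥ ∨ Y = W := by
  rcases Nat.eq_zero_or_pos (finrank F Y) with h | h
  · exact Or.inl (Submodule.finrank_eq_zero.1 h)
  · refine Or.inr (Submodule.eq_of_le_of_finrank_eq hYW (le_antisymm (Submodule.finrank_mono hYW) ?_))
    rw [hW]
    exact Nat.le_of_dvd h ((hΦ.mono (hYW.trans hle)).pieces.dvd_finrank hs.semisimple hd hY)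

theorem dichotomy (hd : 0 < d) (hΦ : Homog f U d Φ) {W : Submodule F (Fin n → F)} (hWi : W.map f ≤ W) (hle : W ≤ U)
    (hW : finrank F W = d) : IsNondeg q W ∨ Iso q W := by
  rcases hs.minimal hd hΦ hle hW (hs.inf_perp_map_le hWi hWi) inf_le_left with h | h
  · exact Or.inl (isNondeg_iff_disjoint.2 h)
  · exact Or.inr fun x hx y hy => (h.symm ▸ hx : x ∈ W ⊓ perp q W).2 y hy

/-- A totally isotropic invariant subspace lies in a non-degenerate one of twice the dimension. -/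
theorem exists_pair (hU : IsNondeg q U) (hi : U.map f ≤ U) {Y : Submodule F (Fin n → F)} (hY : Y ≤ U) (hYi : Y.map f ≤ Y)
    (hiso : Iso q Y) : ∃ W ≤ U, IsNondeg q W ∧ W.map f ≤ W ∧ Y ≤ W ∧ finrank F W = 2 * finrank F Y := by
  obtain ⟨C, hCU, hC, hsup, hdisj⟩ :=
    exists_invariant_compl_in hs.semisimple (hs.inf_perp_map_le hi hYi) hi inf_le_left
  have hYP : Y ≤ U ⊓ perp q Y := le_inf hY fun x hx y hy => hiso x hx y hy
  have hdC : finrank F C = finrank F Y := by
    have h1 := finrank_inf_perp hs.card hU hY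
    have h2 := finrank_add_of_disjoint hdisj
    rw [hsup] at h2
    omega
  have hd' : Disjoint Y C := hdisj.mono_left hYP
  refine ⟨Y ⊔ C, sup_le hY hCU, fun x hx h => ?_, sup_map_le hYi hC, le_sup_left,
    by rw [finrank_add_of_disjoint hd', hdC, two_mul]⟩
  obtain ⟨a, ha, b, hb, rfl⟩ := Submodule.mem_sup.1 hx
  have hb0 : b = 0 := Submodule.disjoint_def.1 hdisj b ⟨hCU hb, fun y hy => by
    have h1 := h y (Submodule.mem_sup_left hy)
    rwa [herm_add_left, hiso a ha y hy, zero_add] at h1⟩ hb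
  have ha0 : a = 0 := hU a (hY ha) fun u hu => by
    obtain ⟨s, hs', t, ht, rfl⟩ := Submodule.mem_sup.1 (hsup.symm ▸ hu : u ∈ U ⊓ perp q Y ⊔ C)
    have h1 := h t (Submodule.mem_sup_right ht)
    rw [hb0, add_zero] at h1
    rw [herm_add_right hs.card, h1, herm_eq_zero_comm hs.card (hs'.2 a ha), add_zero]
  rw [ha0, hb0, add_zero]

/-- The kernel of a self-adjoint polynomial in a non-degenerate invariant subspace is non-degenerate. -/
theorem nondeg_ker (hU : IsNondeg q U) (hi : U.map f ≤ U) {P : F[X]} (hP : SelfAdj hs.card z r f P) :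
    IsNondeg q (U ⊓ LinearMap.ker (aeval f P)) := by
  obtain ⟨N, hN⟩ := hP
  obtain ⟨C, hCU, hC, hsup, hdisj⟩ :=
    exists_invariant_compl_in hs.semisimple (inf_map_le hi (ker_map_le f P)) hi inf_le_left
  intro x hx h
  refine hU x hx.1 fun u hu => ?_
  obtain ⟨a, ha, b, hb, rfl⟩ :=
    Submodule.mem_sup.1 (hsup.symm ▸ hu : u ∈ U ⊓ LinearMap.ker (aeval f P) ⊔ C)
  rw [herm_add_right hs.card, h a ha, zero_add]
  have hmem : ∀ y ∈ C, aeval f (P ^ N) y ∈ C := fun y hy => aeval_mem hC _ hy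
  have hinj : Function.Injective ((aeval f (P ^ N)).restrict hmem) := by
    rw [← LinearMap.ker_eq_bot, Submodule.eq_bot_iff]
    intro y hy
    have hy0 : aeval f (P ^ N) (y : (Fin n → F)) = 0 := congrArg Subtype.val hy
    have hone : ∀ y ∈ C, aeval f P y = 0 → y = 0 := fun y hy h' =>
      Submodule.disjoint_def.1 hdisj y ⟨hCU hy, h'⟩ hy
    have key : ∀ k, ∀ y ∈ C, aeval f (P ^ k) y = 0 → y = 0 := by
      intro k
      induction k with
      | zero => intro y _ h'; simpa using h'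
      | succ k ih =>
        intro y hy h'
        rw [pow_succ, map_mul, Module.End.mul_apply] at h'
        exact hone y hy (ih _ (aeval_mem hC P hy) h')
    exact Subtype.ext (key N y y.2 hy0)
  obtain ⟨⟨b', hb'⟩, hbb⟩ := LinearMap.injective_iff_surjective.1 hinj ⟨b, hb⟩
  have hbe : aeval f (P ^ N) b' = b := congrArg Subtype.val hbb
  refine herm_eq_zero_comm hs.card ?_
  rw [← hbe, hs.aeval_adjoint, Polynomial.map_pow, map_pow, hN x hx.2, herm_zero_right hs.card]

/-- A non-degenerate irreducible subspace killed by a self-adjoint factor. -/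
theorem exists_piece_ker (hd : 0 < d) (hΦ : Homog f U d Φ) (hU : IsNondeg q U) (hi : U.map f ≤ U) {P : F[X]}
    (hP : Irreducible P) (hPΦ : P ∣ Φ) (hsa : SelfAdj hs.card z r f P) (hne : U ⊓ LinearMap.ker (aeval f P) ≠ ⊥) :
    ∃ W ≤ U, IsNondeg q W ∧ W.map f ≤ W ∧ finrank F W = d ∧ W ≤ LinearMap.ker (aeval f P) := by
  have hK := hs.nondeg_ker hU hi hsa
  set K := U ⊓ LinearMap.ker (aeval f P)
  obtain ⟨u, hu, hu0⟩ : ∃ u ∈ K, hermForm n F q u u ≠ 0 := by
    by_contra h
    push Not at h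
    obtain ⟨v, hv, hv0⟩ := Submodule.exists_mem_ne_zero_of_ne_bot hne
    exact hv0 (hK v hv fun w hw => herm_eq_zero_of_forall_self hs.card h v hv w hw)
  have hu' : u ≠ 0 := fun h => hu0 (by rw [h, herm_zero_left])
  obtain ⟨W, h1, huW, h3, h4, h5⟩ := exists_invariant_of_aeval_apply_eq_zero hP hu' hu.2
  have hWU : W ≤ U := h4 U hi hu.1
  refine ⟨W, hWU, ?_, h1, h3.trans (hΦ.deg P hP hPΦ), h5⟩
  exact (hs.dichotomy hd hΦ h1 hWU (h3.trans (hΦ.deg P hP hPΦ))).resolve_right fun h => hu0 (h u huW u huW)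

/-- Pieces when all factors are self-adjoint. -/
theorem exists_piece_self (hd : 0 < d) (hΦ : Homog f U d Φ)
    (hsa : ∀ P : F[X], Irreducible P → P ∣ Φ → SelfAdj hs.card z r f P) :
    ∀ U' ≤ U, IsNondeg q U' → U'.map f ≤ U' → U' ≠ ⊥ →
      ∃ W ≤ U', IsNondeg q W ∧ W.map f ≤ W ∧ finrank F W = d ∧ ∃ Y ≤ W, Iso q Y ∧ Y.map f ≤ Y ∧ finrank F Y = 0 := by
  intro U' hle hU' hi' hne
  obtain ⟨W0, P, hW0U, -, hW0d, hP, hPd, hPW⟩ := (hΦ.mono hle).exists_irred hi' hne
  obtain ⟨W, hWU, hW, hWi, hWd, -⟩ := hs.exists_piece_ker hd (hΦ.mono hle) hU' hi' hP hPd (hsa P hP hPd)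
    (fun h => by
      have h1 := Submodule.finrank_mono (le_inf hW0U fun w hw => hPW w hw : W0 ≤ U' ⊓ LinearMap.ker (aeval f P))
      rw [h, finrank_bot] at h1
      omega)
  exact ⟨W, hWU, hW, hWi, hWd, ⊥, bot_le, iso_bot hs.card, by simp, finrank_bot F (Fin n → F)⟩

/-- Pieces when no irreducible subspace is non-degenerate. -/
theorem exists_piece_paired (hd : 0 < d) (hΦ : Homog f U d Φ)
    (hno : ∀ W ≤ U, W.map f ≤ W → finrank F W = d → ¬ IsNondeg q W) :
    ∀ U' ≤ U, IsNondeg q U' → U'.map f ≤ U' → U' ≠ ⊥ →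
      ∃ W ≤ U', IsNondeg q W ∧ W.map f ≤ W ∧ finrank F W = 2 * d ∧
        ∃ Y ≤ W, Iso q Y ∧ Y.map f ≤ Y ∧ finrank F Y = d := by
  intro U' hle hU' hi' hne
  obtain ⟨W0, P, hW0U, hW0i, hW0d, -, -, -⟩ := (hΦ.mono hle).exists_irred hi' hne
  have hiso := (hs.dichotomy hd hΦ hW0i (hW0U.trans hle) hW0d).resolve_left
    (hno W0 (hW0U.trans hle) hW0i hW0d)
  obtain ⟨W, hWU, hW, hWi, hYW, hWd⟩ := hs.exists_pair hU' hi' hW0U hW0i hiso
  exact ⟨W, hWU, hW, hWi, by rw [hWd, hW0d], W0, hYW, hiso, hW0i, hW0d⟩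

omit Φ d in
/-- Pieces add up. -/
theorem exists_subs {c e : ℕ} (hc : 0 < c)
    (hpiece : ∀ U' ≤ U, IsNondeg q U' → U'.map f ≤ U' → U' ≠ ⊥ →
      ∃ W ≤ U', IsNondeg q W ∧ W.map f ≤ W ∧ finrank F W = c ∧ ∃ Y ≤ W, Iso q Y ∧ Y.map f ≤ Y ∧ finrank F Y = e) :
    ∀ U' ≤ U, IsNondeg q U' → U'.map f ≤ U' → c ∣ finrank F U' ∧ ∀ l, l * c ≤ finrank F U' →
      ∃ W ≤ U', IsNondeg q W ∧ W.map f ≤ W ∧ finrank F W = l * c ∧
        ∃ Y ≤ W, Iso q Y ∧ Y.map f ≤ Y ∧ finrank F Y = l * e := by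
  intro U' hle hU' hi'
  induction hN : finrank F U' using Nat.strong_induction_on generalizing U' with
  | _ N ih =>
  subst hN
  have hbot : ∃ W ≤ U', IsNondeg q W ∧ W.map f ≤ W ∧ finrank F W = 0 ∧
      ∃ Y ≤ W, Iso q Y ∧ Y.map f ≤ Y ∧ finrank F Y = 0 :=
    ⟨⊥, bot_le, fun u hu _ => (Submodule.mem_bot F).1 hu, by simp, finrank_bot F (Fin n → F), ⊥, le_rfl, iso_bot hs.card,
      by simp, finrank_bot F (Fin n → F)⟩
  by_cases hne : U' = ⊥
  · rw [hne, finrank_bot]
    refine ⟨dvd_zero _, fun l hl => ?_⟩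
    rcases l with _ | l
    · rw [zero_mul, zero_mul]; exact hne ▸ hbot
    · exact absurd (Nat.le_zero.1 hl) (Nat.mul_ne_zero (Nat.succ_ne_zero l) hc.ne')
  obtain ⟨W, hWU, hW, hWi, hWd, Y, hYW, hY, hYi, hYd⟩ := hpiece U' hle hU' hi' hne
  obtain ⟨-, hR, hdim⟩ := split hs.card hU' hW hWU
  obtain ⟨hdvd, hsub⟩ := ih (finrank F ↥(U' ⊓ perp q W)) (by omega) _ (inf_le_left.trans hle) hR
    (hs.inf_perp_map_le hi' hWi) rfl
  refine ⟨by rw [← hdim, hWd]; exact dvd_add dvd_rfl hdvd, fun l hl => ?_⟩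
  rcases l with _ | l
  · rw [zero_mul, zero_mul]; exact hbot
  obtain ⟨W', hW'U, hW', hW'i, hW'd, Y', hY'W, hY', hY'i, hY'd⟩ := hsub l (by rw [Nat.succ_mul] at hl; omega)
  have ho : W' ≤ perp q W := hW'U.trans inf_le_right
  obtain ⟨hnd, hdj⟩ := nondeg_sup hs.card hW hW' ho
  refine ⟨W ⊔ W', sup_le hWU (hW'U.trans inf_le_left), hnd, sup_map_le hWi hW'i, ?_, Y ⊔ Y',
    sup_le_sup hYW hY'W, iso_sup hs.card hY hY' fun y hy x hx => ho (hY'W hy) x (hYW hx), sup_map_le hYi hY'i, ?_⟩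
  · rw [finrank_add_of_disjoint hdj, hWd, hW'd, Nat.succ_mul, add_comm]
  · rw [finrank_add_of_disjoint (hdj.mono hYW hY'W), hYd, hY'd, Nat.succ_mul, add_comm]

/-- Two non-degenerate pieces with the same factor contain an isotropic one. -/
theorem exists_iso_of_two {W W' : Submodule F (Fin n → F)} (hW : IsNondeg q W) (hW' : IsNondeg q W')
    (ho : W' ≤ perp q W) (hi : W.map f ≤ W) (hi' : W'.map f ≤ W') {P : F[X]} (hP : Irreducible P)
    (hk : W ≤ LinearMap.ker (aeval f P)) (hk' : W' ≤ LinearMap.ker (aeval f P)) {d : ℕ} (hd : finrank F W = d)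
    (hd' : finrank F W' = d) : ∃ Y ≤ W ⊔ W', Iso q Y ∧ Y.map f ≤ Y ∧ finrank F Y = d := by
  obtain ⟨g, hg, hgW⟩ := exists_frame hs.card hW hd
  obtain ⟨g', hg', hgW'⟩ := exists_frame hs.card hW' hd'
  let M : (Fin d → (Fin n → F)) → Matrix (Fin d) (Fin d) F := fun h => LinearMap.toMatrix' (crd q h ∘ₗ f ∘ₗ emb h)
  have hM : ∀ {h : Fin d → (Fin n → F)} {Z : Submodule F (Fin n → F)}, Ortho q h → LinearMap.range (emb h) = Z → Z.map f ≤ Z →
      (∀ c, emb h (M h *ᵥ c) = f (emb h c)) ∧ Pres q (M h) := by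
    intro h Z hh hX hXi
    have hfun : ∀ c, emb h (M h *ᵥ c) = f (emb h c) := fun c => by
      obtain ⟨c', hc'⟩ := hX.ge (mem_of_map_le hXi (hX.le ⟨c, rfl⟩))
      rw [← hc']
      congr 1
      rw [← Matrix.toLin'_apply, Matrix.toLin'_toMatrix', LinearMap.comp_apply, LinearMap.comp_apply, ← hc',
        crd_emb hh]
    refine ⟨hfun, fun u v => ?_⟩
    rw [← herm_emb hs.card hh, ← herm_emb hs.card hh, hfun, hfun, hs.iso]
  obtain ⟨hA, hAp⟩ := hM hg hgW hi
  obtain ⟨hB, hBp⟩ := hM hg' hgW' hi'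
  have hkill : ∀ {h : Fin d → (Fin n → F)} {Z : Submodule F (Fin n → F)}, Ortho q h → LinearMap.range (emb h) = Z →
      Z ≤ LinearMap.ker (aeval f P) → (∀ c, emb h (M h *ᵥ c) = f (emb h c)) →
      aeval (Matrix.toLin' (M h)) P = 0 := by
    intro h Z hh hX hXk hfun
    have hev : ∀ (Q : F[X]) c, emb h (aeval (Matrix.toLin' (M h)) Q c) = aeval f Q (emb h c) := by
      intro Q
      induction Q using Polynomial.induction_on with
      | C a => intro c; simp [Module.algebraMap_end_apply]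
      | add p p' hp hp' => intro c; simp [hp, hp']
      | monomial k a ih =>
        intro c
        rw [show C a * X ^ (k + 1) = C a * X ^ k * (Polynomial.X : F[X]) by ring,
          map_mul (aeval (Matrix.toLin' (M h))) (C a * Polynomial.X ^ k), map_mul (aeval f) (C a * Polynomial.X ^ k),
          aeval_X, aeval_X, Module.End.mul_apply, Module.End.mul_apply, ih, Matrix.toLin'_apply, hfun]
    exact LinearMap.ext fun c => emb_injective hh (by
      rw [hev, LinearMap.zero_apply, map_zero]; exact hXk (hX.le ⟨c, rfl⟩))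
  obtain ⟨e, he⟩ := exists_equiv_of_irreducible hP (hkill hg hgW hk hA) (hkill hg' hgW' hk' hB) rfl
  have hcomm : LinearMap.toMatrix' (e : (Fin d → F) →ₗ[F] (Fin d → F)) * M g =
      M g' * LinearMap.toMatrix' (e : (Fin d → F) →ₗ[F] (Fin d → F)) := by
    refine Matrix.toLin'.injective (LinearMap.ext fun c => ?_)
    rw [Matrix.toLin'_mul, Matrix.toLin'_mul, Matrix.toLin'_toMatrix']
    exact he c
  have hu : IsUnit (LinearMap.toMatrix' (e : (Fin d → F) →ₗ[F] (Fin d → F))) :=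
    ⟨⟨_, LinearMap.toMatrix' (e.symm : (Fin d → F) →ₗ[F] (Fin d → F)),
      by rw [← LinearMap.toMatrix'_comp]; simp, by rw [← LinearMap.toMatrix'_comp]; simp⟩, rfl⟩
  obtain ⟨G, hG, hGc⟩ := exists_unitary_conj hs.card hAp hBp hu hcomm
  obtain ⟨ω, hω⟩ := exists_norm_neg_one hs.card
  let φ : (Fin d → F) →ₗ[F] (Fin n → F) := emb g + ω • emb g' ∘ₗ Matrix.toLin' G
  have hφ : ∀ c, φ c = emb g c + ω • emb g' (G *ᵥ c) := fun c => by simp [φ, Matrix.toLin'_apply]
  have hinj : Function.Injective φ := LinearMap.ker_eq_bot.1 ((Submodule.eq_bot_iff _).2 fun c hc => by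
    rw [LinearMap.mem_ker, hφ] at hc
    refine emb_injective hg ((map_zero (emb g)).symm ▸ ?_)
    refine Submodule.disjoint_def.1 (nondeg_sup hs.card hW hW' ho).2 _ (hgW.le ⟨c, rfl⟩) ?_
    rw [eq_neg_of_add_eq_zero_left hc]
    exact W'.neg_mem (W'.smul_mem ω (hgW'.le ⟨_, rfl⟩)))
  refine ⟨LinearMap.range φ, ?_, ?_, map_le_of_forall_mem ?_, by
    rw [LinearMap.finrank_range_of_inj hinj, finrank_fin_fun]⟩
  · rintro _ ⟨c, rfl⟩
    rw [hφ]
    exact Submodule.add_mem_sup (hgW.le ⟨c, rfl⟩) (W'.smul_mem ω (hgW'.le ⟨_, rfl⟩))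
  · rintro _ ⟨a, rfl⟩ _ ⟨b, rfl⟩
    have hx : ∀ s t, hermForm n F q (emb g' s) (emb g t) = 0 := fun s t =>
      ho (hgW'.le ⟨s, rfl⟩) _ (hgW.le ⟨t, rfl⟩)
    rw [hφ, hφ, herm_add_left, herm_add_right hs.card, herm_add_right hs.card, herm_smul_left, herm_smul_left,
      herm_smul_right, herm_smul_right, hx, herm_eq_zero_comm hs.card (hx _ _), herm_emb hs.card hg,
      herm_emb hs.card hg', hG]
    have hω' : ω * ω ^ q = -1 := by rw [← pow_succ']; exact hω
    linear_combination (∑ k, a k * b k ^ q) * hω'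
  · rintro _ ⟨c, rfl⟩
    refine ⟨M g *ᵥ c, ?_⟩
    rw [hφ, hφ, map_add, map_smul, ← hA, ← hB, Matrix.mulVec_mulVec, hGc, ← Matrix.mulVec_mulVec]

/-- Isotropic invariant subspaces when all factors are self-adjoint. -/
theorem exists_iso_max (hd : 0 < d) : ∀ (a : ℕ) {U : Submodule F (Fin n → F)}, Homog f U d Φ → IsNondeg q U →
    U.map f ≤ U → finrank F U = a * d → (∀ P : F[X], Irreducible P → P ∣ Φ → SelfAdj hs.card z r f P) →
    ∀ S : Finset F[X], (∀ P ∈ S, Irreducible P ∧ P ∣ Φ) →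
      (∀ W ≤ U, W.map f ≤ W → W ≠ ⊥ → ∃ P ∈ S, W ⊓ LinearMap.ker (aeval f P) ≠ ⊥) →
    ∀ l, 2 * l + S.card ≤ a + 1 → ∃ Y ≤ U, Iso q Y ∧ Y.map f ≤ Y ∧ finrank F Y = l * d := by
  classical
  intro a
  induction a using Nat.strong_induction_on with
  | _ a ih =>
  intro U hΦ hU hi hUd hsa S hS hcov l hl
  rcases l with _ | l
  · exact ⟨⊥, bot_le, iso_bot hs.card, by simp, by simp⟩
  have ha : 0 < a := by omega
  have hne : U ≠ ⊥ := fun h => by
    rw [h, finrank_bot] at hUd
    exact (Nat.mul_pos ha hd).ne hUd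
  obtain ⟨P, hPS, hP0⟩ := hcov U le_rfl hi hne
  obtain ⟨hP, hPd⟩ := hS P hPS
  obtain ⟨W, hWU, hW, hWi, hWd, hWk⟩ := hs.exists_piece_ker hd hΦ hU hi hP hPd (hsa P hP hPd) hP0
  obtain ⟨-, hR, hdim⟩ := split hs.card hU hW hWU
  have hRi := hs.inf_perp_map_le hi hWi
  have hRd : finrank F ↥(U ⊓ perp q W) = (a - 1) * d := by rw [Nat.sub_mul, one_mul]; omega
  by_cases hK : (U ⊓ perp q W) ⊓ LinearMap.ker (aeval f P) = ⊥
  · obtain ⟨Y, hYR, hY⟩ := ih (a - 1) (by omega) (hΦ.mono inf_le_left) hR hRi hRd hsa (S.erase P)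
      (fun P' hP' => hS P' (Finset.mem_of_mem_erase hP')) (fun W' hW' hW'i hW'0 => by
        obtain ⟨P', hP'S, hP'0⟩ := hcov W' (hW'.trans inf_le_left) hW'i hW'0
        refine ⟨P', Finset.mem_erase.2 ⟨fun h => hP'0 ?_, hP'S⟩, hP'0⟩
        subst h
        exact eq_bot_iff.2 ((inf_le_inf_right _ hW').trans hK.le))
      (l + 1) (by rw [Finset.card_erase_of_mem hPS]; have := Finset.card_pos.2 ⟨P, hPS⟩; omega)
    exact ⟨Y, hYR.trans inf_le_left, hY⟩
  · obtain ⟨W', hW'R, hW', hW'i, hW'd, hW'k⟩ :=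
      hs.exists_piece_ker hd (hΦ.mono inf_le_left) hR hRi hP hPd (hsa P hP hPd) hK
    have ho : W' ≤ perp q W := hW'R.trans inf_le_right
    obtain ⟨Y0, hY0W, hY0, hY0i, hY0d⟩ := hs.exists_iso_of_two hW hW' ho hWi hW'i hP hWk hW'k hWd hW'd
    obtain ⟨hWW, hWWd⟩ := nondeg_sup hs.card hW hW' ho
    have hle : W ⊔ W' ≤ U := sup_le hWU (hW'R.trans inf_le_left)
    obtain ⟨-, hR2, hdim2⟩ := split hs.card hU hWW hle
    rw [finrank_add_of_disjoint hWWd, hWd, hW'd] at hdim2
    have ha2 : 2 ≤ a := by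
      by_contra h
      obtain rfl : a = 1 := by omega
      omega
    obtain ⟨Y1, hY1R, hY1, hY1i, hY1d⟩ := ih (a - 2) (by omega) (hΦ.mono inf_le_left) hR2
      (hs.inf_perp_map_le hi (sup_map_le hWi hW'i)) (by rw [Nat.sub_mul]; omega) hsa S hS
      (fun W'' hW'' => hcov W'' (hW''.trans inf_le_left)) l (by omega)
    have ho1 : Y1 ≤ perp q Y0 := fun y hy x hx => (hY1R hy).2 x (hY0W hx)
    refine ⟨Y0 ⊔ Y1, sup_le (hY0W.trans hle) (hY1R.trans inf_le_left), iso_sup hs.card hY0 hY1 ho1,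
      sup_map_le hY0i hY1i, ?_⟩
    have hdisj : Disjoint Y0 Y1 :=
      ((isCompl_perp hs.card hWW).disjoint).mono hY0W (hY1R.trans inf_le_right)
    rw [finrank_add_of_disjoint hdisj, hY0d, hY1d, Nat.succ_mul, add_comm]

/-- Invariant subspaces split along the fixed and moved spaces. -/
theorem inter {U : Submodule F (Fin n → F)} (hi : U.map f ≤ U) :
    U ⊓ fixed f ⊔ U ⊓ moved f = U ∧ Disjoint (fixed f) (moved f) ∧
      finrank F U = finrank F ↥(U ⊓ fixed f) + finrank F ↥(U ⊓ moved f) := by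
  have h3 := finrank_eq_inf_ker_add_inf_range hs.semisimple 1 hi
  have hd := (isCompl_ker_range hs.semisimple (1 : F)).disjoint
  refine ⟨Submodule.eq_of_le_of_finrank_eq (sup_le inf_le_left inf_le_left) ?_, hd, h3⟩
  unfold fixed moved
  rw [finrank_add_of_disjoint (hd.mono inf_le_right inf_le_right)]
  exact h3.symm

theorem moved_le_perp : moved f ≤ perp q (fixed f) := by
  rintro _ ⟨u, rfl⟩ k hk
  have h := hs.iso u k
  rw [mem_fixed.1 hk] at h
  simp [herm_sub_left, h]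

theorem nondeg_inter {U : Submodule F (Fin n → F)} (hU : IsNondeg q U) (hi : U.map f ≤ U) :
    IsNondeg q (U ⊓ fixed f) ∧ IsNondeg q (U ⊓ moved f) := by
  obtain ⟨hsup, -, -⟩ := hs.inter hi
  refine ⟨fun x hx h => hU x hx.1 fun y hy => ?_, fun x hx h => hU x hx.1 fun y hy => ?_⟩
  all_goals obtain ⟨a, ha, b, hb, rfl⟩ := Submodule.mem_sup.1 (hsup.symm ▸ hy : y ∈ U ⊓ fixed f ⊔ U ⊓ moved f)
  · rw [herm_add_right hs.card, h a ha, herm_eq_zero_comm hs.card (hs.moved_le_perp hb.2 x hx.2), add_zero]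
  · rw [herm_add_right hs.card, h b hb, hs.moved_le_perp hx.2 a ha.2, zero_add]

theorem nondeg_fixed : IsNondeg q (fixed f) := by
  simpa using (hs.nondeg_inter (isNondeg_top hs.card) le_top).1

theorem nondeg_moved : IsNondeg q (moved f) := by
  simpa using (hs.nondeg_inter (isNondeg_top hs.card) le_top).2

theorem finrank_fixed_add : finrank F (fixed f) + finrank F (moved f) = n := by
  have h := LinearMap.finrank_range_add_finrank_ker (f - (1 : F) • 1)
  rw [finrank_fin_fun] at h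
  unfold fixed moved
  omega

end Setting

section

variable {f : Module.End F (Fin n → F)} {r : ℕ} [hr : Fact r.Prime]

/-- The moved space is homogeneous. -/
theorem homog_moved (hs : Setting q r (1 : F) f) :
    Homog f (moved f) (orderOf (Fintype.card F : ZMod r)) (cyclotomic r F) := by
  refine ⟨cyclotomic_ne_zero r F, ?_, fun P hP hd => natDegree_of_dvd_cyclotomic hs.ne hP hd⟩
  rintro _ ⟨y, rfl⟩
  have hX : f - (1 : F) • 1 = aeval f (X - 1 : F[X]) := by simp
  rw [hX, ← Module.End.mul_apply, ← map_mul, cyclotomic_prime_mul_X_sub_one]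
  simp [hs.pow]

/-- If `-q` is a power of `q ^ 2` modulo `r`, every polynomial is self-adjoint. -/
theorem selfAdj_of_modEq (hs : Setting q r (1 : F) f) {j : ℕ}
    (hj : (r - 1) * q ≡ Fintype.card F ^ j [MOD r]) (P : F[X]) : SelfAdj hs.card 1 r f P := by
  obtain ⟨p, c, hp, hchar, -, hqc⟩ := exists_char hs.card
  haveI := hchar
  haveI := Fact.mk hp
  refine ⟨q, fun u hu => ?_⟩
  have hfr : f ^ r = 1 := by rw [hs.pow, one_smul]
  have hg : inv' (1 : F) r f = f ^ (r - 1) := by rw [inv', inv_one, one_smul]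
  have hPq : (P.map (conjHom hs.card)) ^ q = expand F q P := by
    have hφ : ∀ x, (conjHom hs.card x) ^ q = x := pow_q_q hs.card
    generalize conjHom hs.card = φ at hφ
    rw [hqc] at hφ ⊢
    rw [← Polynomial.map_iterateFrobenius_expand p _ c, ← map_expand, Polynomial.map_map]
    conv_rhs => rw [← Polynomial.map_id (p := expand F (p ^ c) P)]
    congr 1
    refine RingHom.ext fun x => ?_
    simp only [RingHom.comp_apply, iterateFrobenius_def, RingHom.id_apply]
    exact hφ x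
  rw [hg, ← map_pow, hPq, expand_aeval, ← pow_mul, pow_eq_pow_mod _ hfr, hj, ← pow_eq_pow_mod _ hfr]
  clear hj
  have hkey : ∀ (j : ℕ) (P : F[X]), aeval (f ^ (Fintype.card F ^ j)) P = (aeval f P) ^ (Fintype.card F ^ j) := by
    intro j
    induction j with
    | zero => intro P; simp
    | succ j ih => intro P; rw [pow_succ, pow_mul, pow_mul, ← ih, ← map_pow, ← FiniteField.expand_card, expand_aeval]
  rw [hkey]
  obtain ⟨k, hk⟩ : ∃ k, Fintype.card F ^ j = k + 1 :=
    ⟨Fintype.card F ^ j - 1, (Nat.sub_add_cancel (Nat.one_le_pow _ _ Fintype.card_pos)).symm⟩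
  rw [hk, pow_succ, Module.End.mul_apply, hu, map_zero]

/-- The polynomial of a non-power scalar is self-adjoint. -/
theorem selfAdj_X_pow {z : F} (hs : Setting q r z f) (hz : z ^ (q + 1) = 1) :
    SelfAdj hs.card z r f (X ^ r - C z) := by
  refine ⟨1, fun u _ => ?_⟩
  have h1 : inv' z r f ^ r = (z⁻¹) • 1 := by
    rw [inv', _root_.smul_pow, ← pow_mul, mul_comm (r - 1) r, pow_mul, hs.pow, _root_.smul_pow, one_pow, smul_smul]
    congr 1
    obtain ⟨k, hk⟩ : ∃ k, r = k + 1 := ⟨r - 1, (Nat.sub_add_cancel hr.out.one_le).symm⟩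
    rw [hk, Nat.add_sub_cancel, pow_succ, inv_pow, mul_assoc, mul_comm z⁻¹, ← mul_assoc,
      inv_mul_cancel₀ (pow_ne_zero k hs.z_ne), one_mul]
  have h2 : z⁻¹ = z ^ q := (eq_inv_of_mul_eq_one_left (by rw [← pow_succ]; exact hz)).symm
  rw [pow_one, Polynomial.map_sub, Polynomial.map_pow, Polynomial.map_X, Polynomial.map_C, map_sub, map_pow, aeval_X,
    aeval_C, h1, Algebra.algebraMap_eq_smul_one, h2]
  show ((z ^ q) • (1 : Module.End F (Fin n → F)) - (z ^ q) • 1) u = 0
  rw [sub_self, LinearMap.zero_apply]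

end

end CfsgLib.Classical.Semisimple.UnitSetting
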