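import Cfsg.Agent.Classical.Semisimple.UnitIsoMain

/-!
Fixed subspaces of isometries of a hermitian space with scalar square, in odd characteristic.
-/

set_option autoImplicit false

namespace CfsgLib.Classical.Semisimple.UnitTwo

open Cfsg Module Polynomial CfsgLib.Unitary UnitBasic UnitSetting UnitBridge UnitIsoMain
open scoped Matrix

variable {F : Type*} [Field F] [Fintype F] {n q m : ℕ}

theorem q_odd (hF : Fintype.card F = q ^ 2) (h2 : (2 : F) ≠ 0) : Odd q := by
  obtain ⟨p, e, hp, hchar, -, rfl⟩ := exists_char hF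
  refine (hp.odd_of_ne_two fun h => h2 ?_).pow
  subst h
  exact_mod_cast CharP.cast_eq_zero F 2

/-- Square roots of norm-one scalars. -/
theorem exists_sqrt (hF : Fintype.card F = q ^ 2) (h2 : (2 : F) ≠ 0) {z : F} (hz : z ^ (q + 1) = 1) :
    ∃ w : F, w ^ 2 = z ∧ w ≠ 0 ∧ (w ^ (q + 1) = 1 ∨ w ^ (q + 1) = -1) := by
  have hchar : ringChar F ≠ 2 := fun h => h2 (by
    have h1 := ringChar.Nat.cast_ringChar (R := F)
    rw [h] at h1
    exact_mod_cast h1)
  have hz0 : z ≠ 0 := by rintro rfl; rw [zero_pow (Nat.succ_ne_zero q)] at hz; exact zero_ne_one hz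
  obtain ⟨k, hk⟩ := q_odd hF h2
  have hcard : Fintype.card F / 2 = (q + 1) * k := by
    rw [hF, hk, show (2 * k + 1) ^ 2 = 1 + 2 * ((2 * k + 1 + 1) * k) by ring, Nat.add_mul_div_left _ _ two_pos]
    norm_num
  obtain ⟨w, hw⟩ := (FiniteField.isSquare_iff hchar hz0).2 (by rw [hcard, pow_mul, hz, one_pow])
  refine ⟨w, by rw [sq, hw], fun h => hz0 (by rw [hw, h, mul_zero]), ?_⟩
  have h1 : (w ^ (q + 1)) ^ 2 = 1 := by rw [← pow_mul, mul_comm, pow_mul, sq, ← hw, hz]
  exact sq_eq_one_iff.1 h1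

omit [Fintype F] in
theorem eigen_isCompl (h2 : (2 : F) ≠ 0) {g : Module.End F (Fin n → F)} (hg : g ^ 2 = 1) :
    IsCompl (LinearMap.ker (g - 1)) (LinearMap.ker (g + 1)) := by
  have hgg : ∀ v, g (g v) = v := fun v => by rw [← Module.End.mul_apply, ← sq, hg]; rfl
  refine ⟨Submodule.disjoint_def.2 fun v hv hv' => ?_, codisjoint_iff.2 (eq_top_iff.2 fun v _ => ?_)⟩
  · simp [sub_eq_zero] at hv
    simp [hv] at hv'
    rw [← two_smul F] at hv'
    exact (smul_eq_zero.1 hv').resolve_left h2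
  · refine Submodule.mem_sup.2 ⟨(2 : F)⁻¹ • (v + g v), ?_, (2 : F)⁻¹ • (v - g v), ?_, ?_⟩
    · simp [hgg, add_comm]
    · simp [hgg]
    · rw [← smul_add, show v + g v + (v - g v) = (2 : F) • v by rw [two_smul]; abel, smul_smul, inv_mul_cancel₀ h2,
        one_smul]

omit [Fintype F] in
/-- The determinant of an involution. -/
theorem det_of_sq (h2 : (2 : F) ≠ 0) {g : Module.End F (Fin n → F)} (hg : g ^ 2 = 1) :
    LinearMap.det g = (-1) ^ finrank F (LinearMap.ker (g + 1)) := by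
  set P := LinearMap.ker (g - 1)
  set M := LinearMap.ker (g + 1)
  have h := eigen_isCompl h2 hg
  let e := Submodule.prodEquivOfIsCompl P M h
  have hge : g = e.toLinearMap ∘ₗ ((LinearMap.id : P →ₗ[F] P).prodMap ((-1 : F) • (LinearMap.id : M →ₗ[F] M))) ∘ₗ
      e.symm.toLinearMap := by
    refine LinearMap.ext fun v => ?_
    obtain ⟨⟨a, b⟩, rfl⟩ := e.surjective v
    have ha : g a = a := sub_eq_zero.1 (LinearMap.mem_ker.1 a.2)
    have hb : g b = -(b : Fin n → F) := eq_neg_of_add_eq_zero_left (LinearMap.mem_ker.1 b.2)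
    simp [e, ha, hb]
  rw [hge, LinearMap.det_conj, LinearMap.det_prodMap, LinearMap.det_id, one_mul, LinearMap.det_smul, LinearMap.det_id,
    mul_one]

/-- The anti-isometric case: both eigenspaces are totally isotropic of half the dimension. -/
theorem anti_spec (hF : Fintype.card F = q ^ 2) (h2 : (2 : F) ≠ 0) {f : Module.End F (Fin n → F)} {w : F}
    (hw : w ^ (q + 1) = -1) (hiso : ∀ u v, hermForm n F q (f u) (f v) = hermForm n F q u v)
    (hpow : f ^ 2 = w ^ 2 • 1) :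
    (w⁻¹ • f) ^ 2 = 1 ∧ Iso q (LinearMap.ker (w⁻¹ • f - 1)) ∧ Iso q (LinearMap.ker (w⁻¹ • f + 1)) ∧
      2 * finrank F (LinearMap.ker (w⁻¹ • f - 1)) = n ∧ 2 * finrank F (LinearMap.ker (w⁻¹ • f + 1)) = n ∧
      (LinearMap.ker (w⁻¹ • f - 1)).map f ≤ LinearMap.ker (w⁻¹ • f - 1) ∧
      (LinearMap.ker (w⁻¹ • f + 1)).map f ≤ LinearMap.ker (w⁻¹ • f + 1) := by
  have hw0 : w ≠ 0 := by rintro rfl; rw [zero_pow (Nat.succ_ne_zero q)] at hw; exact one_ne_zero (neg_eq_zero.1 hw.symm)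
  have hg : (w⁻¹ • f) ^ 2 = 1 := by
    rw [_root_.smul_pow, hpow, smul_smul, inv_pow, inv_mul_cancel₀ (pow_ne_zero 2 hw0), one_smul]
  have hanti : ∀ u v, hermForm n F q ((w⁻¹ • f) u) ((w⁻¹ • f) v) = -hermForm n F q u v := fun u v => by
    rw [LinearMap.smul_apply, LinearMap.smul_apply, herm_smul_left, herm_smul_right, hiso, ← mul_assoc, ← pow_succ',
      inv_pow, hw, inv_neg, inv_one, neg_one_mul]
  have hzero : ∀ x : F, x = -x → x = 0 := fun x hx =>
    (mul_eq_zero.1 (show (2 : F) * x = 0 by linear_combination hx)).resolve_left h2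
  have hP : Iso q (LinearMap.ker (w⁻¹ • f - 1)) := fun u hu v hv => by
    have h := hanti u v
    rw [LinearMap.mem_ker, LinearMap.sub_apply, Module.End.one_apply, sub_eq_zero] at hu hv
    rw [hu, hv] at h
    exact hzero _ h
  have hM : Iso q (LinearMap.ker (w⁻¹ • f + 1)) := fun u hu v hv => by
    have h := hanti u v
    rw [LinearMap.mem_ker, LinearMap.add_apply, Module.End.one_apply, add_eq_zero_iff_eq_neg] at hu hv
    rw [hu, hv, neg_eq_neg_one_mul (u : Fin n → F), neg_eq_neg_one_mul (v : Fin n → F)] at h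
    have e1 : hermForm n F q (-1 * u) (-1 * v) = hermForm n F q u v := by
      simp [hermForm, (q_odd hF h2).neg_pow]
    rw [e1] at h
    exact hzero _ h
  have hsum := Submodule.finrank_add_eq_of_isCompl (eigen_isCompl h2 hg)
  rw [finrank_fin_fun] at hsum
  have h1 := two_mul_le hF (isNondeg_top hF) le_top hP
  have h3 := two_mul_le hF (isNondeg_top hF) le_top hM
  rw [finrank_top, finrank_fin_fun] at h1 h3
  refine ⟨hg, hP, hM, by omega, by omega, ?_, ?_⟩
  all_goals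
    refine (map_smul_le_iff (inv_ne_zero hw0) f _).1 (map_le_of_forall_mem fun x hx => ?_)
    have hgx : (w⁻¹ • f) ((w⁻¹ • f) x) = x := by rw [← Module.End.mul_apply, ← sq, hg]; rfl
    simp only [LinearMap.mem_ker, LinearMap.sub_apply, LinearMap.add_apply, Module.End.one_apply] at hx ⊢
  · rw [hgx]; linear_combination (norm := module) -(1 : F) • hx
  · rw [hgx]; linear_combination (norm := module) (1 : F) • hx

/-- Anti-isometric: totally isotropic subspaces are fixed. -/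
theorem iso_of_anti (hF : Fintype.card F = q ^ 2) (h2 : (2 : F) ≠ 0) (hmn : 2 * m ≤ n)
    {f : Module.End F (Fin n → F)} {w : F} (hw : w ^ (q + 1) = -1)
    (hiso : ∀ u v, hermForm n F q (f u) (f v) = hermForm n F q u v) (hpow : f ^ 2 = w ^ 2 • 1) :
    Has m (Iso q) f := by
  have hw0 : w ≠ 0 := by rintro rfl; rw [zero_pow (Nat.succ_ne_zero q)] at hw; exact one_ne_zero (neg_eq_zero.1 hw.symm)
  obtain ⟨-, hP, -, hPd, -, -, -⟩ := anti_spec hF h2 hw hiso hpow
  obtain ⟨W, hW⟩ := exists_submodule_finrank_eq (F := F) (M := LinearMap.ker (w⁻¹ • f - 1)) m (by omega)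
  refine ⟨W.map (LinearMap.ker (w⁻¹ • f - 1)).subtype, by rw [Submodule.finrank_map_subtype_eq, hW],
    fun u hu v hv => hP u (Submodule.map_subtype_le _ _ hu) v (Submodule.map_subtype_le _ _ hv),
    (map_smul_le_iff (inv_ne_zero hw0) f _).1 (map_le_of_forall_mem fun x hx => ?_)⟩
  have h1 := sub_eq_zero.1 (LinearMap.mem_ker.1 (Submodule.map_subtype_le _ _ hx))
  rw [h1, Module.End.one_apply]
  exact hx

/-- Anti-isometric: invariant non-degenerate subspaces have even dimension, and all of these occur. -/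
theorem nondeg_of_anti (hF : Fintype.card F = q ^ 2) (h2 : (2 : F) ≠ 0) (hmn : m ≤ n)
    {f : Module.End F (Fin n → F)} {w : F} (hw : w ^ (q + 1) = -1)
    (hiso : ∀ u v, hermForm n F q (f u) (f v) = hermForm n F q u v) (hpow : f ^ 2 = w ^ 2 • 1) :
    Has m (IsNondeg q) f ↔ Even m := by
  have hw0 : w ≠ 0 := by rintro rfl; rw [zero_pow (Nat.succ_ne_zero q)] at hw; exact one_ne_zero (neg_eq_zero.1 hw.symm)
  obtain ⟨hg, hP, hM, -, -, hPi, hMi⟩ := anti_spec hF h2 hw hiso hpow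
  have hs : Setting q 2 (w ^ 2) f := ⟨hF, hiso, hpow, by exact_mod_cast h2, pow_ne_zero 2 hw0⟩
  have hsplit : ∀ U : Submodule F (Fin n → F), U.map f ≤ U →
      finrank F U ≤ finrank F ↥(U ⊓ LinearMap.ker (w⁻¹ • f - 1)) + finrank F ↥(U ⊓ LinearMap.ker (w⁻¹ • f + 1)) := by
    intro U hU
    rw [← finrank_add_of_disjoint ((eigen_isCompl h2 hg).disjoint.mono inf_le_right inf_le_right)]
    refine Submodule.finrank_mono fun v hv => ?_
    have hgv : (w⁻¹ • f) v ∈ U := by rw [LinearMap.smul_apply]; exact U.smul_mem _ (mem_of_map_le hU hv)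
    have hgg : (w⁻¹ • f) ((w⁻¹ • f) v) = v := by rw [← Module.End.mul_apply, ← sq, hg]; rfl
    refine Submodule.mem_sup.2 ⟨(2 : F)⁻¹ • (v + (w⁻¹ • f) v), ⟨U.smul_mem _ (U.add_mem hv hgv), ?_⟩,
      (2 : F)⁻¹ • (v - (w⁻¹ • f) v), ⟨U.smul_mem _ (U.sub_mem hv hgv), ?_⟩, ?_⟩
    · simp only [SetLike.mem_coe, LinearMap.mem_ker, LinearMap.sub_apply, Module.End.one_apply, map_smul, map_add]
      rw [hgg]; module
    · simp only [SetLike.mem_coe, LinearMap.mem_ker, LinearMap.add_apply, Module.End.one_apply, map_smul, map_sub]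
      rw [hgg]; module
    · rw [← smul_add, show v + (w⁻¹ • f) v + (v - (w⁻¹ • f) v) = (2 : F) • v by rw [two_smul]; abel, smul_smul,
        inv_mul_cancel₀ h2, one_smul]
  constructor
  · rintro ⟨W, hWd, hW, hWi⟩
    have h1 := two_mul_le hF hW (inf_le_left : W ⊓ LinearMap.ker (w⁻¹ • f - 1) ≤ W)
      fun u hu v hv => hP u hu.2 v hv.2
    have h3 := two_mul_le hF hW (inf_le_left : W ⊓ LinearMap.ker (w⁻¹ • f + 1) ≤ W)
      fun u hu v hv => hM u hu.2 v hv.2
    have := hsplit W hWi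
    exact ⟨finrank F ↥(W ⊓ LinearMap.ker (w⁻¹ • f - 1)), by omega⟩
  · rintro ⟨l, hl⟩
    have hpiece : ∀ U' ≤ (⊤ : Submodule F (Fin n → F)), IsNondeg q U' → U'.map f ≤ U' → U' ≠ ⊥ →
        ∃ W ≤ U', IsNondeg q W ∧ W.map f ≤ W ∧ finrank F W = 2 ∧
          ∃ Y ≤ W, Iso q Y ∧ Y.map f ≤ Y ∧ finrank F Y = 1 := by
      intro U' _ hU' hi' hne
      have hpos : 0 < finrank F U' := Nat.pos_of_ne_zero fun h => hne (Submodule.finrank_eq_zero.1 h)
      have hs' := hsplit U' hi'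
      have key : ∀ E : Submodule F (Fin n → F), Iso q E → (∀ x ∈ E, ∃ μ : F, f x = μ • x) →
          0 < finrank F ↥(U' ⊓ E) → ∃ W ≤ U', IsNondeg q W ∧ W.map f ≤ W ∧ finrank F W = 2 ∧
            ∃ Y ≤ W, Iso q Y ∧ Y.map f ≤ Y ∧ finrank F Y = 1 := by
        intro E hE heig hd
        obtain ⟨v, hv, hv0⟩ := Submodule.exists_mem_ne_zero_of_ne_bot
          (fun h => hd.ne' (Submodule.finrank_eq_zero.2 h) : U' ⊓ E ≠ ⊥)
        obtain ⟨μ, hμ⟩ := heig v hv.2
        have hYi : (Submodule.span F {v}).map f ≤ Submodule.span F {v} := by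
          rw [Submodule.map_span, Set.image_singleton, Submodule.span_le, Set.singleton_subset_iff, hμ]
          exact Submodule.smul_mem _ _ (Submodule.mem_span_singleton_self v)
        have hYle : Submodule.span F {v} ≤ U' ⊓ E := (Submodule.span_singleton_le_iff_mem _ _).2 hv
        have hY : Iso q (Submodule.span F {v}) := fun a ha b hb => hE a (hYle ha).2 b (hYle hb).2
        obtain ⟨W, hWU, hW, hWi, hYW, hWd⟩ := hs.exists_pair hU' hi' (hYle.trans inf_le_left) hYi hY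
        exact ⟨W, hWU, hW, hWi, by rw [hWd, finrank_span_singleton hv0], _, hYW, hY, hYi,
          finrank_span_singleton hv0⟩
      rcases Nat.eq_zero_or_pos (finrank F ↥(U' ⊓ LinearMap.ker (w⁻¹ • f - 1))) with h0 | h0
      · refine key _ hM (fun x hx => ⟨-w, ?_⟩) (by omega)
        rw [LinearMap.mem_ker, LinearMap.add_apply, LinearMap.smul_apply, Module.End.one_apply,
          add_eq_zero_iff_eq_neg] at hx
        conv_lhs => rw [← one_smul F (f x), ← mul_inv_cancel₀ hw0, mul_smul, hx]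
        rw [smul_neg, neg_smul]
      · refine key _ hP (fun x hx => ⟨w, ?_⟩) h0
        rw [LinearMap.mem_ker, LinearMap.sub_apply, LinearMap.smul_apply, Module.End.one_apply, sub_eq_zero] at hx
        conv_lhs => rw [← one_smul F (f x), ← mul_inv_cancel₀ hw0, mul_smul, hx]
    obtain ⟨-, hsubs⟩ := hs.exists_subs (c := 2) (e := 1) two_pos hpiece ⊤ le_rfl (isNondeg_top hF) le_top
    obtain ⟨W, -, hW, hWi, hWd, -⟩ := hsubs l (by rw [finrank_top, finrank_fin_fun]; omega)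
    exact ⟨W, by omega, hW, hWi⟩

theorem ker_add_one_eq_moved (h2 : (2 : F) ≠ 0) {g : Module.End F (Fin n → F)} (hg : g ^ 2 = 1) :
    LinearMap.ker (g + 1) = moved g := by
  have hgg : ∀ v, g (g v) = v := fun v => by rw [← Module.End.mul_apply, ← sq, hg]; rfl
  refine le_antisymm ?_ ?_
  · intro v hv
    refine ⟨-((2 : F)⁻¹ • v), ?_⟩
    have hv' : g v = -v := eq_neg_of_add_eq_zero_left (LinearMap.mem_ker.1 hv)
    simp only [one_smul, LinearMap.sub_apply, Module.End.one_apply, map_neg, map_smul, hv', smul_neg, neg_neg,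
      sub_neg_eq_add, ← add_smul]
    rw [show -v - v = (2 : F) • -v by rw [two_smul]; abel, smul_smul, inv_mul_cancel₀ h2, one_smul, neg_neg]
  · rintro _ ⟨u, rfl⟩
    simp [hgg]

theorem two_adic_exists (hF : Fintype.card F = q ^ 2) (h2 : (2 : F) ≠ 0) {n : ℕ} (hn : n ≠ 0)
    (hv : padicValNat 2 n < padicValNat 2 (q + 1)) : ∃ w : F, w ^ (q + 1) = 1 ∧ w ^ n = -1 := by
  set k := padicValNat 2 n
  obtain ⟨w, hw, hwq⟩ := exists_primitive hF (d := 2 ^ (k + 1)) ((pow_dvd_pow 2 hv).trans pow_padicValNat_dvd)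
  obtain ⟨o, ho⟩ : 2 ^ k ∣ n := pow_padicValNat_dvd
  have h1 : w ^ (2 ^ k) = -1 := by
    have h3 : (w ^ (2 ^ k)) ^ 2 = 1 := by rw [← pow_mul, ← pow_succ, hw.pow_eq_one]
    exact (sq_eq_one_iff.1 h3).resolve_left
      (hw.pow_ne_one_of_pos_of_lt (by positivity) (Nat.pow_lt_pow_right one_lt_two (Nat.lt_succ_self k)))
  have hodd : Odd o := Nat.not_even_iff_odd.1 fun ⟨j, hj⟩ => pow_succ_padicValNat_not_dvd (p := 2) hn
    ⟨j, by rw [pow_succ, mul_assoc, two_mul, ← hj, ← ho]⟩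
  exact ⟨w, hwq, by rw [ho, pow_mul, h1, hodd.neg_one_pow]⟩

theorem two_adic_not (h2 : (2 : F) ≠ 0) {n : ℕ} (hv : padicValNat 2 (q + 1) ≤ padicValNat 2 n)
    {w : F} (hw : w ^ (q + 1) = 1) : w ^ n ≠ -1 := by
  intro h
  set e := padicValNat 2 (q + 1)
  obtain ⟨o, ho⟩ : 2 ^ e ∣ q + 1 := pow_padicValNat_dvd
  obtain ⟨k, hk⟩ : 2 ^ e ∣ n := (pow_dvd_pow 2 hv).trans pow_padicValNat_dvd
  have hodd : Odd o := Nat.not_even_iff_odd.1 fun ⟨j, hj⟩ => pow_succ_padicValNat_not_dvd (p := 2) (Nat.succ_ne_zero q)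
    ⟨j, by rw [pow_succ, mul_assoc, two_mul, ← hj, ← ho]⟩
  have h1 : (w ^ n) ^ o = 1 := by
    rw [← pow_mul, hk, show 2 ^ e * k * o = (q + 1) * k by rw [ho]; ring, pow_mul, hw, one_pow]
  rw [h, hodd.neg_one_pow] at h1
  exact h2 (by linear_combination -h1)

/-- Scalars of anti-isometries of determinant one. -/
theorem anti_scalar_exists (hF : Fintype.card F = q ^ 2) (h2 : (2 : F) ≠ 0) {n : ℕ} (hev : Even n) (hn : n ≠ 0)
    (h : q % 4 = 1 ∨ padicValNat 2 (q + 1) < padicValNat 2 n) :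
    ∃ w : F, w ^ (q + 1) = -1 ∧ (-(w ^ 2)) ^ (n / 2) = 1 := by
  set e := padicValNat 2 (q + 1)
  obtain ⟨kq, hkq⟩ := q_odd hF h2
  have he1 : 1 ≤ e := one_le_padicValNat_of_dvd (Nat.succ_ne_zero q) ⟨kq + 1, by omega⟩
  obtain ⟨x, hx⟩ := CfsgLib.Classical.PrimeDerangement.exists_primitive_of_dvd (F := F) (d := 2 ^ (e + 1))
    (card_units_eq hF ▸ (pow_succ' 2 e ▸ Nat.mul_dvd_mul (show 2 ∣ q - 1 from ⟨kq, by omega⟩) pow_padicValNat_dvd))
  have hw : IsPrimitiveRoot (x : F) (2 ^ (e + 1)) := IsPrimitiveRoot.coe_units_iff.2 hx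
  generalize (x : F) = w at hw
  have h1 : w ^ (2 ^ e) = -1 := by
    have h3 : (w ^ (2 ^ e)) ^ 2 = 1 := by rw [← pow_mul, ← pow_succ, hw.pow_eq_one]
    exact (sq_eq_one_iff.1 h3).resolve_left
      (hw.pow_ne_one_of_pos_of_lt (by positivity) (Nat.pow_lt_pow_right one_lt_two (Nat.lt_succ_self e)))
  obtain ⟨o, ho⟩ : 2 ^ e ∣ q + 1 := pow_padicValNat_dvd
  have hodd : Odd o := Nat.not_even_iff_odd.1 fun ⟨j, hj⟩ => pow_succ_padicValNat_not_dvd (p := 2) (Nat.succ_ne_zero q)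
    ⟨j, by rw [pow_succ, mul_assoc, two_mul, ← hj, ← ho]⟩
  refine ⟨w, by rw [ho, pow_mul, h1, hodd.neg_one_pow], ?_⟩
  rcases h with h | h
  · have he : e = 1 := le_antisymm (by
      by_contra hc
      have : 4 ∣ q + 1 := (pow_dvd_pow 2 (show 2 ≤ e by omega)).trans pow_padicValNat_dvd
      omega) he1
    rw [he, pow_one] at h1
    rw [h1, neg_neg, one_pow]
  · obtain ⟨k, hk⟩ : 2 ^ (e + 1) ∣ n := (pow_dvd_pow 2 h).trans pow_padicValNat_dvd
    have hn2 : n / 2 = 2 ^ e * k := by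
      rw [hk, pow_succ', mul_assoc, Nat.mul_div_cancel_left _ two_pos]
    rw [hn2, neg_pow, ← pow_mul w, show 2 * (2 ^ e * k) = 2 ^ (e + 1) * k by rw [pow_succ']; ring, pow_mul w,
      hw.pow_eq_one, one_pow, mul_one]
    exact ((Nat.even_pow.2 ⟨even_two, by omega⟩).mul_right k).neg_one_pow

theorem anti_scalar_not (hF : Fintype.card F = q ^ 2) (h2 : (2 : F) ≠ 0) {n : ℕ} (hev : Even n) (hn : n ≠ 0)
    (hq : q % 4 = 3) (hv : padicValNat 2 n ≤ padicValNat 2 (q + 1)) {w : F} (hw : w ^ (q + 1) = -1) :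
    (-(w ^ 2)) ^ (n / 2) ≠ 1 := by
  intro h
  set e := padicValNat 2 (q + 1)
  obtain ⟨o, ho⟩ : 2 ^ e ∣ q + 1 := pow_padicValNat_dvd
  have he1 : 1 ≤ e := one_le_padicValNat_of_dvd (Nat.succ_ne_zero q) (by omega)
  obtain ⟨k, hk, hkg⟩ := (Nat.dvd_prime_pow Nat.prime_two).1 (Nat.gcd_dvd_left (2 ^ e) (n / 2))
  have hke : k < e := lt_of_le_of_ne hk fun hc => by
    have h1 : 2 ^ e ∣ n / 2 := hc ▸ hkg ▸ Nat.gcd_dvd_right _ _
    have h3 : 2 ^ (e + 1) ∣ n := by rw [pow_succ']; exact Nat.mul_dvd_of_dvd_div hev.two_dvd h1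
    have h4 := (padicValNat_dvd_iff_le hn).1 h3
    omega
  set u := -(w ^ 2)
  have hu : u ^ (q + 1) = 1 := by
    rw [(show Even (q + 1) from ⟨(q + 1) / 2, by omega⟩).neg_pow, ← pow_mul, mul_comm, pow_mul, hw, neg_one_sq]
  have h1 : (u ^ o) ^ (2 ^ k) = 1 := by
    rw [← hkg]
    refine pow_gcd_eq_one.2 ⟨?_, ?_⟩
    · rw [← pow_mul, mul_comm, ← ho, hu]
    · rw [← pow_mul, mul_comm, pow_mul, h, one_pow]
  have h3 : u ^ ((q + 1) / 2) = 1 := by
    obtain ⟨d, hd⟩ : ∃ d, e = k + (d + 1) := ⟨e - k - 1, by omega⟩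
    rw [show (q + 1) / 2 = o * 2 ^ k * 2 ^ d by
      rw [ho, hd, pow_add, pow_succ, show 2 ^ k * (2 ^ d * 2) * o = o * 2 ^ k * 2 ^ d * 2 by ring,
        Nat.mul_div_cancel _ two_pos], pow_mul, pow_mul, h1, one_pow]
  rw [(show Even ((q + 1) / 2) from ⟨(q + 1) / 4, by omega⟩).neg_pow, ← pow_mul,
    show 2 * ((q + 1) / 2) = q + 1 by omega, hw] at h3
  exact h2 (by linear_combination -h3)

/-- The criterion for totally isotropic subspaces. -/
theorem iso_criterion (hF : Fintype.card F = q ^ 2) (h2 : (2 : F) ≠ 0) (hn : 0 < n) (hmn : 2 * m ≤ n) :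
    AllHave q 2 m (Iso q (F := F) (n := n)) ↔ (2 * m < n ∨ padicValNat 2 (q + 1) ≤ padicValNat 2 n) := by
  have hrF : ((2 : ℕ) : F) ≠ 0 := by exact_mod_cast h2
  constructor
  · intro hall
    by_contra hcon
    rw [not_or, not_lt, not_le] at hcon
    obtain ⟨w, hwq, hwn⟩ := two_adic_exists hF h2 hn.ne' hcon.2
    obtain ⟨g0, hg0, hiso0, hdet0⟩ := UnitExists.exists_blocks (n := n) hF (d := 1) (a := 1) (by omega)
      (fun _ => -1) fun _ u v => by simp [Matrix.neg_mulVec, (q_odd hF h2).neg_pow]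
    obtain ⟨hmov, hmd⟩ := UnitExists.moved_lift hg0 (A := Matrix.blockDiagonal fun _ : Fin 1 => (-1 : Matrix (Fin 1) (Fin 1) F))
      fun u hu => funext fun x => by
        obtain ⟨k, j⟩ := x
        have h := congrFun hu (k, j)
        rw [UnitExists.blockDiagonal_mulVec] at h
        rw [Matrix.neg_mulVec, Matrix.one_mulVec, Pi.neg_apply] at h
        exact (mul_eq_zero.1 (show (2 : F) * u (k, j) = 0 by linear_combination -h)).resolve_left h2
    set g := lift q g0 (Matrix.blockDiagonal fun _ : Fin 1 => (-1 : Matrix (Fin 1) (Fin 1) F))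
    have hg : g ^ 2 = 1 := by
      rw [← lift_pow hg0, ← Matrix.blockDiagonal_pow,
        show ((fun _ : Fin 1 => (-1 : Matrix (Fin 1) (Fin 1) F)) ^ 2) = 1 from funext fun j => by
          rw [Pi.pow_apply, neg_one_sq]; rfl,
        Matrix.blockDiagonal_one, lift_one]
    have hs : Setting q 2 (1 : F) g := ⟨hF, hiso0, by rw [hg, one_smul], hrF, one_ne_zero⟩
    have hw0 : w ≠ 0 := by rintro rfl; rw [zero_pow (Nat.succ_ne_zero q)] at hwq; exact zero_ne_one hwq
    have hh := hall (w • g) (w ^ 2) (fun u v => by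
      rw [LinearMap.smul_apply, LinearMap.smul_apply, herm_smul_left, herm_smul_right, hiso0, ← mul_assoc, ← pow_succ',
        hwq, one_mul]) (by
      rw [LinearMap.det_smul, hdet0, finrank_fin_fun, hwn]; simp [Matrix.det_neg]) (by
      rw [_root_.smul_pow, hg])
    rw [Has.smul_iff hw0] at hh
    obtain ⟨Y, hY, hYiso, -, -, hle⟩ := parts_of_has hs hh
    have h3 := two_mul_le hF hs.nondeg_moved hY hYiso
    have hadd := hs.finrank_fixed_add
    simp only [Fintype.card_prod, Fintype.card_fin] at hmd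
    omega
  · intro hcon f z hiso hdet hpow
    obtain ⟨w, hwz, hw0, hcase | hcase⟩ := exists_sqrt hF h2 (scalar_norm hF hn hiso hpow)
    · have hs := setting_twist hF hrF hiso hpow (scalar_ne hF hn hiso hpow) hcase hwz
      rw [← Has.smul_iff (inv_ne_zero hw0) f]
      have hdet' : LinearMap.det (w⁻¹ • f) = w⁻¹ ^ n := by
        rw [LinearMap.det_smul, hdet, mul_one, finrank_fin_fun]
      generalize w⁻¹ • f = g at hs hdet' ⊢
      have hg : g ^ 2 = 1 := by rw [hs.pow, one_smul]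
      set a := finrank F (moved g)
      have hadd := hs.finrank_fixed_add
      have hside : 2 * m < n ∨ Even a := by
        rcases hcon with h | h
        · exact Or.inl h
        · by_contra hc
          rw [not_or, Nat.not_even_iff_odd] at hc
          refine two_adic_not h2 h (show w⁻¹ ^ (q + 1) = 1 by rw [inv_pow, hcase, inv_one]) ?_
          rw [← hdet', det_of_sq h2 hg, ker_add_one_eq_moved h2 hg, hc.2.neg_one_pow]
      have h2a : 2 * (min m (a / 2)) ≤ a := by omega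
      obtain ⟨Y, hY, hYiso, hYd⟩ := exists_iso_sub hF hs.nondeg_moved h2a
      refine has_of_moved hs hY hYiso (map_le_of_forall_mem fun x hx => ?_) (by omega) (by
        rw [hYd]
        rcases hside with h | ⟨j, hj⟩ <;> omega)
      have hx' : x ∈ LinearMap.ker (g + 1) := by rw [ker_add_one_eq_moved h2 hg]; exact hY hx
      rw [eq_neg_of_add_eq_zero_left (LinearMap.mem_ker.1 hx'), Module.End.one_apply]
      exact Y.neg_mem hx
    · exact iso_of_anti hF h2 hmn hcase hiso (hwz ▸ hpow)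

/-- The criterion for non-degenerate subspaces. -/
theorem nondeg_criterion (hF : Fintype.card F = q ^ 2) (h2 : (2 : F) ≠ 0) (hn : 0 < n) (hmn : m ≤ n) :
    AllHave q 2 m (IsNondeg q (F := F) (n := n)) ↔
      (Odd n ∨ Even m ∨ (padicValNat 2 n ≤ padicValNat 2 (q + 1) ∧ q % 4 = 3)) := by
  have hrF : ((2 : ℕ) : F) ≠ 0 := by exact_mod_cast h2
  constructor
  · intro hall
    by_contra hcon
    simp only [not_or, Nat.not_odd_iff_even] at hcon
    obtain ⟨hev, hm, hv⟩ := hcon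
    obtain ⟨kq, hkq⟩ := q_odd hF h2
    obtain ⟨w, hw, hwn⟩ := anti_scalar_exists hF h2 hev hn.ne' (by
      by_cases hq : q % 4 = 3
      · exact Or.inr (by by_contra hc; exact hv ⟨by omega, hq⟩)
      · exact Or.inl (by omega))
    have hw2 : (w ^ 2) ^ (q + 1) = 1 := by rw [← pow_mul, mul_comm, pow_mul, hw, neg_one_sq]
    obtain ⟨f, hiso, hpow⟩ := exists_cycle_elem (r := 2) (n := n) hF hw2 hev.two_dvd
    obtain ⟨hg, -, -, -, hMd, -, -⟩ := anti_spec hF h2 hw hiso hpow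
    have hw0 : w ≠ 0 := by rintro rfl; rw [zero_pow (Nat.succ_ne_zero q)] at hw; exact one_ne_zero (neg_eq_zero.1 hw.symm)
    have hdet : LinearMap.det f = 1 := by
      have h1 : f = w • (w⁻¹ • f) := by rw [smul_smul, mul_inv_cancel₀ hw0, one_smul]
      rw [h1, LinearMap.det_smul, det_of_sq h2 hg, finrank_fin_fun,
        show finrank F (LinearMap.ker (w⁻¹ • f + 1)) = n / 2 by omega,
        show w ^ n = (w ^ 2) ^ (n / 2) by rw [← pow_mul, Nat.mul_div_cancel' hev.two_dvd], ← mul_pow, mul_neg_one, hwn]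
    exact hm ((nondeg_of_anti hF h2 hmn hw hiso hpow).1 (hall f _ hiso hdet hpow))
  · intro hcon f z hiso hdet hpow
    obtain ⟨w, hwz, hw0, hcase | hcase⟩ := exists_sqrt hF h2 (scalar_norm hF hn hiso hpow)
    · have hs := setting_twist hF hrF hiso hpow (scalar_ne hF hn hiso hpow) hcase hwz
      rw [← Has.smul_iff (inv_ne_zero hw0) f]
      generalize w⁻¹ • f = g at hs ⊢
      have hg : g ^ 2 = 1 := by rw [hs.pow, one_smul]
      have hadd := hs.finrank_fixed_add
      obtain ⟨Y, hY, hYnd, hYd⟩ := exists_nondeg_sub hF hs.nondeg_moved (min_le_right m (finrank F (moved g)))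
      obtain ⟨Z, hZ, hZnd, hZd⟩ := exists_nondeg_sub hF hs.nondeg_fixed (j := m - min m (finrank F (moved g)))
        (by omega)
      obtain ⟨hnd, hdj⟩ := nondeg_sup hF hZnd hYnd ((hY.trans hs.moved_le_perp).trans fun v hv u hu => hv u (hZ hu))
      refine ⟨Z ⊔ Y, ?_, hnd, sup_map_le (map_le_of_le_fixed hZ) (map_le_of_forall_mem fun x hx => ?_)⟩
      · rw [finrank_add_of_disjoint hdj, hYd, hZd]; omega
      · have hx' : x ∈ LinearMap.ker (g + 1) := by rw [ker_add_one_eq_moved h2 hg]; exact hY hx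
        rw [eq_neg_of_add_eq_zero_left (LinearMap.mem_ker.1 hx'), Module.End.one_apply]
        exact Y.neg_mem hx
    · refine (nondeg_of_anti hF h2 hmn hcase hiso (hwz ▸ hpow)).2 ?_
      obtain ⟨hg, -, -, -, hMd, -, -⟩ := anti_spec hF h2 hcase hiso (hwz ▸ hpow)
      have hev : Even n := ⟨finrank F (LinearMap.ker (w⁻¹ • f + 1)), by omega⟩
      rcases hcon with h | h | ⟨h, hq⟩
      · exact absurd hev (Nat.not_even_iff_odd.2 h)
      · exact h
      · exfalso
        refine anti_scalar_not hF h2 hev hn.ne' hq h hcase ?_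
        have h1 : f = w • (w⁻¹ • f) := by rw [smul_smul, mul_inv_cancel₀ hw0, one_smul]
        rw [h1, LinearMap.det_smul, det_of_sq h2 hg, finrank_fin_fun,
          show finrank F (LinearMap.ker (w⁻¹ • f + 1)) = n / 2 by omega,
          show w ^ n = (w ^ 2) ^ (n / 2) by rw [← pow_mul, Nat.mul_div_cancel' hev.two_dvd], ← mul_pow,
          mul_neg_one] at hdet
        exact hdet

end CfsgLib.Classical.Semisimple.UnitTwo
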