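import Cfsg.Agent.Classical.Semisimple.UnitBridge
import Cfsg.Agent.Classical.Semisimple.Unipotent
import Cfsg.Agent.Classical.Unitary.RegularUnipotent
import Cfsg.Agent.Classical.Unitary.Blocks
import Cfsg.Agent.Jordan.Nilpotent

/-!
Fixed non-degenerate subspaces of unipotent isometries of a hermitian space.
-/

set_option autoImplicit false

namespace CfsgLib.Classical.Semisimple.UnitUnipotent

open Cfsg Module Polynomial CfsgLib.Unitary UnitBasic UnitBridge
open scoped Matrix

variable {F : Type*} [Field F] [Fintype F] {n q p m : ℕ}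

omit [Fintype F] in
/-- The type of a block diagonal matrix. -/
theorem hasType_blockMat {k l : ℕ} (h : k + l = n) {A : Matrix (Fin k) (Fin k) F} {B : Matrix (Fin l) (Fin l) F}
    {μ ν : Multiset ℕ} (hA : HasType (Matrix.toLin' A - 1) μ) (hB : HasType (Matrix.toLin' B - 1) ν) :
    HasType (Matrix.toLin' (blockMat h (A, B)) - 1) (μ + ν) := by
  let e : ((Fin k → F) × (Fin l → F)) ≃ₗ[F] (Fin n → F) :=
    (LinearEquiv.sumArrowLequivProdArrow (Fin k) (Fin l) F F).symm.trans
      (LinearEquiv.funCongrLeft F F (blockIdx h).symm)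
  have hP : HasType (LinearMap.prodMap (Matrix.toLin' A - 1) (Matrix.toLin' B - 1)) (μ + ν) := by
    refine ⟨fun a ha => (Multiset.mem_add.1 ha).elim (hA.1 a) (hB.1 a), fun i => ?_⟩
    have hpow : (LinearMap.prodMap (Matrix.toLin' A - 1) (Matrix.toLin' B - 1)) ^ i =
        LinearMap.prodMap ((Matrix.toLin' A - 1) ^ i) ((Matrix.toLin' B - 1) ^ i) := by
      induction i with
      | zero => rfl
      | succ i ih => rw [pow_succ, ih, pow_succ, pow_succ]; rfl
    rw [hpow, LinearMap.range_prodMap, finrank_submodule_prod, hA.2 i, hB.2 i, Multiset.map_add, Multiset.sum_add]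
  have heq : e.conjAlgEquiv F (LinearMap.prodMap (Matrix.toLin' A - 1) (Matrix.toLin' B - 1)) =
      Matrix.toLin' (blockMat h (A, B)) - 1 := by
    refine LinearMap.ext fun v => funext fun i => ?_
    obtain ⟨s, rfl⟩ := (blockIdx h).surjective i
    have hv : Matrix.toLin' (blockMat h (A, B)) v (blockIdx h s) =
        Sum.elim (A *ᵥ fun j => v (blockIdx h (Sum.inl j))) (B *ᵥ fun j => v (blockIdx h (Sum.inr j))) s := by
      rw [Matrix.toLin'_apply]
      show ((Matrix.reindexAlgEquiv F F (blockIdx h) (Matrix.fromBlocks A 0 0 B)) *ᵥ v) (blockIdx h s) = _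
      rw [Matrix.reindexAlgEquiv_apply, Matrix.reindex_apply, Matrix.submatrix_mulVec_equiv, Function.comp_apply,
        Equiv.symm_apply_apply, Equiv.symm_symm, Matrix.fromBlocks_mulVec]
      rcases s with s | s <;> simp [Function.comp_def]
    rw [LinearMap.sub_apply, Pi.sub_apply, hv, Module.End.one_apply]
    rcases s with s | s <;>
      simp [e, LinearMap.funLeft, Function.comp_def, LinearEquiv.sumArrowLequivProdArrow, Equiv.sumArrowEquivProdArrow]
  exact heq ▸ hP.conj e

/-- An isometry of any given unipotent type. -/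
theorem exists_type_elem (hF : Fintype.card F = q ^ 2) (μ : Multiset ℕ) (hμ : ∀ a ∈ μ, 0 < a) :
    ∀ {N : ℕ}, N = μ.sum → ∃ A : Matrix (Fin N) (Fin N) F, Pres q A ∧ A.det = 1 ∧
      HasType (Matrix.toLin' A - 1) μ := by
  induction μ using Multiset.induction_on with
  | empty =>
    intro N hN
    simp only [Multiset.sum_zero] at hN
    subst hN
    exact ⟨1, fun u v => by simp, Matrix.det_one, by simp, fun i => by
      simp only [Multiset.map_zero, Multiset.sum_zero]
      exact Nat.le_zero.1 ((Submodule.finrank_le _).trans (finrank_fin_fun F).le)⟩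
  | cons k μ ih =>
    intro N hN
    rw [Multiset.sum_cons] at hN
    obtain ⟨A, hA, hAd, hAt⟩ := ih (fun a ha => hμ a (Multiset.mem_cons_of_mem ha)) (N := μ.sum) rfl
    obtain ⟨j, rfl⟩ : ∃ j, k = j + 1 :=
      ⟨k - 1, (Nat.sub_add_cancel (hμ k (Multiset.mem_cons_self _ _))).symm⟩
    obtain ⟨u, hu, hun, hur, hud⟩ := exists_regular_unipotent_GU (k := j) hF
    set U : Matrix (Fin (j + 1)) (Fin (j + 1)) F := (u : Matrix (Fin (j + 1)) (Fin (j + 1)) F)
    have hUt : HasType (Matrix.toLin' U - 1) {j + 1} := by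
      have hsub : Matrix.toLin' U - 1 = Matrix.toLin' (U - 1) := by
        rw [map_sub, Matrix.toLin'_one]; rfl
      rw [hsub]
      refine (hasType_single (Nat.succ_pos j) (finrank_fin_fun F).le ?_ ?_).2
      · rw [toLin'_pow, hun, map_zero]
      · rw [toLin'_pow, show j.succ - 1 = j from rfl]
        exact fun h => pow_ne_zero_of_rank hun hur (Matrix.toLin'.injective (h.trans (map_zero _).symm))
    have hUp : Pres q U := fun a b => mem_GU.1 hu a b
    refine ⟨blockMat hN.symm (U, A), ?_, ?_, ?_⟩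
    · intro a b
      have hcj : ∀ {d : ℕ} {M : Matrix (Fin d) (Fin d) F}, Pres q M → IsUnit M → cjT q M * M = 1 :=
        fun {d M} hM hMu => by
          obtain ⟨g, rfl⟩ := hMu
          exact (mem_GU_iff_cjT hF).1 (mem_GU.2 hM)
      have hUu : IsUnit U := u.isUnit
      have hAu : IsUnit A := (Matrix.isUnit_iff_isUnit_det A).2 (hAd ▸ isUnit_one)
      have hB1 : cjT q (blockMat hN.symm (U, A)) * blockMat hN.symm (U, A) = 1 := by
        rw [cjT_blockMat hF, ← map_mul]
        refine (congrArg (blockMat hN.symm) (Prod.ext ?_ ?_)).trans (map_one _)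
        · exact hcj hUp hUu
        · exact hcj hA hAu
      obtain ⟨g, hg⟩ : IsUnit (blockMat hN.symm (U, A)) :=
        ⟨⟨_, _, mul_eq_one_comm.1 hB1, hB1⟩, rfl⟩
      rw [← hg] at hB1 ⊢
      exact mem_GU.1 ((mem_GU_iff_cjT hF).2 hB1) a b
    · show (Matrix.reindexAlgEquiv F F (blockIdx hN.symm) (Matrix.fromBlocks U 0 0 A)).det = 1
      rw [Matrix.reindexAlgEquiv_apply, Matrix.det_reindex_self, Matrix.det_fromBlocks_zero₂₁, hud, hAd, mul_one]
    · rw [← Multiset.singleton_add]
      exact hasType_blockMat _ hUt hAt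

/-- Every subdimension of a type gives an invariant non-degenerate subspace. -/
theorem has_of_sub (hF : Fintype.card F = q ^ 2) {g : Module.End F (Fin n → F)}
    (hiso : ∀ u v, hermForm n F q (g u) (g v) = hermForm n F q u v) (hnil : IsNilpotent (g - 1))
    {μ ν : Multiset ℕ} (hμ : HasType (g - 1) μ) (hν : ν ≤ μ) (hsum : ν.sum = m) : Has m (IsNondeg q) g := by
  classical
  obtain ⟨ρ, rfl⟩ := Multiset.le_iff_exists_add.1 hν
  have hn' : m + ρ.sum = n := by rw [← hsum, ← Multiset.sum_add, hμ.sum_eq, finrank_fin_fun]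
  obtain ⟨A, hA, hAd, hAt⟩ := exists_type_elem hF ν (fun a ha => hμ.1 a (Multiset.mem_add.2 (Or.inl ha))) hsum.symm
  obtain ⟨B, hB, hBd, hBt⟩ := exists_type_elem hF ρ (fun a ha => hμ.1 a (Multiset.mem_add.2 (Or.inr ha))) (N := ρ.sum) rfl
  set M := blockMat hn' (A, B) with hM
  have hMt : HasType (Matrix.toLin' M - 1) (ν + ρ) := hasType_blockMat hn' hAt hBt
  have hgu : ∀ {d : ℕ} {X : Matrix (Fin d) (Fin d) F}, Pres q X → X.det = 1 → ∃ a ∈ GU d F q, (a : Matrix (Fin d) (Fin d) F) = X :=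
    fun {d X} hX hd => by
      obtain ⟨a, ha⟩ := (Matrix.isUnit_iff_isUnit_det X).2 (hd ▸ isUnit_one)
      exact ⟨a, mem_GU.2 (fun u v => by rw [ha]; exact hX u v), ha⟩
  obtain ⟨a, ha, rfl⟩ := hgu hA hAd
  obtain ⟨b, hb, rfl⟩ := hgu hB hBd
  have hMp : Pres q M := fun u v => mem_GU.1 (blockGU hF hn' (⟨a, ha⟩, ⟨b, hb⟩)).2 u v
  have hnilM : IsNilpotent (Matrix.toLin' M - 1) := by
    obtain ⟨k, hk⟩ := hnil
    refine ⟨k, LinearMap.range_eq_bot.1 (Submodule.finrank_eq_zero.1 ?_)⟩
    rw [hMt.2 k, ← hμ.2 k, hk, LinearMap.range_zero, finrank_bot]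
  obtain ⟨e, he⟩ := CfsgLib.Jordan.exists_similar hnil hnilM fun j => by rw [hμ.2, hMt.2]
  set G := LinearMap.toMatrix' g with hG
  have hGp : Pres q G := fun u v => by
    rw [hG, ← Matrix.toLin'_apply, ← Matrix.toLin'_apply, Matrix.toLin'_toMatrix']
    exact hiso u v
  have hcomm : LinearMap.toMatrix' (e : (Fin n → F) →ₗ[F] (Fin n → F)) * G =
      M * LinearMap.toMatrix' (e : (Fin n → F) →ₗ[F] (Fin n → F)) := by
    refine Matrix.toLin'.injective (LinearMap.ext fun x => ?_)
    rw [Matrix.toLin'_mul, Matrix.toLin'_mul, Matrix.toLin'_toMatrix', hG, Matrix.toLin'_toMatrix']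
    have h1 := he x
    simp only [LinearMap.sub_apply, Module.End.one_apply, map_sub, sub_left_inj] at h1
    exact h1
  have hu : IsUnit (LinearMap.toMatrix' (e : (Fin n → F) →ₗ[F] (Fin n → F))) :=
    ⟨⟨_, LinearMap.toMatrix' (e.symm : (Fin n → F) →ₗ[F] (Fin n → F)),
      by rw [← LinearMap.toMatrix'_comp]; simp, by rw [← LinearMap.toMatrix'_comp]; simp⟩, rfl⟩
  obtain ⟨H, hH, hHc⟩ := exists_unitary_conj hF hGp hMp hu hcomm
  let g0 : Fin m → (Fin n → F) := fun i => Pi.single (blockIdx hn' (Sum.inl i)) 1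
  have hg0 : Ortho q g0 := fun i j => by
    rw [herm_single_single hF]
    simp only [(blockIdx hn').injective.eq_iff, Sum.inl.injEq]
  have hW0i : (LinearMap.range (emb g0)).map (Matrix.toLin' M) ≤ LinearMap.range (emb g0) := by
    rw [range_emb, Submodule.map_span, Submodule.span_le]
    rintro _ ⟨_, ⟨i, rfl⟩, rfl⟩
    rw [← range_emb]
    refine ⟨fun j => (a : Matrix (Fin m) (Fin m) F) j i, funext fun x => ?_⟩
    obtain ⟨s, rfl⟩ := (blockIdx hn').surjective x
    rw [emb_apply, Finset.sum_apply, Matrix.toLin'_apply]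
    rcases s with s | s <;>
      simp [g0, hM, blockMat, Pi.single_apply, (blockIdx hn').injective.eq_iff, Matrix.mulVec_single_one]
  have hHi : Function.Injective (Matrix.toLin' H) := by
    refine (injective_iff_map_eq_zero _).2 fun x hx => isNondeg_top (n := n) hF x trivial fun y _ => ?_
    show ∑ k, x k * y k ^ q = 0
    rw [← hH x y]
    exact Finset.sum_eq_zero fun k _ => by rw [show (H *ᵥ x) k = 0 from congrFun hx k, zero_mul]
  refine ⟨(LinearMap.range (emb g0)).comap (Matrix.toLin' H), ?_, ?_, map_le_of_forall_mem fun x hx => ?_⟩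
  · rw [← (Submodule.equivMapOfInjective _ hHi _).finrank_eq.symm,
      Submodule.map_comap_eq_self (by rw [LinearMap.range_eq_top.2 (LinearMap.injective_iff_surjective.1 hHi)]; exact le_top),
      finrank_range_emb hg0, Fintype.card_fin]
  · intro x hx h
    refine hHi ((nondeg_range_emb hF hg0 _ hx fun y hy => ?_).trans (map_zero _).symm)
    obtain ⟨y', rfl⟩ := LinearMap.injective_iff_surjective.1 hHi y
    show ∑ k, (H *ᵥ x) k * (H *ᵥ y') k ^ q = 0
    rw [hH]
    exact h y' hy
  · show Matrix.toLin' H (g x) ∈ LinearMap.range (emb g0)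
    have hgx : Matrix.toLin' H (g x) = Matrix.toLin' M (Matrix.toLin' H x) := by
      rw [← LinearMap.comp_apply, ← LinearMap.comp_apply, ← Matrix.toLin'_mul, ← hHc, Matrix.toLin'_mul, hG,
        Matrix.toLin'_toMatrix']
    rw [hgx]
    exact mem_of_map_le hW0i hx

/-- A fixed non-degenerate subspace takes a part of the type. -/
theorem sub_of_has (hF : Fintype.card F = q ^ 2) {g : Module.End F (Fin n → F)}
    (hiso : ∀ u v, hermForm n F q (g u) (g v) = hermForm n F q u v) (hnil : IsNilpotent (g - 1))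
    {μ : Multiset ℕ} (hμ : HasType (g - 1) μ) (h : Has m (IsNondeg q) g) : ∃ ν ≤ μ, ν.sum = m := by
  obtain ⟨W, hWd, hW, hWi⟩ := h
  have hinj : Function.Injective g := (injective_iff_map_eq_zero _).2 fun x hx =>
    isNondeg_top (n := n) hF x trivial fun y _ => by rw [← hiso, hx, herm_zero_left]
  have heq : W.map g = W := Submodule.eq_of_le_of_finrank_eq hWi
    (Submodule.equivMapOfInjective g hinj W).finrank_eq.symm
  have hPi : (perp q W).map g ≤ perp q W := map_le_of_forall_mem fun x hx w hw => by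
    obtain ⟨w', hw', rfl⟩ := (heq.symm ▸ hw : w ∈ W.map g)
    rw [hiso]
    exact hx w' hw'
  have hsub : ∀ {U : Submodule F (Fin n → F)}, U.map g ≤ U → U.map (g - 1) ≤ U := fun {U} hU =>
    map_le_of_forall_mem fun x hx => by
      rw [LinearMap.sub_apply, Module.End.one_apply]
      exact U.sub_mem (mem_of_map_le hU hx) hx
  obtain ⟨ν, hν, hνs⟩ := hμ.exists_le_of_isCompl hnil (isCompl_perp hF hW) (hsub hWi) (hsub hPi)
  exact ⟨ν, hν, hνs.trans hWd⟩

/-- The criterion in the defining characteristic. -/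
theorem criterion [hp : Fact p.Prime] [CharP F p] (hF : Fintype.card F = q ^ 2) (hn : 0 < n) :
    AllHave q p m (IsNondeg q (F := F) (n := n)) ↔
      ∀ μ : Multiset ℕ, (∀ a ∈ μ, 0 < a ∧ a ≤ p) → μ.sum = n → ∃ ν : Multiset ℕ, ν ≤ μ ∧ ν.sum = m := by
  have hsub : ∀ g : Module.End F (Fin n → F), (g - 1) ^ p = g ^ p - 1 := fun g => by
    have h := congrArg (aeval g) (sub_pow_char (X : F[X]) 1 (p := p))
    simpa using h
  constructor
  · intro hall μ hμ hsum
    obtain ⟨A, hA, hAd, hAt⟩ := exists_type_elem hF μ (fun a ha => (hμ a ha).1) hsum.symm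
    have hN : (Matrix.toLin' A - 1) ^ p = 0 := LinearMap.range_eq_bot.1 (Submodule.finrank_eq_zero.1 (by
      rw [hAt.2 p]
      refine Multiset.sum_eq_zero_iff.2 fun x hx => ?_
      obtain ⟨a, ha, rfl⟩ := Multiset.mem_map.1 hx
      have := (hμ a ha).2
      omega))
    have hiso : ∀ u v, hermForm n F q (Matrix.toLin' A u) (Matrix.toLin' A v) = hermForm n F q u v := fun u v => by
      rw [Matrix.toLin'_apply, Matrix.toLin'_apply]; exact hA u v
    have hpow : Matrix.toLin' A ^ p = (1 : F) • 1 := by rw [one_smul, ← sub_eq_zero, ← hsub, hN]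
    exact sub_of_has hF hiso ⟨p, hN⟩ hAt (hall _ 1 hiso (by rw [LinearMap.det_toLin', hAd]) hpow)
  · intro hall f z hiso _ hpow
    obtain ⟨w, hw⟩ : ∃ w : F, w ^ p = z := ⟨(frobeniusEquiv F p).symm z, frobeniusEquiv_symm_pow_p F p z⟩
    have hz := scalar_norm hF hn hiso hpow
    have hwq : w ^ (q + 1) = 1 := by
      refine frobenius_inj F p ?_
      rw [frobenius_def, frobenius_def, one_pow, ← pow_mul, mul_comm, pow_mul, hw, hz]
    have hw0 : w ≠ 0 := by rintro rfl; rw [zero_pow (Nat.succ_ne_zero q)] at hwq; exact zero_ne_one hwq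
    rw [← Has.smul_iff (inv_ne_zero hw0) f]
    have hiso' := smul_iso hwq hiso
    have hN : (w⁻¹ • f - 1) ^ p = 0 := by
      rw [hsub, smul_pow_eq_one (r := p) hw (scalar_ne hF hn hiso hpow) hpow, sub_self]
    generalize w⁻¹ • f = g at hiso' hN ⊢
    obtain ⟨μ, hμ, -⟩ := exists_hasType (N := g - 1) ⟨p, hN⟩
    obtain ⟨ν, hν, hνs⟩ := hall μ (fun a ha => ⟨hμ.1 a ha, parts_le_of_pow_eq_zero hμ hN a ha⟩)
      (by rw [hμ.sum_eq, finrank_fin_fun])
    exact has_of_sub hF hiso' ⟨p, hN⟩ hμ hν hνs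

/-- Partitions into parts one and two. -/
theorem two_iff {n m : ℕ} (hmn : m ≤ n) :
    (∀ μ : Multiset ℕ, (∀ a ∈ μ, 0 < a ∧ a ≤ 2) → μ.sum = n → ∃ ν : Multiset ℕ, ν ≤ μ ∧ ν.sum = m) ↔
      (Odd n ∨ Even m) := by
  classical
  constructor
  · intro h
    by_contra hc
    rw [not_or, Nat.not_odd_iff_even] at hc
    obtain ⟨⟨k, hk⟩, hm⟩ := hc
    obtain ⟨ν, hν, hνs⟩ := h (Multiset.replicate k 2) (fun a ha => by rw [Multiset.eq_of_mem_replicate ha]; omega)
      (by rw [Multiset.sum_replicate, smul_eq_mul]; omega)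
    obtain ⟨j, -, rfl⟩ := Multiset.le_replicate_iff.1 hν
    rw [Multiset.sum_replicate, smul_eq_mul] at hνs
    exact hm ⟨j, by omega⟩
  · intro h μ hμ hsum
    have hsplit : μ = Multiset.replicate (μ.count 1) 1 + Multiset.replicate (μ.count 2) 2 := by
      ext a
      simp only [Multiset.count_add, Multiset.count_replicate]
      by_cases ha : a ∈ μ
      · have h1 := hμ a ha
        obtain rfl | rfl : a = 1 ∨ a = 2 := by omega
        · simp
        · simp
      · rw [Multiset.count_eq_zero.2 ha]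
        split_ifs with h1 h2 <;> subst_vars <;> simp [Multiset.count_eq_zero.2 ha] at *
    rw [hsplit, Multiset.sum_add, Multiset.sum_replicate, Multiset.sum_replicate, smul_eq_mul, smul_eq_mul] at hsum
    obtain ⟨t, ht, htm⟩ : ∃ t, t ≤ μ.count 2 ∧ 2 * t ≤ m ∧ m - 2 * t ≤ μ.count 1 := by
      refine ⟨min (μ.count 2) (m / 2), min_le_left _ _, by omega, ?_⟩
      rcases h with ⟨j, hj⟩ | ⟨j, hj⟩ <;> omega
    refine ⟨Multiset.replicate (m - 2 * t) 1 + Multiset.replicate t 2, ?_, ?_⟩
    · rw [hsplit]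
      exact add_le_add ((Multiset.replicate_le_replicate 1).2 htm.2) ((Multiset.replicate_le_replicate 2).2 ht)
    · rw [Multiset.sum_add, Multiset.sum_replicate, Multiset.sum_replicate, smul_eq_mul, smul_eq_mul]
      omega

end CfsgLib.Classical.Semisimple.UnitUnipotent
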